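import Cfsg.Agent.Lib.Helper98.O72Defs
import Cfsg.Agent.Lib.Helper96.SpFix

/-!
Project O72 (S5972): symmetric-form twins of lemmas of `SpFix.lean`.
-/

set_option autoImplicit false
set_option linter.unusedSectionVars false
set_option linter.unusedVariables false

namespace Cfsg.Agent.Lib.Helper98.O72

open Module Polynomial Cfsg.Agent.Lib.Helper96.Sp Cfsg.Agent.Lib.Helper96.BG

variable {F : Type*} [Field F] [Fintype F] {V : Type*} [AddCommGroup V] [Module F V]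
  [FiniteDimensional F V] {B : LinearMap.BilinForm F V}

theorem nd_ker (hS : B.IsSymm) (hchar2 : (2 : F) ≠ 0) (hN : ND B ⊤) (T : Module.End F V) (hT : Isom B T) (r : ℕ)
    [Fact r.Prime] (hrq : ¬ r ∣ Fintype.card F) (hr0 : (r : F) ≠ 0) (hTr : T ^ r = 1) :
    ND B (LinearMap.ker (T - 1)) :=
  nd_of_orth_sup hN (orth_ker_range hT) (ker_sup_range T r hrq hr0 hTr)

theorem nd_range (hS : B.IsSymm) (hchar2 : (2 : F) ≠ 0) (hN : ND B ⊤) (T : Module.End F V) (hT : Isom B T) (r : ℕ)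
    [Fact r.Prime] (hrq : ¬ r ∣ Fintype.card F) (hr0 : (r : F) ≠ 0) (hTr : T ^ r = 1) :
    ND B (LinearMap.range (T - 1)) :=
  nd_of_orth_sup hN (orth_symm hS hchar2 (orth_ker_range hT))
    (by rw [sup_comm]; exact ker_sup_range T r hrq hr0 hTr)

theorem fix_setup (hS : B.IsSymm) (hchar2 : (2 : F) ≠ 0) (hN : ND B ⊤) (T : Module.End F V) (hT : Isom B T) (r : ℕ)
    [Fact r.Prime] (hrq : ¬ r ∣ Fintype.card F) (hr0 : (r : F) ≠ 0) (hTr : T ^ r = 1)
    (W : Submodule F V) (hW : W.map T ≤ W) (hWnd : ND B W) :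
    ND B (W ⊓ LinearMap.ker (T - 1)) ∧ ND B (W ⊓ LinearMap.range (T - 1)) ∧
    (W ⊓ LinearMap.range (T - 1)).map T ≤ W ⊓ LinearMap.range (T - 1) ∧
    finrank F ↥(W ⊓ LinearMap.ker (T - 1)) + finrank F ↥(W ⊓ LinearMap.range (T - 1)) =
      finrank F W := by
  obtain ⟨-, -, -, hdisj, hRinv, -, -, hdim, -⟩ := pow_one_setup T r hrq hr0 hTr
  have hsplit := inv_split T r hr0 hTr W hW
  have horth : Orth B (W ⊓ LinearMap.ker (T - 1)) (W ⊓ LinearMap.range (T - 1)) :=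
    orth_mono (orth_ker_range hT) inf_le_right inf_le_right
  refine ⟨nd_of_orth_sup hWnd horth hsplit,
    nd_of_orth_sup hWnd (orth_symm hS hchar2 horth) (by rw [sup_comm]; exact hsplit), ?_, ?_⟩
  · rintro _ ⟨x, hx, rfl⟩
    exact ⟨hW ⟨x, hx.1, rfl⟩, hRinv ⟨x, hx.2, rfl⟩⟩
  · have h1 := hdim _ _ (inf_le_right : W ⊓ LinearMap.ker (T - 1) ≤ _)
      (inf_le_right : W ⊓ LinearMap.range (T - 1) ≤ _)
    rw [hsplit] at h1
    exact h1.symm

theorem perp_top (hS : B.IsSymm) (hchar2 : (2 : F) ≠ 0) (hN : ND B ⊤) : B.orthogonal ⊤ = ⊥ := by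
  rw [eq_bot_iff]
  intro v hv
  rw [Submodule.mem_bot]
  exact hN v Submodule.mem_top (fun w hw => (mem_perp_iff' hS hchar2).mp hv w hw)

theorem finrank_inf_perp (hS : B.IsSymm) (hchar2 : (2 : F) ≠ 0) (hN : ND B ⊤) {U W : Submodule F V} (hUW : U ≤ W)
    (hW : ND B W) : finrank F ↥(W ⊓ B.orthogonal U) + finrank F U = finrank F W := by
  have h1 := LinearMap.BilinForm.finrank_add_finrank_orthogonal hS.isRefl U
  have h2 := LinearMap.BilinForm.finrank_add_finrank_orthogonal hS.isRefl W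
  rw [perp_top hS hchar2 hN, inf_bot_eq, finrank_bot, add_zero] at h1 h2
  have hle : B.orthogonal W ≤ B.orthogonal U := LinearMap.BilinForm.orthogonal_le hUW
  have h3 : (B.orthogonal W ⊔ W) ⊓ B.orthogonal U = B.orthogonal W ⊔ (W ⊓ B.orthogonal U) :=
    sup_inf_assoc_of_le W hle
  rw [sup_comm, (nd_isCompl hS hchar2 hW).sup_eq_top, top_inf_eq] at h3
  have h4 := Submodule.finrank_sup_add_finrank_inf_eq (B.orthogonal W) (W ⊓ B.orthogonal U)
  have h5 : B.orthogonal W ⊓ (W ⊓ B.orthogonal U) = ⊥ := by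
    rw [eq_bot_iff, ← nd_inf_perp hS hchar2 hW]
    exact le_inf (le_trans inf_le_right inf_le_left) inf_le_left
  rw [← h3, h5, finrank_bot] at h4
  omega

theorem exists_partner (hS : B.IsSymm) (hchar2 : (2 : F) ≠ 0) (hN : ND B ⊤) (T : Module.End F V) (hT : Isom B T) (r : ℕ)
    [Fact r.Prime] (hrq : ¬ r ∣ Fintype.card F) (hr0 : (r : F) ≠ 0) (hTr : T ^ r = 1)
    (W : Submodule F V) (hW : W.map T ≤ W) (hWnd : ND B W)
    (U : Submodule F V) (hUW : U ≤ W) (hU : U.map T ≤ U) :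
    ∃ U' : Submodule F V, U' ≤ W ∧ U'.map T ≤ U' ∧ finrank F U' = finrank F U ∧
      U' ⊓ B.orthogonal U = ⊥ := by
  obtain ⟨-, -, hss, -, -, -, -, -, -⟩ := pow_one_setup T r hrq hr0 hTr
  have hZinv : (W ⊓ B.orthogonal U).map T ≤ W ⊓ B.orthogonal U := by
    rintro _ ⟨x, hx, rfl⟩
    exact ⟨hW ⟨x, hx.1, rfl⟩, perp_invariant hN hT hU ⟨x, hx.2, rfl⟩⟩
  obtain ⟨C, hC, hCinv⟩ := exists_invariant_compl T hss (W ⊓ B.orthogonal U) hZinv
  have hfin := finrank_inf_perp hS hchar2 hN hUW hWnd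
  have h1 : (W ⊓ B.orthogonal U ⊔ C) ⊓ W = W ⊓ B.orthogonal U ⊔ C ⊓ W :=
    sup_inf_assoc_of_le C inf_le_left
  rw [hC.sup_eq_top, top_inf_eq] at h1
  have h2 : (W ⊓ B.orthogonal U) ⊓ (C ⊓ W) = ⊥ := by
    rw [eq_bot_iff, ← hC.inf_eq_bot]
    exact inf_le_inf_left _ inf_le_left
  have h3 := Submodule.finrank_sup_add_finrank_inf_eq (W ⊓ B.orthogonal U) (C ⊓ W)
  rw [← h1, h2, finrank_bot] at h3
  refine ⟨C ⊓ W, inf_le_right, ?_, by omega, ?_⟩
  · rintro _ ⟨x, hx, rfl⟩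
    exact ⟨hCinv ⟨x, hx.1, rfl⟩, hW ⟨x, hx.2, rfl⟩⟩
  · rw [eq_bot_iff, ← hC.inf_eq_bot]
    rintro x ⟨⟨hx1, hx2⟩, hx3⟩
    exact ⟨⟨hx2, hx3⟩, hx1⟩

theorem nd_pair (hS : B.IsSymm) (hchar2 : (2 : F) ≠ 0) {U U' : Submodule F V} (hUU : Orth B U U) (hUU' : Orth B U' U')
    (h1 : U' ⊓ B.orthogonal U = ⊥) (h2 : U ⊓ B.orthogonal U' = ⊥) : ND B (U ⊔ U') := by
  intro x hx h
  obtain ⟨u, hu, u', hu', rfl⟩ := Submodule.mem_sup.mp hx
  have hu'0 : u' = 0 := by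
    have h3 : u' ∈ U' ⊓ B.orthogonal U := by
      refine ⟨hu', (mem_perp_iff' hS hchar2).mpr (fun v hv => ?_)⟩
      have h4 := h v (Submodule.mem_sup_left hv)
      rw [map_add, LinearMap.add_apply, hUU u hu v hv, zero_add] at h4
      exact h4
    rw [h1] at h3
    exact (Submodule.mem_bot F).mp h3
  have hu0 : u = 0 := by
    have h3 : u ∈ U ⊓ B.orthogonal U' := by
      refine ⟨hu, (mem_perp_iff' hS hchar2).mpr (fun v hv => ?_)⟩
      have h4 := h v (Submodule.mem_sup_right hv)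
      rw [map_add, LinearMap.add_apply, hUU' u' hu' v hv, add_zero] at h4
      exact h4
    rw [h2] at h3
    exact (Submodule.mem_bot F).mp h3
  rw [hu0, hu'0, add_zero]

end Cfsg.Agent.Lib.Helper98.O72
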