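import Cfsg.Agent.Lib.Helper96.SpDefs

/-!
Project O72 (S5972): the foundation lemmas of `Helper96.SpDefs` for a SYMMETRIC bilinear form
in characteristic not two.  The definitions `ND`, `Orth`, `Isom` are those of `Helper96.Sp`.
-/

set_option autoImplicit false
set_option linter.unusedSectionVars false
set_option linter.unusedVariables false

namespace Cfsg.Agent.Lib.Helper98.O72

open Module Cfsg.Agent.Lib.Helper96.Sp

section Defs

variable {F : Type*} [Field F] {V : Type*} [AddCommGroup V] [Module F V] [FiniteDimensional F V]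
  {B : LinearMap.BilinForm F V}

theorem sym_swap (hS : B.IsSymm) (hchar2 : (2 : F) ≠ 0) (x y : V) : B x y = B y x :=
  (hS.eq y x).symm

theorem orth_symm (hS : B.IsSymm) (hchar2 : (2 : F) ≠ 0) {X Y : Submodule F V} (h : Orth B X Y) : Orth B Y X := by
  intro u hu v hv
  rw [sym_swap hS hchar2, h v hv u hu]

theorem mem_perp_iff' (hS : B.IsSymm) (hchar2 : (2 : F) ≠ 0) {W : Submodule F V} {v : V} :
    v ∈ B.orthogonal W ↔ ∀ w ∈ W, B v w = 0 := by
  rw [mem_perp_iff]
  constructor
  · intro h w hw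
    rw [sym_swap hS hchar2, h w hw]
  · intro h w hw
    rw [sym_swap hS hchar2, h w hw]

theorem nd_inf_perp (hS : B.IsSymm) (hchar2 : (2 : F) ≠ 0) {W : Submodule F V} (hW : ND B W) :
    W ⊓ B.orthogonal W = ⊥ := by
  rw [eq_bot_iff]
  rintro u ⟨hu1, hu2⟩
  rw [Submodule.mem_bot]
  exact hW u hu1 ((mem_perp_iff' hS hchar2).mp hu2)

theorem orth_iSup_left (hS : B.IsSymm) (hchar2 : (2 : F) ≠ 0) {ι : Sort*} {X : ι → Submodule F V} {Y : Submodule F V}
    (h : ∀ j, Orth B (X j) Y) : Orth B (⨆ j, X j) Y :=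
  orth_symm hS hchar2 (orth_iSup_right (fun j => orth_symm hS hchar2 (h j)))

theorem nd_isCompl (hS : B.IsSymm) (hchar2 : (2 : F) ≠ 0) {W : Submodule F V} (hW : ND B W) :
    IsCompl W (B.orthogonal W) :=
  (LinearMap.BilinForm.isCompl_orthogonal_iff_disjoint hS.isRefl).mpr
    (disjoint_iff.mpr (nd_inf_perp hS hchar2 hW))

theorem nd_perp (hS : B.IsSymm) (hchar2 : (2 : F) ≠ 0) (hN : ND B ⊤) {W : Submodule F V} (hW : ND B W) :
    ND B (B.orthogonal W) := by
  intro u hu h
  apply hN u Submodule.mem_top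
  intro v _
  have h1 : v ∈ W ⊔ B.orthogonal W := by
    rw [(nd_isCompl hS hchar2 hW).sup_eq_top]
    exact Submodule.mem_top
  obtain ⟨w, hw, w', hw', rfl⟩ := Submodule.mem_sup.mp h1
  rw [map_add, (mem_perp_iff' hS hchar2).mp hu w hw, h w' hw', add_zero]

theorem nd_rel (hS : B.IsSymm) (hchar2 : (2 : F) ≠ 0) {W Z : Submodule F V} (hW : ND B W) (hZ : ND B Z) (hWZ : W ≤ Z) :
    ND B (Z ⊓ B.orthogonal W) ∧ W ⊔ (Z ⊓ B.orthogonal W) = Z ∧
      finrank F W + finrank F ↥(Z ⊓ B.orthogonal W) = finrank F Z := by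
  have hsup : W ⊔ (Z ⊓ B.orthogonal W) = Z := by
    have h1 := sup_inf_assoc_of_le (B.orthogonal W) hWZ
    rw [(nd_isCompl hS hchar2 hW).sup_eq_top, top_inf_eq] at h1
    rw [inf_comm]
    exact h1.symm
  refine ⟨?_, hsup, ?_⟩
  · intro u hu h
    apply hZ u hu.1
    intro v hv
    rw [← hsup] at hv
    obtain ⟨w, hw, w', hw', rfl⟩ := Submodule.mem_sup.mp hv
    rw [map_add, (mem_perp_iff' hS hchar2).mp hu.2 w hw, h w' hw', add_zero]
  · have h1 := Submodule.finrank_sup_add_finrank_inf_eq W (Z ⊓ B.orthogonal W)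
    have h2 : W ⊓ (Z ⊓ B.orthogonal W) = ⊥ := by
      rw [eq_bot_iff, ← nd_inf_perp hS hchar2 hW]
      exact inf_le_inf_left W inf_le_right
    rw [hsup, h2, finrank_bot] at h1
    omega

theorem orth_atoms (hS : B.IsSymm) (hchar2 : (2 : F) ≠ 0) (c₀ : ℕ) (hc₀ : 1 ≤ c₀) (A : Submodule F V → Prop)
    (hnd : ∀ W, A W → ND B W)
    (hstep : ∀ W, A W → W ≠ ⊥ → ∃ P : Submodule F V, P ≤ W ∧ A P ∧ finrank F P = c₀ ∧
      A (W ⊓ B.orthogonal P))
    (W : Submodule F V) (hW : A W) :
    ∃ (s : ℕ) (P : Fin s → Submodule F V), (∀ j, A (P j) ∧ finrank F (P j) = c₀ ∧ P j ≤ W) ∧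
      (∀ j j', j ≠ j' → Orth B (P j) (P j')) ∧ (⨆ j, P j) = W ∧ finrank F W = c₀ * s := by
  induction hn : finrank F W using Nat.strong_induction_on generalizing W with
  | _ n ih =>
    by_cases hW0 : W = ⊥
    · refine ⟨0, fun j => j.elim0, fun j => j.elim0, fun j => j.elim0, ?_, ?_⟩
      · rw [hW0]
        simp
      · rw [← hn, hW0, finrank_bot, mul_zero]
    · obtain ⟨P₀, hP₀W, hP₀, hP₀c, hrest⟩ := hstep W hW hW0
      obtain ⟨hnd1, hsup1, hfin1⟩ := nd_rel hS hchar2 (hnd P₀ hP₀) (hnd W hW) hP₀W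
      obtain ⟨s, P, hP, horth, hsup, hfin⟩ := ih (finrank F ↥(W ⊓ B.orthogonal P₀)) (by omega)
        (W ⊓ B.orthogonal P₀) hrest rfl
      refine ⟨s + 1, Fin.cons P₀ P, ?_, ?_, ?_, ?_⟩
      · intro j
        refine Fin.cases ?_ (fun j => ?_) j
        · rw [Fin.cons_zero]
          exact ⟨hP₀, hP₀c, hP₀W⟩
        · rw [Fin.cons_succ]
          exact ⟨(hP j).1, (hP j).2.1, le_trans (hP j).2.2 inf_le_left⟩
      · have h0 : ∀ j : Fin s, Orth B P₀ (P j) := by
          intro j
          rw [orth_iff_le_perp]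
          exact le_trans (hP j).2.2 inf_le_right
        intro j j'
        refine Fin.cases ?_ (fun j => ?_) j
        · refine Fin.cases ?_ (fun j' => ?_) j'
          · intro h
            exact absurd rfl h
          · intro _
            rw [Fin.cons_zero, Fin.cons_succ]
            exact h0 j'
        · refine Fin.cases ?_ (fun j' => ?_) j'
          · intro _
            rw [Fin.cons_zero, Fin.cons_succ]
            exact orth_symm hS hchar2 (h0 j)
          · intro h
            rw [Fin.cons_succ, Fin.cons_succ]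
            exact horth j j' (fun h' => h (by rw [h']))
      · apply le_antisymm
        · apply iSup_le
          intro j
          refine Fin.cases ?_ (fun j => ?_) j
          · rw [Fin.cons_zero]
            exact hP₀W
          · rw [Fin.cons_succ]
            exact le_trans (hP j).2.2 inf_le_left
        · rw [← hsup1, ← hsup]
          apply sup_le
          · exact le_iSup_of_le 0 (by rw [Fin.cons_zero])
          · apply iSup_le
            intro j
            exact le_iSup_of_le j.succ (by rw [Fin.cons_succ])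
      · rw [← hn, ← hfin1, hfin, hP₀c]
        ring

theorem nd_sup (hS : B.IsSymm) (hchar2 : (2 : F) ≠ 0) {X Y : Submodule F V} (hX : ND B X) (hY : ND B Y) (hXY : Orth B X Y) :
    ND B (X ⊔ Y) ∧ finrank F ↥(X ⊔ Y) = finrank F X + finrank F Y := by
  constructor
  · intro u hu h
    obtain ⟨x, hx, y, hy, rfl⟩ := Submodule.mem_sup.mp hu
    have hx0 : x = 0 := by
      apply hX x hx
      intro v hv
      have h1 := h v (Submodule.mem_sup_left hv)
      rw [map_add, LinearMap.add_apply, orth_symm hS hchar2 hXY y hy v hv, add_zero] at h1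
      exact h1
    have hy0 : y = 0 := by
      apply hY y hy
      intro v hv
      have h1 := h v (Submodule.mem_sup_right hv)
      rw [map_add, LinearMap.add_apply, hXY x hx v hv, zero_add] at h1
      exact h1
    rw [hx0, hy0, add_zero]
  · have h1 := Submodule.finrank_sup_add_finrank_inf_eq X Y
    have h2 : X ⊓ Y = ⊥ := by
      rw [eq_bot_iff]
      rintro u ⟨hu1, hu2⟩
      rw [Submodule.mem_bot]
      exact hX u hu1 (fun v hv => by rw [sym_swap hS hchar2, hXY v hv u hu2])
    rw [h2, finrank_bot] at h1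
    omega

theorem nd_of_inf_perp {W : Submodule F V} (hS : B.IsSymm) (hchar2 : (2 : F) ≠ 0) (h : W ⊓ B.orthogonal W = ⊥) : ND B W := by
  intro u hu hu'
  have h1 : u ∈ W ⊓ B.orthogonal W := ⟨hu, (mem_perp_iff' hS hchar2).mpr hu'⟩
  rw [h] at h1
  exact (Submodule.mem_bot F).mp h1

end Defs

end Cfsg.Agent.Lib.Helper98.O72
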