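import Cfsg.Agent.Lib.Helper47.QuadMain
import Cfsg.Agent.Lib.Helper52.O72BRB
import Cfsg.Agent.Lib.Helper85.T73OMEGAODD

/-!
# Project T73: from `Cfsg.Geo.omegaGL` to isometries (glue)
-/

set_option autoImplicit false

namespace Cfsg.Agent.Lib.Helper98.T73

open Cfsg.Agent.Lib.Helper47 Module Polynomial

universe u

variable {F : Type u} [Field F] [Fintype F] {ι : Type} [Fintype ι] [DecidableEq ι]
  (Q : (ι → F) → F) (B : (ι → F) → (ι → F) → F)

theorem mem_iso_of_mem_omega {x : GL ι F} (hx : x ∈ Cfsg.Geo.omegaGL Q) :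
    x ∈ Cfsg.isometryGroup F Q := by
  obtain ⟨y, -, rfl⟩ := hx
  exact y.2

theorem exists_q_ne_zero [Nonempty ι] (hQ : IsQuad Q B) (hnd : Nondeg B) : ∃ v, Q v ≠ 0 := by
  by_contra h
  rw [not_exists] at h
  have h0 : ∀ v, Q v = 0 := fun v => not_not.mp (h v)
  have hB : ∀ u v, B u v = 0 := by
    intro u v
    have := hQ.polar u v
    rw [h0, h0, h0] at this
    linear_combination -this
  obtain ⟨a⟩ := ‹Nonempty ι›
  have h1 := hnd (Pi.single a 1) (fun y => hB _ y)
  have h2 := congrFun h1 a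
  rw [Pi.single_eq_same, Pi.zero_apply] at h2
  exact one_ne_zero h2

theorem scalar_sq [Nonempty ι] (hQ : IsQuad Q B) (hnd : Nondeg B) {x : GL ι F}
    (hx : x ∈ Cfsg.isometryGroup F Q) (n : ℕ) (z : F)
    (hz : ((x ^ n : GL ι F) : Matrix ι ι F) = z • (1 : Matrix ι ι F)) : z * z = 1 := by
  obtain ⟨v, hv⟩ := exists_q_ne_zero Q B hQ hnd
  have hxn : x ^ n ∈ Cfsg.isometryGroup F Q := Subgroup.pow_mem _ hx n
  have h1 := (mem_isometryGroup_iff' Q (x ^ n)).mp hxn v
  rw [hz, Matrix.smul_mulVec, Matrix.one_mulVec, hQ.smul] at h1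
  have h2 : (z * z - 1) * Q v = 0 := by linear_combination h1
  rcases mul_eq_zero.mp h2 with h | h
  · linear_combination h
  · exact absurd h hv

/-- The statement about elements of `Ω` with `x ^ r` scalar, `r` odd, in terms of isometries of
order `r`. -/
theorem lhs_iff (hf : QFacts F) (hQ : IsQuad Q B) (hnd : Nondeg B) (k : ℕ)
    (hι : Fintype.card ι = 2 * k + 2) (p : ℕ) [Fact p.Prime] [CharP F p] (r : ℕ)
    (hr : r.Prime) (hr2 : r ≠ 2) (hrp : r ≠ p) (m : ℕ) :
    (∀ x : GL ι F, x ∈ Cfsg.Geo.omegaGL Q →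
      (∃ z : F, ((x ^ r : GL ι F) : Matrix ι ι F) = z • (1 : Matrix ι ι F)) →
      (∀ z : F, (x : Matrix ι ι F) ≠ z • (1 : Matrix ι ι F)) →
      ∃ W : Submodule F (ι → F), finrank F W = m ∧ (∀ w ∈ W, Q w = 0) ∧
        W.map (Matrix.toLin' (x : Matrix ι ι F)) ≤ W) ↔
    (∀ g : Module.End F (ι → F), QI Q g → g ^ r = 1 → g ≠ 1 →
      ∃ W : Submodule F (ι → F), finrank F W = m ∧ TS Q W ∧ W.map g ≤ W) := by
  haveI : Nonempty ι := by
    rw [← Fintype.card_pos_iff, hι]
    omega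
  obtain ⟨e, he⟩ := hr.odd_of_ne_two hr2
  constructor
  · intro hL g hgQ hg hg1
    obtain ⟨x, hx, hxg, hxr⟩ := omega_of_odd hf Q B hQ hnd k hι p r hr hr2 hrp g hgQ hg
    have hns : ∀ z : F, (x : Matrix ι ι F) ≠ z • (1 : Matrix ι ι F) := by
      intro z hz
      have hz2 : z * z = 1 :=
        scalar_sq Q B hQ hnd (mem_iso_of_mem_omega Q hx) 1 z (by rw [pow_one]; exact hz)
      have hzr : z ^ r = 1 := by
        have h1 : ((x ^ r : GL ι F) : Matrix ι ι F) = 1 := by rw [hxr]; rfl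
        rw [Units.val_pow_eq_pow_val, hz, _root_.smul_pow, one_pow] at h1
        obtain ⟨a⟩ := ‹Nonempty ι›
        have h2 := congrFun (congrFun h1 a) a
        rw [Matrix.smul_apply, Matrix.one_apply_eq, smul_eq_mul, mul_one] at h2
        exact h2
      have hz1 : z = 1 := by
        rw [he, pow_succ, pow_mul, pow_two, hz2, one_pow, one_mul] at hzr
        exact hzr
      apply hg1
      rw [← hxg, hz, hz1, one_smul]
      exact Matrix.toLin'_one
    obtain ⟨W, h1, h2, h3⟩ := hL x hx ⟨1, by rw [hxr, one_smul]; rfl⟩ hns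
    refine ⟨W, h1, h2, ?_⟩
    rw [← hxg]
    exact h3
  · intro hL' x hx hz hns
    obtain ⟨z, hz⟩ := hz
    have hxi := mem_iso_of_mem_omega Q hx
    have hz2 : z * z = 1 := scalar_sq Q B hQ hnd hxi r z hz
    have hzr1 : z ^ (r + 1) = 1 := by
      rw [he, show 2 * e + 1 + 1 = 2 * (e + 1) by ring, pow_mul, pow_two, hz2, one_pow]
    obtain ⟨T, hT⟩ : ∃ T : Module.End F (ι → F), T = Matrix.toLin' (x : Matrix ι ι F) := ⟨_, rfl⟩
    have hTr : T ^ r = z • (1 : Module.End F (ι → F)) := by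
      rw [hT, ← Cfsg.Agent.Lib.Helper98.O72.brb_toLin'_pow, ← Units.val_pow_eq_pow_val, hz,
        map_smul, Matrix.toLin'_one]
      rfl
    have hTQ : ∀ v, Q (T v) = Q v := by
      intro v
      rw [hT, Matrix.toLin'_apply]
      exact (mem_isometryGroup_iff' Q x).mp hxi v
    have hgQ : QI Q (z • T) := by
      intro v
      rw [LinearMap.smul_apply, hQ.smul, hTQ, pow_two, hz2, one_mul]
    have hgr : (z • T) ^ r = 1 := by
      rw [_root_.smul_pow, hTr, smul_smul, ← pow_succ, hzr1, one_smul]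
    have hg1 : z • T ≠ 1 := by
      intro h
      have h1 : T = z • (1 : Module.End F (ι → F)) := by
        have h2 := congrArg (fun S : Module.End F (ι → F) => z • S) h
        simp only [smul_smul, hz2, one_smul] at h2
        exact h2
      apply hns z
      apply Matrix.toLin'.injective
      rw [← hT, h1, map_smul, Matrix.toLin'_one]
      rfl
    obtain ⟨W, h1, h2, h3⟩ := hL' (z • T) hgQ hgr hg1
    refine ⟨W, h1, h2, ?_⟩
    rintro y ⟨w, hw, rfl⟩
    have h4 : (z • T) w ∈ W := h3 ⟨w, hw, rfl⟩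
    have h5 : Matrix.toLin' (x : Matrix ι ι F) w = z • ((z • T) w) := by
      rw [LinearMap.smul_apply, smul_smul, hz2, one_smul, hT]
    rw [h5]
    exact W.smul_mem z h4

end Cfsg.Agent.Lib.Helper98.T73
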