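import Cfsg.Agent.Lib.Helper98.T73Main
import Cfsg.Agent.Lib.Helper98.T73Glue

/-!
# Project H74 (S5974): definitions

Nondegenerate subspaces of given type (`T73.SubTyp`) of even-dimensional quadratic spaces over
finite fields of any characteristic, in the function-level setting of `Helper47`
(`IsQuad Q B`, `Nondeg B`, `IsTyp Q k ε`), on top of project T73.
-/

set_option autoImplicit false

namespace Cfsg.Agent.Lib.Helper98.H74

open Cfsg.Agent.Lib.Helper47 Cfsg.Agent.Lib.Helper98.T73 Module Polynomial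

universe u

variable {F : Type u} [Field F] {V : Type u} [AddCommGroup V] [Module F V]

/-- The hyperbolic `m`-spaces of the statement S5974: nondegenerate for the polar form, with a
totally singular subspace of half the dimension. -/
def HypM (Q : V → F) (m : ℕ) (W : Submodule F V) : Prop :=
  Module.finrank F ↥W = m ∧ (∀ u ∈ W, u ≠ 0 → ∃ v ∈ W, QuadraticMap.polar Q u v ≠ 0) ∧
    ∃ U : Submodule F V, U ≤ W ∧ 2 * Module.finrank F ↥U = m ∧ ∀ u ∈ U, Q u = 0

/-- The constraint on `(j, w)`: an invariant nondegenerate `m`-space of type `τ` of an isometry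
with `A` constituents (in a space of dimension `2d`, type `ε`) is `W_R ⊥ W_C` with `W_R` in
`[V, g]` having `j` constituents and `W_C` in the fixed space of dimension `w`. -/
def MC (ε τ : ℤ) (i d A m j w : ℕ) : Prop :=
  j ≤ A ∧ (Odd i → Even j) ∧ m = i * j + w ∧ w ≤ 2 * d - i * A ∧ (w = 0 → sgn i j = τ) ∧
    (0 < w → w = 2 * d - i * A → τ * sgn i j = ε * sgn i A)

/-- The arithmetic model of "every element of order `r` fixes a nondegenerate `m`-space of
type `τ`". -/
def ModelH (ε τ : ℤ) (i d m : ℕ) : Prop :=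
  ∀ A, Valid ε i d A → ∃ j w, MC ε τ i d A m j w

/-- The arithmetic condition of S5974 for odd `r ≠ p` (with `c = i` for `i` even, `c = 2i` for
`i` odd). -/
def Cond74 (i d m : ℕ) : Prop :=
  if Even i then
    (((2 * d) % i = 0 ∧ (Odd ((2 * d) / i) ∨ (m % i = 0 ∧ Even (m / i)))) ∨
      (i ≤ m ∧ ((m % i < (2 * d) % i ∧ 0 < m % i) ∨
        ((2 * d) % i = m % i ∧ 0 < m % i ∧ Even ((2 * d + m - 2 * ((2 * d) % i)) / i)) ∨
        (0 < (2 * d) % i ∧ m % i = 0 ∧ Even (m / i)))))
  else (2 * i ≤ m ∧ m % (2 * i) ≤ (2 * d) % (2 * i))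

end Cfsg.Agent.Lib.Helper98.H74
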