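import Cfsg.Agent.Lib.Helper47.QuadAll
import Cfsg.Agent.Lib.Helper29.QuadEXIST
import Cfsg.Agent.Lib.Helper34.QuadNEC
import Cfsg.Agent.Lib.Helper29.QuadCONJ

/-!
# Project T73 (S5973 / S5987): definitions

Totally singular `m`-spaces of even-dimensional quadratic spaces over finite fields of any
characteristic, in the function-level setting of `Helper47` (`IsQuad Q B`, `Nondeg B`,
`IsTyp Q k ε`).
-/

set_option autoImplicit false

namespace Cfsg.Agent.Lib.Helper98.T73

open Cfsg.Agent.Lib.Helper47 Module Polynomial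

universe u

variable {F : Type u} [Field F] {V : Type u} [AddCommGroup V] [Module F V]

/-- `W` is totally singular for `Q`. -/
def TS (Q : V → F) (W : Submodule F V) : Prop := ∀ w ∈ W, Q w = 0

/-- `g` is an isometry of `Q`. -/
def QI (Q : V → F) (g : Module.End F V) : Prop := ∀ v, Q (g v) = Q v

/-- `K` is a nondegenerate subspace of dimension `2k+2` and type `ε`. -/
def SubTyp [Fintype F] (Q : V → F) (B : V → V → F) (K : Submodule F V) (k : ℕ) (ε : ℤ) : Prop :=
  Nondeg (resForm B K) ∧ finrank F K = 2 * k + 2 ∧ IsTyp (fun w : K => Q (w : V)) k ε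

/-- The Witt index of a nondegenerate quadratic space of dimension `2k+2` and type `ε`. -/
def wi (k : ℕ) (ε : ℤ) : ℕ := if ε = 1 then k + 1 else k

/-- The type of the range `[V, g]` of an isometry of odd prime order `r` with `A` irreducible
constituents of dimension `i = ord_r(q)`: `(-1)^A` if `i` is even, `+` if `i` is odd. -/
def sgn (i A : ℕ) : ℤ := if Even i then (-1) ^ A else 1

/-- The Witt index of the fixed space of an isometry with `A` constituents in a space of dimension
`2d` and type `ε`. -/
def om (ε : ℤ) (i d A : ℕ) : ℕ :=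
  if 2 * d = i * A then 0
  else if ε * sgn i A = 1 then (2 * d - i * A) / 2 else (2 * d - i * A) / 2 - 1

/-- The numbers `A` of constituents that occur. -/
def Valid (ε : ℤ) (i d A : ℕ) : Prop :=
  1 ≤ A ∧ i * A ≤ 2 * d ∧ (Odd i → Even A) ∧ (2 * d = i * A → sgn i A = ε)

/-- The multiples `i * j` that are always dimensions of invariant totally singular subspaces of
`[V, g]` (`t = (r - 1) / i` is the number of irreducible factors of the cyclotomic polynomial). -/
def JC (i t A j : ℕ) : Prop := if Even i then (j = 0 ∨ t + 2 * j ≤ A + 1) else 2 * j ≤ A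

/-- The arithmetic model of "every element of order `r` fixes a totally singular `m`-space". -/
def Model (ε : ℤ) (i t d m : ℕ) : Prop :=
  ∀ A, Valid ε i d A → ∃ j w, JC i t A j ∧ w ≤ om ε i d A ∧ m = i * j + w

/-- `(-1)^n = ε`. -/
def par (ε : ℤ) (n : ℕ) : Prop := if ε = 1 then Even n else Odd n

/-- The arithmetic condition of S5973 (`ε = 1`) and S5987 (`ε = -1`) for odd `r ≠ p`. -/
def Cond (ε : ℤ) (i t d m : ℕ) : Prop :=
  i ≤ m ∧
    (if Even i then
      t + 2 * (m / i) ≤ (2 * d) / i ∧
        ((2 * (m % i) ≤ i ∧ (2 * d) % i = 0 ∧ ¬ par ε ((2 * d) / i) ∧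
            t + 2 * (m / i) < (2 * d) / i) ∨
          (2 * (m % i) ≤ (2 * d) % i ∧ par ε ((2 * d) / i)) ∨
          (2 * (m % i) < (2 * d) % i ∧ ¬ par ε ((2 * d) / i)))
    else
      (if ε = 1 then 2 * (m % i) ≤ (2 * d) % (2 * i)
        else ((2 * d) % (2 * i) = 0 ∨ 2 * (m % i) < (2 * d) % (2 * i))))

end Cfsg.Agent.Lib.Helper98.T73
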