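import Mathlib
import Cfsg.Prelude.Def_GeometricClasses

/-!
S5979 (tensor decomposition stabilisers in `SL_n`): basic normal forms.
-/

set_option autoImplicit false

namespace Cfsg.Agent.Lib.Helper98.TD

open Matrix
open scoped Kronecker

universe u

/-- Normal form of an element conjugate into a tensor product subgroup. -/
theorem mem_tensor_nf {F : Type*} [Field F] {n a b : ℕ} (e : Fin n ≃ Fin a × Fin b)
    (P : GL (Fin n) F) (x g : GL (Fin n) F)
    (h : g⁻¹ * x * g ∈ Cfsg.Geo.tensorProductSubgroup a b e P) :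
    ∃ (A : GL (Fin a) F) (B : GL (Fin b) F) (Q : GL (Fin n) F),
      (x : Matrix (Fin n) (Fin n) F) = (Q : Matrix (Fin n) (Fin n) F) *
        Matrix.reindex e.symm e.symm
          ((A : Matrix (Fin a) (Fin a) F) ⊗ₖ (B : Matrix (Fin b) (Fin b) F)) *
        ((Q⁻¹ : GL (Fin n) F) : Matrix (Fin n) (Fin n) F) := by
  obtain ⟨g', ⟨k, ⟨A, B, hk⟩, rfl⟩, hg'⟩ := h
  refine ⟨A, B, g * P, ?_⟩
  have hx : x = (g * P) * (Cfsg.Geo.glReindex e.symm).toMonoidHom k * (g * P)⁻¹ := by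
    have h1 : P * (Cfsg.Geo.glReindex e.symm).toMonoidHom k * P⁻¹ = g⁻¹ * x * g := by
      simpa [MulAut.conj_apply] using hg'
    calc x = g * (g⁻¹ * x * g) * g⁻¹ := by group
      _ = g * (P * (Cfsg.Geo.glReindex e.symm).toMonoidHom k * P⁻¹) * g⁻¹ := by rw [h1]
      _ = _ := by group
  rw [← hk]
  conv_lhs => rw [hx]
  rw [Units.val_mul, Units.val_mul]
  rfl

/-- Elements of the tensor product subgroup from Kronecker products. -/
theorem mem_tensor_of {F : Type*} [Field F] {n a b : ℕ} (e : Fin n ≃ Fin a × Fin b)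
    (P : GL (Fin n) F) (A : GL (Fin a) F) (B : GL (Fin b) F) :
    ∃ y ∈ Cfsg.Geo.tensorProductSubgroup a b e P,
      (y : Matrix (Fin n) (Fin n) F) = (P : Matrix (Fin n) (Fin n) F) *
        Matrix.reindex e.symm e.symm
          ((A : Matrix (Fin a) (Fin a) F) ⊗ₖ (B : Matrix (Fin b) (Fin b) F)) *
        ((P⁻¹ : GL (Fin n) F) : Matrix (Fin n) (Fin n) F) := by
  have hAB : IsUnit ((A : Matrix (Fin a) (Fin a) F) ⊗ₖ (B : Matrix (Fin b) (Fin b) F)) := by
    rw [Matrix.isUnit_iff_isUnit_det, Matrix.det_kronecker]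
    exact ((Matrix.isUnit_iff_isUnit_det _).mp A.isUnit).pow _ |>.mul
      (((Matrix.isUnit_iff_isUnit_det _).mp B.isUnit).pow _)
  obtain ⟨k, hk⟩ := hAB
  refine ⟨P * (Cfsg.Geo.glReindex e.symm).toMonoidHom k * P⁻¹, ?_, ?_⟩
  · refine ⟨(Cfsg.Geo.glReindex e.symm).toMonoidHom k, ⟨k, ⟨A, B, hk⟩, rfl⟩, ?_⟩
    simp [MulAut.conj_apply]
  · rw [Units.val_mul, Units.val_mul, ← hk]
    rfl

/-- A Kronecker product that is a non-zero scalar has scalar factors. -/
theorem scalar_of_kron_scalar {F : Type*} [Field F] {a b : ℕ}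
    (A : Matrix (Fin a) (Fin a) F) (B : Matrix (Fin b) (Fin b) F) (c : F) (hc : c ≠ 0)
    (ha : 0 < a) (hb : 0 < b)
    (h : A ⊗ₖ B = c • (1 : Matrix (Fin a × Fin b) (Fin a × Fin b) F)) :
    ∃ α β : F, α ≠ 0 ∧ β ≠ 0 ∧ A = α • (1 : Matrix (Fin a) (Fin a) F) ∧
      B = β • (1 : Matrix (Fin b) (Fin b) F) := by
  have hent : ∀ (i i' : Fin a) (j j' : Fin b),
      A i i' * B j j' = if (i, j) = (i', j') then c else 0 := by
    intro i i' j j'
    have := congrFun (congrFun h (i, j)) (i', j')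
    simpa [Matrix.kroneckerMap_apply, Matrix.one_apply] using this
  let i₀ : Fin a := ⟨0, ha⟩
  let j₀ : Fin b := ⟨0, hb⟩
  have h00 : A i₀ i₀ * B j₀ j₀ = c := by simpa using hent i₀ i₀ j₀ j₀
  have hA0 : A i₀ i₀ ≠ 0 := fun h0 => hc (by rw [← h00, h0, zero_mul])
  have hB0 : B j₀ j₀ ≠ 0 := fun h0 => hc (by rw [← h00, h0, mul_zero])
  refine ⟨A i₀ i₀, B j₀ j₀, hA0, hB0, ?_, ?_⟩
  · ext i i'
    have h1 := hent i i' j₀ j₀
    rw [Matrix.smul_apply, Matrix.one_apply, smul_eq_mul]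
    by_cases hii : i = i'
    · subst hii
      simp only [if_true, mul_one] at h1 ⊢
      have : A i i * B j₀ j₀ = A i₀ i₀ * B j₀ j₀ := by rw [h1, h00]
      exact mul_right_cancel₀ hB0 this
    · have : (i, j₀) ≠ (i', j₀) := fun hh => hii (Prod.mk.inj hh).1
      rw [if_neg this] at h1
      rw [if_neg hii, mul_zero]
      rcases mul_eq_zero.mp h1 with h2 | h2
      · exact h2
      · exact absurd h2 hB0
  · ext j j'
    have h1 := hent i₀ i₀ j j'
    rw [Matrix.smul_apply, Matrix.one_apply, smul_eq_mul]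
    by_cases hjj : j = j'
    · subst hjj
      simp only [if_true, mul_one] at h1 ⊢
      have : A i₀ i₀ * B j j = A i₀ i₀ * B j₀ j₀ := by rw [h1, h00]
      exact mul_left_cancel₀ hA0 this
    · have : (i₀, j) ≠ (i₀, j') := fun hh => hjj (Prod.mk.inj hh).2
      rw [if_neg this] at h1
      rw [if_neg hjj, mul_zero]
      rcases mul_eq_zero.mp h1 with h2 | h2
      · exact absurd h2 hA0
      · exact h2

end Cfsg.Agent.Lib.Helper98.TD
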