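import Mathlib

/-!
S5979 piece TD-DX: three explicit diagonal matrices.
-/

set_option autoImplicit false

namespace Cfsg.Agent.Lib.Helper98.TD

open Matrix

universe u

theorem tddx_rank_diag_sub {L : Type*} [Field L] {n : ℕ} (d : Fin n → L) (θ : L)
    [DecidablePred fun j : Fin n => d j ≠ θ] :
    (Matrix.diagonal d - θ • (1 : Matrix (Fin n) (Fin n) L)).rank =
      (Finset.univ.filter (fun j : Fin n => d j ≠ θ)).card := by
  classical
  have h : Matrix.diagonal d - θ • (1 : Matrix (Fin n) (Fin n) L) =
      Matrix.diagonal (fun j => d j - θ) := by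
    ext i j
    by_cases hij : i = j
    · subst hij; simp
    · simp [Matrix.diagonal_apply_ne _ hij, Matrix.one_apply_ne hij]
  rw [h, Matrix.rank_diagonal, Fintype.card_subtype]
  refine congrArg Finset.card ?_
  ext j
  simp [sub_eq_zero]

theorem exists_diag_neg {F : Type*} [Field F] (h2 : (2 : F) ≠ 0) (n : ℕ) (hn : 3 ≤ n) :
    ∃ M : Matrix (Fin n) (Fin n) F, M.det = 1 ∧ M ^ 2 = 1 ∧ (M - 1).rank = 2 := by
  classical
  let i₀ : Fin n := ⟨0, by omega⟩
  let i₁ : Fin n := ⟨1, by omega⟩
  have h01 : i₀ ≠ i₁ := fun h => absurd (Fin.mk.inj h) (by norm_num)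
  let d : Fin n → F := fun j => if j = i₀ then -1 else if j = i₁ then -1 else 1
  have hd0 : d i₀ = -1 := by simp [d]
  have hd1 : d i₁ = -1 := by simp [d, h01.symm]
  have hdo : ∀ j, j ≠ i₀ → j ≠ i₁ → d j = 1 := by
    intro j h0 h1; simp [d, h0, h1]
  have hm1 : (-1 : F) ≠ 1 := by
    intro h
    apply h2
    linear_combination -h
  refine ⟨Matrix.diagonal d, ?_, ?_, ?_⟩
  · rw [Matrix.det_diagonal, Finset.prod_eq_mul i₀ i₁ h01 (fun c _ hc => hdo c hc.1 hc.2)
      (fun h => absurd (Finset.mem_univ _) h) (fun h => absurd (Finset.mem_univ _) h), hd0, hd1]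
    norm_num
  · rw [Matrix.diagonal_pow, ← Matrix.diagonal_one]
    congr 1
    funext j
    by_cases h0 : j = i₀
    · simp [h0, hd0]
    · by_cases h1 : j = i₁
      · simp [h1, hd1]
      · simp [hdo j h0 h1]
  · have := tddx_rank_diag_sub d 1
    rw [one_smul] at this
    rw [this]
    have hset : Finset.univ.filter (fun j : Fin n => d j ≠ 1) = {i₀, i₁} := by
      ext j
      simp only [Finset.mem_filter, Finset.mem_univ, true_and, Finset.mem_insert,
        Finset.mem_singleton]
      constructor
      · intro h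
        by_contra hne
        push_neg at hne
        exact h (hdo j hne.1 hne.2)
      · rintro (rfl | rfl)
        · rw [hd0]; exact hm1
        · rw [hd1]; exact hm1
    rw [hset, Finset.card_pair h01]

theorem exists_diag_mu {F : Type*} [Field F] (h2 : (2 : F) ≠ 0) (n : ℕ) (hn : 2 ≤ n) (μ : F)
    (hμ : μ ^ n = -1) :
    ∃ M : Matrix (Fin n) (Fin n) F, M.det = 1 ∧ M ^ 2 = (μ ^ 2) • (1 : Matrix (Fin n) (Fin n) F) ∧
      (M - μ • (1 : Matrix (Fin n) (Fin n) F)).rank = 1 := by
  classical
  let i₀ : Fin n := ⟨0, by omega⟩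
  have hμ0 : μ ≠ 0 := by
    rintro rfl
    rw [zero_pow (by omega)] at hμ
    exact one_ne_zero (neg_eq_zero.mp hμ.symm)
  let d : Fin n → F := fun j => μ * (if j = i₀ then -1 else 1)
  refine ⟨Matrix.diagonal d, ?_, ?_, ?_⟩
  · rw [Matrix.det_diagonal, Finset.prod_mul_distrib, Finset.prod_const, Finset.card_univ,
      Fintype.card_fin, hμ, Finset.prod_ite_eq' Finset.univ i₀ (fun _ => (-1 : F))]
    simp
  · rw [Matrix.diagonal_pow, ← Matrix.diagonal_one, ← Matrix.diagonal_smul]
    congr 1
    funext j
    by_cases h0 : j = i₀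
    · simp [d, h0]
    · simp [d, h0]
  · rw [tddx_rank_diag_sub d μ]
    have hset : Finset.univ.filter (fun j : Fin n => d j ≠ μ) = {i₀} := by
      ext j
      simp only [Finset.mem_filter, Finset.mem_univ, true_and, Finset.mem_singleton]
      constructor
      · intro h
        by_contra hne
        apply h
        simp [d, hne]
      · rintro rfl
        simp only [d, if_true, mul_neg, mul_one]
        intro h
        apply h2
        have h3 : (2 : F) * μ = 0 := by linear_combination -h
        rcases mul_eq_zero.mp h3 with h4 | h4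
        · exact h4
        · exact absurd h4 hμ0
    rw [hset, Finset.card_singleton]

theorem exists_diag_lam {F : Type u} [Field F] (n r : ℕ) (hn : 3 ≤ n) (lam : F) (h0 : lam ≠ 0) (h1 : lam ^ r = 1)
    (hne : lam ≠ 1) (hne2 : lam ^ 2 ≠ 1) :
    ∃ M : Matrix (Fin n) (Fin n) F, M.det = 1 ∧ M ^ r = 1 ∧
      ∀ (L : Type u) [Field L] [Algebra F L],
        (∀ θ : L, θ ≠ 1 → n ≤ (M.map (algebraMap F L) - θ • (1 : Matrix (Fin n) (Fin n) L)).rank + 1) ∧
        (M.map (algebraMap F L) - 1).rank = 2 := by
  classical
  let i₀ : Fin n := ⟨0, by omega⟩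
  let i₁ : Fin n := ⟨1, by omega⟩
  have h01 : i₀ ≠ i₁ := fun h => absurd (Fin.mk.inj h) (by norm_num)
  let d : Fin n → F := fun j => if j = i₀ then lam else if j = i₁ then lam⁻¹ else 1
  have hd0 : d i₀ = lam := by simp [d]
  have hd1 : d i₁ = lam⁻¹ := by simp [d, h01.symm]
  have hdo : ∀ j, j ≠ i₀ → j ≠ i₁ → d j = 1 := by
    intro j h0 h1; simp [d, h0, h1]
  have hinv1 : lam⁻¹ ≠ 1 := by
    intro h
    apply hne
    rw [← inv_inv lam, h, inv_one]
  have hinv2 : lam ≠ lam⁻¹ := by
    intro h
    apply hne2
    rw [pow_two]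
    nth_rewrite 2 [h]
    exact mul_inv_cancel₀ h0
  refine ⟨Matrix.diagonal d, ?_, ?_, ?_⟩
  · rw [Matrix.det_diagonal, Finset.prod_eq_mul i₀ i₁ h01 (fun c _ hc => hdo c hc.1 hc.2)
      (fun h => absurd (Finset.mem_univ _) h) (fun h => absurd (Finset.mem_univ _) h), hd0, hd1]
    exact mul_inv_cancel₀ h0
  · rw [Matrix.diagonal_pow, ← Matrix.diagonal_one]
    congr 1
    funext j
    by_cases hj0 : j = i₀
    · simp [hj0, hd0, h1]
    · by_cases hj1 : j = i₁
      · simp [hj1, hd1, h1]
      · simp [hdo j hj0 hj1]
  · intro L _ _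
    have hf : Function.Injective (algebraMap F L) := (algebraMap F L).injective
    have hmap : (Matrix.diagonal d).map (algebraMap F L) =
        Matrix.diagonal (fun j => algebraMap F L (d j)) :=
      Matrix.diagonal_map (map_zero _)
    rw [hmap]
    constructor
    · intro θ hθ
      rw [tddx_rank_diag_sub]
      -- at most one index has value `θ`
      have hcompl : (Finset.univ.filter (fun j : Fin n => ¬ algebraMap F L (d j) ≠ θ)).card ≤ 1 := by
        rw [Finset.card_le_one]
        intro j hj j' hj'
        simp only [Finset.mem_filter, Finset.mem_univ, true_and, not_not] at hj hj'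
        have hjm : j = i₀ ∨ j = i₁ := by
          by_contra hcon
          push_neg at hcon
          rw [hdo j hcon.1 hcon.2, map_one] at hj
          exact hθ hj.symm
        have hjm' : j' = i₀ ∨ j' = i₁ := by
          by_contra hcon
          push_neg at hcon
          rw [hdo j' hcon.1 hcon.2, map_one] at hj'
          exact hθ hj'.symm
        have hdd : d j = d j' := hf (hj.trans hj'.symm)
        rcases hjm with rfl | rfl <;> rcases hjm' with rfl | rfl
        · rfl
        · rw [hd0, hd1] at hdd; exact absurd hdd hinv2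
        · rw [hd0, hd1] at hdd; exact absurd hdd.symm hinv2
        · rfl
      have hsplit := Finset.card_filter_add_card_filter_not
        (s := (Finset.univ : Finset (Fin n))) (fun j : Fin n => algebraMap F L (d j) ≠ θ)
      rw [Finset.card_univ, Fintype.card_fin] at hsplit
      omega
    · have := tddx_rank_diag_sub (fun j => algebraMap F L (d j)) 1
      rw [one_smul] at this
      rw [this]
      have hset : Finset.univ.filter (fun j : Fin n => algebraMap F L (d j) ≠ 1) = {i₀, i₁} := by
        ext j
        simp only [Finset.mem_filter, Finset.mem_univ, true_and, Finset.mem_insert,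
          Finset.mem_singleton]
        constructor
        · intro h
          by_contra hcon
          push_neg at hcon
          exact h (by rw [hdo j hcon.1 hcon.2, map_one])
        · rintro (rfl | rfl)
          · rw [hd0]
            intro h
            exact hne (hf (by rw [h, map_one]))
          · rw [hd1]
            intro h
            exact hinv1 (hf (by rw [h, map_one]))
      rw [hset, Finset.card_pair h01]

end Cfsg.Agent.Lib.Helper98.TD
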