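import Mathlib
import Cfsg.Prelude.Def_GeometricClasses
import Cfsg.Prelude.Def_ClassicalGeometry
import Cfsg.Prelude.Def_LieClassical

/-!
S5984 (pairs of complementary totally singular subspaces in unitary space): shared definitions.
-/

set_option autoImplicit false

namespace Cfsg.Agent.Lib.Helper98.U84

open Matrix

/-- The hyperbolic hermitian form on `F^(m ⊕ m)`. -/
def hypForm (m q : ℕ) (F : Type*) [Field F] (a b : Fin m ⊕ Fin m → F) : F :=
  ∑ i, (a (Sum.inl i) * b (Sum.inr i) ^ q + a (Sum.inr i) * b (Sum.inl i) ^ q)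

/-- `Pm` (with inverse `Pi`) is a basis of `F^n` adapted to the pair `D 0`, `D 1` of complementary
totally singular subspaces: the first `m` columns span `D 0`, the last `m` span `D 1`, and the
hermitian form becomes the hyperbolic form. -/
structure Adapted {F : Type*} [Field F] (q : ℕ) {n m : ℕ} (D : Fin 2 → Submodule F (Fin n → F))
    (Pm : Matrix (Fin n) (Fin m ⊕ Fin m) F) (Pi : Matrix (Fin m ⊕ Fin m) (Fin n) F) : Prop where
  mul_inv : Pm * Pi = 1
  inv_mul : Pi * Pm = 1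
  form : ∀ a b : Fin m ⊕ Fin m → F,
    Cfsg.hermForm n F q (Pm *ᵥ a) (Pm *ᵥ b) = hypForm m q F a b
  mem0 : ∀ a : Fin m ⊕ Fin m → F, Pm *ᵥ a ∈ D 0 ↔ ∀ i, a (Sum.inr i) = 0
  mem1 : ∀ a : Fin m ⊕ Fin m → F, Pm *ᵥ a ∈ D 1 ↔ ∀ i, a (Sum.inl i) = 0

/-- Block diagonal matrices `diag(A, B)` with `Aᵀ B^(q) = 1` give elements of the unitary group
stabilising the pair, with the expected characteristic polynomial and determinant. -/
def BlockOK {F : Type*} [Field F] (q : ℕ) {n m : ℕ} (D : Fin 2 → Submodule F (Fin n → F))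
    (Pm : Matrix (Fin n) (Fin m ⊕ Fin m) F) (Pi : Matrix (Fin m ⊕ Fin m) (Fin n) F) : Prop :=
  ∀ A B : Matrix (Fin m) (Fin m) F, Aᵀ * B.map (· ^ q) = 1 →
    ∃ y : GL (Fin n) F, (y : Matrix (Fin n) (Fin n) F) = Pm * Matrix.fromBlocks A 0 0 B * Pi ∧
      y ∈ Cfsg.GU n F q ∧ y ∈ Cfsg.Geo.decompositionStabilizer D ∧
      (y : Matrix (Fin n) (Fin n) F).charpoly = A.charpoly * B.charpoly ∧
      (y : Matrix (Fin n) (Fin n) F).det = A.det * B.det

end Cfsg.Agent.Lib.Helper98.U84
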