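import Mathlib
import Cfsg.Prelude.Def_GeometricClasses
import Cfsg.Agent.Lib.Helper51.Spinor

/-!
# Orthogonal geometry helpers for non-maximality statements (helper98)

* `stabSet S L`: the elements of a subgroup `S ≤ GL` stabilising a set `L` of vectors.
* `rmap Q a`: the reflection in a non-singular vector as a function; `exists_two_refl`: for
  `Q a = Q b ≠ 0` (odd characteristic) the product of the two reflections lies in
  `Cfsg.Geo.omegaGL Q`.
* `exists_nonsingular_of_finrank`: a subspace of more than half the dimension contains a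
  non-singular vector; `exists_perp_value`: over the field with three elements, in dimension at
  least 7, there is a vector orthogonal to two given vectors with a prescribed non-zero norm.
* `plus_plane_three`: over the field with three elements the stabiliser in `Ω` of a non-degenerate
  plane of plus type is not maximal.
-/

set_option autoImplicit false
set_option linter.unusedSectionVars false

namespace Cfsg.Agent.Lib.Helper98

open Cfsg Module Matrix QuadraticMap Cfsg.Agent.Lib.Helper51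

/-- The elements of a subgroup `S` of `GL` stabilising a set of vectors `L`. -/
def stabSet {ι : Type} {F : Type*} [Field F] [Fintype ι] [DecidableEq ι] (S : Subgroup (GL ι F))
    (L : Set (ι → F)) : Subgroup (GL ι F) where
  carrier := {g | g ∈ S ∧ ∀ v, (g : Matrix ι ι F) *ᵥ v ∈ L ↔ v ∈ L}
  mul_mem' := fun {a b} ha hb => ⟨S.mul_mem ha.1 hb.1, fun v => by
    rw [Units.val_mul, ← Matrix.mulVec_mulVec, ha.2, hb.2]⟩
  one_mem' := ⟨S.one_mem, fun v => by simp⟩
  inv_mem' := fun {a} ha => ⟨S.inv_mem ha.1, fun v => by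
    have h := ha.2 (((a⁻¹ : GL ι F) : Matrix ι ι F) *ᵥ v)
    rw [Matrix.mulVec_mulVec, ← Units.val_mul, mul_inv_cancel, Units.val_one, Matrix.one_mulVec] at h
    exact h.symm⟩

section

variable {ι : Type} [Fintype ι] [DecidableEq ι] {F : Type*} [Field F]
variable (Q : QuadraticForm F (ι → F))

/-- The reflection in `a`, as a function. -/
def rmap (a y : ι → F) : ι → F := y - ((Q a)⁻¹ * polar ⇑Q a y) • a

/-- In odd characteristic the product of two reflections in vectors of equal norm lies in `Ω`. -/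
theorem exists_two_refl (h2 : (2 : F) ≠ 0) (a b : ι → F) (ha : Q a ≠ 0) (hab : Q a = Q b) :
    ∃ g : GL ι F, g ∈ Cfsg.Geo.omegaGL ⇑Q ∧
      ∀ x, (g : Matrix ι ι F) *ᵥ x = rmap Q a (rmap Q b x) := by
  have hb : Q b ≠ 0 := by rw [← hab]; exact ha
  have hmem : refl Q a ha * refl Q b hb ∈ Cfsg.Omega F ⇑Q := by
    show refl Q a ha * refl Q b hb ∈ commutator (isometryGroup F ⇑Q)
    rw [← Abelianization.ker_of, MonoidHom.mem_ker, map_mul, ab_refl_eq_of_eq Q h2 a b ha hb hab,
      ab_refl_mul_self]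
  refine ⟨((refl Q a ha * refl Q b hb : isometryGroup F ⇑Q) : GL ι F), ⟨_, hmem, rfl⟩, fun x => ?_⟩
  rw [Subgroup.coe_mul, Units.val_mul, coe_refl, coe_refl, ← Matrix.mulVec_mulVec,
    reflectionMatrix_mulVec, reflectionMatrix_mulVec]
  rfl

/-- The elements of `Ω` are isometries. -/
theorem omegaGL_isometry (g : GL ι F) (hg : g ∈ Cfsg.Geo.omegaGL ⇑Q) (x : ι → F) :
    Q ((g : Matrix ι ι F) *ᵥ x) = Q x := by
  obtain ⟨g', -, rfl⟩ := hg
  exact isometry_apply Q g' x

theorem finrank_le_inf_ker_add_one {V : Type*} [AddCommGroup V] [Module F V] [FiniteDimensional F V]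
    (Y : Submodule F V) (φ : V →ₗ[F] F) :
    finrank F Y ≤ finrank F ↥(Y ⊓ LinearMap.ker φ) + 1 := by
  have h1 := LinearMap.finrank_range_add_finrank_ker (φ.domRestrict Y)
  have h3 : finrank F ↥(LinearMap.range (φ.domRestrict Y)) ≤ 1 := by
    have h4 := Submodule.finrank_le (LinearMap.range (φ.domRestrict Y))
    rw [Module.finrank_self] at h4
    exact h4
  have h5 : finrank F ↥(LinearMap.ker (φ.domRestrict Y)) = finrank F ↥(Y ⊓ LinearMap.ker φ) := by
    have h6 : LinearMap.ker (φ.domRestrict Y) = (LinearMap.ker φ).comap Y.subtype := by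
      ext y
      simp [LinearMap.domRestrict_apply]
    rw [h6, ← Submodule.finrank_map_subtype_eq Y, Submodule.map_comap_subtype]
  omega

/-- A subspace of more than half the dimension contains a non-singular vector. -/
theorem exists_nonsingular_of_finrank (hnd : (polarBilin Q).Nondegenerate)
    (Y : Submodule F (ι → F)) (hY : finrank F (ι → F) < 2 * finrank F Y) :
    ∃ y ∈ Y, Q y ≠ 0 := by
  by_contra hcon
  push Not at hcon
  have hle : Y ≤ LinearMap.BilinForm.orthogonal (polarBilin Q) Y := by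
    intro y hy
    rw [LinearMap.BilinForm.mem_orthogonal_iff]
    intro x hx
    rw [polarBilin_apply_apply, polar, hcon _ (Y.add_mem hx hy), hcon x hx, hcon y hy]
    ring
  have h1 := Submodule.finrank_mono hle
  rw [LinearMap.BilinForm.finrank_orthogonal hnd] at h1
  omega

end

section Three

variable {ι : Type} [Fintype ι] [DecidableEq ι] {F : Type*} [Field F] [Fintype F]
variable (Q : QuadraticForm F (ι → F))

theorem three_eq_zero (hq : Fintype.card F = 3) : (3 : F) = 0 := by
  have h3 := FiniteField.cast_card_eq_zero F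
  rw [hq] at h3
  exact_mod_cast h3

theorem two_ne_zero_three (hq : Fintype.card F = 3) : (2 : F) ≠ 0 := by
  intro h
  have h3 := three_eq_zero hq
  exact one_ne_zero (α := F) (by linear_combination h3 - h)

theorem three_cases (hq : Fintype.card F = 3) (x : F) : x = 0 ∨ x = 1 ∨ x = -1 := by
  classical
  have h2 := two_ne_zero_three hq
  by_contra hx
  push Not at hx
  have h11 : (1 : F) ≠ -1 := by
    intro h
    exact h2 (by linear_combination h)
  have h1 : ({0, 1, -1, x} : Finset F).card ≤ Fintype.card F := Finset.card_le_univ _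
  rw [hq, Finset.card_insert_of_notMem (by simp [hx.1.symm]),
    Finset.card_insert_of_notMem (by simp [h11, hx.2.1.symm]),
    Finset.card_insert_of_notMem (by simp [hx.2.2.symm]), Finset.card_singleton] at h1
  omega

/-- Over the field with three elements, in dimension at least 7, there is a vector orthogonal to
two given vectors with a prescribed non-zero norm. -/
theorem exists_perp_value (hq : Fintype.card F = 3) (hnd : (polarBilin Q).Nondegenerate)
    (hn : 7 ≤ Fintype.card ι) (e f : ι → F) (d : F) (hd : d ≠ 0) :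
    ∃ c, polar ⇑Q e c = 0 ∧ polar ⇑Q f c = 0 ∧ Q c = d := by
  classical
  have h3 := three_eq_zero hq
  have hfin : finrank F (ι → F) = Fintype.card ι := Module.finrank_fintype_fun_eq_card F
  have hval : ∀ x : F, x ≠ 0 → x ≠ d → x = -d := by
    intro x hx0 hxd
    rcases three_cases hq x with h | h | h <;> rcases three_cases hq d with h' | h' | h'
    · exact absurd h hx0
    · exact absurd h hx0
    · exact absurd h hx0
    · exact absurd h' hd
    · exact absurd (h.trans h'.symm) hxd
    · rw [h, h']; ring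
    · exact absurd h' hd
    · rw [h, h']
    · exact absurd (h.trans h'.symm) hxd
  obtain ⟨Y₀, hY₀⟩ : ∃ Y : Submodule F (ι → F), Y = ((⊤ : Submodule F (ι → F)) ⊓
      LinearMap.ker (polarBilin Q e)) ⊓ LinearMap.ker (polarBilin Q f) := ⟨_, rfl⟩
  have h1 : finrank F (⊤ : Submodule F (ι → F)) ≤
      finrank F ↥((⊤ : Submodule F (ι → F)) ⊓ LinearMap.ker (polarBilin Q e)) + 1 :=
    finrank_le_inf_ker_add_one _ _
  have h1' : finrank F ↥((⊤ : Submodule F (ι → F)) ⊓ LinearMap.ker (polarBilin Q e)) ≤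
      finrank F ↥Y₀ + 1 := by
    rw [hY₀]
    exact finrank_le_inf_ker_add_one _ _
  rw [finrank_top, hfin] at h1
  have hY₀mem : ∀ c ∈ Y₀, polar ⇑Q e c = 0 ∧ polar ⇑Q f c = 0 := by
    intro c hc
    rw [hY₀] at hc
    have h4 : c ∈ LinearMap.ker (polarBilin Q e) := hc.1.2
    have h5 : c ∈ LinearMap.ker (polarBilin Q f) := hc.2
    rw [LinearMap.mem_ker, polarBilin_apply_apply] at h4 h5
    exact ⟨h4, h5⟩
  obtain ⟨c₁, hc₁, hQ₁⟩ := exists_nonsingular_of_finrank Q hnd Y₀ (by rw [hfin]; omega)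
  by_cases hd1 : Q c₁ = d
  · exact ⟨c₁, (hY₀mem c₁ hc₁).1, (hY₀mem c₁ hc₁).2, hd1⟩
  · have hQ1 : Q c₁ = -d := hval _ hQ₁ hd1
    have h1'' : finrank F ↥Y₀ ≤ finrank F ↥(Y₀ ⊓ LinearMap.ker (polarBilin Q c₁)) + 1 :=
      finrank_le_inf_ker_add_one _ _
    obtain ⟨c₂, hc₂, hQ₂⟩ := exists_nonsingular_of_finrank Q hnd
      (Y₀ ⊓ LinearMap.ker (polarBilin Q c₁)) (by rw [hfin]; omega)
    have hc₂' : polar ⇑Q c₁ c₂ = 0 := by
      have h5 : c₂ ∈ LinearMap.ker (polarBilin Q c₁) := hc₂.2
      rw [LinearMap.mem_ker, polarBilin_apply_apply] at h5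
      exact h5
    by_cases hd2 : Q c₂ = d
    · exact ⟨c₂, (hY₀mem c₂ hc₂.1).1, (hY₀mem c₂ hc₂.1).2, hd2⟩
    · have hQ2 : Q c₂ = -d := hval _ hQ₂ hd2
      refine ⟨c₁ + c₂, ?_, ?_, ?_⟩
      · rw [polar_add_right, (hY₀mem c₁ hc₁).1, (hY₀mem c₂ hc₂.1).1, add_zero]
      · rw [polar_add_right, (hY₀mem c₁ hc₁).2, (hY₀mem c₂ hc₂.1).2, add_zero]
      · rw [QuadraticMap.map_add Q c₁ c₂, hQ1, hQ2, hc₂']
        linear_combination (-d) * h3

end Three

section PlusPlane

variable {ι : Type} [Fintype ι] [DecidableEq ι] {F : Type*} [Field F] [Fintype F]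
variable (Q : QuadraticForm F (ι → F))

theorem gl_mulVec_inj (g : GL ι F) {x y : ι → F}
    (h : (g : Matrix ι ι F) *ᵥ x = (g : Matrix ι ι F) *ᵥ y) : x = y := by
  have h3 := congrArg (fun v => ((g⁻¹ : GL ι F) : Matrix ι ι F) *ᵥ v) h
  simp only [Matrix.mulVec_mulVec, ← Units.val_mul, inv_mul_cancel, Units.val_one,
    Matrix.one_mulVec] at h3
  exact h3

/-- Over the field with three elements, the stabiliser in `Ω` of a non-degenerate plane of plus
type is not maximal: it lies in the stabiliser of the pair of vectors of norm one of the plane. -/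
theorem plus_plane_three (hq : Fintype.card F = 3) (hnd : (polarBilin Q).Nondegenerate)
    (hn : 7 ≤ Fintype.card ι) (W : Submodule F (ι → F)) (hdim : finrank F W = 2)
    (hW : Cfsg.Geo.IsNondegenerateOn (polar ⇑Q) W) (hplus : Cfsg.Geo.IsPlusTypeOn ⇑Q W) :
    ∃ K : Subgroup (GL ι F), Cfsg.Geo.subspaceStabilizer W ⊓ Cfsg.Geo.omegaGL ⇑Q < K ∧
      K < Cfsg.Geo.omegaGL ⇑Q := by
  classical
  have h3 := three_eq_zero hq
  have h2 := two_ne_zero_three hq
  have hBal : ∀ x y z, polar ⇑Q (x + y) z = polar ⇑Q x z + polar ⇑Q y z :=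
    fun x y z => polar_add_left Q x y z
  have hBar : ∀ x y z, polar ⇑Q x (y + z) = polar ⇑Q x y + polar ⇑Q x z :=
    fun x y z => polar_add_right Q x y z
  have hBsl : ∀ (a : F) x y, polar ⇑Q (a • x) y = a * polar ⇑Q x y :=
    fun a x y => polar_smul_left' Q x y a
  have hBsr : ∀ (a : F) x y, polar ⇑Q x (a • y) = a * polar ⇑Q x y :=
    fun a x y => polar_smul_right' Q x y a
  have hBc : ∀ x y, polar ⇑Q x y = polar ⇑Q y x := fun x y => polar_comm' Q x y
  have hBs : ∀ x, polar ⇑Q x x = 2 * Q x := fun x => polar_self Q x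
  have hQa : ∀ x y, Q (x + y) = Q x + Q y + polar ⇑Q x y := fun x y => QuadraticMap.map_add Q x y
  have hQs : ∀ (a : F) x, Q (a • x) = a * a * Q x := fun a x => by
    rw [QuadraticMap.map_smul, smul_eq_mul]
  have hB0 : ∀ y, polar ⇑Q 0 y = 0 := fun y => by
    have h4 := hBsl 0 0 y
    rw [zero_smul, zero_mul] at h4
    exact h4
  -- the hyperbolic pair
  obtain ⟨U, hUW, hU0, hUdim⟩ := hplus
  have hU1 : finrank F U = 1 := by omega
  have hUne : U ≠ ⊥ := by
    intro h
    rw [h, finrank_bot] at hU1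
    omega
  obtain ⟨e, heU, he0⟩ := Submodule.exists_mem_ne_zero_of_ne_bot hUne
  have heW : e ∈ W := hUW heU
  have hQe : Q e = 0 := hU0 e heU
  obtain ⟨x, hxW, hxe⟩ := (hW e heW he0).1
  obtain ⟨f, hfW, hQf, hef⟩ : ∃ f ∈ W, Q f = 0 ∧ polar ⇑Q e f = 1 := by
    refine ⟨(polar ⇑Q x e)⁻¹ • x + (-(Q ((polar ⇑Q x e)⁻¹ • x))) • e,
      W.add_mem (W.smul_mem _ hxW) (W.smul_mem _ heW), ?_, ?_⟩
    · rw [hQa, hQs (-(Q ((polar ⇑Q x e)⁻¹ • x))) e, hQe, hBsr, hBsl, inv_mul_cancel₀ hxe]
      ring
    · rw [hBar, hBsr, hBsr, hBs, hQe, hBc e x, inv_mul_cancel₀ hxe]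
      ring
  have hfe : polar ⇑Q f e = 1 := by rw [hBc]; exact hef
  have hee : polar ⇑Q e e = 0 := by rw [hBs, hQe]; ring
  have hff : polar ⇑Q f f = 0 := by rw [hBs, hQf]; ring
  have hli : LinearIndependent F ![e, f] := by
    rw [LinearIndependent.pair_iff]
    intro α β hab
    have h1 : polar ⇑Q (α • e + β • f) f = 0 := by rw [hab]; exact hB0 _
    have h1' : polar ⇑Q (α • e + β • f) e = 0 := by rw [hab]; exact hB0 _
    rw [hBal, hBsl, hBsl, hef, hff] at h1
    rw [hBal, hBsl, hBsl, hee, hfe] at h1'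
    exact ⟨by linear_combination h1, by linear_combination h1'⟩
  have hspan : Submodule.span F {e, f} = W := by
    apply Submodule.eq_of_le_of_finrank_eq
    · rw [Submodule.span_le]
      rintro y (rfl | rfl)
      · exact heW
      · exact hfW
    · rw [hdim]
      have h4 := finrank_span_eq_card hli
      rw [Matrix.range_cons_cons_empty] at h4
      rw [h4]
      simp
  have hWexp : ∀ w ∈ W, ∃ α β : F, w = α • e + β • f := by
    intro w hw
    rw [← hspan] at hw
    obtain ⟨α, β, h⟩ := Submodule.mem_span_pair.mp hw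
    exact ⟨α, β, h.symm⟩
  obtain ⟨s, hs⟩ : ∃ s, s = e + f := ⟨_, rfl⟩
  obtain ⟨v, hv⟩ : ∃ v, v = e + (-1 : F) • f := ⟨_, rfl⟩
  have hsW : s ∈ W := by rw [hs]; exact W.add_mem heW hfW
  have hvW : v ∈ W := by rw [hv]; exact W.add_mem heW (W.smul_mem _ hfW)
  have hQs1 : Q s = 1 := by rw [hs, hQa, hQe, hQf, hef]; ring
  have hQv : Q v = -1 := by rw [hv, hQa, hQs, hQe, hQf, hBsr, hef]; ring
  have hsv : polar ⇑Q s v = 0 := by
    rw [hs, hv]
    simp only [hBal, hBar, hBsr, hee, hef, hfe, hff]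
    ring
  have hvs : polar ⇑Q v s = 0 := by rw [hBc]; exact hsv
  have hss : polar ⇑Q s s = 2 := by rw [hBs, hQs1]; ring
  have hvv : polar ⇑Q v v = -2 := by rw [hBs, hQv]; ring
  have hS : ∀ w ∈ W, Q w = 1 → w = s ∨ w = -s := by
    intro w hw hQw
    obtain ⟨α, β, rfl⟩ := hWexp w hw
    have h4 : α * β = 1 := by
      rw [hQa, hQs, hQs, hQe, hQf, hBsl, hBsr, hef] at hQw
      linear_combination hQw
    rcases three_cases hq α with h | h | h
    · exfalso
      rw [h, zero_mul] at h4
      exact zero_ne_one h4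
    · rcases three_cases hq β with h' | h' | h'
      · exfalso
        rw [h', mul_zero] at h4
        exact zero_ne_one h4
      · left
        rw [h, h', one_smul, one_smul, hs]
      · exfalso
        rw [h, h'] at h4
        exact h2 (by linear_combination -h4)
    · rcases three_cases hq β with h' | h' | h'
      · exfalso
        rw [h', mul_zero] at h4
        exact zero_ne_one h4
      · exfalso
        rw [h, h'] at h4
        exact h2 (by linear_combination -h4)
      · right
        rw [h, h', hs]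
        module
  obtain ⟨c, hce, hcf, hQc⟩ := exists_perp_value Q hq hnd hn e f (-1) (neg_ne_zero.mpr one_ne_zero)
  have hsc : polar ⇑Q s c = 0 := by rw [hs, hBal, hce, hcf, add_zero]
  have hvc : polar ⇑Q v c = 0 := by rw [hv, hBal, hBsl, hce, hcf]; ring
  have hcs : polar ⇑Q c s = 0 := by rw [hBc]; exact hsc
  have hcv : polar ⇑Q c v = 0 := by rw [hBc]; exact hvc
  have hcW : c ∉ W := by
    intro hc
    obtain ⟨α, β, hαβ⟩ := hWexp c hc
    have h4 : polar ⇑Q e c = β := by rw [hαβ, hBar, hBsr, hBsr, hee, hef]; ring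
    have h5 : polar ⇑Q f c = α := by rw [hαβ, hBar, hBsr, hBsr, hfe, hff]; ring
    rw [hce] at h4
    rw [hcf] at h5
    rw [hαβ, ← h4, ← h5, zero_smul, zero_smul, add_zero, QuadraticMap.map_zero] at hQc
    exact one_ne_zero (α := F) (by linear_combination hQc)
  have hSmem : ∀ w : ι → F, w ∈ {w : ι → F | w ∈ W ∧ Q w = 1} ↔ (w ∈ W ∧ Q w = 1) := fun w => Iff.rfl
  have hsS : s ∈ {w : ι → F | w ∈ W ∧ Q w = 1} := ⟨hsW, hQs1⟩
  have hnsS : -s ∈ {w : ι → F | w ∈ W ∧ Q w = 1} :=
    ⟨W.neg_mem hsW, by rw [QuadraticMap.map_neg, hQs1]⟩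
  refine ⟨stabSet (Cfsg.Geo.omegaGL ⇑Q) {w | w ∈ W ∧ Q w = 1}, ?_, ?_⟩
  · rw [lt_iff_le_and_ne]
    constructor
    · intro g hg
      refine ⟨hg.2, fun y => ?_⟩
      have h4 : y ∈ W ↔ (g : Matrix ι ι F) *ᵥ y ∈ W := hg.1 y
      rw [hSmem, hSmem, omegaGL_isometry Q g hg.2 y, h4]
    · intro hEq
      obtain ⟨b, hb⟩ : ∃ b, b = v + c := ⟨_, rfl⟩
      have hQb : Q b = 1 := by
        rw [hb, hQa, hQv, hQc, hvc]
        linear_combination (-1 : F) * h3
      have hbs : polar ⇑Q b s = 0 := by rw [hb, hBal, hvs, hcs, add_zero]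
      have hbv : polar ⇑Q b v = 1 := by
        rw [hb, hBal, hvv, hcv]
        linear_combination (-1 : F) * h3
      obtain ⟨g, hgΩ, hgv⟩ := exists_two_refl Q h2 s b (by rw [hQs1]; exact one_ne_zero)
        (by rw [hQs1, hQb])
      have hgs : (g : Matrix ι ι F) *ᵥ s = -s := by
        rw [hgv]
        unfold rmap
        rw [hbs, mul_zero, zero_smul, sub_zero, hss, hQs1, inv_one, one_mul]
        module
      have hgns : (g : Matrix ι ι F) *ᵥ (-s) = s := by rw [Matrix.mulVec_neg, hgs, neg_neg]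
      have hgK : g ∈ stabSet (Cfsg.Geo.omegaGL ⇑Q) {w | w ∈ W ∧ Q w = 1} := by
        refine ⟨hgΩ, fun y => ⟨fun hy => ?_, fun hy => ?_⟩⟩
        · rcases hS _ hy.1 hy.2 with h4 | h4
          · have h5 : y = -s := gl_mulVec_inj g (by rw [h4, hgns])
            rw [h5]
            exact hnsS
          · have h5 : y = s := gl_mulVec_inj g (by rw [h4, hgs])
            rw [h5]
            exact hsS
        · rcases hS y hy.1 hy.2 with h4 | h4
          · rw [h4, hgs]
            exact hnsS
          · rw [h4, hgns]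
            exact hsS
      rw [← hEq] at hgK
      have h4 : (g : Matrix ι ι F) *ᵥ v ∈ W := (hgK.1 v).mp hvW
      have hgvv : (g : Matrix ι ι F) *ᵥ v = -c := by
        rw [hgv]
        unfold rmap
        rw [hbv, hQb, inv_one, one_mul, one_smul]
        have h5 : v - b = -c := by rw [hb]; abel
        rw [h5, polar_neg_right, hsc, neg_zero, mul_zero, zero_smul, sub_zero]
      rw [hgvv] at h4
      exact hcW (by simpa using W.neg_mem h4)
  · rw [lt_iff_le_and_ne]
    constructor
    · exact fun g hg => hg.1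
    · intro hEq
      obtain ⟨a, ha⟩ : ∃ a, a = s + v + c := ⟨_, rfl⟩
      have hQa' : Q a = -1 := by
        rw [ha, hQa, hQa, hQs1, hQv, hQc, hsv, hBal, hsc, hvc]
        ring
      have has : polar ⇑Q a s = 2 := by
        rw [ha, hBal, hBal, hss, hvs, hcs]
        ring
      obtain ⟨g, hgΩ, hgv⟩ := exists_two_refl Q h2 a v
        (by rw [hQa']; exact neg_ne_zero.mpr one_ne_zero) (by rw [hQa', hQv])
      have hgK : g ∈ stabSet (Cfsg.Geo.omegaGL ⇑Q) {w | w ∈ W ∧ Q w = 1} := by
        rw [hEq]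
        exact hgΩ
      have h4 : (g : Matrix ι ι F) *ᵥ s ∈ W := ((hgK.2 s).mpr hsS).1
      have hgs : (g : Matrix ι ι F) *ᵥ s = -(v + c) := by
        rw [hgv]
        unfold rmap
        rw [hvs, mul_zero, zero_smul, sub_zero, has, hQa']
        have h5 : ((-1 : F))⁻¹ * 2 = 1 := by
          rw [inv_neg, inv_one]
          linear_combination (-1 : F) * h3
        rw [h5, one_smul, ha]
        abel
      rw [hgs] at h4
      have h5 : v + c ∈ W := by simpa using W.neg_mem h4
      exact hcW ((W.add_mem_iff_right hvW).mp h5)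

end PlusPlane

end Cfsg.Agent.Lib.Helper98
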