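import Mathlib
import Cfsg.Prelude.Def_GeometricClasses
import Cfsg.Agent.Lib.Helper98.OrthNM
import Cfsg.Agent.Lib.Helper7.OmegaCenter

/-!
# Orthogonal geometry helpers for non-maximality statements, part 2 (helper98)

* `qfOf Q hQ`: the `QuadraticForm` of a function `Q` with `Cfsg.Geo.IsNondegenerateQuadraticForm Q`
  (`coe_qfOf : ⇑(qfOf Q hQ) = Q`, `qfOf_nondegenerate`).
* `exists_two_refl_gen`: in any characteristic the product of two reflections in vectors of equal
  norm lies in `Cfsg.Geo.omegaGL Q` (from `Helper7.refl_mul_refl_mem_commutator`).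
* `exists_singular_two`: over the field with two elements a subspace of dimension at least 3
  contains a non-zero singular vector.
* `plus_plane_two`: over the field with two elements the stabiliser in `Ω` of a non-degenerate
  plane of plus type is not maximal (it fixes the unique non-singular vector of the plane).
* `plus_plane_le_three`: the same for an abstract non-degenerate `Q` over a field with at most
  three elements.
-/

set_option autoImplicit false
set_option linter.unusedSectionVars false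

namespace Cfsg.Agent.Lib.Helper98

open Cfsg Module Matrix QuadraticMap Cfsg.Agent.Lib.Helper51

section

variable {ι : Type} [Fintype ι] [DecidableEq ι] {F : Type*} [Field F]

/-- The `QuadraticForm` of a function satisfying `Cfsg.Geo.IsNondegenerateQuadraticForm`. -/
def qfOf (Q : (ι → F) → F) (hQ : Cfsg.Geo.IsNondegenerateQuadraticForm Q) :
    QuadraticForm F (ι → F) :=
  QuadraticMap.ofPolar Q (fun a x => by rw [hQ.smul, smul_eq_mul, pow_two])
    (fun x x' y => hQ.polar_bilinear.add_left x x' y)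
    (fun a x y => by rw [hQ.polar_bilinear.smul_left, smul_eq_mul])

theorem coe_qfOf (Q : (ι → F) → F) (hQ : Cfsg.Geo.IsNondegenerateQuadraticForm Q) :
    ⇑(qfOf Q hQ) = Q := rfl

theorem qfOf_nondegenerate [Fintype F] (Q : (ι → F) → F)
    (hQ : Cfsg.Geo.IsNondegenerateQuadraticForm Q) :
    (polarBilin (qfOf Q hQ)).Nondegenerate := by
  apply Cfsg.Agent.Lib.Helper7.polarBilin_nondegenerate_of
  intro u hu
  by_contra hu0
  obtain ⟨x, hx⟩ := (hQ.nondegenerate u hu0).2
  exact hx (hu x)

end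

section

variable {ι : Type} [Fintype ι] [DecidableEq ι] {F : Type*} [Field F] [Fintype F]
variable (Q : QuadraticForm F (ι → F))

/-- In any characteristic the product of two reflections in vectors of equal norm lies in `Ω`. -/
theorem exists_two_refl_gen (hnd : (polarBilin Q).Nondegenerate)
    (h : Fintype.card F ≠ 2 ∨ Fintype.card ι ≠ 4) (a b : ι → F) (ha : Q a ≠ 0)
    (hab : Q a = Q b) :
    ∃ g : GL ι F, g ∈ Cfsg.Geo.omegaGL ⇑Q ∧
      ∀ x, (g : Matrix ι ι F) *ᵥ x = rmap Q a (rmap Q b x) := by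
  have hb : Q b ≠ 0 := by rw [← hab]; exact ha
  have hmem : refl Q a ha * refl Q b hb ∈ Cfsg.Omega F ⇑Q :=
    Cfsg.Agent.Lib.Helper7.refl_mul_refl_mem_commutator Q hnd h a b ha hb hab
  refine ⟨((refl Q a ha * refl Q b hb : isometryGroup F ⇑Q) : GL ι F), ⟨_, hmem, rfl⟩, fun x => ?_⟩
  rw [Subgroup.coe_mul, Units.val_mul, coe_refl, coe_refl, ← Matrix.mulVec_mulVec,
    reflectionMatrix_mulVec, reflectionMatrix_mulVec]
  rfl

theorem two_eq_zero_two (hq : Fintype.card F = 2) : (2 : F) = 0 := by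
  have h3 := FiniteField.cast_card_eq_zero F
  rw [hq] at h3
  exact_mod_cast h3

theorem two_cases (hq : Fintype.card F = 2) (x : F) : x = 0 ∨ x = 1 := by
  classical
  by_contra hx
  push Not at hx
  have h1 : ({0, 1, x} : Finset F).card ≤ Fintype.card F := Finset.card_le_univ _
  rw [hq, Finset.card_insert_of_notMem (by simp [hx.1.symm]),
    Finset.card_insert_of_notMem (by simp [hx.2.symm]), Finset.card_singleton] at h1
  omega

/-- Over the field with two elements a subspace of dimension at least 3 contains a non-zero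
singular vector. -/
theorem exists_singular_two (hq : Fintype.card F = 2) (Y : Submodule F (ι → F))
    (hY : 3 ≤ finrank F Y) : ∃ u ∈ Y, u ≠ 0 ∧ Q u = 0 := by
  have h2 : (2 : F) = 0 := two_eq_zero_two hq
  have hYne : Y ≠ ⊥ := by
    intro h
    rw [h, finrank_bot] at hY
    omega
  obtain ⟨x, hxY, hx0⟩ := Submodule.exists_mem_ne_zero_of_ne_bot hYne
  by_cases hQx : Q x = 0
  · exact ⟨x, hxY, hx0, hQx⟩
  have h1 : finrank F Y ≤ finrank F ↥(Y ⊓ LinearMap.ker (polarBilin Q x)) + 1 :=
    finrank_le_inf_ker_add_one _ _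
  obtain ⟨y, hy, hyx⟩ : ∃ y ∈ Y ⊓ LinearMap.ker (polarBilin Q x), y ∉ Submodule.span F {x} := by
    by_contra hcon
    push Not at hcon
    have h3 : Y ⊓ LinearMap.ker (polarBilin Q x) ≤ Submodule.span F {x} := hcon
    have h4 := Submodule.finrank_mono h3
    have h5 : finrank F (Submodule.span F {x}) = 1 := finrank_span_singleton hx0
    omega
  have hxy : polar ⇑Q x y = 0 := by
    have h5 : y ∈ LinearMap.ker (polarBilin Q x) := hy.2
    rw [LinearMap.mem_ker, polarBilin_apply_apply] at h5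
    exact h5
  by_cases hQy : Q y = 0
  · exact ⟨y, hy.1, fun h => hyx (by rw [h]; exact Submodule.zero_mem _), hQy⟩
  · refine ⟨x + y, Y.add_mem hxY hy.1, ?_, ?_⟩
    · intro h
      apply hyx
      have h6 : y = -x := by
        rw [eq_neg_iff_add_eq_zero, add_comm]
        exact h
      rw [h6]
      exact Submodule.neg_mem _ (Submodule.mem_span_singleton_self x)
    · rw [QuadraticMap.map_add Q x y, hxy]
      rcases two_cases hq (Q x) with h | h
      · exact absurd h hQx
      rcases two_cases hq (Q y) with h' | h'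
      · exact absurd h' hQy
      rw [h, h']
      linear_combination h2

/-- Over the field with two elements, the stabiliser in `Ω` of a non-degenerate plane of plus
type is not maximal: it lies in the stabiliser of the unique non-singular vector of the plane. -/
theorem plus_plane_two (hq : Fintype.card F = 2) (hnd : (polarBilin Q).Nondegenerate)
    (hn : 7 ≤ Fintype.card ι) (W : Submodule F (ι → F)) (hdim : finrank F W = 2)
    (hW : Cfsg.Geo.IsNondegenerateOn (polar ⇑Q) W) (hplus : Cfsg.Geo.IsPlusTypeOn ⇑Q W) :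
    ∃ K : Subgroup (GL ι F), Cfsg.Geo.subspaceStabilizer W ⊓ Cfsg.Geo.omegaGL ⇑Q < K ∧
      K < Cfsg.Geo.omegaGL ⇑Q := by
  classical
  have h2 := two_eq_zero_two hq
  have hBal : ∀ x y z, polar ⇑Q (x + y) z = polar ⇑Q x z + polar ⇑Q y z :=
    fun x y z => polar_add_left Q x y z
  have hBar : ∀ x y z, polar ⇑Q x (y + z) = polar ⇑Q x y + polar ⇑Q x z :=
    fun x y z => polar_add_right Q x y z
  have hBsl : ∀ (a : F) x y, polar ⇑Q (a • x) y = a * polar ⇑Q x y :=
    fun a x y => polar_smul_left' Q x y a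
  have hBsr : ∀ (a : F) x y, polar ⇑Q x (a • y) = a * polar ⇑Q x y :=
    fun a x y => polar_smul_right' Q x y a
  have hBc : ∀ x y, polar ⇑Q x y = polar ⇑Q y x := fun x y => polar_comm' Q x y
  have hBs : ∀ x, polar ⇑Q x x = 2 * Q x := fun x => polar_self Q x
  have hQa : ∀ x y, Q (x + y) = Q x + Q y + polar ⇑Q x y := fun x y => QuadraticMap.map_add Q x y
  have hQs : ∀ (a : F) x, Q (a • x) = a * a * Q x := fun a x => by
    rw [QuadraticMap.map_smul, smul_eq_mul]
  have hB0 : ∀ y, polar ⇑Q 0 y = 0 := fun y => by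
    have h4 := hBsl 0 0 y
    rw [zero_smul, zero_mul] at h4
    exact h4
  have hBself : ∀ x, polar ⇑Q x x = 0 := fun x => by
    rw [hBs]
    linear_combination Q x * h2
  -- the hyperbolic pair
  obtain ⟨U, hUW, hU0, hUdim⟩ := hplus
  have hU1 : finrank F U = 1 := by omega
  have hUne : U ≠ ⊥ := by
    intro h
    rw [h, finrank_bot] at hU1
    omega
  obtain ⟨e, heU, he0⟩ := Submodule.exists_mem_ne_zero_of_ne_bot hUne
  have heW : e ∈ W := hUW heU
  have hQe : Q e = 0 := hU0 e heU
  obtain ⟨x, hxW, hxe⟩ := (hW e heW he0).1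
  obtain ⟨f, hfW, hQf, hef⟩ : ∃ f ∈ W, Q f = 0 ∧ polar ⇑Q e f = 1 := by
    refine ⟨(polar ⇑Q x e)⁻¹ • x + (-(Q ((polar ⇑Q x e)⁻¹ • x))) • e,
      W.add_mem (W.smul_mem _ hxW) (W.smul_mem _ heW), ?_, ?_⟩
    · rw [hQa, hQs (-(Q ((polar ⇑Q x e)⁻¹ • x))) e, hQe, hBsr, hBsl, inv_mul_cancel₀ hxe]
      ring
    · rw [hBar, hBsr, hBsr, hBs, hQe, hBc e x, inv_mul_cancel₀ hxe]
      ring
  have hfe : polar ⇑Q f e = 1 := by rw [hBc]; exact hef
  have hee : polar ⇑Q e e = 0 := hBself e
  have hff : polar ⇑Q f f = 0 := hBself f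
  have hli : LinearIndependent F ![e, f] := by
    rw [LinearIndependent.pair_iff]
    intro α β hab
    have h1 : polar ⇑Q (α • e + β • f) f = 0 := by rw [hab]; exact hB0 _
    have h1' : polar ⇑Q (α • e + β • f) e = 0 := by rw [hab]; exact hB0 _
    rw [hBal, hBsl, hBsl, hef, hff] at h1
    rw [hBal, hBsl, hBsl, hee, hfe] at h1'
    exact ⟨by linear_combination h1, by linear_combination h1'⟩
  have hspan : Submodule.span F {e, f} = W := by
    apply Submodule.eq_of_le_of_finrank_eq
    · rw [Submodule.span_le]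
      rintro y (rfl | rfl)
      · exact heW
      · exact hfW
    · rw [hdim]
      have h4 := finrank_span_eq_card hli
      rw [Matrix.range_cons_cons_empty] at h4
      rw [h4]
      simp
  have hWexp : ∀ w ∈ W, ∃ α β : F, w = α • e + β • f := by
    intro w hw
    rw [← hspan] at hw
    obtain ⟨α, β, h⟩ := Submodule.mem_span_pair.mp hw
    exact ⟨α, β, h.symm⟩
  obtain ⟨s, hs⟩ : ∃ s, s = e + f := ⟨_, rfl⟩
  have hsW : s ∈ W := by rw [hs]; exact W.add_mem heW hfW
  have hQs1 : Q s = 1 := by rw [hs, hQa, hQe, hQf, hef]; ring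
  have hss : polar ⇑Q s s = 0 := hBself s
  have hse : polar ⇑Q s e = 1 := by rw [hs, hBal, hee, hfe]; ring
  have hes : polar ⇑Q e s = 1 := by rw [hBc]; exact hse
  have hS : ∀ w ∈ W, Q w ≠ 0 → w = s := by
    intro w hw hQw
    obtain ⟨α, β, rfl⟩ := hWexp w hw
    have h4 : Q (α • e + β • f) = α * β := by
      rw [hQa, hQs, hQs, hQe, hQf, hBsl, hBsr, hef]
      ring
    rw [h4] at hQw
    rcases two_cases hq α with h | h
    · rw [h, zero_mul] at hQw
      exact absurd rfl hQw
    rcases two_cases hq β with h' | h'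
    · rw [h', mul_zero] at hQw
      exact absurd rfl hQw
    rw [h, h', one_smul, one_smul, hs]
  -- the orthogonal complement of the plane
  have hfin : finrank F (ι → F) = Fintype.card ι := Module.finrank_fintype_fun_eq_card F
  obtain ⟨Y₀, hY₀⟩ : ∃ Y : Submodule F (ι → F), Y = ((⊤ : Submodule F (ι → F)) ⊓
      LinearMap.ker (polarBilin Q e)) ⊓ LinearMap.ker (polarBilin Q f) := ⟨_, rfl⟩
  have h1 : finrank F (⊤ : Submodule F (ι → F)) ≤
      finrank F ↥((⊤ : Submodule F (ι → F)) ⊓ LinearMap.ker (polarBilin Q e)) + 1 :=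
    finrank_le_inf_ker_add_one _ _
  have h1' : finrank F ↥((⊤ : Submodule F (ι → F)) ⊓ LinearMap.ker (polarBilin Q e)) ≤
      finrank F ↥Y₀ + 1 := by
    rw [hY₀]
    exact finrank_le_inf_ker_add_one _ _
  rw [finrank_top, hfin] at h1
  have hY₀mem : ∀ c ∈ Y₀, polar ⇑Q e c = 0 ∧ polar ⇑Q f c = 0 := by
    intro c hc
    rw [hY₀] at hc
    have h4 : c ∈ LinearMap.ker (polarBilin Q e) := hc.1.2
    have h5 : c ∈ LinearMap.ker (polarBilin Q f) := hc.2
    rw [LinearMap.mem_ker, polarBilin_apply_apply] at h4 h5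
    exact ⟨h4, h5⟩
  have hYW : ∀ c ∈ Y₀, c ∈ W → c = 0 := by
    intro c hcY hc
    obtain ⟨α, β, hαβ⟩ := hWexp c hc
    have h4 : polar ⇑Q e c = β := by rw [hαβ, hBar, hBsr, hBsr, hee, hef]; ring
    have h5 : polar ⇑Q f c = α := by rw [hαβ, hBar, hBsr, hBsr, hfe, hff]; ring
    rw [(hY₀mem c hcY).1] at h4
    rw [(hY₀mem c hcY).2] at h5
    rw [hαβ, ← h4, ← h5, zero_smul, zero_smul, add_zero]
  have hYs : ∀ c ∈ Y₀, polar ⇑Q s c = 0 := by
    intro c hc
    rw [hs, hBal, (hY₀mem c hc).1, (hY₀mem c hc).2, add_zero]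
  obtain ⟨c, hcY, hQc⟩ := exists_nonsingular_of_finrank Q hnd Y₀ (by rw [hfin]; omega)
  obtain ⟨u, huY, hu0, hQu⟩ := exists_singular_two Q hq Y₀ (by omega)
  have hLmem : ∀ w : ι → F, w ∈ {w : ι → F | w ∈ W ∧ Q w ≠ 0} ↔ (w ∈ W ∧ Q w ≠ 0) :=
    fun w => Iff.rfl
  have hsL : s ∈ {w : ι → F | w ∈ W ∧ Q w ≠ 0} := ⟨hsW, by rw [hQs1]; exact one_ne_zero⟩
  refine ⟨stabSet (Cfsg.Geo.omegaGL ⇑Q) {w | w ∈ W ∧ Q w ≠ 0}, ?_, ?_⟩
  · rw [lt_iff_le_and_ne]
    constructor
    · intro g hg
      refine ⟨hg.2, fun y => ?_⟩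
      have h4 : y ∈ W ↔ (g : Matrix ι ι F) *ᵥ y ∈ W := hg.1 y
      rw [hLmem, hLmem, omegaGL_isometry Q g hg.2 y, h4]
    · intro hEq
      obtain ⟨b, hb⟩ : ∃ b, b = s + u := ⟨_, rfl⟩
      have hsu : polar ⇑Q s u = 0 := hYs u huY
      have hQb : Q b = 1 := by
        rw [hb, hQa, hQs1, hQu, hsu]
        ring
      have hbs : polar ⇑Q b s = 0 := by rw [hb, hBal, hss, hBc u s, hsu, add_zero]
      have hsb : polar ⇑Q s b = 0 := by rw [hBc]; exact hbs
      have hbe : polar ⇑Q b e = 1 := by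
        rw [hb, hBal, hse, hBc u e, (hY₀mem u huY).1, add_zero]
      obtain ⟨g, hgΩ, hgv⟩ := exists_two_refl_gen Q hnd (Or.inr (by omega)) s b
        (by rw [hQs1]; exact one_ne_zero) (by rw [hQs1, hQb])
      have hgs : (g : Matrix ι ι F) *ᵥ s = s := by
        rw [hgv]
        unfold rmap
        rw [hbs, mul_zero, zero_smul, sub_zero, hss, mul_zero, zero_smul, sub_zero]
      have hgK : g ∈ stabSet (Cfsg.Geo.omegaGL ⇑Q) {w | w ∈ W ∧ Q w ≠ 0} := by
        refine ⟨hgΩ, fun y => ⟨fun hy => ?_, fun hy => ?_⟩⟩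
        · have h4 := hS _ hy.1 hy.2
          have h5 : y = s := gl_mulVec_inj g (by rw [h4, hgs])
          rw [h5]
          exact hsL
        · have h4 := hS y hy.1 hy.2
          rw [h4, hgs]
          exact hsL
      rw [← hEq] at hgK
      have h4 : (g : Matrix ι ι F) *ᵥ e ∈ W := (hgK.1 e).mp heW
      have hge : (g : Matrix ι ι F) *ᵥ e = e - u := by
        rw [hgv]
        unfold rmap
        rw [hbe, hQb, inv_one, one_mul, one_smul, polar_sub_right, hse, hsb, hQs1, inv_one,
          one_mul, sub_zero, one_smul, hb]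
        have h5 : (2 : F) • s = 0 := by rw [h2, zero_smul]
        have h6 : e - (s + u) - s = e - u - (2 : F) • s := by module
        rw [h6, h5, sub_zero]
      rw [hge] at h4
      have h5 : u ∈ W := by
        have h6 := W.sub_mem heW h4
        rwa [sub_sub_cancel] at h6
      exact hu0 (hYW u huY h5)
  · rw [lt_iff_le_and_ne]
    constructor
    · exact fun g hg => hg.1
    · intro hEq
      obtain ⟨a, ha⟩ : ∃ a, a = e + c := ⟨_, rfl⟩
      have hQc1 : Q c = 1 := by
        rcases two_cases hq (Q c) with h | h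
        · exact absurd h hQc
        · exact h
      have hQa' : Q a = 1 := by
        rw [ha, hQa, hQe, hQc1, (hY₀mem c hcY).1]
        ring
      have has : polar ⇑Q a s = 1 := by
        rw [ha, hBal, hes, hBc c s, hYs c hcY, add_zero]
      obtain ⟨g, hgΩ, hgv⟩ := exists_two_refl_gen Q hnd (Or.inr (by omega)) a s
        (by rw [hQa']; exact one_ne_zero) (by rw [hQa', hQs1])
      have hgK : g ∈ stabSet (Cfsg.Geo.omegaGL ⇑Q) {w | w ∈ W ∧ Q w ≠ 0} := by
        rw [hEq]
        exact hgΩ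
      have h4 : (g : Matrix ι ι F) *ᵥ s ∈ {w : ι → F | w ∈ W ∧ Q w ≠ 0} := (hgK.2 s).mpr hsL
      have hgs : (g : Matrix ι ι F) *ᵥ s = s - a := by
        rw [hgv]
        unfold rmap
        rw [hss, mul_zero, zero_smul, sub_zero, has, hQa', inv_one, one_mul, one_smul]
      have h5 := hS _ h4.1 h4.2
      rw [hgs] at h5
      have h6 : a = 0 := by
        have h7 : s - (s - a) = s - s := by rw [h5]
        rwa [sub_sub_cancel, sub_self] at h7
      rw [h6, QuadraticMap.map_zero] at hQa'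
      exact zero_ne_one hQa'

/-- For an abstract non-degenerate quadratic form over a field with at most three elements, in
dimension at least 7, the stabiliser in `Ω` of a non-degenerate plane of plus type is not
maximal. -/
theorem plus_plane_le_three (Q : (ι → F) → F) (hQ : Cfsg.Geo.IsNondegenerateQuadraticForm Q)
    (hq : Fintype.card F ≤ 3) (hn : 7 ≤ Fintype.card ι) (W : Submodule F (ι → F))
    (hdim : finrank F W = 2) (hW : Cfsg.Geo.IsNondegenerateOn (polar Q) W)
    (hplus : Cfsg.Geo.IsPlusTypeOn Q W) :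
    ∃ K : Subgroup (GL ι F), Cfsg.Geo.subspaceStabilizer W ⊓ Cfsg.Geo.omegaGL Q < K ∧
      K < Cfsg.Geo.omegaGL Q := by
  have h1 : 1 < Fintype.card F := Fintype.one_lt_card
  rw [← coe_qfOf Q hQ] at hW hplus ⊢
  by_cases h2 : Fintype.card F = 2
  · exact plus_plane_two (qfOf Q hQ) h2 (qfOf_nondegenerate Q hQ) hn W hdim hW hplus
  · exact plus_plane_three (qfOf Q hQ) (by omega) (qfOf_nondegenerate Q hQ) hn W hdim hW hplus

end

end Cfsg.Agent.Lib.Helper98
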