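import Mathlib
import Cfsg.Prelude.Def_GeometricClasses
import Cfsg.Agent.Lib.Helper98.OrthNM2

/-!
# Orthogonal frames (helper98)

* `IsFrameOn B W d a`: the family `a` consists of pairwise orthogonal vectors of the subspace `W`,
  all of norm `B (a j) (a j) = d ≠ 0`, and no non-zero vector of `W` is orthogonal to all of them.
* `IsFVOn B W u`: `u ∈ W` is non-isotropic and its orthogonal complement in `W` is anisotropic.
* Over the field with three elements, a non-degenerate three-dimensional `W` has a frame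
  (`exists_frame3`), and the vectors with `IsFVOn` are exactly the frame vectors and their negatives
  (`IsFrameOn.eq_of_isFV`, `IsFrameOn.isFV`): this is `O_3(3) = O_1(3) wr S_3`.
* `mem_stabSet_of_forall`: over a finite field, an element of `S` mapping `L` into itself lies in
  `stabSet S L`.
-/

set_option autoImplicit false
set_option linter.unusedSectionVars false

namespace Cfsg.Agent.Lib.Helper98

open Cfsg Module Matrix

/-- Over a finite field, an element of `S` mapping the set `L` into itself stabilises it. -/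
theorem mem_stabSet_of_forall {ι : Type} [Fintype ι] [DecidableEq ι] {F : Type*} [Field F]
    [Fintype F] (S : Subgroup (GL ι F)) (L : Set (ι → F)) (g : GL ι F) (hg : g ∈ S)
    (h : ∀ v ∈ L, (g : Matrix ι ι F) *ᵥ v ∈ L) : g ∈ stabSet S L := by
  refine ⟨hg, fun v => ⟨fun hv => ?_, fun hv => h v hv⟩⟩
  have hfin : Finite L := Finite.of_injective (fun x : L => (x : ι → F)) Subtype.val_injective
  have hinj : Function.Injective (fun x : L => (⟨(g : Matrix ι ι F) *ᵥ x.1, h x.1 x.2⟩ : L)) := by
    intro x y hxy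
    have h1 : (g : Matrix ι ι F) *ᵥ x.1 = (g : Matrix ι ι F) *ᵥ y.1 := congrArg Subtype.val hxy
    exact Subtype.ext (gl_mulVec_inj g h1)
  obtain ⟨x, hx⟩ := (Finite.injective_iff_surjective.mp hinj) ⟨_, hv⟩
  have h1 : (g : Matrix ι ι F) *ᵥ x.1 = (g : Matrix ι ι F) *ᵥ v := congrArg Subtype.val hx
  rw [← gl_mulVec_inj g h1]
  exact x.2

section Frame

variable {F : Type*} [Field F] {M : Type*} [AddCommGroup M] [Module F M]

/-- `a` is an orthogonal frame of the subspace `W` for `B`, with all norms equal to `d`. -/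
structure IsFrameOn (B : LinearMap.BilinForm F M) (W : Submodule F M) {κ : Type*} (d : F)
    (a : κ → M) : Prop where
  mem : ∀ j, a j ∈ W
  ne : d ≠ 0
  norm : ∀ j, B (a j) (a j) = d
  orth : ∀ j k, j ≠ k → B (a j) (a k) = 0
  span : ∀ w ∈ W, (∀ j, B w (a j) = 0) → w = 0

/-- `u ∈ W` is non-isotropic and its orthogonal complement in `W` is anisotropic. -/
def IsFVOn (B : LinearMap.BilinForm F M) (W : Submodule F M) (u : M) : Prop :=
  u ∈ W ∧ B u u ≠ 0 ∧ ∀ w ∈ W, w ≠ 0 → B u w = 0 → B w w ≠ 0

theorem IsFVOn.neg {B : LinearMap.BilinForm F M} {W : Submodule F M} {u : M}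
    (h : IsFVOn B W u) : IsFVOn B W (-u) := by
  refine ⟨W.neg_mem h.1, ?_, fun w hw hw0 hBw => h.2.2 w hw hw0 ?_⟩
  · simpa using h.2.1
  · simpa using hBw

/-- Expansion of a vector of `W` in a frame. -/
theorem IsFrameOn.expand {B : LinearMap.BilinForm F M} {W : Submodule F M} {d : F}
    {a : Fin 3 → M} (h : IsFrameOn B W d a) (w : M) (hw : w ∈ W) :
    w = (d⁻¹ * B w (a 0)) • a 0 + (d⁻¹ * B w (a 1)) • a 1 + (d⁻¹ * B w (a 2)) • a 2 := by
  have hd := h.ne
  have key : w - ((d⁻¹ * B w (a 0)) • a 0 + (d⁻¹ * B w (a 1)) • a 1 + (d⁻¹ * B w (a 2)) • a 2)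
      = 0 := by
    apply h.span
    · exact W.sub_mem hw (W.add_mem (W.add_mem (W.smul_mem _ (h.mem 0)) (W.smul_mem _ (h.mem 1)))
        (W.smul_mem _ (h.mem 2)))
    · intro j
      fin_cases j
      · simp only [map_sub, map_add, map_smul, LinearMap.sub_apply, LinearMap.add_apply,
          LinearMap.smul_apply, smul_eq_mul, Fin.zero_eta]
        rw [h.norm 0, h.orth 1 0 (by decide), h.orth 2 0 (by decide)]
        field_simp
        ring
      · simp only [map_sub, map_add, map_smul, LinearMap.sub_apply, LinearMap.add_apply,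
          LinearMap.smul_apply, smul_eq_mul, Fin.mk_one]
        rw [h.norm 1, h.orth 0 1 (by decide), h.orth 2 1 (by decide)]
        field_simp
        ring
      · simp only [map_sub, map_add, map_smul, LinearMap.sub_apply, LinearMap.add_apply,
          LinearMap.smul_apply, smul_eq_mul]
        rw [show (⟨2, by decide⟩ : Fin 3) = 2 from rfl, h.norm 2, h.orth 0 2 (by decide),
          h.orth 1 2 (by decide)]
        field_simp
        ring
  exact sub_eq_zero.mp key

variable [FiniteDimensional F M]

/-- An orthogonal family of non-isotropic vectors of a non-degenerate subspace `W`, of the size of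
the dimension, such that no non-zero vector of `W` is orthogonal to all of them. -/
theorem exists_orth_basis_on (h2 : (2 : F) ≠ 0) (B : LinearMap.BilinForm F M) (hB : B.IsSymm)
    (W : Submodule F M) (hnd : ∀ w ∈ W, w ≠ 0 → ∃ x ∈ W, B x w ≠ 0) (n : ℕ)
    (hn : finrank F W = n) :
    ∃ x : Fin n → M, (∀ j, x j ∈ W) ∧ (∀ j, B (x j) (x j) ≠ 0) ∧
      (∀ j k, j ≠ k → B (x j) (x k) = 0) ∧ (∀ w ∈ W, (∀ j, B w (x j) = 0) → w = 0) := by
  subst hn
  have hinv2 : Invertible (2 : F) := invertibleOfNonzero h2
  have hBw : (B.restrict W).IsSymm := ⟨fun x y => by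
    rw [LinearMap.BilinForm.restrict_apply, LinearMap.BilinForm.restrict_apply]
    exact hB.eq _ _⟩
  obtain ⟨v, hv⟩ := LinearMap.BilinForm.exists_orthogonal_basis
    (LinearMap.BilinForm.isSymm_iff.mp hBw)
  have hspan : ∀ w ∈ W, (∀ j, B w (v j : M) = 0) → w = 0 := by
    intro w hw hwj
    by_contra hw0
    obtain ⟨y, hy, hyw⟩ := hnd w hw hw0
    apply hyw
    rw [hB.eq]
    have h1 := v.sum_repr ⟨y, hy⟩
    have h3 : y = ∑ i, (v.repr ⟨y, hy⟩ i) • (v i : M) := by
      have h4 := congrArg (fun z : W => (z : M)) h1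
      simp only [Submodule.coe_sum, Submodule.coe_smul] at h4
      exact h4.symm
    rw [h3, map_sum]
    apply Finset.sum_eq_zero
    intro i _
    rw [map_smul, hwj i, smul_zero]
  have horth : ∀ j k, j ≠ k → B (v j : M) (v k : M) = 0 := by
    intro j k hjk
    have h1 := hv hjk
    exact h1
  refine ⟨fun j => (v j : M), fun j => (v j).2, fun j hj => ?_, horth, hspan⟩
  have h1 : (v j : M) = 0 := by
    apply hspan _ (v j).2
    intro k
    by_cases hjk : j = k
    · rw [← hjk]
      exact hj
    · exact horth j k hjk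
  exact v.ne_zero j (Subtype.ext h1)

end Frame

section FrameThree

variable {F : Type*} [Field F] [Fintype F] {M : Type*} [AddCommGroup M] [Module F M]

theorem sq_eq_one_three (hq : Fintype.card F = 3) (x : F) (hx : x ≠ 0) : x * x = 1 := by
  rcases three_cases hq x with h | h | h
  · exact absurd h hx
  · rw [h]; ring
  · rw [h]; ring

theorem sq_add_sq_three (hq : Fintype.card F = 3) (x y : F) (h : x * x + y * y = 0) :
    x = 0 ∧ y = 0 := by
  have h3 := three_eq_zero hq
  have h2 := two_ne_zero_three hq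
  by_contra hcon
  by_cases hx : x = 0
  · by_cases hy : y = 0
    · exact hcon ⟨hx, hy⟩
    · rw [hx, sq_eq_one_three hq y hy] at h
      exact one_ne_zero (α := F) (by linear_combination h)
  · by_cases hy : y = 0
    · rw [hy, sq_eq_one_three hq x hx] at h
      exact one_ne_zero (α := F) (by linear_combination h)
    · rw [sq_eq_one_three hq x hx, sq_eq_one_three hq y hy] at h
      exact h2 (by linear_combination h)

/-- Two orthogonal vectors of equal norm and a third one orthogonal to both give a frame. -/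
theorem frame_of_two_eq (hq : Fintype.card F = 3) (B : LinearMap.BilinForm F M) (hB : B.IsSymm)
    (W : Submodule F M) (x y z : M) (hx : x ∈ W) (hy : y ∈ W) (hz : z ∈ W) (p r : F)
    (hp : p ≠ 0) (hr : r ≠ 0) (hxx : B x x = p) (hyy : B y y = p) (hzz : B z z = r)
    (hxy : B x y = 0) (hxz : B x z = 0) (hyz : B y z = 0)
    (hspan : ∀ w ∈ W, B w x = 0 → B w y = 0 → B w z = 0 → w = 0) :
    ∃ (d : F) (a : Fin 3 → M), IsFrameOn B W d a := by
  have h3 := three_eq_zero hq
  have h2 := two_ne_zero_three hq
  have hyx : B y x = 0 := by rw [hB.eq]; exact hxy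
  have hzx : B z x = 0 := by rw [hB.eq]; exact hxz
  have hzy : B z y = 0 := by rw [hB.eq]; exact hyz
  by_cases hpr : r = p
  · refine ⟨p, ![x, y, z], ?_, hp, ?_, ?_, ?_⟩
    · intro j
      fin_cases j
      · exact hx
      · exact hy
      · exact hz
    · intro j
      fin_cases j
      · exact hxx
      · exact hyy
      · exact hzz.trans hpr
    · intro j k hjk
      fin_cases j <;> fin_cases k <;> first | exact absurd rfl hjk | skip
      · exact hxy
      · exact hxz
      · exact hyx
      · exact hyz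
      · exact hzx
      · exact hzy
    · intro w hw hwj
      exact hspan w hw (hwj 0) (hwj 1) (hwj 2)
  · have hr' : r = -p := by
      rcases three_cases hq r with h | h | h <;> rcases three_cases hq p with h' | h' | h'
      · exact absurd h hr
      · exact absurd h hr
      · exact absurd h hr
      · exact absurd h' hp
      · exact absurd (h.trans h'.symm) hpr
      · rw [h, h']; ring
      · exact absurd h' hp
      · rw [h, h']
      · exact absurd (h.trans h'.symm) hpr
    refine ⟨-p, ![x + y, x - y, z], ?_, neg_ne_zero.mpr hp, ?_, ?_, ?_⟩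
    · intro j
      fin_cases j
      · exact W.add_mem hx hy
      · exact W.sub_mem hx hy
      · exact hz
    · intro j
      fin_cases j
      · show B (x + y) (x + y) = -p
        simp only [map_add, LinearMap.add_apply, hxx, hyy, hxy, hyx]
        linear_combination p * h3
      · show B (x - y) (x - y) = -p
        simp only [map_sub, LinearMap.sub_apply, hxx, hyy, hxy, hyx]
        linear_combination p * h3
      · exact hzz.trans hr'
    · intro j k hjk
      fin_cases j <;> fin_cases k <;> first | exact absurd rfl hjk | skip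
      · show B (x + y) (x - y) = 0
        simp only [map_add, map_sub, LinearMap.add_apply, LinearMap.sub_apply, hxx, hyy, hxy, hyx]
        ring
      · show B (x + y) z = 0
        simp only [map_add, LinearMap.add_apply, hxz, hyz]
        ring
      · show B (x - y) (x + y) = 0
        simp only [map_add, map_sub, LinearMap.add_apply, LinearMap.sub_apply, hxx, hyy, hxy, hyx]
        ring
      · show B (x - y) z = 0
        simp only [map_sub, LinearMap.sub_apply, hxz, hyz]
        ring
      · show B z (x + y) = 0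
        simp only [map_add, hzx, hzy]
        ring
      · show B z (x - y) = 0
        simp only [map_sub, hzx, hzy]
        ring
    · intro w hw hwj
      have h0 : B w (x + y) = 0 := hwj 0
      have h1 : B w (x - y) = 0 := hwj 1
      have h2' : B w z = 0 := hwj 2
      rw [map_add] at h0
      rw [map_sub] at h1
      have hwx : B w x = 0 := by
        have h4 : (2 : F) * B w x = 0 := by linear_combination h0 + h1
        rcases mul_eq_zero.mp h4 with h5 | h5
        · exact absurd h5 h2
        · exact h5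
      have hwy : B w y = 0 := by linear_combination h0 - hwx
      exact hspan w hw hwx hwy h2'

theorem IsFrameOn.norm_expand {B : LinearMap.BilinForm F M} {W : Submodule F M} {d : F}
    {a : Fin 3 → M} (h : IsFrameOn B W d a) (x0 x1 x2 : F) :
    B (x0 • a 0 + x1 • a 1 + x2 • a 2) (x0 • a 0 + x1 • a 1 + x2 • a 2) =
      d * (x0 * x0 + x1 * x1 + x2 * x2) := by
  simp only [map_add, map_smul, LinearMap.add_apply, LinearMap.smul_apply, smul_eq_mul, h.norm,
    h.orth 0 1 (by decide), h.orth 0 2 (by decide), h.orth 1 0 (by decide), h.orth 1 2 (by decide),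
    h.orth 2 0 (by decide), h.orth 2 1 (by decide)]
  ring

theorem not_isFV_of_two (hq : Fintype.card F = 3) (B : LinearMap.BilinForm F M)
    (W : Submodule F M) (p q r : M) (hp : p ∈ W) (hq' : q ∈ W) (hr : r ∈ W) (d : F) (hd : d ≠ 0)
    (hpp : B p p = d) (hqq : B q q = d) (hrr : B r r = d) (hpq : B p q = 0) (hqp : B q p = 0)
    (hpr : B p r = 0) (hrp : B r p = 0) (hqr : B q r = 0) (hrq : B r q = 0)
    (x y : F) (hx : x ≠ 0) (hy : y ≠ 0) : ¬ IsFVOn B W (x • p + y • q) := by
  intro hfv
  have hx1 := sq_eq_one_three hq x hx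
  have hy1 := sq_eq_one_three hq y hy
  have h3 := three_eq_zero hq
  refine hfv.2.2 (x • p - y • q + r)
    (W.add_mem (W.sub_mem (W.smul_mem _ hp) (W.smul_mem _ hq')) hr) ?_ ?_ ?_
  · intro h0
    have h1 : B (x • p - y • q + r) r = d := by
      simp only [map_add, map_sub, map_smul, LinearMap.add_apply, LinearMap.sub_apply,
        LinearMap.smul_apply, smul_eq_mul, hpr, hqr, hrr]
      ring
    rw [h0] at h1
    simp only [map_zero, LinearMap.zero_apply] at h1
    exact hd h1.symm
  · simp only [map_add, map_sub, map_smul, LinearMap.add_apply, LinearMap.sub_apply,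
      LinearMap.smul_apply, smul_eq_mul, hpp, hqq, hpq, hqp, hpr, hqr]
    linear_combination d * hx1 - d * hy1
  · simp only [map_add, map_sub, map_smul, LinearMap.add_apply, LinearMap.sub_apply,
      LinearMap.smul_apply, smul_eq_mul, hpp, hqq, hrr, hpq, hqp, hpr, hqr, hrp, hrq]
    linear_combination d * hx1 + d * hy1 + d * h3

/-- Over the field with three elements, a vector of a three-dimensional frame space whose
orthogonal complement is anisotropic is a frame vector up to sign. -/
theorem IsFrameOn.eq_of_isFV (hq : Fintype.card F = 3) {B : LinearMap.BilinForm F M}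
    {W : Submodule F M} {d : F} {a : Fin 3 → M} (h : IsFrameOn B W d a) {u : M}
    (hu : IsFVOn B W u) : ∃ j, u = a j ∨ u = -a j := by
  have h3 := three_eq_zero hq
  have hexp := h.expand u hu.1
  obtain ⟨x0, hx0⟩ : ∃ x, x = d⁻¹ * B u (a 0) := ⟨_, rfl⟩
  obtain ⟨x1, hx1⟩ : ∃ x, x = d⁻¹ * B u (a 1) := ⟨_, rfl⟩
  obtain ⟨x2, hx2⟩ : ∃ x, x = d⁻¹ * B u (a 2) := ⟨_, rfl⟩
  rw [← hx0, ← hx1, ← hx2] at hexp
  have hsgn : ∀ (x : F) (j : Fin 3), x ≠ 0 → u = x • a j → ∃ j, u = a j ∨ u = -a j := by
    intro x j hx hux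
    refine ⟨j, ?_⟩
    rcases three_cases hq x with h' | h' | h'
    · exact absurd h' hx
    · left; rw [hux, h', one_smul]
    · right; rw [hux, h', neg_smul, one_smul]
  by_cases h0 : x0 = 0 <;> by_cases h1 : x1 = 0 <;> by_cases h2 : x2 = 0
  · exfalso
    apply hu.2.1
    rw [hexp, h0, h1, h2]
    simp
  · exact hsgn x2 2 h2 (by rw [hexp, h0, h1, zero_smul, zero_smul, zero_add, zero_add])
  · exact hsgn x1 1 h1 (by rw [hexp, h0, h2, zero_smul, zero_smul, zero_add, add_zero])
  · exfalso
    apply not_isFV_of_two hq B W (a 1) (a 2) (a 0) (h.mem 1) (h.mem 2) (h.mem 0) d h.ne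
      (h.norm 1) (h.norm 2) (h.norm 0) (h.orth 1 2 (by decide)) (h.orth 2 1 (by decide))
      (h.orth 1 0 (by decide)) (h.orth 0 1 (by decide)) (h.orth 2 0 (by decide))
      (h.orth 0 2 (by decide)) x1 x2 h1 h2
    have h4 : u = x1 • a 1 + x2 • a 2 := by rw [hexp, h0, zero_smul, zero_add]
    rw [← h4]
    exact hu
  · exact hsgn x0 0 h0 (by rw [hexp, h1, h2, zero_smul, zero_smul, add_zero, add_zero])
  · exfalso
    apply not_isFV_of_two hq B W (a 0) (a 2) (a 1) (h.mem 0) (h.mem 2) (h.mem 1) d h.ne
      (h.norm 0) (h.norm 2) (h.norm 1) (h.orth 0 2 (by decide)) (h.orth 2 0 (by decide))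
      (h.orth 0 1 (by decide)) (h.orth 1 0 (by decide)) (h.orth 2 1 (by decide))
      (h.orth 1 2 (by decide)) x0 x2 h0 h2
    have h4 : u = x0 • a 0 + x2 • a 2 := by rw [hexp, h1, zero_smul, add_zero]
    rw [← h4]
    exact hu
  · exfalso
    apply not_isFV_of_two hq B W (a 0) (a 1) (a 2) (h.mem 0) (h.mem 1) (h.mem 2) d h.ne
      (h.norm 0) (h.norm 1) (h.norm 2) (h.orth 0 1 (by decide)) (h.orth 1 0 (by decide))
      (h.orth 0 2 (by decide)) (h.orth 2 0 (by decide)) (h.orth 1 2 (by decide))
      (h.orth 2 1 (by decide)) x0 x1 h0 h1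
    have h4 : u = x0 • a 0 + x1 • a 1 := by rw [hexp, h2, zero_smul, add_zero]
    rw [← h4]
    exact hu
  · exfalso
    apply hu.2.1
    rw [hexp, h.norm_expand, sq_eq_one_three hq x0 h0, sq_eq_one_three hq x1 h1,
      sq_eq_one_three hq x2 h2]
    linear_combination d * h3

/-- Over the field with three elements the frame vectors of a three-dimensional frame have
anisotropic orthogonal complement. -/
theorem IsFrameOn.isFV (hq : Fintype.card F = 3) {B : LinearMap.BilinForm F M} (hB : B.IsSymm)
    {W : Submodule F M} {d : F} {a : Fin 3 → M} (h : IsFrameOn B W d a) (j : Fin 3) :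
    IsFVOn B W (a j) := by
  refine ⟨h.mem j, by rw [h.norm]; exact h.ne, fun w hw hw0 hjw hww => hw0 ?_⟩
  have hexp := h.expand w hw
  have hwj : B w (a j) = 0 := by rw [hB.eq]; exact hjw
  obtain ⟨y0, hy0⟩ : ∃ x, x = d⁻¹ * B w (a 0) := ⟨_, rfl⟩
  obtain ⟨y1, hy1⟩ : ∃ x, x = d⁻¹ * B w (a 1) := ⟨_, rfl⟩
  obtain ⟨y2, hy2⟩ : ∃ x, x = d⁻¹ * B w (a 2) := ⟨_, rfl⟩
  rw [← hy0, ← hy1, ← hy2] at hexp
  rw [hexp, h.norm_expand] at hww
  have hsum : y0 * y0 + y1 * y1 + y2 * y2 = 0 := by
    rcases mul_eq_zero.mp hww with h' | h'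
    · exact absurd h' h.ne
    · exact h'
  fin_cases j
  · have h0 : y0 = 0 := by rw [hy0]; simp only [Fin.zero_eta] at hwj; rw [hwj, mul_zero]
    rw [h0] at hsum
    obtain ⟨h1, h2⟩ := sq_add_sq_three hq y1 y2 (by linear_combination hsum)
    rw [hexp, h0, h1, h2]
    simp
  · have h1 : y1 = 0 := by rw [hy1]; simp only [Fin.mk_one] at hwj; rw [hwj, mul_zero]
    rw [h1] at hsum
    obtain ⟨h0, h2⟩ := sq_add_sq_three hq y0 y2 (by linear_combination hsum)
    rw [hexp, h0, h1, h2]
    simp
  · have h2 : y2 = 0 := by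
      rw [hy2]
      have h5 : B w (a 2) = 0 := hwj
      rw [h5, mul_zero]
    rw [h2] at hsum
    obtain ⟨h0, h1⟩ := sq_add_sq_three hq y0 y1 (by linear_combination hsum)
    rw [hexp, h0, h1, h2]
    simp

variable [FiniteDimensional F M]

/-- Over the field with three elements a non-degenerate three-dimensional subspace has an orthogonal
frame of vectors of equal norm. -/
theorem exists_frame3 (hq : Fintype.card F = 3) (B : LinearMap.BilinForm F M) (hB : B.IsSymm)
    (W : Submodule F M) (hW : finrank F W = 3) (hnd : ∀ w ∈ W, w ≠ 0 → ∃ x ∈ W, B x w ≠ 0) :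
    ∃ (d : F) (a : Fin 3 → M), IsFrameOn B W d a := by
  have h2 := two_ne_zero_three hq
  obtain ⟨x, hxW, hxx, hxo, hxs⟩ := exists_orth_basis_on h2 B hB W hnd 3 hW
  have hval : ∀ j, B (x j) (x j) = 1 ∨ B (x j) (x j) = -1 := by
    intro j
    rcases three_cases hq (B (x j) (x j)) with h | h | h
    · exact absurd h (hxx j)
    · exact Or.inl h
    · exact Or.inr h
  have hcases : B (x 0) (x 0) = B (x 1) (x 1) ∨ B (x 0) (x 0) = B (x 2) (x 2) ∨
      B (x 1) (x 1) = B (x 2) (x 2) := by
    rcases hval 0 with h0 | h0 <;> rcases hval 1 with h1 | h1 <;> rcases hval 2 with h2' | h2' <;>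
      simp [h0, h1, h2']
  rcases hcases with h | h | h
  · exact frame_of_two_eq hq B hB W (x 0) (x 1) (x 2) (hxW 0) (hxW 1) (hxW 2) _ _ (hxx 0) (hxx 2)
      rfl h.symm rfl (hxo 0 1 (by decide)) (hxo 0 2 (by decide)) (hxo 1 2 (by decide))
      (fun w hw h0 h1 h2' => hxs w hw (fun j => by
        fin_cases j
        · exact h0
        · exact h1
        · exact h2'))
  · exact frame_of_two_eq hq B hB W (x 0) (x 2) (x 1) (hxW 0) (hxW 2) (hxW 1) _ _ (hxx 0) (hxx 1)
      rfl h.symm rfl (hxo 0 2 (by decide)) (hxo 0 1 (by decide)) (hxo 2 1 (by decide))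
      (fun w hw h0 h1 h2' => hxs w hw (fun j => by
        fin_cases j
        · exact h0
        · exact h2'
        · exact h1))
  · exact frame_of_two_eq hq B hB W (x 1) (x 2) (x 0) (hxW 1) (hxW 2) (hxW 0) _ _ (hxx 1) (hxx 0)
      rfl h.symm rfl (hxo 1 2 (by decide)) (hxo 1 0 (by decide)) (hxo 2 0 (by decide))
      (fun w hw h0 h1 h2' => hxs w hw (fun j => by
        fin_cases j
        · exact h2'
        · exact h0
        · exact h1))

end FrameThree

end Cfsg.Agent.Lib.Helper98
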