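import Mathlib
import Cfsg.Prelude.Def_GeometricClasses
import Cfsg.Agent.Lib.Helper98.Frame3

/-!
# Tensor decompositions with an `O_3(3)` factor (helper98)

* `tp u w`: pure tensors as functions on `Fin n₁ × Fin n₂`; `kron_mulVec_tp`, `formOfGram_id_tp`.
* `TData f f₁ f₂ S c T`: the data unpacked from `Cfsg.Geo.IsTensorFormStructure id f f₁ f₂ e P`
  (`tData_of`): the linear injection `T x = P *ᵥ (x ∘ e)`, the value of `f` on pure tensors, and
  the action of the tensor product subgroup `S` through Kronecker products.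
* `bilOf`: the Mathlib bilinear form of a `Cfsg.Geo.IsBilinearForm`.
* `tensor_O3_three`: over the field with three elements the stabiliser in `Ω` of a tensor
  decomposition `O_3(3) ⊗ O_{n₂}(3)` is not maximal (it stabilises the set of pure tensors
  `a ⊗ w` with `a` a frame vector of the three-dimensional factor).
-/

set_option autoImplicit false
set_option linter.unusedSectionVars false
set_option linter.unusedSimpArgs false

namespace Cfsg.Agent.Lib.Helper98

open Cfsg Module Matrix Kronecker QuadraticMap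

section Tensor

variable {F : Type*} [Field F] {n₁ n₂ : ℕ}

/-- A pure tensor, as a function on the product of the index sets. -/
def tp (u : Fin n₁ → F) (w : Fin n₂ → F) : Fin n₁ × Fin n₂ → F := fun p => u p.1 * w p.2

theorem tp_smul_left (c : F) (u : Fin n₁ → F) (w : Fin n₂ → F) : tp (c • u) w = c • tp u w := by
  funext p
  simp [tp, mul_assoc]

theorem tp_smul_right (c : F) (u : Fin n₁ → F) (w : Fin n₂ → F) : tp u (c • w) = c • tp u w := by
  funext p
  simp only [tp, Pi.smul_apply, smul_eq_mul]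
  ring

theorem tp_add_left (u u' : Fin n₁ → F) (w : Fin n₂ → F) : tp (u + u') w = tp u w + tp u' w := by
  funext p
  simp only [tp, Pi.add_apply]
  ring

theorem tp_add_right (u : Fin n₁ → F) (w w' : Fin n₂ → F) : tp u (w + w') = tp u w + tp u w' := by
  funext p
  simp only [tp, Pi.add_apply]
  ring

theorem tp_neg_left (u : Fin n₁ → F) (w : Fin n₂ → F) : tp (-u) w = tp u (-w) := by
  funext p
  simp only [tp, Pi.neg_apply]
  ring

theorem formOfGram_id_tp (G₁ : Matrix (Fin n₁) (Fin n₁) F) (G₂ : Matrix (Fin n₂) (Fin n₂) F)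
    (u u' : Fin n₁ → F) (w w' : Fin n₂ → F) :
    Cfsg.Geo.formOfGram id (G₁ ⊗ₖ G₂) (tp u w) (tp u' w') =
      Cfsg.Geo.formOfGram id G₁ u u' * Cfsg.Geo.formOfGram id G₂ w w' := by
  unfold Cfsg.Geo.formOfGram tp
  rw [Fintype.sum_prod_type, Finset.sum_mul_sum]
  apply Finset.sum_congr rfl
  intro i _
  apply Finset.sum_congr rfl
  intro j _
  rw [Fintype.sum_prod_type, Finset.sum_mul_sum]
  apply Finset.sum_congr rfl
  intro i' _
  apply Finset.sum_congr rfl
  intro j' _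
  simp only [Matrix.kroneckerMap_apply, id]
  ring

theorem kron_mulVec_tp (A : Matrix (Fin n₁) (Fin n₁) F) (B : Matrix (Fin n₂) (Fin n₂) F)
    (u : Fin n₁ → F) (w : Fin n₂ → F) : (A ⊗ₖ B) *ᵥ tp u w = tp (A *ᵥ u) (B *ᵥ w) := by
  funext p
  obtain ⟨i, j⟩ := p
  simp only [Matrix.mulVec, dotProduct, tp, Matrix.kroneckerMap_apply]
  rw [Fintype.sum_prod_type, Finset.sum_mul_sum]
  apply Finset.sum_congr rfl
  intro i' _
  apply Finset.sum_congr rfl
  intro j' _
  ring

theorem bilin_zero_left {κ : Type} [Fintype κ] [DecidableEq κ] {f : (κ → F) → (κ → F) → F}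
    (hf : Cfsg.Geo.IsBilinearForm f) (v : κ → F) : f 0 v = 0 := by
  have h := hf.smul_left 0 0 v
  rw [zero_smul, zero_mul] at h
  exact h

theorem bilin_zero_right {κ : Type} [Fintype κ] [DecidableEq κ] {f : (κ → F) → (κ → F) → F}
    (hf : Cfsg.Geo.IsBilinearForm f) (v : κ → F) : f v 0 = 0 := by
  have h := hf.smul_right 0 v 0
  rw [zero_smul, zero_mul] at h
  exact h

theorem bilin_sum_left {κ : Type} [Fintype κ] [DecidableEq κ] {f : (κ → F) → (κ → F) → F}
    (hf : Cfsg.Geo.IsBilinearForm f) {α : Type*} (s : Finset α) (x : α → κ → F) (v : κ → F) :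
    f (∑ a ∈ s, x a) v = ∑ a ∈ s, f (x a) v := by
  classical
  induction s using Finset.induction_on with
  | empty => simp [bilin_zero_left hf]
  | insert a s ha ih => rw [Finset.sum_insert ha, Finset.sum_insert ha, hf.add_left, ih]

theorem bilin_sum_right {κ : Type} [Fintype κ] [DecidableEq κ] {f : (κ → F) → (κ → F) → F}
    (hf : Cfsg.Geo.IsBilinearForm f) {α : Type*} (s : Finset α) (u : κ → F) (x : α → κ → F) :
    f u (∑ a ∈ s, x a) = ∑ a ∈ s, f u (x a) := by
  classical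
  induction s using Finset.induction_on with
  | empty => simp [bilin_zero_right hf]
  | insert a s ha ih => rw [Finset.sum_insert ha, Finset.sum_insert ha, hf.add_right, ih]

theorem eq_formOfGram_id {κ : Type} [Fintype κ] [DecidableEq κ] {f : (κ → F) → (κ → F) → F}
    (hf : Cfsg.Geo.IsBilinearForm f) (x y : κ → F) :
    f x y = Cfsg.Geo.formOfGram id (Cfsg.Geo.gramMatrix f) x y := by
  unfold Cfsg.Geo.formOfGram Cfsg.Geo.gramMatrix
  conv_lhs => rw [pi_eq_sum_univ' x, pi_eq_sum_univ' y]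
  rw [bilin_sum_left hf]
  apply Finset.sum_congr rfl
  intro a _
  rw [hf.smul_left, bilin_sum_right hf, Finset.mul_sum]
  apply Finset.sum_congr rfl
  intro b _
  rw [hf.smul_right]
  simp only [id]
  ring

/-- The data unpacked from a tensor form structure. -/
structure TData {ι : Type} [Fintype ι] [DecidableEq ι] (f : (ι → F) → (ι → F) → F)
    (f₁ : (Fin n₁ → F) → (Fin n₁ → F) → F) (f₂ : (Fin n₂ → F) → (Fin n₂ → F) → F)
    (S : Subgroup (GL ι F)) (c : F) (T : (Fin n₁ × Fin n₂ → F) → (ι → F)) : Prop where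
  c_ne : c ≠ 0
  add : ∀ x y, T (x + y) = T x + T y
  smul : ∀ (a : F) x, T (a • x) = a • T x
  inj : ∀ x y, T x = T y → x = y
  pure : ∀ u w u' w', f (T (tp u w)) (T (tp u' w')) = c * (f₁ u u' * f₂ w w')
  grp : ∀ g ∈ S, ∃ (A : GL (Fin n₁) F) (B : GL (Fin n₂) F), ∀ x,
    (g : Matrix ι ι F) *ᵥ T x =
      T (((A : Matrix (Fin n₁) (Fin n₁) F) ⊗ₖ (B : Matrix (Fin n₂) (Fin n₂) F)) *ᵥ x)

theorem tData_of {ι : Type} [Fintype ι] [DecidableEq ι] (f : (ι → F) → (ι → F) → F)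
    (f₁ : (Fin n₁ → F) → (Fin n₁ → F) → F) (f₂ : (Fin n₂ → F) → (Fin n₂ → F) → F)
    (hb₁ : Cfsg.Geo.IsBilinearForm f₁) (hb₂ : Cfsg.Geo.IsBilinearForm f₂)
    (e : ι ≃ Fin n₁ × Fin n₂) (P : GL ι F)
    (hT : Cfsg.Geo.IsTensorFormStructure id f f₁ f₂ e P) :
    ∃ (c : F) (T : (Fin n₁ × Fin n₂ → F) → (ι → F)),
      TData f f₁ f₂ (Cfsg.Geo.tensorProductSubgroup n₁ n₂ e P) c T := by
  classical
  obtain ⟨c, hc0, hc⟩ := hT
  refine ⟨c, fun x => (P : Matrix ι ι F) *ᵥ (x ∘ e), hc0, ?_, ?_, ?_, ?_, ?_⟩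
  · intro x y
    show (P : Matrix ι ι F) *ᵥ (x ∘ e + y ∘ e) = _
    rw [Matrix.mulVec_add]
  · intro a x
    show (P : Matrix ι ι F) *ᵥ (a • (x ∘ e)) = _
    rw [Matrix.mulVec_smul]
  · intro x y hxy
    have h3 := congrArg (fun v => ((P⁻¹ : GL ι F) : Matrix ι ι F) *ᵥ v) hxy
    simp only [Matrix.mulVec_mulVec, ← Units.val_mul, inv_mul_cancel, Units.val_one,
      Matrix.one_mulVec] at h3
    funext p
    have h4 := congrFun h3 (e.symm p)
    simpa using h4
  · intro u w u' w'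
    rw [hc, formOfGram_id_tp, ← eq_formOfGram_id hb₁, ← eq_formOfGram_id hb₂]
  · rintro g ⟨g', ⟨k, ⟨A, B, hk⟩, rfl⟩, rfl⟩
    refine ⟨A, B, fun x => ?_⟩
    rw [← hk]
    simp only [MulEquiv.coe_toMonoidHom, MulAut.conj_apply, Units.val_mul]
    rw [← Matrix.mulVec_mulVec, ← Matrix.mulVec_mulVec,
      Matrix.mulVec_mulVec _ (P⁻¹ : GL ι F).val, ← Units.val_mul, inv_mul_cancel, Units.val_one,
      Matrix.one_mulVec]
    congr 1
    show (Matrix.reindexAlgEquiv F F e.symm (k : Matrix (Fin n₁ × Fin n₂) (Fin n₁ × Fin n₂) F)) *ᵥ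
      (x ∘ e) = _
    rw [Matrix.coe_reindexAlgEquiv, Matrix.reindex_apply, Equiv.symm_symm,
      Matrix.submatrix_mulVec_equiv]
    congr 1
    congr 1
    funext p
    simp

/-- The Mathlib bilinear form of a bilinear form given as a function. -/
def bilOf {κ : Type} [Fintype κ] [DecidableEq κ] (f : (κ → F) → (κ → F) → F)
    (hf : Cfsg.Geo.IsBilinearForm f) : LinearMap.BilinForm F (κ → F) :=
  LinearMap.mk₂ F f hf.add_left (fun c x y => by rw [hf.smul_left, smul_eq_mul]) hf.add_right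
    (fun c x y => by rw [hf.smul_right, smul_eq_mul])

theorem bilOf_apply {κ : Type} [Fintype κ] [DecidableEq κ] (f : (κ → F) → (κ → F) → F)
    (hf : Cfsg.Geo.IsBilinearForm f) (x y : κ → F) : bilOf f hf x y = f x y := rfl

end Tensor

section TensO3

variable {ι : Type} [Fintype ι] [DecidableEq ι] {F : Type*} [Field F] [Fintype F]

theorem omegaGL_polar (Q : QuadraticForm F (ι → F)) (g : GL ι F)
    (hg : g ∈ Cfsg.Geo.omegaGL ⇑Q) (x y : ι → F) :
    polar ⇑Q ((g : Matrix ι ι F) *ᵥ x) ((g : Matrix ι ι F) *ᵥ y) = polar ⇑Q x y := by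
  unfold polar
  rw [← Matrix.mulVec_add, omegaGL_isometry Q g hg, omegaGL_isometry Q g hg,
    omegaGL_isometry Q g hg]

/-- Over the field with three elements a non-degenerate symmetric form in dimension at least 3
has two orthogonal vectors of equal non-zero norm and a non-zero vector orthogonal to both. -/
theorem exists_orth_triple (hq : Fintype.card F = 3) {n₂ : ℕ} (hn₂ : 3 ≤ n₂)
    (f₂ : (Fin n₂ → F) → (Fin n₂ → F) → F) (hf₂ : Cfsg.Geo.IsSymmetricForm f₂) :
    ∃ (w₁ w₂ w₃ : Fin n₂ → F) (β : F), β ≠ 0 ∧ f₂ w₁ w₁ = β ∧ f₂ w₂ w₂ = β ∧ f₂ w₁ w₂ = 0 ∧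
      f₂ w₁ w₃ = 0 ∧ f₂ w₂ w₃ = 0 ∧ w₃ ≠ 0 := by
  have h2 := two_ne_zero_three hq
  have hB₂s : (bilOf f₂ hf₂.bilinear).IsSymm := ⟨fun x y => hf₂.symm x y⟩
  obtain ⟨x, -, hxx, hxo, -⟩ := exists_orth_basis_on h2 (bilOf f₂ hf₂.bilinear) hB₂s ⊤
    (fun w _ hw => by
      obtain ⟨y, hy⟩ := (hf₂.nondegenerate w hw).1
      exact ⟨y, Submodule.mem_top, hy⟩) n₂
    (by rw [finrank_top, Module.finrank_fintype_fun_eq_card, Fintype.card_fin])
  have hxx' : ∀ j, f₂ (x j) (x j) ≠ 0 := hxx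
  have hxo' : ∀ j k, j ≠ k → f₂ (x j) (x k) = 0 := hxo
  have hne : ∀ j, x j ≠ 0 := by
    intro j h0
    apply hxx' j
    rw [h0, bilin_zero_left hf₂.bilinear]
  obtain ⟨i0, hi0⟩ : ∃ i : Fin n₂, i = ⟨0, by omega⟩ := ⟨_, rfl⟩
  obtain ⟨i1, hi1⟩ : ∃ i : Fin n₂, i = ⟨1, by omega⟩ := ⟨_, rfl⟩
  obtain ⟨i2, hi2⟩ : ∃ i : Fin n₂, i = ⟨2, by omega⟩ := ⟨_, rfl⟩
  have h01 : i0 ≠ i1 := by rw [hi0, hi1]; simp
  have h02 : i0 ≠ i2 := by rw [hi0, hi2]; simp
  have h12 : i1 ≠ i2 := by rw [hi1, hi2]; simp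
  have hval : ∀ j, f₂ (x j) (x j) = 1 ∨ f₂ (x j) (x j) = -1 := by
    intro j
    rcases three_cases hq (f₂ (x j) (x j)) with h | h | h
    · exact absurd h (hxx' j)
    · exact Or.inl h
    · exact Or.inr h
  have hcases : f₂ (x i0) (x i0) = f₂ (x i1) (x i1) ∨ f₂ (x i0) (x i0) = f₂ (x i2) (x i2) ∨
      f₂ (x i1) (x i1) = f₂ (x i2) (x i2) := by
    rcases hval i0 with h0 | h0 <;> rcases hval i1 with h1 | h1 <;> rcases hval i2 with h2' | h2' <;>
      simp [h0, h1, h2']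
  rcases hcases with h | h | h
  · exact ⟨x i0, x i1, x i2, _, hxx' i0, rfl, h.symm, hxo' _ _ h01, hxo' _ _ h02, hxo' _ _ h12,
      hne i2⟩
  · exact ⟨x i0, x i2, x i1, _, hxx' i0, rfl, h.symm, hxo' _ _ h02, hxo' _ _ h01,
      hxo' _ _ h12.symm, hne i1⟩
  · exact ⟨x i1, x i2, x i0, _, hxx' i1, rfl, h.symm, hxo' _ _ h12, hxo' _ _ h01.symm,
      hxo' _ _ h02.symm, hne i0⟩

/-- Over the field with three elements the stabiliser in `Ω` of a tensor decomposition with a
three-dimensional orthogonal factor is not maximal: it stabilises the set of pure tensors `a ⊗ w`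
with `a` a frame vector of the three-dimensional factor. -/
theorem tensor_O3_three (Q : QuadraticForm F (ι → F)) (hq : Fintype.card F = 3) {n₂ : ℕ}
    (hn₂ : 3 ≤ n₂) (e : ι ≃ Fin 3 × Fin n₂) (P : GL ι F) (f₁ : (Fin 3 → F) → (Fin 3 → F) → F)
    (f₂ : (Fin n₂ → F) → (Fin n₂ → F) → F) (hf₁ : Cfsg.Geo.IsSymmetricForm f₁)
    (hf₂ : Cfsg.Geo.IsSymmetricForm f₂)
    (hT : Cfsg.Geo.IsTensorFormStructure id (polar ⇑Q) f₁ f₂ e P) :
    ∃ K : Subgroup (GL ι F), Cfsg.Geo.tensorProductSubgroup 3 n₂ e P ⊓ Cfsg.Geo.omegaGL ⇑Q < K ∧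
      K < Cfsg.Geo.omegaGL ⇑Q := by
  classical
  have h3 := three_eq_zero hq
  have h2 := two_ne_zero_three hq
  obtain ⟨c, T, hTD⟩ := tData_of (polar ⇑Q) f₁ f₂ hf₁.bilinear hf₂.bilinear e P hT
  have hc := hTD.c_ne
  have hpure := hTD.pure
  have f2al := hf₂.bilinear.add_left
  have f2ar := hf₂.bilinear.add_right
  have f2sr := hf₂.bilinear.smul_right
  -- the frame of the three-dimensional factor
  obtain ⟨B₁, hB₁⟩ : ∃ B : LinearMap.BilinForm F (Fin 3 → F), ∀ u v, B u v = f₁ u v :=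
    ⟨bilOf f₁ hf₁.bilinear, fun _ _ => rfl⟩
  have hB₁s : B₁.IsSymm := ⟨fun x y => by rw [hB₁, hB₁]; exact hf₁.symm x y⟩
  obtain ⟨d, a, hfr⟩ := exists_frame3 hq B₁ hB₁s ⊤
    (by rw [finrank_top, Module.finrank_fintype_fun_eq_card, Fintype.card_fin])
    (fun w _ hw => by
      obtain ⟨x, hx⟩ := (hf₁.nondegenerate w hw).1
      exact ⟨x, Submodule.mem_top, by rw [hB₁]; exact hx⟩)
  have hd := hfr.ne
  have haa : ∀ j, f₁ (a j) (a j) = d := fun j => by rw [← hB₁]; exact hfr.norm j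
  have hao : ∀ j k, j ≠ k → f₁ (a j) (a k) = 0 := fun j k hjk => by
    rw [← hB₁]; exact hfr.orth j k hjk
  obtain ⟨w₁, w₂, w₃, β, hβ, h11, h22, h12, h13, h23, hw₃⟩ := exists_orth_triple hq hn₂ f₂ hf₂
  have h21 : f₂ w₂ w₁ = 0 := by rw [hf₂.symm]; exact h12
  have hQp : ∀ x, Q x = -polar ⇑Q x x := fun x => by
    have h4 := polar_self Q x
    linear_combination (Q x) * h3 + h4
  have hcdβ : c * (d * β) ≠ 0 := mul_ne_zero hc (mul_ne_zero hd hβ)
  have hinv : (-(c * (d * β)))⁻¹ * (c * (d * β)) = -1 := by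
    field_simp
  -- the set of frame tensors
  obtain ⟨L, hL⟩ : ∃ L : Set (ι → F), L = {v | ∃ u w, v = T (tp u w) ∧ IsFVOn B₁ ⊤ u} :=
    ⟨_, rfl⟩
  have hLa : ∀ j w, T (tp (a j) w) ∈ L := fun j w => by
    rw [hL]
    exact ⟨a j, w, rfl, hfr.isFV hq hB₁s j⟩
  have hLe : ∀ v ∈ L, ∃ j w, v = T (tp (a j) w) := by
    intro v hv
    rw [hL] at hv
    obtain ⟨u, w, rfl, hu⟩ := hv
    obtain ⟨j, hj | hj⟩ := hfr.eq_of_isFV hq hu
    · exact ⟨j, w, by rw [hj]⟩
    · exact ⟨j, -w, by rw [hj, tp_neg_left]⟩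
  have hpa : ∀ j k w w', polar ⇑Q (T (tp (a j) w)) (T (tp (a k) w')) =
      if j = k then c * (d * f₂ w w') else 0 := by
    intro j k w w'
    rw [hpure]
    split_ifs with hjk
    · rw [hjk, haa]
    · rw [hao j k hjk]
      ring
  refine ⟨stabSet (Cfsg.Geo.omegaGL ⇑Q) L, ?_, ?_⟩
  · rw [lt_iff_le_and_ne]
    constructor
    · intro g hg
      apply mem_stabSet_of_forall _ _ _ hg.2
      intro v hv
      rw [hL] at hv ⊢
      obtain ⟨u, w, rfl, hu⟩ := hv
      obtain ⟨A, B, hAB⟩ := hTD.grp g hg.1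
      rw [hAB, kron_mulVec_tp]
      refine ⟨_, _, rfl, ?_⟩
      have hiso : ∀ u₁ u₂, f₁ (A.1 *ᵥ u₁) (A.1 *ᵥ u₂) * f₂ (B.1 *ᵥ w₁) (B.1 *ᵥ w₁) =
          f₁ u₁ u₂ * β := by
        intro u₁ u₂
        have h4 := omegaGL_polar Q g hg.2 (T (tp u₁ w₁)) (T (tp u₂ w₁))
        rw [hAB, hAB, kron_mulVec_tp, kron_mulVec_tp, hpure, hpure, h11] at h4
        exact mul_left_cancel₀ hc h4
      refine ⟨Submodule.mem_top, ?_, ?_⟩
      · rw [hB₁]
        intro h0
        have h4 := hiso u u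
        rw [h0, zero_mul] at h4
        have h5 := hu.2.1
        rw [hB₁] at h5
        exact mul_ne_zero h5 hβ h4.symm
      · intro w' _ hw' hw'0
        rw [hB₁] at hw'0 ⊢
        obtain ⟨u', hu'⟩ : ∃ u', A.1 *ᵥ u' = w' :=
          ⟨(A⁻¹).1 *ᵥ w', by
            rw [Matrix.mulVec_mulVec, ← Units.val_mul, mul_inv_cancel, Units.val_one,
              Matrix.one_mulVec]⟩
        have hu'0 : u' ≠ 0 := by
          rintro rfl
          apply hw'
          rw [← hu', Matrix.mulVec_zero]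
        rw [← hu'] at hw'0 ⊢
        have h4 := hiso u u'
        rw [hw'0, zero_mul] at h4
        have h5 : f₁ u u' = 0 := by
          rcases mul_eq_zero.mp h4.symm with h6 | h6
          · exact h6
          · exact absurd h6 hβ
        have h6 := hu.2.2 u' Submodule.mem_top hu'0 (by rw [hB₁]; exact h5)
        rw [hB₁] at h6
        intro h0
        have h7 := hiso u' u'
        rw [h0, zero_mul] at h7
        exact mul_ne_zero h6 hβ h7.symm
    · intro hEq
      obtain ⟨x, hx⟩ : ∃ x, x = T (tp (a 0) w₁) := ⟨_, rfl⟩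
      obtain ⟨y, hy⟩ : ∃ y, y = T (tp (a 0) w₂) := ⟨_, rfl⟩
      have hQx : Q x = -(c * (d * β)) := by rw [hQp, hx, hpa, if_pos rfl, h11]
      have hQy : Q y = -(c * (d * β)) := by rw [hQp, hy, hpa, if_pos rfl, h22]
      have hQx0 : Q x ≠ 0 := by rw [hQx]; exact neg_ne_zero.mpr hcdβ
      obtain ⟨g, hgΩ, hgv⟩ := exists_two_refl Q h2 x y hQx0 (by rw [hQx, hQy])
      have hinv' : ∀ t : F, (-(c * (d * β)))⁻¹ * (c * (d * t)) = -(β⁻¹ * t) := by
        intro t
        field_simp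
      have hrx : ∀ w, rmap Q x (T (tp (a 0) w)) = T (tp (a 0) (w + (β⁻¹ * f₂ w₁ w) • w₁)) := by
        intro w
        unfold rmap
        rw [hQx, tp_add_right, tp_smul_right, hTD.add, hTD.smul, ← hx]
        have h4 : polar ⇑Q x (T (tp (a 0) w)) = c * (d * f₂ w₁ w) := by
          rw [hx, hpa, if_pos rfl]
        rw [h4, hinv', neg_smul, sub_neg_eq_add]
      have hry : ∀ w, rmap Q y (T (tp (a 0) w)) = T (tp (a 0) (w + (β⁻¹ * f₂ w₂ w) • w₂)) := by
        intro w
        unfold rmap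
        rw [hQy, tp_add_right, tp_smul_right, hTD.add, hTD.smul, ← hy]
        have h4 : polar ⇑Q y (T (tp (a 0) w)) = c * (d * f₂ w₂ w) := by
          rw [hy, hpa, if_pos rfl]
        rw [h4, hinv', neg_smul, sub_neg_eq_add]
      have hrx' : ∀ j w, j ≠ 0 → rmap Q x (T (tp (a j) w)) = T (tp (a j) w) := by
        intro j w hj
        unfold rmap
        have h4 : polar ⇑Q x (T (tp (a j) w)) = 0 := by
          rw [hx, hpa, if_neg (Ne.symm hj)]
        rw [h4, mul_zero, zero_smul, sub_zero]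
      have hry' : ∀ j w, j ≠ 0 → rmap Q y (T (tp (a j) w)) = T (tp (a j) w) := by
        intro j w hj
        unfold rmap
        have h4 : polar ⇑Q y (T (tp (a j) w)) = 0 := by
          rw [hy, hpa, if_neg (Ne.symm hj)]
        rw [h4, mul_zero, zero_smul, sub_zero]
      have hgK : g ∈ stabSet (Cfsg.Geo.omegaGL ⇑Q) L := by
        apply mem_stabSet_of_forall _ _ _ hgΩ
        intro v hv
        obtain ⟨j, w, rfl⟩ := hLe v hv
        rw [hgv]
        by_cases hj : j = 0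
        · rw [hj, hry, hrx]
          exact hLa 0 _
        · rw [hry' j w hj, hrx' j w hj]
          exact hLa j w
      rw [← hEq] at hgK
      obtain ⟨A, B, hAB⟩ := hTD.grp g hgK.1
      obtain ⟨ρ, hρ⟩ : ∃ ρ : (Fin n₂ → F) → (Fin n₂ → F), ∀ w, ρ w =
          (w + (β⁻¹ * f₂ w₂ w) • w₂) + (β⁻¹ * f₂ w₁ (w + (β⁻¹ * f₂ w₂ w) • w₂)) • w₁ :=
        ⟨_, fun _ => rfl⟩
      have e1 : ∀ w, tp (A.1 *ᵥ a 1) (B.1 *ᵥ w) = tp (a 1) w := by
        intro w
        apply hTD.inj
        rw [← kron_mulVec_tp, ← hAB, hgv, hry' 1 w (by decide), hrx' 1 w (by decide)]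
      have e0 : ∀ w, tp (A.1 *ᵥ a 0) (B.1 *ᵥ w) = tp (a 0) (ρ w) := by
        intro w
        apply hTD.inj
        rw [← kron_mulVec_tp, ← hAB, hgv, hry, hrx, hρ]
      have hane : ∀ j, ∃ i, a j i ≠ 0 := by
        intro j
        by_contra hcon
        push Not at hcon
        have h0 : a j = 0 := funext hcon
        have h4 := haa j
        rw [h0, bilin_zero_left hf₁.bilinear] at h4
        exact hd h4.symm
      obtain ⟨i₁, hi₁⟩ := hane 1
      obtain ⟨i₀, hi₀⟩ := hane 0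
      obtain ⟨j₃, hj₃⟩ : ∃ j, w₃ j ≠ 0 := by
        by_contra hcon
        push Not at hcon
        exact hw₃ (funext hcon)
      obtain ⟨j₁, hj₁⟩ : ∃ j, w₁ j ≠ 0 := by
        by_contra hcon
        push Not at hcon
        have h0 : w₁ = 0 := funext hcon
        rw [h0, bilin_zero_left hf₂.bilinear] at h11
        exact hβ h11.symm
      have hα : (A.1 *ᵥ a 1) i₁ ≠ 0 := by
        intro h0
        have h4 := congrFun (e1 w₃) (i₁, j₃)
        simp only [tp] at h4
        rw [h0, zero_mul] at h4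
        exact mul_ne_zero hi₁ hj₃ h4.symm
      obtain ⟨lam, hlam⟩ : ∃ lam : F, lam = a 1 i₁ * ((A.1 *ᵥ a 1) i₁)⁻¹ := ⟨_, rfl⟩
      have hBs : ∀ w j, (B.1 *ᵥ w) j = lam * w j := by
        intro w j
        have h4 := congrFun (e1 w) (i₁, j)
        simp only [tp] at h4
        rw [hlam]
        field_simp
        linear_combination h4
      obtain ⟨ν, hν⟩ : ∃ ν : F, ν = (a 0 i₀)⁻¹ * ((A.1 *ᵥ a 0) i₀ * lam) := ⟨_, rfl⟩
      have hρs : ∀ w j, ρ w j = ν * w j := by
        intro w j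
        have h4 := congrFun (e0 w) (i₀, j)
        simp only [tp] at h4
        rw [hBs] at h4
        rw [hν]
        field_simp
        linear_combination -h4
      have hρ1 : ρ w₁ = w₁ + w₁ := by
        rw [hρ, h21, mul_zero, zero_smul, add_zero, h11, inv_mul_cancel₀ hβ, one_smul]
      have hρ3 : ρ w₃ = w₃ := by
        rw [hρ, h23, mul_zero, zero_smul, add_zero, h13, mul_zero, zero_smul, add_zero]
      have hν1 : ν = 1 := by
        have h4 := hρs w₃ j₃
        rw [hρ3] at h4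
        have h5 : (ν - 1) * w₃ j₃ = 0 := by linear_combination -h4
        rcases mul_eq_zero.mp h5 with h6 | h6
        · linear_combination h6
        · exact absurd h6 hj₃
      have h4 := hρs w₁ j₁
      rw [hρ1, hν1, Pi.add_apply] at h4
      exact hj₁ (by linear_combination h4)
  · rw [lt_iff_le_and_ne]
    constructor
    · exact fun g hg => hg.1
    · intro hEq
      obtain ⟨x, hx⟩ : ∃ x, x = T (tp (a 0 + a 1) (w₁ + w₂)) := ⟨_, rfl⟩
      obtain ⟨y, hy⟩ : ∃ y, y = T (tp (a 2) w₁) := ⟨_, rfl⟩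
      have hxexp : x = T (tp (a 0) (w₁ + w₂)) + T (tp (a 1) (w₁ + w₂)) := by
        rw [hx, tp_add_left, hTD.add]
      have hpx0 : ∀ w', polar ⇑Q x (T (tp (a 0) w')) = c * (d * f₂ (w₁ + w₂) w') := by
        intro w'
        rw [hxexp, polar_add_left, hpa, hpa, if_pos rfl, if_neg (by decide), add_zero]
      have hpx1 : ∀ w', polar ⇑Q x (T (tp (a 1) w')) = c * (d * f₂ (w₁ + w₂) w') := by
        intro w'
        rw [hxexp, polar_add_left, hpa, hpa, if_pos rfl, if_neg (by decide), zero_add]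
      have hQx : Q x = -(c * (d * β)) := by
        have h5 : polar ⇑Q x x = polar ⇑Q x (T (tp (a 0) (w₁ + w₂))) +
            polar ⇑Q x (T (tp (a 1) (w₁ + w₂))) := by
          rw [← polar_add_right, ← hxexp]
        rw [hQp, h5, hpx0, hpx1, f2al, f2ar, f2ar, h11, h22, h12, h21]
        linear_combination (-(c * d * β)) * h3
      have hQy : Q y = -(c * (d * β)) := by rw [hQp, hy, hpa, if_pos rfl, h11]
      have hQx0 : Q x ≠ 0 := by rw [hQx]; exact neg_ne_zero.mpr hcdβ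
      obtain ⟨g, hgΩ, hgv⟩ := exists_two_refl Q h2 x y hQx0 (by rw [hQx, hQy])
      have hgK : g ∈ stabSet (Cfsg.Geo.omegaGL ⇑Q) L := by
        rw [hEq]
        exact hgΩ
      have h4 : (g : Matrix ι ι F) *ᵥ T (tp (a 0) w₁) ∈ L := (hgK.2 _).mpr (hLa 0 w₁)
      have hyv : polar ⇑Q y (T (tp (a 0) w₁)) = 0 := by
        rw [hy, hpa, if_neg (by decide)]
      have hxv : polar ⇑Q x (T (tp (a 0) w₁)) = c * (d * β) := by
        rw [hpx0, f2al, h11, h21, add_zero]
      have hgv1 : (g : Matrix ι ι F) *ᵥ T (tp (a 0) w₁) = T (tp (a 0) w₁) + x := by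
        rw [hgv]
        unfold rmap
        rw [hyv, mul_zero, zero_smul, sub_zero, hxv, hQx, hinv, neg_smul, one_smul,
          sub_neg_eq_add]
      obtain ⟨j, w, hjw⟩ := hLe _ h4
      rw [hgv1] at hjw
      by_cases hj : j = 1
      · have h5 : polar ⇑Q (T (tp (a 0) w₁) + x) (T (tp (a 0) w₂)) = c * (d * β) := by
          rw [polar_add_left, hpa, if_pos rfl, hpx0, h12, f2al, h12, h22]
          ring
        rw [hjw, hpa, if_neg (by rw [hj]; decide)] at h5
        exact hcdβ h5.symm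
      · have h5 : polar ⇑Q (T (tp (a 0) w₁) + x) (T (tp (a 1) w₁)) = c * (d * β) := by
          rw [polar_add_left, hpa, if_neg (by decide), hpx1, f2al, h11, h21]
          ring
        rw [hjw, hpa, if_neg hj] at h5
        exact hcdβ h5.symm

end TensO3

end Cfsg.Agent.Lib.Helper98
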