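import Mathlib

/-!
2-groups of symplectic type and exponent 4: all squares lie in a central subgroup of order at
most 2 (a special case of P. Hall's theorem, via Hobby's argument on the Frattini subgroup).
-/

set_option autoImplicit false

namespace Cfsg.Agent.Lib.Helper98.Symp

section A

variable {G : Type*} [Group G]

/-- the subgroup generated by the squares -/
def sqSub (G : Type*) [Group G] : Subgroup G := Subgroup.closure (Set.range fun g : G => g ^ 2)

theorem sq_mem_sqSub (g : G) : g ^ 2 ∈ sqSub G := Subgroup.subset_closure ⟨g, rfl⟩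

instance sqSub_characteristic : (sqSub G).Characteristic := by
  rw [Subgroup.characteristic_iff_map_le]
  intro φ
  rw [Subgroup.map_le_iff_le_comap, sqSub, Subgroup.closure_le]
  rintro x ⟨g, rfl⟩
  simp only [SetLike.mem_coe, Subgroup.mem_comap]
  rw [map_pow]
  exact Subgroup.subset_closure ⟨_, rfl⟩

theorem commute_sq_of_conj_eq (h4 : ∀ g : G, g ^ 4 = 1) (g x : G) (a b : ℕ) (hab : a < b)
    (hb : b < 4) (h : g ^ a * x * (g ^ a)⁻¹ = g ^ b * x * (g ^ b)⁻¹) : Commute (g ^ 2) x := by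
  obtain ⟨d, rfl⟩ : ∃ d, b = a + d := ⟨b - a, by omega⟩
  have h' : x = g ^ d * x * (g ^ d)⁻¹ := by
    have e : g ^ (a + d) * x * (g ^ (a + d))⁻¹
        = g ^ a * (g ^ d * x * (g ^ d)⁻¹) * (g ^ a)⁻¹ := by
      rw [pow_add]; group
    rw [e] at h
    exact mul_left_cancel (mul_right_cancel h)
  have hd : Commute (g ^ d) x := by
    show g ^ d * x = x * g ^ d
    calc g ^ d * x = (g ^ d * x * (g ^ d)⁻¹) * g ^ d := by group
      _ = x * g ^ d := by rw [← h']
  have hd13 : d = 1 ∨ d = 2 ∨ d = 3 := by omega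
  rcases hd13 with rfl | rfl | rfl
  · have h1 := hd.pow_left 2
    rwa [pow_one] at h1
  · exact hd
  · have e : g ^ 2 = (g ^ 3) ^ 2 := by
      rw [← pow_mul]
      calc g ^ 2 = g ^ 4 * g ^ 2 := by rw [h4, one_mul]
        _ = g ^ (3 * 2) := by rw [← pow_add]
    rw [e]
    exact hd.pow_left 2

/-- every square centralises a conjugation-invariant set with at most three elements -/
theorem sq_commute_of_small (h4 : ∀ g : G, g ^ 4 = 1) (T : Set G) (hT : T.Finite)
    (hTc : T.ncard ≤ 3) (hinv : ∀ g : G, ∀ x ∈ T, g * x * g⁻¹ ∈ T) (g x : G) (hx : x ∈ T) :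
    Commute (g ^ 2) x := by
  classical
  have hmem : ∀ k : ℕ, g ^ k * x * (g ^ k)⁻¹ ∈ T := by
    intro k
    induction k with
    | zero => simpa using hx
    | succ k ih =>
      have e : g ^ (k + 1) * x * (g ^ (k + 1))⁻¹ = g * (g ^ k * x * (g ^ k)⁻¹) * g⁻¹ := by
        rw [pow_succ']; group
      rw [e]
      exact hinv g _ ih
  have : Finite T := hT.to_subtype
  let _ : Fintype T := Fintype.ofFinite T
  let f : Fin 4 → T := fun k => ⟨g ^ (k : ℕ) * x * (g ^ (k : ℕ))⁻¹, hmem k⟩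
  have hcard : Fintype.card T < Fintype.card (Fin 4) := by
    rw [← Nat.card_eq_fintype_card, Nat.card_coe_set_eq, Fintype.card_fin]
    omega
  obtain ⟨a, b, hab, hfab⟩ := Fintype.exists_ne_map_eq_of_card_lt f hcard
  have hfab' : g ^ (a : ℕ) * x * (g ^ (a : ℕ))⁻¹ = g ^ (b : ℕ) * x * (g ^ (b : ℕ))⁻¹ :=
    congrArg Subtype.val hfab
  rcases lt_or_gt_of_ne hab with h | h
  · exact commute_sq_of_conj_eq h4 g x a b h b.2 hfab'
  · exact commute_sq_of_conj_eq h4 g x b a h a.2 hfab'.symm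

/-- In a finite group of exponent dividing 4 all of whose characteristic abelian subgroups are
cyclic, the squares lie in a central subgroup of order at most 2. -/
theorem sq_central_of_symplectic [Finite G] (h4 : ∀ g : G, g ^ 4 = 1)
    (hchar : ∀ A : Subgroup G, A.Characteristic → IsMulCommutative A → IsCyclic A) :
    ∃ z : G, (∀ g : G, g * z = z * g) ∧ z ^ 2 = 1 ∧ ∀ g : G, g ^ 2 = 1 ∨ g ^ 2 = z := by
  classical
  have : Fact (Nat.Prime 2) := ⟨Nat.prime_two⟩
  have hP : IsPGroup 2 G := fun g => ⟨2, by simpa using h4 g⟩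
  obtain ⟨Φ, hΦ⟩ : ∃ Φ : Subgroup G, Φ = sqSub G := ⟨_, rfl⟩
  have hΦc : Φ.Characteristic := by rw [hΦ]; infer_instance
  have hΦn : Φ.Normal := inferInstance
  obtain ⟨W, hW⟩ : ∃ W : Subgroup G, W = Φ ⊓ Subgroup.centralizer (Φ : Set G) := ⟨_, rfl⟩
  have hWc : W.Characteristic := by rw [hW]; infer_instance
  have hWn : W.Normal := inferInstance
  have hWΦ : W ≤ Φ := by rw [hW]; exact inf_le_left
  have hWcomm : ∀ w ∈ W, ∀ x ∈ Φ, x * w = w * x := by
    intro w hw x hx
    rw [hW] at hw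
    exact (Subgroup.mem_centralizer_iff.mp hw.2) x hx
  have hWcyc : IsCyclic W :=
    hchar W hWc (isMulCommutative_iff.mpr
      (fun a b => Subtype.ext (hWcomm b.1 b.2 a.1 (hWΦ a.2))))
  have key : ∀ (T : Set G) (u : G), T.Finite → T.ncard ≤ 3 →
      (∀ g : G, ∀ x ∈ T, g * x * g⁻¹ ∈ T) → u ∈ T → u ∈ Φ → u ∈ W := by
    intro T u hTf hTc hinv huT huΦ
    rw [hW, Subgroup.mem_inf]
    refine ⟨huΦ, ?_⟩
    rw [Subgroup.mem_centralizer_iff]
    have hle : Φ ≤ Subgroup.centralizer ({u} : Set G) := by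
      rw [hΦ, sqSub, Subgroup.closure_le]
      rintro y ⟨g, rfl⟩
      simp only [SetLike.mem_coe]
      rw [Subgroup.mem_centralizer_iff]
      intro h hh
      rw [Set.mem_singleton_iff] at hh
      rw [hh]
      exact (sq_commute_of_small h4 T hTf hTc hinv g u huT).eq.symm
    intro h hh
    have h1 := Subgroup.mem_centralizer_iff.mp (hle hh) u (Set.mem_singleton u)
    exact h1.symm
  -- step 1: the subgroup generated by the squares is abelian
  have hab : Φ ≤ Subgroup.centralizer (Φ : Set G) := by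
    by_contra hnot
    obtain ⟨m₀, hm₀Φ, hm₀⟩ := SetLike.not_le_iff_exists.mp hnot
    have hm₀W : m₀ ∉ W := by rw [hW]; exact fun h => hm₀ h.2
    have := hP.isNilpotent
    obtain ⟨n, hn⟩ := Group.IsNilpotent.nilpotent G
    have hex : ∃ k, ∃ m ∈ Φ, m ∈ Subgroup.upperCentralSeries G k ∧ m ∉ W :=
      ⟨n, m₀, hm₀Φ, by rw [hn]; exact Subgroup.mem_top _, hm₀W⟩
    have hk := Nat.find_spec hex
    have hkmin := fun j (hj : j < Nat.find hex) => Nat.find_min hex hj
    obtain ⟨m, hmΦ, hmk, hmW⟩ := hk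
    have hk0 : Nat.find hex ≠ 0 := by
      intro h0
      rw [h0, Subgroup.upperCentralSeries_zero, Subgroup.mem_bot] at hmk
      rw [hmk] at hmW
      exact hmW W.one_mem
    obtain ⟨j, hj⟩ := Nat.exists_eq_succ_of_ne_zero hk0
    rw [hj] at hmk
    have hcomm : ∀ g : G, m * g * m⁻¹ * g⁻¹ ∈ W := by
      intro g
      by_contra hnW
      apply hkmin j (by omega)
      refine ⟨_, ?_, ?_, hnW⟩
      · have e : m * g * m⁻¹ * g⁻¹ = m * (g * m⁻¹ * g⁻¹) := by group
        rw [e]
        exact Φ.mul_mem hmΦ (hΦn.conj_mem _ (Φ.inv_mem hmΦ) g)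
      · have h1 := Subgroup.mem_upperCentralSeries_succ_iff.mp hmk g
        rwa [commutatorElement_def] at h1
    have hmc0 : ∀ w ∈ W, m * w = w * m := fun w hw => hWcomm w hw m hmΦ
    obtain ⟨m, hmΦ, hmW, hcomm, hm2⟩ :
        ∃ m ∈ Φ, m ∉ W ∧ (∀ g : G, m * g * m⁻¹ * g⁻¹ ∈ W) ∧ m ^ 2 ∈ W := by
      by_cases h2 : m ^ 2 ∈ W
      · exact ⟨m, hmΦ, hmW, hcomm, h2⟩
      · refine ⟨m ^ 2, Φ.pow_mem hmΦ 2, h2, ?_, ?_⟩
        · intro g
          have hc := hcomm g
          have e : m ^ 2 * g * (m ^ 2)⁻¹ * g⁻¹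
              = m * (m * g * m⁻¹ * g⁻¹) * m⁻¹ * (m * g * m⁻¹ * g⁻¹) := by
            rw [pow_two]; group
          rw [e, hmc0 _ hc, mul_inv_cancel_right]
          exact W.mul_mem hc hc
        · rw [← pow_mul, h4]
          exact W.one_mem
    have hmc : ∀ w ∈ W, m * w = w * m := fun w hw => hWcomm w hw m hmΦ
    have hconj : ∀ g : G, ∀ w ∈ W, ∃ w' ∈ W, g * (m * w) * g⁻¹ = m * w' := by
      intro g w hw
      have h1 := hWn.conj_mem _ (W.inv_mem (hcomm g)) m⁻¹
      rw [inv_inv] at h1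
      refine ⟨m⁻¹ * (m * g * m⁻¹ * g⁻¹)⁻¹ * m * (g * w * g⁻¹),
        W.mul_mem h1 (hWn.conj_mem w hw g), ?_⟩
      group
    by_cases hW3 : Nat.card W ≤ 3
    · apply hmW
      apply key ((fun w => m * w) '' (W : Set G)) m (Set.toFinite _)
      · calc ((fun w => m * w) '' (W : Set G)).ncard = (W : Set G).ncard :=
              Set.ncard_image_of_injective _ (mul_right_injective m)
          _ = Nat.card W := (Nat.card_coe_set_eq _).symm
          _ ≤ 3 := hW3
      · rintro g _ ⟨w, hw, rfl⟩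
        obtain ⟨w', hw', e⟩ := hconj g w hw
        exact ⟨w', hw', e.symm⟩
      · exact ⟨1, W.one_mem, mul_one m⟩
      · exact hmΦ
    · push Not at hW3
      obtain ⟨w, hw⟩ := hWcyc.exists_generator
      have hord : orderOf w = Nat.card W := orderOf_eq_card_of_forall_mem_zpowers hw
      have hord4 : orderOf (w : G) = 4 := by
        have h1 : orderOf (w : G) = orderOf w := Subgroup.orderOf_coe w
        have h2 : orderOf (w : G) ∣ 4 := orderOf_dvd_of_pow_eq_one (h4 _)
        have h3 : orderOf (w : G) ≤ 4 := Nat.le_of_dvd (by norm_num) h2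
        omega
      have hW4 : Nat.card W = 4 := by rw [← hord, ← Subgroup.orderOf_coe, hord4]
      obtain ⟨v, hv⟩ : ∃ v : G, v = (w : G) := ⟨_, rfl⟩
      have hvW : v ∈ W := by rw [hv]; exact w.2
      have hv4 : v ^ 4 = 1 := h4 v
      have hv2 : v ^ 2 ≠ 1 := by
        intro h
        have h1 := orderOf_dvd_of_pow_eq_one h
        rw [hv, hord4] at h1
        norm_num at h1
      have hmem : ∀ x ∈ W, ∃ k : ℕ, x = v ^ k := by
        intro x hx
        have h1 := hw ⟨x, hx⟩
        rw [← mem_powers_iff_mem_zpowers] at h1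
        obtain ⟨k, hk⟩ := h1
        refine ⟨k, ?_⟩
        rw [hv, ← Subgroup.coe_pow]
        exact (congrArg Subtype.val hk).symm
      have hm2' : m ^ 2 = 1 ∨ m ^ 2 = v ^ 2 := by
        obtain ⟨k, hk⟩ := hmem _ hm2
        have h1 : v ^ (2 * k) = 1 := by
          rw [mul_comm, pow_mul, ← hk, ← pow_mul]
          exact h4 m
        have h2 : 4 ∣ 2 * k := by
          rw [← hord4, ← hv]
          exact orderOf_dvd_of_pow_eq_one h1
        obtain ⟨j, rfl⟩ : ∃ j, k = 2 * j := ⟨k / 2, by omega⟩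
        rcases Nat.even_or_odd' j with ⟨i, rfl | rfl⟩
        · left
          rw [hk, show 2 * (2 * i) = 4 * i by ring, pow_mul, hv4, one_pow]
        · right
          rw [hk, show 2 * (2 * i + 1) = 4 * i + 2 by ring, pow_add, pow_mul, hv4, one_pow,
            one_mul]
      have hmv : Commute m v := hmc v hvW
      obtain ⟨u, huT1, hu2, hum⟩ :
          ∃ u, (∃ w ∈ W, u = m * w) ∧ u ^ 2 = 1 ∧ (u ∈ W → False) := by
        rcases hm2' with h | h
        · exact ⟨m, ⟨1, W.one_mem, (mul_one m).symm⟩, h, hmW⟩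
        · refine ⟨m * v, ⟨v, hvW, rfl⟩, ?_, ?_⟩
          · rw [hmv.mul_pow, h, ← pow_add]
            exact hv4
          · intro h'
            apply hmW
            have h1 := W.mul_mem h' (W.inv_mem hvW)
            rwa [mul_inv_cancel_right] at h1
      obtain ⟨e, heW, he2⟩ : ∃ e, (∃ w ∈ W, e = m * w) ∧ e ^ 2 ≠ 1 := by
        rcases hm2' with h | h
        · refine ⟨m * v, ⟨v, hvW, rfl⟩, ?_⟩
          rw [hmv.mul_pow, h, one_mul]
          exact hv2
        · exact ⟨m, ⟨1, W.one_mem, (mul_one m).symm⟩, by rw [h]; exact hv2⟩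
      apply hum
      apply key {x | (∃ w ∈ W, x = m * w) ∧ x ^ 2 = 1} u (Set.toFinite _)
      · have hsub : {x | (∃ w ∈ W, x = m * w) ∧ x ^ 2 = 1} ⊂ (fun w => m * w) '' (W : Set G) := by
          constructor
          · rintro x ⟨⟨w, hw, rfl⟩, _⟩
            exact ⟨w, hw, rfl⟩
          · intro hsup
            obtain ⟨w, hw, rfl⟩ := heW
            exact he2 (hsup ⟨w, hw, rfl⟩).2
        have hlt := Set.ncard_lt_ncard hsub (Set.toFinite _)
        have hc : ((fun w => m * w) '' (W : Set G)).ncard = Nat.card W := by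
          rw [Set.ncard_image_of_injective _ (mul_right_injective m)]
          exact (Nat.card_coe_set_eq _).symm
        omega
      · rintro g x ⟨⟨w, hw, rfl⟩, hx2⟩
        obtain ⟨w', hw', e'⟩ := hconj g w hw
        refine ⟨⟨w', hw', e'⟩, ?_⟩
        rw [conj_pow, hx2]
        simp
      · exact ⟨huT1, hu2⟩
      · obtain ⟨w, hw, rfl⟩ := huT1
        exact Φ.mul_mem hmΦ (hWΦ hw)
  -- step 2: it is cyclic of exponent 2
  have hΦcomm : ∀ x ∈ Φ, ∀ y ∈ Φ, x * y = y * x := fun x hx y hy =>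
    (Subgroup.mem_centralizer_iff.mp (hab hy)) x hx
  have hΦcyc : IsCyclic Φ :=
    hchar Φ hΦc (isMulCommutative_iff.mpr (fun a b => Subtype.ext (hΦcomm a.1 a.2 b.1 b.2)))
  have hΦsq : ∀ x ∈ Φ, x ^ 2 = 1 := by
    intro x hx
    have hx' : x ∈ Subgroup.closure (Set.range fun g : G => g ^ 2) := by
      rw [hΦ, sqSub] at hx; exact hx
    induction hx' using Subgroup.closure_induction with
    | mem y hy =>
      obtain ⟨g, rfl⟩ := hy
      show (g ^ 2) ^ 2 = 1
      rw [← pow_mul]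
      exact h4 g
    | one => simp
    | mul a b ha hb iha ihb =>
      have hc : Commute a b :=
        hΦcomm a (by rw [hΦ, sqSub]; exact ha) b (by rw [hΦ, sqSub]; exact hb)
      rw [hc.mul_pow, iha (by rw [hΦ, sqSub]; exact ha), ihb (by rw [hΦ, sqSub]; exact hb),
        one_mul]
    | inv a ha iha => rw [inv_pow, iha (by rw [hΦ, sqSub]; exact ha), inv_one]
  obtain ⟨z, hz⟩ := hΦcyc.exists_generator
  have hz2 : (z : G) ^ 2 = 1 := hΦsq _ z.2
  have hΦelts : ∀ x ∈ Φ, x = 1 ∨ x = (z : G) := by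
    intro x hx
    have h1 := hz ⟨x, hx⟩
    rw [← mem_powers_iff_mem_zpowers] at h1
    obtain ⟨k, hk⟩ := h1
    have hk' : (z : G) ^ k = x := by
      rw [← Subgroup.coe_pow]
      exact congrArg Subtype.val hk
    rcases Nat.even_or_odd' k with ⟨j, rfl | rfl⟩
    · left
      rw [← hk', pow_mul, hz2, one_pow]
    · right
      rw [← hk', pow_add, pow_mul, hz2, one_pow, one_mul, pow_one]
  refine ⟨z, ?_, hz2, fun g => hΦelts _ (by rw [hΦ]; exact sq_mem_sqSub g)⟩
  intro g
  have hconj : g * z * g⁻¹ ∈ Φ := hΦn.conj_mem _ z.2 g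
  rcases hΦelts _ hconj with h | h
  · have hz1 : (z : G) = 1 := by
      have h1 : (z : G) = g⁻¹ * (g * z * g⁻¹) * g := by group
      rw [h1, h]
      group
    rw [hz1]
    simp
  · calc g * z = (g * z * g⁻¹) * g := by group
      _ = z * g := by rw [h]

end A

end Cfsg.Agent.Lib.Helper98.Symp
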