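import Mathlib
import Cfsg.Agent.Lib.Helper98.SympA

/-!
Subgroups of `GL_4(F)` all of whose elements square to `±1`: commutation up to sign and a system of
"Pauli generators".
-/

set_option autoImplicit false

namespace Cfsg.Agent.Lib.Helper98.Symp

open Matrix

section B

variable {F : Type*} [Field F] {n : Type*} [Fintype n] [DecidableEq n]

theorem card_le_of_subset_finset {Γ : Type*} (R : Set Γ) (S : Finset Γ)
    (h : ∀ r ∈ R, r ∈ S) : Nat.card R ≤ S.card := by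
  rw [Nat.card_coe_set_eq, ← Set.ncard_coe_finset S]
  exact Set.ncard_le_ncard (fun r hr => Finset.mem_coe.mpr (h r hr)) S.finite_toSet

theorem comm_or_anti (R : Subgroup (GL n F)) (hsq : ∀ g ∈ R, g * g = 1 ∨ g * g = -1)
    (g h : GL n F) (hg : g ∈ R) (hh : h ∈ R) : g * h = h * g ∨ g * h = -(h * g) := by
  have hinv : ∀ x ∈ R, x⁻¹ = x ∨ x⁻¹ = -x := by
    intro x hx
    rcases hsq x hx with h1 | h1
    · exact Or.inl (inv_eq_of_mul_eq_one_left h1)
    · right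
      apply inv_eq_of_mul_eq_one_right
      rw [mul_neg, h1, neg_neg]
  have hgh1 := hinv (g * h) (R.mul_mem hg hh)
  rw [_root_.mul_inv_rev] at hgh1
  rcases hinv g hg with a | a <;> rcases hinv h hh with b | b <;> rcases hgh1 with e | e
  · rw [a, b] at e
    exact Or.inl e.symm
  · rw [a, b] at e
    exact Or.inr (by rw [e, neg_neg])
  · rw [a, b, neg_mul] at e
    exact Or.inr e.symm
  · rw [a, b, neg_mul] at e
    exact Or.inl (neg_inj.mp e).symm
  · rw [a, b, mul_neg] at e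
    exact Or.inr e.symm
  · rw [a, b, mul_neg] at e
    exact Or.inl (neg_inj.mp e).symm
  · rw [a, b, neg_mul_neg] at e
    exact Or.inl e.symm
  · rw [a, b, neg_mul_neg] at e
    exact Or.inr (by rw [e, neg_neg])

theorem normalize_sq (R : Subgroup (GL n F)) (hsq : ∀ g ∈ R, g * g = 1 ∨ g * g = -1)
    (c : GL n F) (hcR : c ∈ R) (hcc : ∀ x : GL n F, c * x = x * c) (hc2 : c * c = -1)
    (g : GL n F) (hg : g ∈ R) :
    ∃ g' ∈ R, g' * g' = 1 ∧ (∀ x : GL n F, g * x = x * g → g' * x = x * g') ∧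
      (∀ x : GL n F, g * x = -(x * g) → g' * x = -(x * g')) := by
  rcases hsq g hg with h1 | h1
  · exact ⟨g, hg, h1, fun x hx => hx, fun x hx => hx⟩
  · refine ⟨c * g, R.mul_mem hcR hg, ?_, ?_, ?_⟩
    · calc c * g * (c * g) = c * c * (g * g) := by
            rw [mul_assoc, ← mul_assoc g c g, ← hcc g, mul_assoc c g g, ← mul_assoc]
        _ = 1 := by rw [hc2, h1, neg_mul_neg, one_mul]
    · intro x hx
      rw [mul_assoc, hx, ← mul_assoc, hcc x, mul_assoc]
    · intro x hx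
      rw [mul_assoc, hx, mul_neg, ← mul_assoc, hcc x, mul_assoc]

theorem fixpair (g h r : GL n F) (hgg : g * g = 1) (hhh : h * h = 1) (hgh : g * h = -(h * g))
    (hrg : r * g = g * r ∨ r * g = -(g * r)) (hrh : r * h = h * r ∨ r * h = -(h * r)) :
    ∃ w : GL n F, (w = 1 ∨ w = g ∨ w = h ∨ w = h * g) ∧ (w * r) * g = g * (w * r) ∧
      (w * r) * h = h * (w * r) := by
  have hhg : h * g = -(g * h) := by rw [hgh, neg_neg]
  rcases hrg with a | a <;> rcases hrh with b | b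
  · exact ⟨1, Or.inl rfl, by rw [one_mul]; exact a, by rw [one_mul]; exact b⟩
  · refine ⟨g, Or.inr (Or.inl rfl), ?_, ?_⟩
    · rw [mul_assoc, a]
    · rw [mul_assoc, b, mul_neg, ← mul_assoc, hgh, neg_mul, neg_neg, mul_assoc]
  · refine ⟨h, Or.inr (Or.inr (Or.inl rfl)), ?_, ?_⟩
    · rw [mul_assoc, a, mul_neg, ← mul_assoc, hhg, neg_mul, neg_neg, mul_assoc]
    · rw [mul_assoc, b]
  · refine ⟨h * g, Or.inr (Or.inr (Or.inr rfl)), ?_, ?_⟩
    · have e1 : (h * g * r) * g = -(h * r) := by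
        calc (h * g * r) * g = h * g * (r * g) := by rw [mul_assoc]
          _ = -(h * g * (g * r)) := by rw [a, mul_neg]
          _ = -(h * r) := by rw [mul_assoc h g (g * r), ← mul_assoc g g r, hgg, one_mul]
      have e2 : g * (h * g * r) = -(h * r) := by
        calc g * (h * g * r) = g * h * g * r := by rw [← mul_assoc, ← mul_assoc]
          _ = -(h * g * g * r) := by rw [hgh, neg_mul, neg_mul]
          _ = -(h * r) := by rw [mul_assoc h g g, hgg, mul_one]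
      rw [e1, e2]
    · have e3 : (h * g * r) * h = g * r := by
        calc (h * g * r) * h = h * g * (r * h) := by rw [mul_assoc]
          _ = -(h * g * (h * r)) := by rw [b, mul_neg]
          _ = h * (h * g * r) := by
            rw [mul_assoc h g (h * r), ← mul_assoc g h r, hgh, neg_mul, mul_neg, neg_neg]
          _ = g * r := by rw [← mul_assoc, ← mul_assoc, hhh, one_mul]
      have e4 : h * (h * g * r) = g * r := by
        rw [← mul_assoc, ← mul_assoc, hhh, one_mul]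
      rw [e3, e4]

theorem w_comm (g h w e : GL n F) (hw : w = 1 ∨ w = g ∨ w = h ∨ w = h * g)
    (heg : e * g = g * e) (heh : e * h = h * e) : e * w = w * e := by
  rcases hw with rfl | rfl | rfl | rfl
  · rw [mul_one, one_mul]
  · exact heg
  · exact heh
  · rw [← mul_assoc, heh, mul_assoc, heg, ← mul_assoc]

theorem scalar_cases (i : F) (hi : i ^ 2 = -1) (c : GL (Fin 4) F)
    (hc : (c : Matrix (Fin 4) (Fin 4) F) = i • (1 : Matrix (Fin 4) (Fin 4) F))
    (g : GL (Fin 4) F) (hg : g * g = 1 ∨ g * g = -1) (l : F)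
    (hl : (g : Matrix (Fin 4) (Fin 4) F) = l • (1 : Matrix (Fin 4) (Fin 4) F)) :
    g = 1 ∨ g = -1 ∨ g = c ∨ g = -c := by
  have hmul : ((g * g : GL (Fin 4) F) : Matrix (Fin 4) (Fin 4) F)
      = (l * l) • (1 : Matrix (Fin 4) (Fin 4) F) := by
    rw [Units.val_mul, hl, Matrix.smul_mul, Matrix.one_mul, smul_smul]
  rcases hg with h1 | h1
  · rw [h1, Units.val_one] at hmul
    have h00 := congrFun (congrFun hmul 0) 0
    simp only [Matrix.one_apply_eq, Matrix.smul_apply, smul_eq_mul, mul_one] at h00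
    have h2 : (l - 1) * (l + 1) = 0 := by linear_combination -h00
    rcases mul_eq_zero.mp h2 with h3 | h3
    · left
      apply Units.ext
      rw [hl, Units.val_one, sub_eq_zero.mp h3, one_smul]
    · right; left
      apply Units.ext
      rw [hl, Units.val_neg, Units.val_one, eq_neg_of_add_eq_zero_left h3, neg_smul, one_smul]
  · rw [h1, Units.val_neg, Units.val_one] at hmul
    have h00 := congrFun (congrFun hmul 0) 0
    simp only [Matrix.one_apply_eq, Matrix.smul_apply, smul_eq_mul, mul_one,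
      Matrix.neg_apply] at h00
    have h2 : (l - i) * (l + i) = 0 := by linear_combination -h00 - hi
    rcases mul_eq_zero.mp h2 with h3 | h3
    · right; right; left
      apply Units.ext
      rw [hl, hc, sub_eq_zero.mp h3]
    · right; right; right
      apply Units.ext
      rw [hl, Units.val_neg, hc, eq_neg_of_add_eq_zero_left h3, neg_smul]

theorem exists_pauli_gens (i : F) (hi : i ^ 2 = -1) (R : Subgroup (GL (Fin 4) F))
    (hsq : ∀ g ∈ R, g * g = 1 ∨ g * g = -1) (c : GL (Fin 4) F) (hcR : c ∈ R)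
    (hc : (c : Matrix (Fin 4) (Fin 4) F) = i • (1 : Matrix (Fin 4) (Fin 4) F))
    (hcent : ∀ g ∈ R, (∀ h ∈ R, g * h = h * g) →
      ∃ l : F, (g : Matrix (Fin 4) (Fin 4) F) = l • (1 : Matrix (Fin 4) (Fin 4) F))
    (hcard : Nat.card R = 64) :
    ∃ g₁ h₁ g₂ h₂ : GL (Fin 4) F, g₁ ∈ R ∧ h₁ ∈ R ∧ g₂ ∈ R ∧ h₂ ∈ R ∧
      g₁ * g₁ = 1 ∧ h₁ * h₁ = 1 ∧ g₂ * g₂ = 1 ∧ h₂ * h₂ = 1 ∧
      g₁ * h₁ = -(h₁ * g₁) ∧ g₂ * h₂ = -(h₂ * g₂) ∧
      g₂ * g₁ = g₁ * g₂ ∧ g₂ * h₁ = h₁ * g₂ ∧ h₂ * g₁ = g₁ * h₂ ∧ h₂ * h₁ = h₁ * h₂ := by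
  classical
  have hcc : ∀ x : GL (Fin 4) F, c * x = x * c := by
    intro x
    apply Units.ext
    rw [Units.val_mul, Units.val_mul, hc, Matrix.smul_mul, Matrix.mul_smul, Matrix.one_mul,
      Matrix.mul_one]
  have hc2 : c * c = -1 := by
    apply Units.ext
    rw [Units.val_mul, hc, Units.val_neg, Units.val_one, Matrix.smul_mul, Matrix.one_mul,
      smul_smul, ← pow_two, hi, neg_smul, one_smul]
  have hS4 : ∀ g ∈ R, (∀ h ∈ R, g * h = h * g) → g = 1 ∨ g = -1 ∨ g = c ∨ g = -c := by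
    intro g hg hgc
    obtain ⟨l, hl⟩ := hcent g hg hgc
    exact scalar_cases i hi c hc g (hsq g hg) l hl
  have hnc : ∃ g ∈ R, ∃ h ∈ R, g * h ≠ h * g := by
    by_contra hcon
    push Not at hcon
    have hsub : ∀ r ∈ (R : Set (GL (Fin 4) F)), r ∈ ({1, -1, c, -c} : Finset (GL (Fin 4) F)) := by
      intro r hr
      have h1 := hS4 r hr (hcon r hr)
      simp only [Finset.mem_insert, Finset.mem_singleton]
      exact h1
    have h1 := card_le_of_subset_finset (R : Set (GL (Fin 4) F)) _ hsub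
    have h2 : ({1, -1, c, -c} : Finset (GL (Fin 4) F)).card ≤ 4 := Finset.card_le_four
    have h3 : Nat.card (R : Set (GL (Fin 4) F)) = 64 := hcard
    omega
  obtain ⟨g₁', hg₁', h₁', hh₁', hne⟩ := hnc
  have hanti0 : g₁' * h₁' = -(h₁' * g₁') :=
    (comm_or_anti R hsq _ _ hg₁' hh₁').resolve_left hne
  obtain ⟨g₁, hg₁, hg₁sq, -, hg₁n⟩ := normalize_sq R hsq c hcR hcc hc2 g₁' hg₁'
  have h1 : g₁ * h₁' = -(h₁' * g₁) := hg₁n _ hanti0
  obtain ⟨h₁, hh₁, hh₁sq, -, hh₁n⟩ := normalize_sq R hsq c hcR hcc hc2 h₁' hh₁'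
  have h2 : h₁ * g₁ = -(g₁ * h₁) := hh₁n _ (by rw [h1, neg_neg])
  have hgh1 : g₁ * h₁ = -(h₁ * g₁) := by rw [h2, neg_neg]
  have hex2 : ∃ r ∈ R, r * g₁ = g₁ * r ∧ r * h₁ = h₁ * r ∧ ∃ h ∈ R, r * h ≠ h * r := by
    by_contra hcon
    push Not at hcon
    have hsub : ∀ r ∈ (R : Set (GL (Fin 4) F)),
        r ∈ ((({1, g₁, h₁, h₁ * g₁} : Finset (GL (Fin 4) F)) ×ˢ
          ({1, -1, c, -c} : Finset (GL (Fin 4) F))).image (fun p => p.1⁻¹ * p.2)) := by
      intro r hr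
      obtain ⟨w, hw, hwg, hwh⟩ := fixpair g₁ h₁ r hg₁sq hh₁sq hgh1
        (comm_or_anti R hsq r g₁ hr hg₁) (comm_or_anti R hsq r h₁ hr hh₁)
      have hwR : w ∈ R := by
        rcases hw with rfl | rfl | rfl | rfl
        · exact R.one_mem
        · exact hg₁
        · exact hh₁
        · exact R.mul_mem hh₁ hg₁
      have hwr := hS4 (w * r) (R.mul_mem hwR hr) (hcon (w * r) (R.mul_mem hwR hr) hwg hwh)
      rw [Finset.mem_image]
      refine ⟨(w, w * r), ?_, by simp⟩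
      rw [Finset.mem_product]
      constructor <;> simp only [Finset.mem_insert, Finset.mem_singleton]
      · exact hw
      · exact hwr
    have h1 := card_le_of_subset_finset (R : Set (GL (Fin 4) F)) _ hsub
    have h2 := Finset.card_image_le
      (s := (({1, g₁, h₁, h₁ * g₁} : Finset (GL (Fin 4) F)) ×ˢ
          ({1, -1, c, -c} : Finset (GL (Fin 4) F)))) (f := fun p => p.1⁻¹ * p.2)
    rw [Finset.card_product] at h2
    have h3 : ({1, g₁, h₁, h₁ * g₁} : Finset (GL (Fin 4) F)).card ≤ 4 := Finset.card_le_four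
    have h4 : ({1, -1, c, -c} : Finset (GL (Fin 4) F)).card ≤ 4 := Finset.card_le_four
    have h5 : Nat.card (R : Set (GL (Fin 4) F)) = 64 := hcard
    have h6 : ({1, g₁, h₁, h₁ * g₁} : Finset (GL (Fin 4) F)).card *
        ({1, -1, c, -c} : Finset (GL (Fin 4) F)).card ≤ 4 * 4 := Nat.mul_le_mul h3 h4
    omega
  obtain ⟨g₂', hg₂', hg₂g, hg₂h, h₂', hh₂', hne2⟩ := hex2
  have hanti2 : g₂' * h₂' = -(h₂' * g₂') :=
    (comm_or_anti R hsq _ _ hg₂' hh₂').resolve_left hne2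
  obtain ⟨w, hw, hwg, hwh⟩ := fixpair g₁ h₁ h₂' hg₁sq hh₁sq hgh1
    (comm_or_anti R hsq h₂' g₁ hh₂' hg₁) (comm_or_anti R hsq h₂' h₁ hh₂' hh₁)
  have hwR : w ∈ R := by
    rcases hw with rfl | rfl | rfl | rfl
    · exact R.one_mem
    · exact hg₁
    · exact hh₁
    · exact R.mul_mem hh₁ hg₁
  have hgw : g₂' * w = w * g₂' := w_comm g₁ h₁ w g₂' hw hg₂g hg₂h
  have hanti3 : g₂' * (w * h₂') = -((w * h₂') * g₂') := by
    rw [← mul_assoc, hgw, mul_assoc, hanti2, mul_neg, mul_assoc]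
  obtain ⟨g₂, hg₂, hg₂sq, hg₂p, hg₂n⟩ := normalize_sq R hsq c hcR hcc hc2 g₂' hg₂'
  have h3 : g₂ * (w * h₂') = -((w * h₂') * g₂) := hg₂n _ hanti3
  obtain ⟨h₂, hh₂, hh₂sq, hh₂p, hh₂n⟩ :=
    normalize_sq R hsq c hcR hcc hc2 (w * h₂') (R.mul_mem hwR hh₂')
  have h4 : h₂ * g₂ = -(g₂ * h₂) := hh₂n _ (by rw [h3, neg_neg])
  exact ⟨g₁, h₁, g₂, h₂, hg₁, hh₁, hg₂, hh₂, hg₁sq, hh₁sq, hg₂sq, hh₂sq, hgh1,
    by rw [h4, neg_neg], hg₂p _ hg₂g, hg₂p _ hg₂h, hh₂p _ hwg, hh₂p _ hwh⟩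

end B

end Cfsg.Agent.Lib.Helper98.Symp
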