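import Mathlib
import Cfsg.Prelude.Def_GeometricClasses
import Cfsg.Agent.Lib.Helper99.Norm
import Cfsg.Agent.Lib.Helper98.SympB

/-!
The group `R = 2^{1+4}_-` in `Sp_4(F)` (matrices indexed by `Fin 2 ⊕ Fin 2`): trace formula for
elements of the normaliser, sizes of centralisers, and non-existence of certain elements in the
normaliser.
-/

set_option autoImplicit false

namespace Cfsg.Agent.Lib.Helper98.SM

open Matrix
open Cfsg.Agent.Lib.Helper98.Symp (comm_or_anti card_le_of_subset_finset)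

section M1

variable {F : Type*} [Field F]

/-- standing hypotheses on `R` -/
structure GoodM (R : Subgroup (GL (Fin 2 ⊕ Fin 2) F)) : Prop where
  h2 : (2 : F) ≠ 0
  hsq : ∀ g ∈ R, g * g = 1 ∨ g * g = -1
  hneg : (-1 : GL (Fin 2 ⊕ Fin 2) F) ∈ R
  hcen : ∀ g ∈ R, (∀ s ∈ R, g * s = s * g) → g = 1 ∨ g = -1
  habs : ∀ M : Matrix (Fin 2 ⊕ Fin 2) (Fin 2 ⊕ Fin 2) F,
    (∀ g ∈ R, M * (g : Matrix (Fin 2 ⊕ Fin 2) (Fin 2 ⊕ Fin 2) F) = (g : Matrix (Fin 2 ⊕ Fin 2) (Fin 2 ⊕ Fin 2) F) * M) →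
    ∃ l : F, M = l • (1 : Matrix (Fin 2 ⊕ Fin 2) (Fin 2 ⊕ Fin 2) F)
  hcard : Nat.card R = 32

theorem neg_ne_self_gl (h2 : (2 : F) ≠ 0) (x : GL (Fin 2 ⊕ Fin 2) F) : -x ≠ x := by
  intro h
  have h1 := congrArg Units.val h
  rw [Units.val_neg] at h1
  have h3 : (2 : F) • (x : Matrix (Fin 2 ⊕ Fin 2) (Fin 2 ⊕ Fin 2) F) = 0 := by
    rw [two_smul]
    nth_rewrite 1 [← h1]
    exact neg_add_cancel _
  have h4 : (x : Matrix (Fin 2 ⊕ Fin 2) (Fin 2 ⊕ Fin 2) F) = 0 := (smul_eq_zero.mp h3).resolve_left h2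
  have h5 := x.mul_inv
  rw [h4, zero_mul] at h5
  have h6 := congrFun (congrFun h5 (Sum.inl 0)) (Sum.inl 0)
  simp at h6

theorem trace_one_I4 : (1 : Matrix (Fin 2 ⊕ Fin 2) (Fin 2 ⊕ Fin 2) F).trace = 4 := by
  rw [Matrix.trace_one]
  simp only [Fintype.card_sum, Fintype.card_fin]
  norm_num

theorem comm_expand_gen {n : Type*} [Fintype n] [DecidableEq n] (A B N M : Matrix n n F)
    (hAB : A * B = 1) :
    A * (1 + N) * B * (1 - M) = 1 - M + A * N * B - A * N * B * M := by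
  have e1 : A * (1 + N) * B = A * B + A * N * B := by noncomm_ring
  rw [e1, hAB]
  noncomm_ring

namespace GoodM

variable {R : Subgroup (GL (Fin 2 ⊕ Fin 2) F)}

theorem h4 (hG : GoodM R) : (4 : F) ≠ 0 := by
  have h : (4 : F) = 2 * 2 := by norm_num
  rw [h]
  exact mul_ne_zero hG.h2 hG.h2

theorem fin (hG : GoodM R) : Finite R :=
  Nat.finite_of_card_ne_zero (by rw [hG.hcard]; norm_num)

theorem neg_one_ne (hG : GoodM R) : (-1 : GL (Fin 2 ⊕ Fin 2) F) ≠ 1 := neg_ne_self_gl hG.h2 1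

theorem ord_neg (hG : GoodM R) : orderOf (-1 : GL (Fin 2 ⊕ Fin 2) F) = 2 := by
  haveI : Fact (Nat.Prime 2) := ⟨Nat.prime_two⟩
  exact orderOf_eq_prime (by rw [neg_one_sq]) hG.neg_one_ne

theorem neg_comm (x : GL (Fin 2 ⊕ Fin 2) F) : (-1 : GL (Fin 2 ⊕ Fin 2) F) * x = x * (-1) := by
  rw [neg_mul, mul_neg, one_mul, mul_one]

theorem trace_zero (hG : GoodM R) (k : GL (Fin 2 ⊕ Fin 2) F) (hk : k ∈ R) (s : GL (Fin 2 ⊕ Fin 2) F)
    (hs : s ∈ R) (hne : k * s ≠ s * k) : (k : Matrix (Fin 2 ⊕ Fin 2) (Fin 2 ⊕ Fin 2) F).trace = 0 := by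
  have ha : k * s = -(s * k) := (comm_or_anti R hG.hsq k s hk hs).resolve_left hne
  have h1 : s * k * s⁻¹ = -k := by
    rw [mul_inv_eq_iff_eq_mul, neg_mul, ha, neg_neg]
  have h3 := congrArg (fun u : GL (Fin 2 ⊕ Fin 2) F => (u : Matrix (Fin 2 ⊕ Fin 2) (Fin 2 ⊕ Fin 2) F).trace) h1
  simp only [Units.val_mul, Units.val_neg, Matrix.trace_neg] at h3
  rw [Matrix.trace_units_conj] at h3
  have h4 : (2 : F) * (k : Matrix (Fin 2 ⊕ Fin 2) (Fin 2 ⊕ Fin 2) F).trace = 0 := by linear_combination h3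
  exact (mul_eq_zero.mp h4).resolve_left hG.h2

theorem twirl (hG : GoodM R) [Fintype R] (A : Matrix (Fin 2 ⊕ Fin 2) (Fin 2 ⊕ Fin 2) F) :
    ∑ ρ : R, ((ρ : GL (Fin 2 ⊕ Fin 2) F) : Matrix (Fin 2 ⊕ Fin 2) (Fin 2 ⊕ Fin 2) F) * A *
        (((ρ : GL (Fin 2 ⊕ Fin 2) F)⁻¹ : GL (Fin 2 ⊕ Fin 2) F) : Matrix (Fin 2 ⊕ Fin 2) (Fin 2 ⊕ Fin 2) F)
      = (8 * A.trace) • (1 : Matrix (Fin 2 ⊕ Fin 2) (Fin 2 ⊕ Fin 2) F) := by
  obtain ⟨T, hT⟩ : ∃ T : Matrix (Fin 2 ⊕ Fin 2) (Fin 2 ⊕ Fin 2) F,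
      T = ∑ ρ : R, ((ρ : GL (Fin 2 ⊕ Fin 2) F) : Matrix (Fin 2 ⊕ Fin 2) (Fin 2 ⊕ Fin 2) F) * A *
        (((ρ : GL (Fin 2 ⊕ Fin 2) F)⁻¹ : GL (Fin 2 ⊕ Fin 2) F) : Matrix (Fin 2 ⊕ Fin 2) (Fin 2 ⊕ Fin 2) F) := ⟨_, rfl⟩
  rw [← hT]
  have hcomm : ∀ g ∈ R, T * (g : Matrix (Fin 2 ⊕ Fin 2) (Fin 2 ⊕ Fin 2) F)
      = (g : Matrix (Fin 2 ⊕ Fin 2) (Fin 2 ⊕ Fin 2) F) * T := by
    intro g hg
    have h1 : (g : Matrix (Fin 2 ⊕ Fin 2) (Fin 2 ⊕ Fin 2) F) * T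
        * ((g⁻¹ : GL (Fin 2 ⊕ Fin 2) F) : Matrix (Fin 2 ⊕ Fin 2) (Fin 2 ⊕ Fin 2) F) = T := by
      rw [hT, Finset.mul_sum, Finset.sum_mul]
      rw [← Equiv.sum_comp (Equiv.mulLeft (⟨g, hg⟩ : R))
        (fun ρ : R => ((ρ : GL (Fin 2 ⊕ Fin 2) F) : Matrix (Fin 2 ⊕ Fin 2) (Fin 2 ⊕ Fin 2) F) * A *
          (((ρ : GL (Fin 2 ⊕ Fin 2) F)⁻¹ : GL (Fin 2 ⊕ Fin 2) F) : Matrix (Fin 2 ⊕ Fin 2) (Fin 2 ⊕ Fin 2) F))]
      apply Finset.sum_congr rfl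
      intro ρ _
      simp only [Equiv.coe_mulLeft, Subgroup.coe_mul, Units.val_mul, _root_.mul_inv_rev,
        Matrix.mul_assoc]
    calc T * (g : Matrix (Fin 2 ⊕ Fin 2) (Fin 2 ⊕ Fin 2) F)
        = ((g : Matrix (Fin 2 ⊕ Fin 2) (Fin 2 ⊕ Fin 2) F) * T
          * ((g⁻¹ : GL (Fin 2 ⊕ Fin 2) F) : Matrix (Fin 2 ⊕ Fin 2) (Fin 2 ⊕ Fin 2) F))
            * (g : Matrix (Fin 2 ⊕ Fin 2) (Fin 2 ⊕ Fin 2) F) := by rw [h1]
      _ = (g : Matrix (Fin 2 ⊕ Fin 2) (Fin 2 ⊕ Fin 2) F) * T := by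
        rw [Matrix.mul_assoc, Units.inv_mul, Matrix.mul_one]
  obtain ⟨l, hl⟩ := hG.habs T hcomm
  have htr : T.trace = 32 * A.trace := by
    rw [hT, Matrix.trace_sum]
    have h1 : ∀ ρ : R, (((ρ : GL (Fin 2 ⊕ Fin 2) F) : Matrix (Fin 2 ⊕ Fin 2) (Fin 2 ⊕ Fin 2) F) * A *
        (((ρ : GL (Fin 2 ⊕ Fin 2) F)⁻¹ : GL (Fin 2 ⊕ Fin 2) F) : Matrix (Fin 2 ⊕ Fin 2) (Fin 2 ⊕ Fin 2) F)).trace = A.trace :=
      fun ρ => Matrix.trace_units_conj (ρ : GL (Fin 2 ⊕ Fin 2) F) A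
    rw [Finset.sum_congr rfl (fun ρ _ => h1 ρ), Finset.sum_const, Finset.card_univ,
      ← Nat.card_eq_fintype_card, hG.hcard]
    simp
  rw [hl] at htr ⊢
  rw [Matrix.trace_smul, trace_one_I4] at htr
  simp only [smul_eq_mul] at htr
  congr 1
  apply mul_right_cancel₀ hG.h4
  linear_combination htr

theorem conj_mem (hG : GoodM R) (y : GL (Fin 2 ⊕ Fin 2) F)
    (hy : y ∈ Subgroup.normalizer (R : Set (GL (Fin 2 ⊕ Fin 2) F))) (ρ : GL (Fin 2 ⊕ Fin 2) F) (hρ : ρ ∈ R) :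
    ρ * y * ρ⁻¹ * y⁻¹ ∈ R := by
  have e : ρ * y * ρ⁻¹ * y⁻¹ = ρ * (y * ρ⁻¹ * y⁻¹) := by group
  rw [e]
  exact R.mul_mem hρ ((Subgroup.mem_set_normalizer_iff.mp hy _).mp (R.inv_mem hρ))

theorem count (hG : GoodM R) (y : GL (Fin 2 ⊕ Fin 2) F)
    (hy : y ∈ Subgroup.normalizer (R : Set (GL (Fin 2 ⊕ Fin 2) F)))
    (hH : ∀ ρ ∈ R, (∀ σ ∈ R, (ρ * y * ρ⁻¹ * y⁻¹) * σ = σ * (ρ * y * ρ⁻¹ * y⁻¹)) →
      ρ * y = y * ρ) :
    2 * (y : Matrix (Fin 2 ⊕ Fin 2) (Fin 2 ⊕ Fin 2) F).trace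
        * ((y⁻¹ : GL (Fin 2 ⊕ Fin 2) F) : Matrix (Fin 2 ⊕ Fin 2) (Fin 2 ⊕ Fin 2) F).trace
      = (Nat.card (R ⊓ Subgroup.centralizer {y} : Subgroup (GL (Fin 2 ⊕ Fin 2) F)) : F) := by
  classical
  have : Finite R := hG.fin
  let _ : Fintype R := Fintype.ofFinite R
  have htw := hG.twirl (y : Matrix (Fin 2 ⊕ Fin 2) (Fin 2 ⊕ Fin 2) F)
  have h1 : ∑ ρ : R, (((ρ : GL (Fin 2 ⊕ Fin 2) F) * y * (ρ : GL (Fin 2 ⊕ Fin 2) F)⁻¹ * y⁻¹ : GL (Fin 2 ⊕ Fin 2) F)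
        : Matrix (Fin 2 ⊕ Fin 2) (Fin 2 ⊕ Fin 2) F).trace
      = 8 * (y : Matrix (Fin 2 ⊕ Fin 2) (Fin 2 ⊕ Fin 2) F).trace
        * ((y⁻¹ : GL (Fin 2 ⊕ Fin 2) F) : Matrix (Fin 2 ⊕ Fin 2) (Fin 2 ⊕ Fin 2) F).trace := by
    have h0 := congrArg
      (fun M => (M * ((y⁻¹ : GL (Fin 2 ⊕ Fin 2) F) : Matrix (Fin 2 ⊕ Fin 2) (Fin 2 ⊕ Fin 2) F)).trace) htw
    simp only [Finset.sum_mul, Matrix.trace_sum, Matrix.smul_mul, Matrix.one_mul,
      Matrix.trace_smul, smul_eq_mul] at h0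
    rw [← h0]
    apply Finset.sum_congr rfl
    intro ρ _
    simp only [Units.val_mul]
  have h2 : ∀ ρ : R, (((ρ : GL (Fin 2 ⊕ Fin 2) F) * y * (ρ : GL (Fin 2 ⊕ Fin 2) F)⁻¹ * y⁻¹ : GL (Fin 2 ⊕ Fin 2) F)
        : Matrix (Fin 2 ⊕ Fin 2) (Fin 2 ⊕ Fin 2) F).trace
      = if (ρ : GL (Fin 2 ⊕ Fin 2) F) * y = y * (ρ : GL (Fin 2 ⊕ Fin 2) F) then (4 : F) else 0 := by
    intro ρ
    split_ifs with hc
    · have e : (ρ : GL (Fin 2 ⊕ Fin 2) F) * y * (ρ : GL (Fin 2 ⊕ Fin 2) F)⁻¹ * y⁻¹ = 1 := by rw [hc]; group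
      rw [e, Units.val_one, trace_one_I4]
    · have hκR : (ρ : GL (Fin 2 ⊕ Fin 2) F) * y * (ρ : GL (Fin 2 ⊕ Fin 2) F)⁻¹ * y⁻¹ ∈ R := hG.conj_mem y hy ρ.1 ρ.2
      have hnc : ∃ σ ∈ R, ((ρ : GL (Fin 2 ⊕ Fin 2) F) * y * (ρ : GL (Fin 2 ⊕ Fin 2) F)⁻¹ * y⁻¹) * σ
          ≠ σ * ((ρ : GL (Fin 2 ⊕ Fin 2) F) * y * (ρ : GL (Fin 2 ⊕ Fin 2) F)⁻¹ * y⁻¹) := by
        by_contra hcon
        push Not at hcon
        exact hc (hH ρ.1 ρ.2 hcon)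
      obtain ⟨σ, hσ, hne⟩ := hnc
      exact hG.trace_zero _ hκR σ hσ hne
  rw [Finset.sum_congr rfl (fun ρ _ => h2 ρ), Finset.sum_ite, Finset.sum_const_zero, add_zero,
    Finset.sum_const, nsmul_eq_mul] at h1
  have h3 : (Finset.univ.filter (fun ρ : R => (ρ : GL (Fin 2 ⊕ Fin 2) F) * y = y * (ρ : GL (Fin 2 ⊕ Fin 2) F))).card
      = Nat.card (R ⊓ Subgroup.centralizer {y} : Subgroup (GL (Fin 2 ⊕ Fin 2) F)) := by
    rw [← Fintype.card_subtype, ← Nat.card_eq_fintype_card]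
    apply Nat.card_congr
    exact
      { toFun := fun ρ => ⟨ρ.1.1, Subgroup.mem_inf.mpr ⟨ρ.1.2, by
          rw [Subgroup.mem_centralizer_iff]
          intro h hh
          rw [Set.mem_singleton_iff] at hh
          rw [hh]
          exact ρ.2.symm⟩⟩
        invFun := fun x => ⟨⟨x.1, (Subgroup.mem_inf.mp x.2).1⟩, by
          have h5 := Subgroup.mem_centralizer_iff.mp (Subgroup.mem_inf.mp x.2).2 y
            (Set.mem_singleton y)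
          exact h5.symm⟩
        left_inv := fun ρ => rfl
        right_inv := fun x => rfl }
  rw [h3] at h1
  apply mul_left_cancel₀ hG.h4
  linear_combination -h1

theorem mem_cent_iff (y b : GL (Fin 2 ⊕ Fin 2) F) :
    b ∈ (R ⊓ Subgroup.centralizer {y} : Subgroup (GL (Fin 2 ⊕ Fin 2) F)) ↔ b ∈ R ∧ b * y = y * b := by
  rw [Subgroup.mem_inf, Subgroup.mem_centralizer_iff]
  constructor
  · rintro ⟨h1, h2⟩
    exact ⟨h1, (h2 y (Set.mem_singleton y)).symm⟩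
  · rintro ⟨h1, h2⟩
    refine ⟨h1, fun h hh => ?_⟩
    rw [Set.mem_singleton_iff] at hh
    rw [hh]
    exact h2.symm

theorem zpow_neg_le (hG : GoodM R) (y : GL (Fin 2 ⊕ Fin 2) F) :
    Subgroup.zpowers (-1 : GL (Fin 2 ⊕ Fin 2) F) ≤ (R ⊓ Subgroup.centralizer {y} : Subgroup (GL (Fin 2 ⊕ Fin 2) F)) := by
  rw [Subgroup.zpowers_le, mem_cent_iff]
  exact ⟨hG.hneg, neg_comm y⟩

theorem card_dvd (hG : GoodM R) (y : GL (Fin 2 ⊕ Fin 2) F) :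
    Nat.card (R ⊓ Subgroup.centralizer {y} : Subgroup (GL (Fin 2 ⊕ Fin 2) F)) ∣ 32 ∧
      2 ∣ Nat.card (R ⊓ Subgroup.centralizer {y} : Subgroup (GL (Fin 2 ⊕ Fin 2) F)) := by
  constructor
  · rw [← hG.hcard]
    exact Subgroup.card_dvd_of_le inf_le_left
  · have h4 := Subgroup.card_dvd_of_le (hG.zpow_neg_le y)
    rwa [Nat.card_zpowers, hG.ord_neg] at h4

theorem card_cases (hG : GoodM R) (y : GL (Fin 2 ⊕ Fin 2) F) :
    Nat.card (R ⊓ Subgroup.centralizer {y} : Subgroup (GL (Fin 2 ⊕ Fin 2) F)) = 2 ∨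
    Nat.card (R ⊓ Subgroup.centralizer {y} : Subgroup (GL (Fin 2 ⊕ Fin 2) F)) = 4 ∨
    Nat.card (R ⊓ Subgroup.centralizer {y} : Subgroup (GL (Fin 2 ⊕ Fin 2) F)) = 8 ∨
    Nat.card (R ⊓ Subgroup.centralizer {y} : Subgroup (GL (Fin 2 ⊕ Fin 2) F)) = 16 ∨
    Nat.card (R ⊓ Subgroup.centralizer {y} : Subgroup (GL (Fin 2 ⊕ Fin 2) F)) = 32 := by
  obtain ⟨h32, h2⟩ := hG.card_dvd y
  have h32' : Nat.card (R ⊓ Subgroup.centralizer {y} : Subgroup (GL (Fin 2 ⊕ Fin 2) F)) ∣ 2 ^ 5 := by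
    norm_num
    exact h32
  obtain ⟨k, hk, hk'⟩ := (Nat.dvd_prime_pow Nat.prime_two).mp h32'
  rw [hk'] at h2 ⊢
  interval_cases k <;> simp_all

theorem scalar_of_card (hG : GoodM R) (y : GL (Fin 2 ⊕ Fin 2) F)
    (h : Nat.card (R ⊓ Subgroup.centralizer {y} : Subgroup (GL (Fin 2 ⊕ Fin 2) F)) = 32) :
    ∃ l : F, (y : Matrix (Fin 2 ⊕ Fin 2) (Fin 2 ⊕ Fin 2) F) = l • (1 : Matrix (Fin 2 ⊕ Fin 2) (Fin 2 ⊕ Fin 2) F) := by
  have : Finite R := hG.fin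
  have heq : R ⊓ Subgroup.centralizer {y} = R :=
    Subgroup.eq_of_le_of_card_ge inf_le_left (by rw [h, hG.hcard])
  apply hG.habs
  intro g hg
  have h0 : g ∈ R ⊓ Subgroup.centralizer {y} := by rw [heq]; exact hg
  have h1 := Subgroup.mem_centralizer_iff.mp (Subgroup.mem_inf.mp h0).2 y (Set.mem_singleton y)
  rw [← Units.val_mul, ← Units.val_mul, h1]

theorem H_of_pow (hG : GoodM R) (y : GL (Fin 2 ⊕ Fin 2) F)
    (hy : y ∈ Subgroup.normalizer (R : Set (GL (Fin 2 ⊕ Fin 2) F))) (r : ℕ) (hr : Odd r)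
    (hyr : ∀ g : GL (Fin 2 ⊕ Fin 2) F, g * y ^ r = y ^ r * g) :
    ∀ ρ ∈ R, (∀ σ ∈ R, (ρ * y * ρ⁻¹ * y⁻¹) * σ = σ * (ρ * y * ρ⁻¹ * y⁻¹)) → ρ * y = y * ρ := by
  intro ρ hρ hcen
  obtain ⟨k, hk⟩ : ∃ k, k = ρ * y * ρ⁻¹ * y⁻¹ := ⟨_, rfl⟩
  rw [← hk] at hcen
  have hkR : k ∈ R := by rw [hk]; exact hG.conj_mem y hy ρ hρ
  have hk' := hG.hcen k hkR hcen
  have hky : Commute k y := by
    show k * y = y * k
    rcases hk' with h | h
    · rw [h, one_mul, mul_one]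
    · rw [h]; exact neg_comm y
  have hk4 : k ^ 4 = 1 := by
    rcases hk' with h | h
    · rw [h, one_pow]
    · rw [h]
      have e : (-1 : GL (Fin 2 ⊕ Fin 2) F) ^ 4 = ((-1) ^ 2) ^ 2 := by rw [← pow_mul]
      rw [e, neg_one_sq, one_pow]
  have hkr : k ^ r = 1 := by
    have e1 : ρ * y * ρ⁻¹ = k * y := by rw [hk]; group
    have e2 : (ρ * y * ρ⁻¹) ^ r = y ^ r := by
      rw [conj_pow, hyr ρ, mul_inv_cancel_right]
    rw [e1, hky.mul_pow] at e2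
    have e3 : k ^ r * y ^ r = 1 * y ^ r := by rw [e2, one_mul]
    exact mul_right_cancel e3
  have hk1 : k = 1 := by
    have h1 : orderOf k ∣ r := orderOf_dvd_of_pow_eq_one hkr
    have h2 : orderOf k ∣ 4 := orderOf_dvd_of_pow_eq_one hk4
    have h3 : orderOf k ∣ Nat.gcd r 4 := Nat.dvd_gcd h1 h2
    have h4 : Nat.gcd r 4 = 1 := by
      have h5 : Nat.Coprime r (2 ^ 2) := Nat.Coprime.pow_right 2 (Nat.coprime_two_right.mpr hr)
      exact h5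
    rw [h4, Nat.dvd_one] at h3
    exact orderOf_eq_one_iff.mp h3
  rw [hk1] at hk
  have h1 : ρ * y * ρ⁻¹ = y := mul_inv_eq_one.mp hk.symm
  exact mul_inv_eq_iff_eq_mul.mp h1

/-- the centraliser in a subgroup `H ≤ R` of an element with which some element of `H`
anticommutes has index two -/
theorem half (hG : GoodM R) (H : Subgroup (GL (Fin 2 ⊕ Fin 2) F)) (hHR : H ≤ R) (t s : GL (Fin 2 ⊕ Fin 2) F) (ht : t ∈ R)
    (hs : s ∈ H) (hst : s * t = -(t * s)) :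
    Nat.card H = 2 * Nat.card (H ⊓ Subgroup.centralizer {t} : Subgroup (GL (Fin 2 ⊕ Fin 2) F)) := by
  have hRfin : Finite R := hG.fin
  have hHfin : Finite H := Finite.of_injective _ (Subgroup.inclusion_injective hHR)
  have hDmem : ∀ b : GL (Fin 2 ⊕ Fin 2) F, b ∈ (H ⊓ Subgroup.centralizer {t} : Subgroup (GL (Fin 2 ⊕ Fin 2) F))
      ↔ b ∈ H ∧ b * t = t * b := by
    intro b
    rw [Subgroup.mem_inf, Subgroup.mem_centralizer_iff]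
    constructor
    · rintro ⟨h1, h2⟩
      exact ⟨h1, (h2 t (Set.mem_singleton t)).symm⟩
    · rintro ⟨h1, h2⟩
      refine ⟨h1, fun h hh => ?_⟩
      rw [Set.mem_singleton_iff] at hh
      rw [hh]
      exact h2.symm
  have hindex : ((H ⊓ Subgroup.centralizer {t} : Subgroup (GL (Fin 2 ⊕ Fin 2) F)).subgroupOf H).index
      = 2 := by
    rw [Subgroup.index_eq_two_iff]
    refine ⟨⟨s, hs⟩, fun b => ?_⟩
    rw [Subgroup.mem_subgroupOf, Subgroup.mem_subgroupOf, hDmem, hDmem]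
    rcases comm_or_anti R hG.hsq b.1 t (hHR b.2) ht with hb | hb
    · right
      refine ⟨⟨b.2, hb⟩, ?_⟩
      rintro ⟨-, h1⟩
      have h2 : (b.1 * s) * t = -(t * (b.1 * s)) := by
        rw [mul_assoc, hst, mul_neg, ← mul_assoc, hb, mul_assoc]
      rw [Subgroup.coe_mul] at h1
      rw [h1] at h2
      exact neg_ne_self_gl hG.h2 _ h2.symm
    · left
      refine ⟨⟨H.mul_mem b.2 hs, ?_⟩, ?_⟩
      · rw [Subgroup.coe_mul]
        show b.1 * s * t = t * (b.1 * s)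
        rw [mul_assoc, hst, mul_neg, ← mul_assoc, hb, neg_mul, neg_neg, mul_assoc]
      · rintro ⟨-, h1⟩
        rw [h1] at hb
        exact neg_ne_self_gl hG.h2 _ hb.symm
  have h1 := Subgroup.card_mul_index
    ((H ⊓ Subgroup.centralizer {t} : Subgroup (GL (Fin 2 ⊕ Fin 2) F)).subgroupOf H)
  rw [hindex] at h1
  have h2 : Nat.card ((H ⊓ Subgroup.centralizer {t} : Subgroup (GL (Fin 2 ⊕ Fin 2) F)).subgroupOf H)
      = Nat.card (H ⊓ Subgroup.centralizer {t} : Subgroup (GL (Fin 2 ⊕ Fin 2) F)) :=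
    Nat.card_congr (Subgroup.subgroupOfEquivOfLe inf_le_left).toEquiv
  omega

/-- the centraliser in `R` of a non-central element has order 16 -/
theorem card_cent_noncentral (hG : GoodM R) (t s : GL (Fin 2 ⊕ Fin 2) F) (ht : t ∈ R) (hs : s ∈ R)
    (hne : s * t ≠ t * s) :
    Nat.card (R ⊓ Subgroup.centralizer {t} : Subgroup (GL (Fin 2 ⊕ Fin 2) F)) = 16 := by
  have hst : s * t = -(t * s) := (comm_or_anti R hG.hsq s t hs ht).resolve_left hne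
  have h := hG.half R le_rfl t s ht hs hst
  rw [hG.hcard] at h
  omega

/-- no element of order 7 with centraliser of order 4 -/
theorem no_seven (hG : GoodM R) (y : GL (Fin 2 ⊕ Fin 2) F)
    (hy : y ∈ Subgroup.normalizer (R : Set (GL (Fin 2 ⊕ Fin 2) F))) (hy7 : y ^ 7 = 1)
    (hd : Nat.card (R ⊓ Subgroup.centralizer {y} : Subgroup (GL (Fin 2 ⊕ Fin 2) F)) = 4) : False := by
  classical
  haveI : Fact (Nat.Prime 7) := ⟨by norm_num⟩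
  have hRfin : Finite R := hG.fin
  have hnc : ∃ ρ₀ ∈ (R ⊓ Subgroup.centralizer {y} : Subgroup (GL (Fin 2 ⊕ Fin 2) F)),
      ∃ σ ∈ R, ρ₀ * σ ≠ σ * ρ₀ := by
    by_contra hcon
    push Not at hcon
    have hsub : ∀ r ∈ ((R ⊓ Subgroup.centralizer {y} : Subgroup (GL (Fin 2 ⊕ Fin 2) F)) :
        Set (GL (Fin 2 ⊕ Fin 2) F)), r ∈ ({1, -1} : Finset (GL (Fin 2 ⊕ Fin 2) F)) := by
      intro r hr
      have h1 := hG.hcen r (Subgroup.mem_inf.mp hr).1 (hcon r hr)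
      simp only [Finset.mem_insert, Finset.mem_singleton]
      exact h1
    have h1 := card_le_of_subset_finset _ _ hsub
    have h2 : ({1, -1} : Finset (GL (Fin 2 ⊕ Fin 2) F)).card ≤ 2 := Finset.card_le_two
    have h3 : Nat.card ((R ⊓ Subgroup.centralizer {y} : Subgroup (GL (Fin 2 ⊕ Fin 2) F)) :
        Set (GL (Fin 2 ⊕ Fin 2) F)) = 4 := hd
    omega
  obtain ⟨ρ₀, hρ₀C, σ, hσ, hne⟩ := hnc
  have hρ₀R : ρ₀ ∈ R := (Subgroup.mem_inf.mp hρ₀C).1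
  have hρ₀y : ρ₀ * y = y * ρ₀ := ((mem_cent_iff y ρ₀).mp hρ₀C).2
  have hne' : σ * ρ₀ ≠ ρ₀ * σ := fun h => hne h.symm
  have hD16 := hG.card_cent_noncentral ρ₀ σ hρ₀R hσ hne'
  -- y normalises D
  have hDfin : Finite (R ⊓ Subgroup.centralizer {ρ₀} : Subgroup (GL (Fin 2 ⊕ Fin 2) F)) :=
    Nat.finite_of_card_ne_zero (by rw [hD16]; norm_num)
  have hyD : y ∈ Subgroup.normalizer
      ((R ⊓ Subgroup.centralizer {ρ₀} : Subgroup (GL (Fin 2 ⊕ Fin 2) F)) : Set (GL (Fin 2 ⊕ Fin 2) F)) := by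
    apply Cfsg.Agent.Lib.Helper99.mem_normalizer_of_finite
    intro n hn
    rw [mem_cent_iff] at hn ⊢
    refine ⟨(Subgroup.mem_set_normalizer_iff.mp hy n).mp hn.1, ?_⟩
    have hyi : y⁻¹ * ρ₀ = ρ₀ * y⁻¹ := by
      rw [eq_mul_inv_iff_mul_eq, mul_assoc, hρ₀y, ← mul_assoc, inv_mul_cancel, one_mul]
    calc y * n * y⁻¹ * ρ₀ = y * n * (y⁻¹ * ρ₀) := by group
      _ = y * (n * ρ₀) * y⁻¹ := by rw [hyi]; group
      _ = (y * ρ₀) * n * y⁻¹ := by rw [hn.2]; group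
      _ = ρ₀ * (y * n * y⁻¹) := by rw [← hρ₀y]; group
  have hmod := Cfsg.Agent.Lib.Helper99.card_modEq_card_centralizer
    (R ⊓ Subgroup.centralizer {ρ₀} : Subgroup (GL (Fin 2 ⊕ Fin 2) F)) y hyD 7 hy7
  -- the fixed points
  have hE : (R ⊓ Subgroup.centralizer {ρ₀} ⊓ Subgroup.centralizer {y} : Subgroup (GL (Fin 2 ⊕ Fin 2) F))
      = R ⊓ Subgroup.centralizer {y} ⊓ Subgroup.centralizer {ρ₀} := inf_right_comm _ _ _
  rw [hE, hD16] at hmod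
  have hEle : (R ⊓ Subgroup.centralizer {y} ⊓ Subgroup.centralizer {ρ₀} :
      Subgroup (GL (Fin 2 ⊕ Fin 2) F)) ≤ R ⊓ Subgroup.centralizer {y} := inf_le_left
  have hCfin : Finite (R ⊓ Subgroup.centralizer {y} : Subgroup (GL (Fin 2 ⊕ Fin 2) F)) :=
    Nat.finite_of_card_ne_zero (by rw [hd]; norm_num)
  have hEdvd : Nat.card (R ⊓ Subgroup.centralizer {y} ⊓ Subgroup.centralizer {ρ₀} :
      Subgroup (GL (Fin 2 ⊕ Fin 2) F)) ∣ 4 := by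
    rw [← hd]
    exact Subgroup.card_dvd_of_le hEle
  have hzle : Subgroup.zpowers (-1 : GL (Fin 2 ⊕ Fin 2) F)
      ≤ (R ⊓ Subgroup.centralizer {y} ⊓ Subgroup.centralizer {ρ₀} : Subgroup (GL (Fin 2 ⊕ Fin 2) F)) := by
    rw [Subgroup.zpowers_le]
    refine Subgroup.mem_inf.mpr ⟨(mem_cent_iff y _).mpr ⟨hG.hneg, neg_comm y⟩, ?_⟩
    rw [Subgroup.mem_centralizer_iff]
    intro h hh
    rw [Set.mem_singleton_iff] at hh
    rw [hh]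
    exact (neg_comm ρ₀).symm
  have hE2 : 2 ∣ Nat.card (R ⊓ Subgroup.centralizer {y} ⊓ Subgroup.centralizer {ρ₀} :
      Subgroup (GL (Fin 2 ⊕ Fin 2) F)) := by
    have h4 := Subgroup.card_dvd_of_le hzle
    rwa [Nat.card_zpowers, hG.ord_neg] at h4
  have hEfin : Finite (R ⊓ Subgroup.centralizer {y} ⊓ Subgroup.centralizer {ρ₀} :
      Subgroup (GL (Fin 2 ⊕ Fin 2) F)) := Finite.of_injective _ (Subgroup.inclusion_injective hEle)
  have hEne : Nat.card (R ⊓ Subgroup.centralizer {y} ⊓ Subgroup.centralizer {ρ₀} :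
      Subgroup (GL (Fin 2 ⊕ Fin 2) F)) ≠ 2 := by
    intro h4
    have heq : Subgroup.zpowers (-1 : GL (Fin 2 ⊕ Fin 2) F)
        = (R ⊓ Subgroup.centralizer {y} ⊓ Subgroup.centralizer {ρ₀} : Subgroup (GL (Fin 2 ⊕ Fin 2) F)) :=
      Subgroup.eq_of_le_of_card_ge hzle (by rw [h4, Nat.card_zpowers, hG.ord_neg])
    have hρ₀E : ρ₀ ∈ (R ⊓ Subgroup.centralizer {y} ⊓ Subgroup.centralizer {ρ₀} :
        Subgroup (GL (Fin 2 ⊕ Fin 2) F)) := by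
      refine Subgroup.mem_inf.mpr ⟨hρ₀C, ?_⟩
      rw [Subgroup.mem_centralizer_iff]
      intro h hh
      rw [Set.mem_singleton_iff] at hh
      rw [hh]
    rw [← heq] at hρ₀E
    obtain ⟨k, hk⟩ := Subgroup.mem_zpowers_iff.mp hρ₀E
    apply hne
    rw [← hk]
    have hcσ : Commute (-1 : GL (Fin 2 ⊕ Fin 2) F) σ := neg_comm σ
    exact (hcσ.zpow_left k).eq
  have hE4 : Nat.card (R ⊓ Subgroup.centralizer {y} ⊓ Subgroup.centralizer {ρ₀} :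
      Subgroup (GL (Fin 2 ⊕ Fin 2) F)) = 4 := by
    obtain ⟨k, hk⟩ := hE2
    rw [hk] at hEdvd hEne
    rw [hk]
    have hk2 : k ∣ 2 :=
      (Nat.mul_dvd_mul_iff_left (by norm_num : 0 < 2)).mp (show 2 * k ∣ 2 * 2 from hEdvd)
    have hk_le : k ≤ 2 := Nat.le_of_dvd (by norm_num) hk2
    interval_cases k
    · simp at hk2
    · exact absurd rfl hEne
    · rfl
  rw [hE4] at hmod
  exact absurd hmod (by decide)

theorem prime_le_of_dvd_two_pow_mul' {r a m : ℕ} (hr : r.Prime) (h : r ∣ 2 ^ a * m)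
    (hm : r ∣ m → r ≤ 5) (h7 : 7 ≤ r) : False := by
  rcases (Nat.Prime.dvd_mul hr).mp h with h1 | h1
  · have h2 := Nat.Prime.dvd_of_dvd_pow hr h1
    have h3 := Nat.le_of_dvd (by norm_num) h2
    omega
  · have := hm h1
    omega

/-- an element of prime order at least 7 of the normaliser is a scalar -/
theorem no_large (hG : GoodM R) (y : GL (Fin 2 ⊕ Fin 2) F)
    (hy : y ∈ Subgroup.normalizer (R : Set (GL (Fin 2 ⊕ Fin 2) F))) (r : ℕ) [Fact r.Prime]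
    (hr7 : 7 ≤ r) (hyr : y ^ r = 1) :
    ∃ l : F, (y : Matrix (Fin 2 ⊕ Fin 2) (Fin 2 ⊕ Fin 2) F) = l • (1 : Matrix (Fin 2 ⊕ Fin 2) (Fin 2 ⊕ Fin 2) F) := by
  have hrp : r.Prime := Fact.out
  have hRfin : Finite R := hG.fin
  have hmod := Cfsg.Agent.Lib.Helper99.card_modEq_card_centralizer R y hy r hyr
  rw [hG.hcard] at hmod
  rcases hG.card_cases y with h | h | h | h | h
  · exfalso
    rw [h] at hmod
    have h1 : r ∣ 32 - 2 := (Nat.modEq_iff_dvd' (by norm_num)).mp hmod.symm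
    have h2 : r ∣ 2 ^ 1 * 15 := by norm_num at h1 ⊢; exact h1
    refine prime_le_of_dvd_two_pow_mul' hrp h2 (fun h3 => ?_) hr7
    rcases (Nat.Prime.dvd_mul hrp).mp (show r ∣ 3 * 5 from h3) with h4 | h4
    · have := Nat.le_of_dvd (by norm_num) h4; omega
    · exact Nat.le_of_dvd (by norm_num) h4
  · exfalso
    rw [h] at hmod
    have h1 : r ∣ 32 - 4 := (Nat.modEq_iff_dvd' (by norm_num)).mp hmod.symm
    have h2 : r ∣ 2 ^ 2 * 7 := by norm_num at h1 ⊢; exact h1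
    have h7 : r = 7 := by
      rcases (Nat.Prime.dvd_mul hrp).mp h2 with h3 | h3
      · have h4 := Nat.Prime.dvd_of_dvd_pow hrp h3
        have h5 := Nat.le_of_dvd (by norm_num) h4
        omega
      · have h5 := Nat.le_of_dvd (by norm_num) h3
        omega
    subst h7
    exact hG.no_seven y hy hyr h
  · exfalso
    rw [h] at hmod
    have h1 : r ∣ 32 - 8 := (Nat.modEq_iff_dvd' (by norm_num)).mp hmod.symm
    have h2 : r ∣ 2 ^ 3 * 3 := by norm_num at h1 ⊢; exact h1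
    exact prime_le_of_dvd_two_pow_mul' hrp h2
      (fun h3 => by have := Nat.le_of_dvd (by norm_num) h3; omega) hr7
  · exfalso
    rw [h] at hmod
    have h1 : r ∣ 32 - 16 := (Nat.modEq_iff_dvd' (by norm_num)).mp hmod.symm
    have h2 : r ∣ 2 ^ 4 * 1 := by norm_num at h1 ⊢; exact h1
    exact prime_le_of_dvd_two_pow_mul' hrp h2
      (fun h3 => by have := Nat.le_of_dvd (by norm_num) h3; omega) hr7
  · exact hG.scalar_of_card y h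

theorem card_three (hG : GoodM R) (y : GL (Fin 2 ⊕ Fin 2) F)
    (hy : y ∈ Subgroup.normalizer (R : Set (GL (Fin 2 ⊕ Fin 2) F))) (hy3 : y ^ 3 = 1) :
    Nat.card (R ⊓ Subgroup.centralizer {y} : Subgroup (GL (Fin 2 ⊕ Fin 2) F)) = 2 ∨
    Nat.card (R ⊓ Subgroup.centralizer {y} : Subgroup (GL (Fin 2 ⊕ Fin 2) F)) = 8 ∨
    Nat.card (R ⊓ Subgroup.centralizer {y} : Subgroup (GL (Fin 2 ⊕ Fin 2) F)) = 32 := by
  have : Fact (Nat.Prime 3) := ⟨Nat.prime_three⟩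
  have hRfin : Finite R := hG.fin
  have hmod := Cfsg.Agent.Lib.Helper99.card_modEq_card_centralizer R y hy 3 hy3
  rw [hG.hcard] at hmod
  rcases hG.card_cases y with h | h | h | h | h
  · exact Or.inl h
  · rw [h] at hmod
    exact absurd hmod (by decide)
  · exact Or.inr (Or.inl h)
  · rw [h] at hmod
    exact absurd hmod (by decide)
  · exact Or.inr (Or.inr h)

theorem card_five (hG : GoodM R) (y : GL (Fin 2 ⊕ Fin 2) F)
    (hy : y ∈ Subgroup.normalizer (R : Set (GL (Fin 2 ⊕ Fin 2) F))) (hy5 : y ^ 5 = 1) :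
    Nat.card (R ⊓ Subgroup.centralizer {y} : Subgroup (GL (Fin 2 ⊕ Fin 2) F)) = 2 ∨
    Nat.card (R ⊓ Subgroup.centralizer {y} : Subgroup (GL (Fin 2 ⊕ Fin 2) F)) = 32 := by
  have : Fact (Nat.Prime 5) := ⟨by norm_num⟩
  have hRfin : Finite R := hG.fin
  have hmod := Cfsg.Agent.Lib.Helper99.card_modEq_card_centralizer R y hy 5 hy5
  rw [hG.hcard] at hmod
  rcases hG.card_cases y with h | h | h | h | h
  · exact Or.inl h
  · rw [h] at hmod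
    exact absurd hmod (by decide)
  · rw [h] at hmod
    exact absurd hmod (by decide)
  · rw [h] at hmod
    exact absurd hmod (by decide)
  · exact Or.inr h

/-- a transvection of odd prime order in the normaliser is trivial -/
theorem no_transv (hG : GoodM R) (y : GL (Fin 2 ⊕ Fin 2) F)
    (hy : y ∈ Subgroup.normalizer (R : Set (GL (Fin 2 ⊕ Fin 2) F)))
    (hN : ((y : Matrix (Fin 2 ⊕ Fin 2) (Fin 2 ⊕ Fin 2) F) - 1) * ((y : Matrix (Fin 2 ⊕ Fin 2) (Fin 2 ⊕ Fin 2) F) - 1) = 0)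
    (hrk : ∀ M : Matrix (Fin 2 ⊕ Fin 2) (Fin 2 ⊕ Fin 2) F,
      ((y : Matrix (Fin 2 ⊕ Fin 2) (Fin 2 ⊕ Fin 2) F) - 1) * M * ((y : Matrix (Fin 2 ⊕ Fin 2) (Fin 2 ⊕ Fin 2) F) - 1)
        = (M * ((y : Matrix (Fin 2 ⊕ Fin 2) (Fin 2 ⊕ Fin 2) F) - 1)).trace • ((y : Matrix (Fin 2 ⊕ Fin 2) (Fin 2 ⊕ Fin 2) F) - 1))
    (p : ℕ) (hp : Odd p) (hyp : y ^ p = 1) :
    ∃ l : F, (y : Matrix (Fin 2 ⊕ Fin 2) (Fin 2 ⊕ Fin 2) F) = l • (1 : Matrix (Fin 2 ⊕ Fin 2) (Fin 2 ⊕ Fin 2) F) := by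
  have h2 := hG.h2
  obtain ⟨N, hNdef⟩ : ∃ N : Matrix (Fin 2 ⊕ Fin 2) (Fin 2 ⊕ Fin 2) F, N = (y : Matrix (Fin 2 ⊕ Fin 2) (Fin 2 ⊕ Fin 2) F) - 1 :=
    ⟨_, rfl⟩
  rw [← hNdef] at hN hrk
  have hyN : (y : Matrix (Fin 2 ⊕ Fin 2) (Fin 2 ⊕ Fin 2) F) = 1 + N := by rw [hNdef]; abel
  have hyinv : ((y⁻¹ : GL (Fin 2 ⊕ Fin 2) F) : Matrix (Fin 2 ⊕ Fin 2) (Fin 2 ⊕ Fin 2) F) = 1 - N := by
    have h1 : (y : Matrix (Fin 2 ⊕ Fin 2) (Fin 2 ⊕ Fin 2) F) * (1 - N) = 1 := by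
      rw [hyN]
      have e : (1 + N) * (1 - N) = 1 - N * N := by noncomm_ring
      rw [e, hN, sub_zero]
    calc ((y⁻¹ : GL (Fin 2 ⊕ Fin 2) F) : Matrix (Fin 2 ⊕ Fin 2) (Fin 2 ⊕ Fin 2) F)
        = ((y⁻¹ : GL (Fin 2 ⊕ Fin 2) F) : Matrix (Fin 2 ⊕ Fin 2) (Fin 2 ⊕ Fin 2) F)
          * ((y : Matrix (Fin 2 ⊕ Fin 2) (Fin 2 ⊕ Fin 2) F) * (1 - N)) := by rw [h1, Matrix.mul_one]
      _ = 1 - N := by rw [← Matrix.mul_assoc, Units.inv_mul, Matrix.one_mul]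
  have hcen : ∀ g : GL (Fin 2 ⊕ Fin 2) F, g * y ^ p = y ^ p * g := by
    intro g; rw [hyp, mul_one, one_mul]
  have hH1 := hG.H_of_pow y hy p hp hcen
  have key : ∀ ρ ∈ R, ρ * y = y * ρ := by
    intro ρ hρ
    by_contra hnc
    obtain ⟨A, hA⟩ : ∃ A : Matrix (Fin 2 ⊕ Fin 2) (Fin 2 ⊕ Fin 2) F, A = (ρ : Matrix (Fin 2 ⊕ Fin 2) (Fin 2 ⊕ Fin 2) F) * N
        * ((ρ⁻¹ : GL (Fin 2 ⊕ Fin 2) F) : Matrix (Fin 2 ⊕ Fin 2) (Fin 2 ⊕ Fin 2) F) := ⟨_, rfl⟩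
    obtain ⟨γ, hγ⟩ : ∃ γ : F, γ = (A * N).trace := ⟨_, rfl⟩
    have hAA : A * A = 0 := by
      rw [hA]
      calc (ρ : Matrix (Fin 2 ⊕ Fin 2) (Fin 2 ⊕ Fin 2) F) * N * ((ρ⁻¹ : GL (Fin 2 ⊕ Fin 2) F) : Matrix (Fin 2 ⊕ Fin 2) (Fin 2 ⊕ Fin 2) F)
            * ((ρ : Matrix (Fin 2 ⊕ Fin 2) (Fin 2 ⊕ Fin 2) F) * N
              * ((ρ⁻¹ : GL (Fin 2 ⊕ Fin 2) F) : Matrix (Fin 2 ⊕ Fin 2) (Fin 2 ⊕ Fin 2) F))
          = (ρ : Matrix (Fin 2 ⊕ Fin 2) (Fin 2 ⊕ Fin 2) F) * (N * (((ρ⁻¹ : GL (Fin 2 ⊕ Fin 2) F) : Matrix (Fin 2 ⊕ Fin 2) (Fin 2 ⊕ Fin 2) F)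
              * (ρ : Matrix (Fin 2 ⊕ Fin 2) (Fin 2 ⊕ Fin 2) F)) * N)
              * ((ρ⁻¹ : GL (Fin 2 ⊕ Fin 2) F) : Matrix (Fin 2 ⊕ Fin 2) (Fin 2 ⊕ Fin 2) F) := by
            simp only [Matrix.mul_assoc]
        _ = 0 := by rw [Units.inv_mul, Matrix.mul_one, hN, Matrix.mul_zero, Matrix.zero_mul]
    have htrA : A.trace = N.trace := by rw [hA]; exact Matrix.trace_units_conj ρ N
    have hNAN : N * A * N = γ • N := by rw [hrk A, hγ]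
    have hANA : A * N * A = γ • A := by
      have e : A * N * A = (ρ : Matrix (Fin 2 ⊕ Fin 2) (Fin 2 ⊕ Fin 2) F)
          * (N * (((ρ⁻¹ : GL (Fin 2 ⊕ Fin 2) F) : Matrix (Fin 2 ⊕ Fin 2) (Fin 2 ⊕ Fin 2) F) * N
            * (ρ : Matrix (Fin 2 ⊕ Fin 2) (Fin 2 ⊕ Fin 2) F)) * N)
          * ((ρ⁻¹ : GL (Fin 2 ⊕ Fin 2) F) : Matrix (Fin 2 ⊕ Fin 2) (Fin 2 ⊕ Fin 2) F) := by
        rw [hA]
        simp only [Matrix.mul_assoc]
      have htr : (((ρ⁻¹ : GL (Fin 2 ⊕ Fin 2) F) : Matrix (Fin 2 ⊕ Fin 2) (Fin 2 ⊕ Fin 2) F) * N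
          * (ρ : Matrix (Fin 2 ⊕ Fin 2) (Fin 2 ⊕ Fin 2) F) * N).trace = γ := by
        rw [hγ, hA]
        calc (((ρ⁻¹ : GL (Fin 2 ⊕ Fin 2) F) : Matrix (Fin 2 ⊕ Fin 2) (Fin 2 ⊕ Fin 2) F) * N
              * (ρ : Matrix (Fin 2 ⊕ Fin 2) (Fin 2 ⊕ Fin 2) F) * N).trace
            = (((ρ⁻¹ : GL (Fin 2 ⊕ Fin 2) F) : Matrix (Fin 2 ⊕ Fin 2) (Fin 2 ⊕ Fin 2) F)
              * (N * (ρ : Matrix (Fin 2 ⊕ Fin 2) (Fin 2 ⊕ Fin 2) F) * N)).trace := by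
              simp only [Matrix.mul_assoc]
          _ = (N * (ρ : Matrix (Fin 2 ⊕ Fin 2) (Fin 2 ⊕ Fin 2) F) * N
              * ((ρ⁻¹ : GL (Fin 2 ⊕ Fin 2) F) : Matrix (Fin 2 ⊕ Fin 2) (Fin 2 ⊕ Fin 2) F)).trace :=
              Matrix.trace_mul_comm _ _
          _ = (N * ((ρ : Matrix (Fin 2 ⊕ Fin 2) (Fin 2 ⊕ Fin 2) F) * N
              * ((ρ⁻¹ : GL (Fin 2 ⊕ Fin 2) F) : Matrix (Fin 2 ⊕ Fin 2) (Fin 2 ⊕ Fin 2) F))).trace := by
              simp only [Matrix.mul_assoc]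
          _ = ((ρ : Matrix (Fin 2 ⊕ Fin 2) (Fin 2 ⊕ Fin 2) F) * N
              * ((ρ⁻¹ : GL (Fin 2 ⊕ Fin 2) F) : Matrix (Fin 2 ⊕ Fin 2) (Fin 2 ⊕ Fin 2) F) * N).trace :=
              Matrix.trace_mul_comm _ _
      rw [e, hrk, htr, Matrix.mul_smul, Matrix.smul_mul, ← hA]
    obtain ⟨κ, hκdef⟩ : ∃ κ : GL (Fin 2 ⊕ Fin 2) F, κ = ρ * y * ρ⁻¹ * y⁻¹ := ⟨_, rfl⟩
    have hκ : (κ : Matrix (Fin 2 ⊕ Fin 2) (Fin 2 ⊕ Fin 2) F) = 1 + A - N - A * N := by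
      rw [hκdef, Units.val_mul, Units.val_mul, Units.val_mul, hyN, hyinv,
        comm_expand_gen _ _ N N (Units.mul_inv ρ), ← hA]
      abel
    have hκR : κ ∈ R := by rw [hκdef]; exact hG.conj_mem y hy ρ hρ
    have hex : ∃ σ ∈ R, κ * σ ≠ σ * κ := by
      by_contra hcon
      push Not at hcon
      rw [hκdef] at hcon
      exact hnc (hH1 ρ hρ hcon)
    obtain ⟨σ, hσ, hne⟩ := hex
    have htr0 := hG.trace_zero κ hκR σ hσ hne
    have hγ4 : γ = 4 := by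
      rw [hκ, Matrix.trace_sub, Matrix.trace_sub, Matrix.trace_add, htrA, ← hγ,
        trace_one_I4] at htr0
      linear_combination -htr0
    have hκκ : (κ : Matrix (Fin 2 ⊕ Fin 2) (Fin 2 ⊕ Fin 2) F) * (κ : Matrix (Fin 2 ⊕ Fin 2) (Fin 2 ⊕ Fin 2) F)
        = 1 + (A + A) - (N + N) - (A * N + A * N)
          + (A * A - A * N - A * A * N - N * A + N * N + N * A * N - A * N * A + A * (N * N)
            + A * (N * A * N)) := by
      rw [hκ]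
      noncomm_ring
    rw [hAA, hN, hNAN, hANA, Matrix.zero_mul, Matrix.mul_zero, Matrix.mul_smul, hγ4] at hκκ
    have hNN4 : ∀ B : Matrix (Fin 2 ⊕ Fin 2) (Fin 2 ⊕ Fin 2) F, (4 : F) • B = B + B + B + B := by
      intro B
      rw [show (4 : F) = 1 + 1 + 1 + 1 by norm_num, add_smul, add_smul, add_smul, one_smul]
    rw [hNN4, hNN4, hNN4] at hκκ
    rcases hG.hsq κ hκR with hsq | hsq
    · have h1 := congrArg Units.val hsq
      rw [Units.val_mul, Units.val_one, hκκ] at h1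
      -- A N - N A = 2 A - 2 N
      have hrel : A * N - N * A = (A + A) - (N + N) := by
        have h5 : (1 : Matrix (Fin 2 ⊕ Fin 2) (Fin 2 ⊕ Fin 2) F) + (A * N - N * A - ((A + A) - (N + N))) = 1 := by
          refine Eq.trans ?_ h1
          abel
        have h6 := add_eq_left.mp h5
        exact sub_eq_zero.mp h6
      -- multiply by N on the left
      have hNA : N * A + N * A = N + N + N + N := by
        have h5 := congrArg (fun B => N * B) hrel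
        simp only [Matrix.mul_sub, Matrix.mul_add] at h5
        rw [← Matrix.mul_assoc, ← Matrix.mul_assoc, hNAN, hN, Matrix.zero_mul, hγ4, hNN4] at h5
        simp only [sub_zero, add_zero] at h5
        exact h5.symm
      -- multiply by A on the right
      have h7 := congrArg (fun B => B * A) hNA
      simp only [Matrix.add_mul] at h7
      rw [Matrix.mul_assoc, hAA, Matrix.mul_zero, add_zero] at h7
      -- 0 = 4 N A = 2 (N A + N A) = 2 * 4 N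
      have h8 : (8 : F) • N = 0 := by
        have e8 : (8 : F) • N = (N + N + N + N) + (N + N + N + N) := by
          rw [show (8 : F) = 1 + 1 + 1 + 1 + 1 + 1 + 1 + 1 by norm_num]
          simp only [add_smul, one_smul]
          abel
        rw [e8, ← hNA]
        have e9 : N * A + N * A + (N * A + N * A) = (N * A + N * A + N * A + N * A) := by abel
        rw [e9, ← h7]
      have h8' : (8 : F) ≠ 0 := by
        have e : (8 : F) = 2 * 2 * 2 := by norm_num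
        rw [e]
        exact mul_ne_zero (mul_ne_zero h2 h2) h2
      have hN0 : N = 0 := (smul_eq_zero.mp h8).resolve_left h8'
      apply hnc
      apply Units.ext
      rw [Units.val_mul, Units.val_mul, hyN, hN0, add_zero, Matrix.mul_one, Matrix.one_mul]
    · have h1 := congrArg Units.val hsq
      rw [Units.val_mul, Units.val_neg, Units.val_one, hκκ] at h1
      have h3 := congrArg Matrix.trace h1
      simp only [Matrix.trace_add, Matrix.trace_sub, Matrix.trace_neg, trace_one_I4,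
        Matrix.trace_zero, htrA] at h3
      rw [Matrix.trace_mul_comm N A, ← hγ, hγ4] at h3
      have h8 : (2 : F) * 2 * 2 = 0 := by linear_combination h3
      exact absurd h8 (mul_ne_zero (mul_ne_zero h2 h2) h2)
  apply hG.habs
  intro g hg
  rw [← Units.val_mul, ← Units.val_mul, key g hg]

end GoodM

end M1

end Cfsg.Agent.Lib.Helper98.SM
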