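import Mathlib
import Cfsg.Prelude.Def_GeometricClasses
import Cfsg.Agent.Lib.Helper98.SympM1

/-!
The group `R = 2^{1+4}_-`: involutions, the minus-type condition, elements of order three in the
normaliser, and a system of four pairwise anticommuting involutions generating `R`.
-/

set_option autoImplicit false

namespace Cfsg.Agent.Lib.Helper98.SM

open Matrix
open Cfsg.Agent.Lib.Helper98.Symp (comm_or_anti card_le_of_subset_finset w_comm
  sq_central_of_symplectic)

section M2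

variable {F : Type*} [Field F]

theorem card_ge_of_finset_subset {G : Type*} (T : Set G) (hT : T.Finite) (S : Finset G)
    (h : ∀ x ∈ S, x ∈ T) : S.card ≤ Nat.card T := by
  rw [Nat.card_coe_set_eq, ← Set.ncard_coe_finset S]
  exact Set.ncard_le_ncard (fun x hx => h x (Finset.mem_coe.mp hx)) hT

theorem assoc_anti {G : Type*} [Monoid G] [HasDistribNeg G] {a b : G} (h : b * a = -(a * b))
    (x : G) : b * (a * x) = -(a * (b * x)) := by
  rw [← mul_assoc, h, neg_mul, mul_assoc]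

theorem assoc_comm {G : Type*} [Monoid G] {a b : G} (h : b * a = a * b) (x : G) :
    b * (a * x) = a * (b * x) := by
  rw [← mul_assoc, h, mul_assoc]

theorem assoc_sq_one {G : Type*} [Monoid G] {a : G} (h : a * a = 1) (x : G) :
    a * (a * x) = x := by
  rw [← mul_assoc, h, one_mul]

theorem assoc_sq_neg {G : Type*} [Monoid G] [HasDistribNeg G] {a : G} (h : a * a = -1) (x : G) :
    a * (a * x) = -x := by
  rw [← mul_assoc, h, neg_mul, one_mul]

theorem anti_symm {G : Type*} [Monoid G] [HasDistribNeg G] {a b : G} (h : a * b = -(b * a)) :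
    b * a = -(a * b) := by
  rw [h, neg_neg]

/-- an element anticommuting with something is not `±1` -/
theorem not_central_of_anti (h2 : (2 : F) ≠ 0) (a c : GL (Fin 2 ⊕ Fin 2) F) (h : a * c = -(c * a)) :
    a ≠ 1 ∧ a ≠ -1 := by
  constructor
  · rintro rfl
    rw [one_mul, mul_one] at h
    exact neg_ne_self_gl h2 c h.symm
  · rintro rfl
    rw [neg_mul, one_mul, mul_neg, mul_one, neg_neg] at h
    exact neg_ne_self_gl h2 c h

theorem ne_of_comm_anti (h2 : (2 : F) ≠ 0) (a b c : GL (Fin 2 ⊕ Fin 2) F) (hac : a * c = c * a)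
    (hbc : b * c = -(c * b)) : a ≠ b ∧ a ≠ -b := by
  constructor
  · rintro rfl
    rw [hac] at hbc
    exact neg_ne_self_gl h2 _ hbc.symm
  · rintro rfl
    rw [neg_mul, mul_neg, hbc, neg_neg] at hac
    exact neg_ne_self_gl h2 _ hac.symm

/-- no Klein four-group modulo the centre -/
def NoKlein (R : Subgroup (GL (Fin 2 ⊕ Fin 2) F)) : Prop :=
  ∀ u v : GL (Fin 2 ⊕ Fin 2) F, u ∈ R → v ∈ R → u * u = 1 → v * v = 1 → u * v = v * u →
    u ≠ 1 → u ≠ -1 → v ≠ 1 → v ≠ -1 → v ≠ u → v ≠ -u → False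

variable {R : Subgroup (GL (Fin 2 ⊕ Fin 2) F)}

theorem noKlein_of_minus (hG : GoodM R) (hm : Cfsg.Geo.IsOfMinusType 2 R) : NoKlein R := by
  classical
  intro u v hu hv huu hvv huv hu1 hu2 hv1 hv2 hvu hvu'
  have hRfin : Finite R := hG.fin
  obtain ⟨k, hkdef⟩ : ∃ k : Set (GL (Fin 2 ⊕ Fin 2) F), k = {-1, u, v} := ⟨_, rfl⟩
  obtain ⟨A₀, hA₀def⟩ : ∃ A₀ : Subgroup (GL (Fin 2 ⊕ Fin 2) F), A₀ = Subgroup.closure k := ⟨_, rfl⟩
  have hkR : k ⊆ (R : Set (GL (Fin 2 ⊕ Fin 2) F)) := by
    rw [hkdef]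
    rintro x (rfl | rfl | rfl)
    · exact hG.hneg
    · exact hu
    · exact hv
  have hA₀R : A₀ ≤ R := by rw [hA₀def]; exact (Subgroup.closure_le R).mpr hkR
  have hcommk : ∀ a ∈ k, ∀ b ∈ k, a * b = b * a := by
    rw [hkdef]
    rintro a (rfl | rfl | rfl) b (rfl | rfl | rfl)
    · rfl
    · exact GoodM.neg_comm _
    · exact GoodM.neg_comm _
    · exact (GoodM.neg_comm _).symm
    · rfl
    · exact huv
    · exact (GoodM.neg_comm _).symm
    · exact huv.symm
    · rfl
  have hle1 : A₀ ≤ Subgroup.centralizer k := by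
    rw [hA₀def, Subgroup.closure_le]
    intro a ha
    rw [SetLike.mem_coe, Subgroup.mem_centralizer_iff]
    intro h hh
    exact hcommk h hh a ha
  have hle2 : A₀ ≤ Subgroup.centralizer (Subgroup.centralizer k : Set (GL (Fin 2 ⊕ Fin 2) F)) := by
    rw [hA₀def]
    exact Subgroup.closure_le_centralizer_centralizer k
  have hAcomm : ∀ a ∈ A₀, ∀ b ∈ A₀, a * b = b * a := by
    intro a ha b hb
    exact ((Subgroup.mem_centralizer_iff.mp (hle2 ha)) b (hle1 hb)).symm
  have hAsq : ∀ x ∈ A₀, x * x = 1 := by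
    intro x hx
    have hx' : x ∈ Subgroup.closure k := by rw [← hA₀def]; exact hx
    induction hx' using Subgroup.closure_induction with
    | mem y hy =>
      rw [hkdef] at hy
      rcases hy with rfl | rfl | rfl
      · rw [neg_mul_neg, one_mul]
      · exact huu
      · exact hvv
    | one => rw [one_mul]
    | mul a b ha hb iha ihb =>
      have ha' : a ∈ A₀ := by rw [hA₀def]; exact ha
      have hb' : b ∈ A₀ := by rw [hA₀def]; exact hb
      calc a * b * (a * b) = a * (b * a) * b := by group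
        _ = a * (a * b) * b := by rw [hAcomm b hb' a ha']
        _ = (a * a) * (b * b) := by group
        _ = 1 := by rw [iha ha', ihb hb', one_mul]
    | inv a ha iha =>
      have ha' : a ∈ A₀ := by rw [hA₀def]; exact ha
      rw [← _root_.mul_inv_rev, iha ha', inv_one]
  -- the corresponding subgroup of `R`
  have hcommA : IsMulCommutative (A₀.subgroupOf R) := by
    rw [isMulCommutative_iff]
    intro a b
    apply Subtype.ext
    apply Subtype.ext
    exact hAcomm a.1.1 (Subgroup.mem_subgroupOf.mp a.2) b.1.1 (Subgroup.mem_subgroupOf.mp b.2)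
  have hsqA : ∀ x ∈ A₀.subgroupOf R, x * x = 1 := by
    intro x hx
    apply Subtype.ext
    exact hAsq x.1 (Subgroup.mem_subgroupOf.mp hx)
  have hlt := hm (A₀.subgroupOf R) hcommA hsqA
  have hcardeq : Nat.card (A₀.subgroupOf R) = Nat.card A₀ :=
    Nat.card_congr (Subgroup.subgroupOfEquivOfLe hA₀R).toEquiv
  rw [hcardeq] at hlt
  -- five distinct elements
  have hA₀fin : (A₀ : Set (GL (Fin 2 ⊕ Fin 2) F)).Finite :=
    Set.Finite.subset (Set.toFinite (R : Set (GL (Fin 2 ⊕ Fin 2) F))) hA₀R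
  have hmem : ∀ x ∈ ({1, -1, u, -u, v} : Finset (GL (Fin 2 ⊕ Fin 2) F)), x ∈ (A₀ : Set (GL (Fin 2 ⊕ Fin 2) F)) := by
    intro x hx
    have hn : (-1 : GL (Fin 2 ⊕ Fin 2) F) ∈ A₀ := by
      rw [hA₀def]; exact Subgroup.subset_closure (by rw [hkdef]; simp)
    have hu' : u ∈ A₀ := by
      rw [hA₀def]; exact Subgroup.subset_closure (by rw [hkdef]; simp)
    have hv' : v ∈ A₀ := by
      rw [hA₀def]; exact Subgroup.subset_closure (by rw [hkdef]; simp)
    simp only [Finset.mem_insert, Finset.mem_singleton] at hx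
    rcases hx with rfl | rfl | rfl | rfl | rfl
    · exact A₀.one_mem
    · exact hn
    · exact hu'
    · have e : -u = (-1) * u := by rw [neg_mul, one_mul]
      rw [e]
      exact A₀.mul_mem hn hu'
    · exact hv'
  have h5 : ({1, -1, u, -u, v} : Finset (GL (Fin 2 ⊕ Fin 2) F)).card = 5 := by
    have n1 : (1 : GL (Fin 2 ⊕ Fin 2) F) ∉ ({-1, u, -u, v} : Finset (GL (Fin 2 ⊕ Fin 2) F)) := by
      simp only [Finset.mem_insert, Finset.mem_singleton, not_or]
      refine ⟨fun h => hG.neg_one_ne h.symm, fun h => hu1 h.symm, fun h => hu2 ?_,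
        fun h => hv1 h.symm⟩
      rw [h, neg_neg]
    have n2 : (-1 : GL (Fin 2 ⊕ Fin 2) F) ∉ ({u, -u, v} : Finset (GL (Fin 2 ⊕ Fin 2) F)) := by
      simp only [Finset.mem_insert, Finset.mem_singleton, not_or]
      exact ⟨fun h => hu2 h.symm, fun h => hu1 (neg_inj.mp h).symm, fun h => hv2 h.symm⟩
    have n3 : u ∉ ({-u, v} : Finset (GL (Fin 2 ⊕ Fin 2) F)) := by
      simp only [Finset.mem_insert, Finset.mem_singleton, not_or]
      exact ⟨fun h => neg_ne_self_gl hG.h2 u h.symm, fun h => hvu h.symm⟩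
    have n4 : -u ≠ v := fun h => hvu' h.symm
    rw [Finset.card_insert_of_notMem n1, Finset.card_insert_of_notMem n2,
      Finset.card_insert_of_notMem n3, Finset.card_pair n4]
  have hge := card_ge_of_finset_subset (A₀ : Set (GL (Fin 2 ⊕ Fin 2) F)) hA₀fin _ hmem
  rw [h5] at hge
  have hge' : 5 ≤ Nat.card A₀ := hge
  have hdvd : Nat.card A₀ ∣ 2 ^ 5 := by
    have h1 := Subgroup.card_dvd_of_le hA₀R
    rw [hG.hcard] at h1
    norm_num
    exact h1
  obtain ⟨j, hj, hj'⟩ := (Nat.dvd_prime_pow Nat.prime_two).mp hdvd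
  rw [hj'] at hge' hlt
  interval_cases j <;> omega

namespace GoodM

/-- `R` is not abelian -/
theorem exists_noncomm (hG : GoodM R) : ∃ g ∈ R, ∃ h ∈ R, g * h ≠ h * g := by
  classical
  by_contra hcon
  push Not at hcon
  have hsub : ∀ r ∈ (R : Set (GL (Fin 2 ⊕ Fin 2) F)), r ∈ ({1, -1} : Finset (GL (Fin 2 ⊕ Fin 2) F)) := by
    intro r hr
    have h1 := hG.hcen r hr (hcon r hr)
    simp only [Finset.mem_insert, Finset.mem_singleton]
    exact h1
  have h1 := card_le_of_subset_finset (R : Set (GL (Fin 2 ⊕ Fin 2) F)) _ hsub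
  have h2 : ({1, -1} : Finset (GL (Fin 2 ⊕ Fin 2) F)).card ≤ 2 := Finset.card_le_two
  have h3 : Nat.card (R : Set (GL (Fin 2 ⊕ Fin 2) F)) = 32 := hG.hcard
  omega

/-- a non-central involution -/
theorem exists_invol (hG : GoodM R) : ∃ u ∈ R, u * u = 1 ∧ u ≠ 1 ∧ u ≠ -1 := by
  classical
  by_contra hcon
  push Not at hcon
  obtain ⟨g, hg, s, hs, hne⟩ := hG.exists_noncomm
  have hanti : g * s = -(s * g) := (comm_or_anti R hG.hsq g s hg hs).resolve_left hne
  obtain ⟨hg1, hg2⟩ := not_central_of_anti hG.h2 g s hanti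
  have hgg : g * g = -1 := by
    rcases hG.hsq g hg with h | h
    · exact absurd (hcon g hg h hg1) hg2
    · exact h
  have h16 := hG.card_cent_noncentral g s hg hs (fun h => hne h.symm)
  have hsub : ∀ r ∈ ((R ⊓ Subgroup.centralizer {g} : Subgroup (GL (Fin 2 ⊕ Fin 2) F)) : Set (GL (Fin 2 ⊕ Fin 2) F)),
      r ∈ ({1, -1, g, -g} : Finset (GL (Fin 2 ⊕ Fin 2) F)) := by
    intro b hb
    obtain ⟨hbR, hbg⟩ := (mem_cent_iff g b).mp hb
    simp only [Finset.mem_insert, Finset.mem_singleton]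
    by_cases hb1 : b = 1
    · exact Or.inl hb1
    by_cases hb2 : b = -1
    · exact Or.inr (Or.inl hb2)
    have hbb : b * b = -1 := by
      rcases hG.hsq b hbR with h | h
      · exact absurd (hcon b hbR h hb1) hb2
      · exact h
    have hbgsq : (b * g) * (b * g) = 1 := by
      calc (b * g) * (b * g) = b * (g * b) * g := by group
        _ = b * (b * g) * g := by rw [hbg]
        _ = (b * b) * (g * g) := by group
        _ = 1 := by rw [hbb, hgg, neg_mul_neg, one_mul]
    have hcases : b * g = 1 ∨ b * g = -1 := by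
      by_cases h1 : b * g = 1
      · exact Or.inl h1
      · exact Or.inr (hcon (b * g) (R.mul_mem hbR hg) hbgsq h1)
    rcases hcases with h | h
    · right; right; right
      have e : b = b * g * g * (-1) := by
        rw [mul_assoc b g g, hgg]
        simp
      rw [e, h, one_mul, mul_neg, mul_one]
    · right; right; left
      have e : b = b * g * g * (-1) := by
        rw [mul_assoc b g g, hgg]
        simp
      rw [e, h, neg_mul, one_mul, neg_mul, mul_neg, mul_one, neg_neg]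
  have h1 := card_le_of_subset_finset _ _ hsub
  have h2 : ({1, -1, g, -g} : Finset (GL (Fin 2 ⊕ Fin 2) F)).card ≤ 4 := Finset.card_le_four
  have h3 : Nat.card ((R ⊓ Subgroup.centralizer {g} : Subgroup (GL (Fin 2 ⊕ Fin 2) F)) : Set (GL (Fin 2 ⊕ Fin 2) F))
      = 16 := h16
  omega

theorem conj_neg_false (hG : GoodM R) (y t : GL (Fin 2 ⊕ Fin 2) F) (hy3 : y ^ 3 = 1)
    (h : y * t * y⁻¹ = -t) : False := by
  have hy3' : y * y * y = 1 := by rw [← hy3]; simp [pow_succ]
  have e1 : y * (y * (y * t * y⁻¹) * y⁻¹) * y⁻¹ = (y * y * y) * t * (y * y * y)⁻¹ := by group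
  have e2 : y * (y * (y * t * y⁻¹) * y⁻¹) * y⁻¹ = -t := by
    rw [h, mul_neg, neg_mul, h, neg_neg, h]
  rw [e1, hy3', one_mul, inv_one, mul_one] at e2
  exact neg_ne_self_gl hG.h2 t e2.symm

/-- no element of order three in the normaliser centralising only `±1` -/
theorem no_three (hG : GoodM R) (hK : NoKlein R) (y : GL (Fin 2 ⊕ Fin 2) F)
    (hy : y ∈ Subgroup.normalizer (R : Set (GL (Fin 2 ⊕ Fin 2) F))) (hy3 : y ^ 3 = 1)
    (hd : Nat.card (R ⊓ Subgroup.centralizer {y} : Subgroup (GL (Fin 2 ⊕ Fin 2) F)) = 2) : False := by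
  classical
  have hRfin : Finite R := hG.fin
  have hy3' : y * y * y = 1 := by rw [← hy3]; simp [pow_succ]
  -- the centraliser is `±1`
  have hC : ∀ b ∈ R, b * y = y * b → b = 1 ∨ b = -1 := by
    intro b hb hby
    by_contra hcon
    push Not at hcon
    have hCfin : ((R ⊓ Subgroup.centralizer {y} : Subgroup (GL (Fin 2 ⊕ Fin 2) F)) : Set (GL (Fin 2 ⊕ Fin 2) F)).Finite :=
      Set.Finite.subset (Set.toFinite (R : Set (GL (Fin 2 ⊕ Fin 2) F))) inf_le_left
    have hmem : ∀ x ∈ ({1, -1, b} : Finset (GL (Fin 2 ⊕ Fin 2) F)),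
        x ∈ ((R ⊓ Subgroup.centralizer {y} : Subgroup (GL (Fin 2 ⊕ Fin 2) F)) : Set (GL (Fin 2 ⊕ Fin 2) F)) := by
      intro x hx
      simp only [Finset.mem_insert, Finset.mem_singleton] at hx
      rcases hx with rfl | rfl | rfl
      · exact Subgroup.one_mem _
      · exact (mem_cent_iff y _).mpr ⟨hG.hneg, neg_comm y⟩
      · exact (mem_cent_iff y _).mpr ⟨hb, hby⟩
    have h3 : ({1, -1, b} : Finset (GL (Fin 2 ⊕ Fin 2) F)).card = 3 :=
      Finset.card_eq_three.mpr ⟨1, -1, b, fun h => hG.neg_one_ne h.symm,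
        fun h => hcon.1 h.symm, fun h => hcon.2 h.symm, rfl⟩
    have hge := card_ge_of_finset_subset _ hCfin _ hmem
    rw [h3] at hge
    have hd' : Nat.card ((R ⊓ Subgroup.centralizer {y} : Subgroup (GL (Fin 2 ⊕ Fin 2) F)) :
        Set (GL (Fin 2 ⊕ Fin 2) F)) = 2 := hd
    omega
  obtain ⟨u, hu, huu, hu1, hu2⟩ := hG.exists_invol
  have hconj : ∀ x ∈ R, y * x * y⁻¹ ∈ R := fun x hx =>
    (Subgroup.mem_set_normalizer_iff.mp hy x).mp hx
  obtain ⟨v, hvdef⟩ : ∃ v, v = y * u * y⁻¹ := ⟨_, rfl⟩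
  obtain ⟨w, hwdef⟩ : ∃ w, w = y * v * y⁻¹ := ⟨_, rfl⟩
  have hv : v ∈ R := by rw [hvdef]; exact hconj u hu
  have hw : w ∈ R := by rw [hwdef]; exact hconj v hv
  have hvv : v * v = 1 := by
    rw [hvdef]
    calc y * u * y⁻¹ * (y * u * y⁻¹) = y * (u * u) * y⁻¹ := by group
      _ = 1 := by rw [huu]; group
  have hww : w * w = 1 := by
    rw [hwdef]
    calc y * v * y⁻¹ * (y * v * y⁻¹) = y * (v * v) * y⁻¹ := by group
      _ = 1 := by rw [hvv]; group
  have hwu : y * w * y⁻¹ = u := by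
    rw [hwdef, hvdef]
    calc y * (y * (y * u * y⁻¹) * y⁻¹) * y⁻¹ = (y * y * y) * u * (y * y * y)⁻¹ := by group
      _ = u := by rw [hy3']; group
  have huinv : u⁻¹ = u := inv_eq_of_mul_eq_one_left huu
  have hvinv : v⁻¹ = v := inv_eq_of_mul_eq_one_left hvv
  -- `p = u v w` is fixed by `y` up to sign
  obtain ⟨p, hpdef⟩ : ∃ p, p = u * v * w := ⟨_, rfl⟩
  have hp : p ∈ R := by rw [hpdef]; exact R.mul_mem (R.mul_mem hu hv) hw
  have hyp : y * p * y⁻¹ = u * p * u := by
    have e : y * p * y⁻¹ = (y * u * y⁻¹) * (y * v * y⁻¹) * (y * w * y⁻¹) := by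
      rw [hpdef]; group
    rw [e, ← hvdef, ← hwdef, hwu, hpdef]
    calc v * w * u = (u * u) * (v * w * u) := by rw [huu, one_mul]
      _ = u * (u * v * w) * u := by group
  have hpy : p * y = y * p := by
    rcases comm_or_anti R hG.hsq p u hp hu with h | h
    · have e : y * p * y⁻¹ = p := by
        rw [hyp, mul_assoc, h, ← mul_assoc, huu, one_mul]
      calc p * y = (y * p * y⁻¹) * y := by rw [e]
        _ = y * p := by group
    · exfalso
      have e : y * p * y⁻¹ = -p := by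
        rw [hyp, mul_assoc, h, mul_neg, ← mul_assoc, huu, one_mul]
      exact hG.conj_neg_false y p hy3 e
  have hp1 := hC p hp hpy
  -- `u` and `v` commute
  have hq : (u * v) * (u * v) = 1 := by
    have hw' : w = (u * v)⁻¹ * p := by rw [hpdef]; group
    have hpc : ∀ x : GL (Fin 2 ⊕ Fin 2) F, p * x = x * p := by
      intro x
      rcases hp1 with h | h
      · rw [h, one_mul, mul_one]
      · rw [h]; exact neg_comm x
    have hpp : p * p = 1 := by
      rcases hp1 with h | h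
      · rw [h, one_mul]
      · rw [h, neg_mul_neg, one_mul]
    have e : w * w = ((u * v) * (u * v))⁻¹ := by
      rw [hw']
      calc (u * v)⁻¹ * p * ((u * v)⁻¹ * p) = (u * v)⁻¹ * (p * (u * v)⁻¹) * p := by group
        _ = (u * v)⁻¹ * ((u * v)⁻¹ * p) * p := by rw [hpc]
        _ = ((u * v) * (u * v))⁻¹ * (p * p) := by group
        _ = ((u * v) * (u * v))⁻¹ := by rw [hpp, mul_one]
    rw [hww] at e
    exact inv_eq_one.mp e.symm
  have huv : u * v = v * u := by
    calc u * v = ((u * v) * (u * v)) * (v⁻¹ * u⁻¹) := by group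
      _ = v * u := by rw [hq, one_mul, hvinv, huinv]
  -- `v` is independent of `u`
  have hv1 : v ≠ 1 := by
    intro h
    rw [hvdef] at h
    apply hu1
    calc u = y⁻¹ * (y * u * y⁻¹) * y := by group
      _ = 1 := by rw [h]; group
  have hv2 : v ≠ -1 := by
    intro h
    rw [hvdef] at h
    apply hu2
    calc u = y⁻¹ * (y * u * y⁻¹) * y := by group
      _ = -1 := by rw [h, mul_neg, mul_one, neg_mul, inv_mul_cancel]
  have hvu : v ≠ u := by
    intro h
    rw [hvdef] at h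
    have h1 : u * y = y * u := by
      calc u * y = (y * u * y⁻¹) * y := by rw [h]
        _ = y * u := by group
    rcases hC u hu h1 with h2 | h2
    · exact hu1 h2
    · exact hu2 h2
  have hvu' : v ≠ -u := by
    intro h
    rw [hvdef] at h
    exact hG.conj_neg_false y u hy3 h
  exact hK u v hu hv huu hvv huv hu1 hu2 hv1 hv2 hvu hvu'

end GoodM

/-- every element of order `r` of `PSp_4` is conjugate into the normaliser of `R` -/
def AllFixM (R : Subgroup (GL (Fin 2 ⊕ Fin 2) F)) (r : ℕ) : Prop :=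
  ∀ x ∈ Cfsg.spGL 2 F,
    (∃ z : F, ((x ^ r : GL (Fin 2 ⊕ Fin 2) F) : Matrix (Fin 2 ⊕ Fin 2) (Fin 2 ⊕ Fin 2) F) = z • (1 : Matrix (Fin 2 ⊕ Fin 2) (Fin 2 ⊕ Fin 2) F)) →
    (∀ z : F, (x : Matrix (Fin 2 ⊕ Fin 2) (Fin 2 ⊕ Fin 2) F) ≠ z • (1 : Matrix (Fin 2 ⊕ Fin 2) (Fin 2 ⊕ Fin 2) F)) →
    ∃ g ∈ Cfsg.spGL 2 F, g⁻¹ * x * g ∈ Cfsg.Geo.subgroupNormalizer R

end M2

end Cfsg.Agent.Lib.Helper98.SM
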