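import Mathlib
import Cfsg.Prelude.Def_GeometricClasses
import Cfsg.Prelude.Def_ClassicalGeometry

/-!
S5975 (field-extension subgroups `Sp_{2d/k}(q^k)` of `Sp_{2d}(q)`): shared definitions.
-/

set_option autoImplicit false

namespace Cfsg.Agent.Lib.Helper98.F75

open Matrix

/-- `B` is an `L`-bilinear alternating form on `F^(2d)` (where `L` acts through `ρ`) whose
composition with the functional `φ` is the standard alternating form. -/
structure IsLForm {F : Type*} [Field F] {d : ℕ} {L : Type*} [Field L] [Algebra F L]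
    (ρ : L →ₐ[F] Matrix (Fin d ⊕ Fin d) (Fin d ⊕ Fin d) F) (φ : L →ₗ[F] F)
    (B : (Fin d ⊕ Fin d → F) → (Fin d ⊕ Fin d → F) → L) : Prop where
  add_left : ∀ u u' v, B (u + u') v = B u v + B u' v
  add_right : ∀ u v v', B u (v + v') = B u v + B u v'
  smul_left : ∀ (c : L) u v, B (ρ c *ᵥ u) v = c * B u v
  smul_right : ∀ (c : L) u v, B u (ρ c *ᵥ v) = c * B u v
  alt : ∀ v, B v v = 0
  form : ∀ u v, φ (B u v) = Cfsg.sympForm d F u v

/-- the number `δ`: the dimension of the non-trivial part of a minimal element of order `r`. -/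
noncomputable def delta (q r : ℕ) : ℕ :=
  if Even (orderOf (q : ZMod r)) then orderOf (q : ZMod r) else 2 * orderOf (q : ZMod r)

end Cfsg.Agent.Lib.Helper98.F75
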