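import Mathlib
import Cfsg.Prelude.Def_GeometricClasses
import Cfsg.Agent.Lib.Helper99.Norm
import Cfsg.Agent.Lib.Helper99.Mat2
import Cfsg.Agent.Lib.Helper47.InvSL
import Cfsg.Agent.Lib.Helper47.SemiConjMat
import Cfsg.Agent.Lib.Helper72.AutOrbLin

/-!
Characteristic polynomials of matrices of prime order and conjugacy into a normaliser
(dimension four).
-/

set_option autoImplicit false

namespace Cfsg.Agent.Lib.Helper98.Symp

open Matrix Polynomial

section Fs

variable {F : Type*} [Field F]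

/-- Scalar multiples of normalising elements normalise. -/
theorem smul_mem_norm (R : Subgroup (GL (Fin 4) F)) (n u : GL (Fin 4) F) (t : F)
    (hn : n ∈ Cfsg.Geo.subgroupNormalizer R)
    (hu : (u : Matrix (Fin 4) (Fin 4) F) = t • (n : Matrix (Fin 4) (Fin 4) F)) :
    u ∈ Cfsg.Geo.subgroupNormalizer R := by
  unfold Cfsg.Geo.subgroupNormalizer at hn ⊢
  rw [Subgroup.mem_set_normalizer_iff] at hn ⊢
  intro h
  have h1 : u * h * u⁻¹ = n * h * n⁻¹ := by
    rw [mul_inv_eq_iff_eq_mul]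
    apply Units.ext
    simp only [Units.val_mul]
    rw [hu, Matrix.smul_mul, Matrix.mul_smul, Matrix.mul_assoc (n.val * h.val), Units.inv_mul,
      Matrix.mul_one]
  rw [h1]
  exact hn h

theorem sl_conj4 [Finite F] (M Y : Matrix (Fin 4) (Fin 4) F)
    (hM : Module.End.IsSemisimple (toLin' M)) (hY : Module.End.IsSemisimple (toLin' Y))
    (hc : M.charpoly = Y.charpoly) :
    ∃ g : Matrix (Fin 4) (Fin 4) F, g.det = 1 ∧ g * M = Y * g := by
  obtain ⟨P, hP, hPM⟩ := Cfsg.Agent.Lib.Helper47.exists_conj_matrix M Y hM hY hc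
  obtain ⟨c, hcM, hcd⟩ := Cfsg.Agent.Lib.Helper47.exists_commute_matrix_det M hM (P.det)⁻¹
  refine ⟨P * c, by rw [Matrix.det_mul, hcd, mul_inv_cancel₀ hP.ne_zero], ?_⟩
  rw [Matrix.mul_assoc, hcM, ← Matrix.mul_assoc, hPM, Matrix.mul_assoc]

/-- An element `x = t • M` of `GL_4` with `M` semisimple of the same characteristic polynomial as
a semisimple element `n` of the normaliser is `SL_4`-conjugate into the normaliser. -/
theorem conj_into4 [Finite F] (R : Subgroup (GL (Fin 4) F)) (x n : GL (Fin 4) F) (t : F)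
    (M : Matrix (Fin 4) (Fin 4) F) (hxM : (x : Matrix (Fin 4) (Fin 4) F) = t • M)
    (hMs : Module.End.IsSemisimple (toLin' M)) (hn : n ∈ Cfsg.Geo.subgroupNormalizer R)
    (hns : Module.End.IsSemisimple (toLin' (n : Matrix (Fin 4) (Fin 4) F)))
    (hc : M.charpoly = (n : Matrix (Fin 4) (Fin 4) F).charpoly) :
    ∃ g ∈ Cfsg.Geo.specialLinear (Fin 4) F, g⁻¹ * x * g ∈ Cfsg.Geo.subgroupNormalizer R := by
  obtain ⟨G, hGd, hGM⟩ := sl_conj4 M _ hMs hns hc
  obtain ⟨gU, hgU⟩ : ∃ gU : GL (Fin 4) F, (gU : Matrix (Fin 4) (Fin 4) F) = G :=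
    ⟨Matrix.GeneralLinearGroup.mkOfDetNeZero G (by rw [hGd]; exact one_ne_zero), rfl⟩
  have hgSL : gU ∈ Cfsg.Geo.specialLinear (Fin 4) F :=
    (Cfsg.Agent.Lib.Helper99.mem_specialLinear_iff gU).mpr (by rw [hgU]; exact hGd)
  refine ⟨gU⁻¹, inv_mem hgSL, ?_⟩
  rw [inv_inv]
  apply smul_mem_norm R n _ t hn
  rw [Units.val_mul, Units.val_mul, hxM, Matrix.mul_smul, hgU, hGM, Matrix.smul_mul, ← hgU,
    Matrix.mul_assoc, Units.mul_inv, Matrix.mul_one]

theorem isSemisimple_smul_one (l : F) :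
    Module.End.IsSemisimple (toLin' (l • (1 : Matrix (Fin 4) (Fin 4) F))) := by
  apply Module.End.isSemisimple_of_squarefree_aeval_eq_zero (p := X - C l)
    (Polynomial.irreducible_X_sub_C l).squarefree
  rw [map_sub, aeval_X, aeval_C, sub_eq_zero]
  apply LinearMap.ext
  intro v
  rw [Matrix.toLin'_apply, Matrix.smul_mulVec, Matrix.one_mulVec, Module.algebraMap_end_apply]

theorem charpoly_smul_one (l : F) :
    (l • (1 : Matrix (Fin 4) (Fin 4) F)).charpoly = (X - C l) ^ 4 := by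
  have e : l • (1 : Matrix (Fin 4) (Fin 4) F) = Matrix.diagonal (fun _ => l) := by
    ext a b
    simp [Matrix.diagonal_apply, Matrix.one_apply]
  rw [e, Matrix.charpoly_diagonal, Finset.prod_const, Finset.card_univ, Fintype.card_fin]

/-- A semisimple matrix with characteristic polynomial `(X - l)^4` is the scalar `l`. -/
theorem eq_smul_of_charpoly (M : Matrix (Fin 4) (Fin 4) F)
    (hM : Module.End.IsSemisimple (toLin' M)) (l : F) (hc : M.charpoly = (X - C l) ^ 4) :
    M = l • (1 : Matrix (Fin 4) (Fin 4) F) := by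
  obtain ⟨P, hP, hPM⟩ := Cfsg.Agent.Lib.Helper47.exists_conj_matrix M _ hM
    (isSemisimple_smul_one l) (by rw [hc, charpoly_smul_one])
  obtain ⟨u, hu⟩ := (Matrix.isUnit_iff_isUnit_det P).mpr hP
  rw [← hu] at hPM
  calc M = ((u⁻¹ : (Matrix (Fin 4) (Fin 4) F)ˣ) : Matrix (Fin 4) (Fin 4) F)
        * ((u : Matrix (Fin 4) (Fin 4) F) * M) := by
        rw [← Matrix.mul_assoc, Units.inv_mul, Matrix.one_mul]
    _ = l • (1 : Matrix (Fin 4) (Fin 4) F) := by
        rw [hPM, Matrix.smul_mul, Matrix.one_mul, Matrix.mul_smul, Units.inv_mul]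

/-- The characteristic polynomial of a matrix with `M ^ q = 1` divides `(X ^ q - 1) ^ 4`. -/
theorem charpoly_dvd_pow (M : Matrix (Fin 4) (Fin 4) F) (q : ℕ) (hM : M ^ q = 1) :
    M.charpoly ∣ (X ^ q - 1) ^ 4 := by
  have hcomm : Commute (Matrix.scalar (Fin 4) (X : F[X])) ((C : F →+* F[X]).mapMatrix M) :=
    Matrix.scalar_commute _ (fun r' => Commute.all _ _) _
  have h1 := hcomm.mul_geom_sum₂ q
  have h2 : ((C : F →+* F[X]).mapMatrix M) ^ q = 1 := by rw [← map_pow, hM, map_one]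
  have h3 : (Matrix.scalar (Fin 4) (X : F[X])) ^ q = Matrix.scalar (Fin 4) (X ^ q) := by
    rw [← map_pow]
  rw [h2, h3] at h1
  have h4 := congrArg Matrix.det h1
  rw [Matrix.det_mul] at h4
  have h5 : (Matrix.scalar (Fin 4) (X ^ q : F[X]) - 1).det = (X ^ q - 1) ^ 4 := by
    have e : Matrix.scalar (Fin 4) (X ^ q : F[X]) - 1
        = (X ^ q - 1 : F[X]) • (1 : Matrix (Fin 4) (Fin 4) F[X]) := by
      ext a b
      by_cases hab : a = b
      · subst hab
        simp [Matrix.scalar_apply]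
      · simp [Matrix.scalar_apply, hab]
    rw [e, Matrix.det_smul, Matrix.det_one, mul_one, Fintype.card_fin]
  rw [h5] at h4
  exact Dvd.intro _ h4

/-- The shape of the characteristic polynomial of a matrix of prime order `q` when the `q`-th
cyclotomic polynomial is irreducible. -/
theorem charpoly_form (M : Matrix (Fin 4) (Fin 4) F) (q : ℕ) [hq : Fact q.Prime]
    (hirr : Irreducible (cyclotomic q F)) (hM : M ^ q = 1) :
    ∃ a b : ℕ, M.charpoly = (X - 1) ^ a * (cyclotomic q F) ^ b ∧ a + (q - 1) * b = 4 := by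
  have hdvd := charpoly_dvd_pow M q hM
  have hfac : (X ^ q - 1 : F[X]) = cyclotomic q F * (X - C 1) := by
    rw [C_1]
    exact (cyclotomic_prime_mul_X_sub_one F q).symm
  rw [hfac, mul_pow] at hdvd
  have hne : M.charpoly ≠ 0 := (Matrix.charpoly_monic M).ne_zero
  obtain ⟨g, hg, hgnd⟩ :=
    Polynomial.exists_eq_pow_rootMultiplicity_mul_and_not_dvd M.charpoly hne (1 : F)
  obtain ⟨a, ha⟩ : ∃ a, a = M.charpoly.rootMultiplicity 1 := ⟨_, rfl⟩
  rw [← ha] at hg
  have hgdvd : g ∣ cyclotomic q F ^ 4 * (X - C 1) ^ 4 := (Dvd.intro_left _ hg.symm).trans hdvd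
  have hcop : IsCoprime g ((X - C (1 : F)) ^ 4) := by
    apply IsCoprime.pow_right
    exact ((Polynomial.irreducible_X_sub_C (1 : F)).coprime_iff_not_dvd.mpr hgnd).symm
  have hgΦ : g ∣ cyclotomic q F ^ 4 := hcop.dvd_of_dvd_mul_right hgdvd
  obtain ⟨b, _, hassoc⟩ := (dvd_prime_pow hirr.prime 4).mp hgΦ
  have h1 : ((X - C (1 : F)) ^ a).Monic := (monic_X_sub_C 1).pow a
  have hgmonic : g.Monic := by
    have h2 : ((X - C (1 : F)) ^ a * g).Monic := by rw [← hg]; exact Matrix.charpoly_monic M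
    exact h1.of_mul_monic_left h2
  have hΦm : (cyclotomic q F ^ b).Monic := (cyclotomic.monic q F).pow b
  have hgeq : g = cyclotomic q F ^ b := eq_of_monic_of_associated hgmonic hΦm hassoc
  rw [hgeq] at hg
  refine ⟨a, b, ?_, ?_⟩
  · rw [hg, C_1]
  · have hdeg := Matrix.charpoly_natDegree_eq_dim M
    rw [hg, h1.natDegree_mul hΦm, (monic_X_sub_C (1 : F)).natDegree_pow,
      (cyclotomic.monic q F).natDegree_pow, natDegree_X_sub_C, natDegree_cyclotomic,
      Nat.totient_prime hq.out, Fintype.card_fin] at hdeg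
    linarith

/-- A matrix of order five with irreducible fifth cyclotomic polynomial. -/
theorem charpoly_five (M : Matrix (Fin 4) (Fin 4) F) (h5 : (5 : F) ≠ 0)
    (hirr : Irreducible (cyclotomic 5 F)) (hM : M ^ 5 = 1) (hne : M ≠ 1) :
    M.charpoly = cyclotomic 5 F := by
  have : Fact (Nat.Prime 5) := ⟨by norm_num⟩
  have hss : Module.End.IsSemisimple (toLin' M) :=
    Cfsg.Agent.Lib.Helper47.isSemisimple_toLin'_of_pow_eq_one M 5 (by exact_mod_cast h5) hM
  obtain ⟨a, b, hc, hab⟩ := charpoly_form M 5 hirr hM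
  have hcases : (a = 4 ∧ b = 0) ∨ (a = 0 ∧ b = 1) := by omega
  rcases hcases with ⟨rfl, rfl⟩ | ⟨rfl, rfl⟩
  · exfalso
    apply hne
    have h1 := eq_smul_of_charpoly M hss 1 (by rw [hc, C_1, pow_zero, mul_one])
    rw [h1, one_smul]
  · rw [hc, pow_zero, one_mul, pow_one]

/-- Matrices of order three with irreducible third cyclotomic polynomial. -/
theorem charpoly_three (M : Matrix (Fin 4) (Fin 4) F) (h3 : (3 : F) ≠ 0)
    (hirr : Irreducible (cyclotomic 3 F)) (hM : M ^ 3 = 1) :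
    (M * M + M + 1 = 0 → M.charpoly = cyclotomic 3 F ^ 2) ∧
    (M ≠ 1 → M * M + M + 1 ≠ 0 → M.charpoly = (X - 1) ^ 2 * cyclotomic 3 F) := by
  have : Fact (Nat.Prime 3) := ⟨by norm_num⟩
  have hss : Module.End.IsSemisimple (toLin' M) :=
    Cfsg.Agent.Lib.Helper47.isSemisimple_toLin'_of_pow_eq_one M 3 (by exact_mod_cast h3) hM
  obtain ⟨a, b, hc, hab⟩ := charpoly_form M 3 hirr hM
  have hcases : (a = 4 ∧ b = 0) ∨ (a = 2 ∧ b = 1) ∨ (a = 0 ∧ b = 2) := by omega
  have hM3 : M * M * M = 1 := by rw [← pow_two, ← pow_succ]; exact hM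
  -- case (4,0): M = 1
  have hcase1 : a = 4 → b = 0 → M = 1 := by
    intro ha hb
    rw [ha, hb] at hc
    have h1 := eq_smul_of_charpoly M hss 1 (by rw [hc, C_1, pow_zero, mul_one])
    rw [h1, one_smul]
  -- case (0,2): E = 0
  have hcase3 : a = 0 → b = 2 → M * M + M + 1 = 0 := by
    intro ha hb
    rw [ha, hb, pow_zero, one_mul] at hc
    have hCH := Matrix.aeval_self_charpoly M
    rw [hc, map_pow, cyclotomic_three] at hCH
    simp only [map_add, map_pow, aeval_X, map_one] at hCH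
    obtain ⟨E, hE⟩ : ∃ E, E = M * M + M + 1 := ⟨_, rfl⟩
    rw [pow_two M, ← hE, pow_two] at hCH
    have hEM : E * M = E := by
      rw [hE, add_mul, add_mul, one_mul, hM3]
      abel
    have hEE : E * E = E + E + E := by
      have e1 : E * E = E * M * M + E * M + E := by
        nth_rewrite 2 [hE]
        rw [mul_add, mul_add, mul_one, ← mul_assoc]
      rw [e1, hEM, hEM]
    rw [hCH] at hEE
    have h3E : (3 : F) • E = 0 := by
      rw [show (3 : F) = 1 + 1 + 1 by norm_num, add_smul, add_smul, one_smul]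
      exact hEE.symm
    rw [← hE]
    exact (smul_eq_zero.mp h3E).resolve_left h3
  -- case (2,1): E ≠ 0
  have hcase2 : a = 2 → b = 1 → M * M + M + 1 ≠ 0 := by
    intro ha hb hE
    rw [ha, hb, pow_one] at hc
    have hroot : M.charpoly.eval 1 = 0 := by
      rw [hc]
      simp
    rw [Matrix.eval_charpoly] at hroot
    obtain ⟨v, hv, hMv⟩ := Matrix.exists_mulVec_eq_zero_iff.mpr hroot
    have hMv' : M *ᵥ v = v := by
      have e : (Matrix.scalar (Fin 4) (1 : F) - M) *ᵥ v = v - M *ᵥ v := by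
        rw [Matrix.sub_mulVec, map_one, Matrix.one_mulVec]
      rw [e] at hMv
      exact (sub_eq_zero.mp hMv).symm
    have hEv : (M * M + M + 1) *ᵥ v = (3 : F) • v := by
      rw [Matrix.add_mulVec, Matrix.add_mulVec, Matrix.one_mulVec, ← Matrix.mulVec_mulVec, hMv',
        hMv', show (3 : F) = 1 + 1 + 1 by norm_num, add_smul, add_smul, one_smul]
    rw [hE, Matrix.zero_mulVec] at hEv
    exact hv ((smul_eq_zero.mp hEv.symm).resolve_left h3)
  constructor
  · intro hE
    rcases hcases with ⟨ha, hb⟩ | ⟨ha, hb⟩ | ⟨ha, hb⟩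
    · exfalso
      have h1 := hcase1 ha hb
      rw [h1] at hE
      have h00 := congrFun (congrFun hE 0) 0
      simp at h00
      apply h3
      linear_combination h00
    · exact absurd hE (hcase2 ha hb)
    · rw [hc, ha, hb, pow_zero, one_mul]
  · intro hne hE
    rcases hcases with ⟨ha, hb⟩ | ⟨ha, hb⟩ | ⟨ha, hb⟩
    · exact absurd (hcase1 ha hb) hne
    · rw [hc, ha, hb, pow_one]
    · exact absurd (hcase3 ha hb) hE

/-- Irreducibility of cyclotomic polynomials over a prime field. -/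
theorem irreducible_cyclotomic_field [Fintype F] (p q : ℕ) [hp : Fact p.Prime]
    [hq : Fact q.Prime] (hF : Fintype.card F = p) (hpq : p ≠ q)
    (hprim : orderOf (p : ZMod q) = q - 1) : Irreducible (cyclotomic q F) := by
  have h := Cfsg.Agent.Lib.Helper72.irreducible_cyclotomic_of_orderOf hpq hprim
  obtain ⟨e⟩ : Nonempty (ZMod p ≃+* F) := ⟨ZMod.ringEquivOfPrime F hp.out hF⟩
  have h2 : (Polynomial.mapEquiv e) (cyclotomic q (ZMod p)) = cyclotomic q F := by
    rw [Polynomial.mapEquiv_apply]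
    exact map_cyclotomic q (e : ZMod p →+* F)
  rw [← h2]
  exact (MulEquiv.irreducible_iff (Polynomial.mapEquiv e).toMulEquiv).mpr h

/-- `q`-th roots in a finite field with `q` prime to the order of the multiplicative group. -/
theorem exists_root [Fintype F] (q : ℕ) (hcop : (Fintype.card F - 1).Coprime q) (z : F)
    (hz : z ≠ 0) : ∃ μ : F, μ ≠ 0 ∧ μ ^ q = z := by
  have hcard : Nat.card Fˣ = Fintype.card F - 1 := by
    rw [Nat.card_units, Nat.card_eq_fintype_card]
  have h : (Nat.card Fˣ).Coprime q := by rw [hcard]; exact hcop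
  obtain ⟨u, hu⟩ : ∃ u : Fˣ, (u : F) = z := ⟨Units.mk0 z hz, rfl⟩
  have h1 := (powCoprime h).apply_symm_apply u
  refine ⟨(((powCoprime h).symm u : Fˣ) : F), Units.ne_zero _, ?_⟩
  have h2 := congrArg Units.val h1
  rw [powCoprime_apply, Units.val_pow_eq_pow_val, hu] at h2
  exact h2

/-- Writing an element with scalar `q`-th power as a scalar times an element of order `q`. -/
theorem split_scalar (x : GL (Fin 4) F) (q : ℕ) (z μ : F) (hμ0 : μ ≠ 0) (hμ : μ ^ q = z)
    (hx : ((x ^ q : GL (Fin 4) F) : Matrix (Fin 4) (Fin 4) F)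
      = z • (1 : Matrix (Fin 4) (Fin 4) F))
    (hns : ∀ z : F, (x : Matrix (Fin 4) (Fin 4) F) ≠ z • (1 : Matrix (Fin 4) (Fin 4) F)) :
    ∃ M : Matrix (Fin 4) (Fin 4) F, (x : Matrix (Fin 4) (Fin 4) F) = μ • M ∧ M ^ q = 1 ∧ M ≠ 1 := by
  refine ⟨μ⁻¹ • (x : Matrix (Fin 4) (Fin 4) F), ?_, ?_, ?_⟩
  · rw [smul_smul, mul_inv_cancel₀ hμ0, one_smul]
  · rw [_root_.smul_pow, ← Units.val_pow_eq_pow_val, hx, smul_smul, inv_pow, hμ,
      inv_mul_cancel₀ (by rw [← hμ]; exact pow_ne_zero q hμ0), one_smul]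
  · intro h
    apply hns μ
    have h2 := congrArg (fun A => μ • A) h
    simp only [smul_smul, mul_inv_cancel₀ hμ0, one_smul] at h2
    exact h2

end Fs

end Cfsg.Agent.Lib.Helper98.Symp
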