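import Cfsg.Agent.Lib.Helper98.O72Fix
import Cfsg.Agent.Lib.Helper95.O72EVEN
import Cfsg.Agent.Lib.Helper46.O72HALF
import Cfsg.Agent.Lib.Helper96.SpBlock

/-!
Project O72 (S5972): symmetric-form twins of lemmas of `SpBlock.lean`.
-/

set_option autoImplicit false
set_option linter.unusedSectionVars false
set_option linter.unusedVariables false

namespace Cfsg.Agent.Lib.Helper98.O72

open Module Polynomial Cfsg.Agent.Lib.Helper96.Sp Cfsg.Agent.Lib.Helper96.BG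

variable {F : Type*} [Field F] [Fintype F] {V : Type*} [AddCommGroup V] [Module F V]
  [FiniteDimensional F V] {B : LinearMap.BilinForm F V}

theorem exists_sub_atoms (hS : B.IsSymm) (hchar2 : (2 : F) ≠ 0) (c₀ : ℕ) (hc₀ : 1 ≤ c₀) (A : Submodule F V → Prop)
    (hnd : ∀ W, A W → ND B W)
    (hstep : ∀ W, A W → W ≠ ⊥ → ∃ P : Submodule F V, P ≤ W ∧ A P ∧ finrank F P = c₀ ∧
      A (W ⊓ B.orthogonal P))
    (hsup : ∀ X Y, A X → A Y → Orth B X Y → A (X ⊔ Y)) (hbot : A ⊥)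
    (W : Submodule F V) (hW : A W) (b : ℕ) (hb : c₀ * b ≤ finrank F W) :
    ∃ Q : Submodule F V, Q ≤ W ∧ A Q ∧ finrank F Q = c₀ * b ∧ A (W ⊓ B.orthogonal Q) := by
  induction b with
  | zero =>
    refine ⟨⊥, bot_le, hbot, by rw [finrank_bot, mul_zero], ?_⟩
    rw [LinearMap.BilinForm.orthogonal_bot, inf_top_eq]
    exact hW
  | succ b ih =>
    have hmul : c₀ * (b + 1) = c₀ * b + c₀ := by ring
    obtain ⟨Q, hQW, hQ, hQfin, hQrest⟩ := ih (by omega)
    obtain ⟨-, -, hfin⟩ := nd_rel hS hchar2 (hnd Q hQ) (hnd W hW) hQW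
    have hne : W ⊓ B.orthogonal Q ≠ ⊥ := by
      intro h
      rw [h, finrank_bot] at hfin
      omega
    obtain ⟨P, hPle, hP, hPfin, hPrest⟩ := hstep _ hQrest hne
    have horth : Orth B Q P := orth_iff_le_perp.mpr (le_trans hPle inf_le_right)
    refine ⟨Q ⊔ P, sup_le hQW (le_trans hPle inf_le_left), hsup Q P hQ hP horth, ?_, ?_⟩
    · rw [(nd_sup hS hchar2 (hnd Q hQ) (hnd P hP) horth).2, hQfin, hPfin, hmul]
    · rw [perp_sup, ← inf_assoc]
      exact hPrest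

theorem exists_block (hS : B.IsSymm) (hchar2 : (2 : F) ≠ 0) (hN : ND B ⊤) (T : Module.End F V) (hT : Isom B T) (r : ℕ)
    [Fact r.Prime] (hr2 : r ≠ 2) (hrq : ¬ r ∣ Fintype.card F) (hr0 : (r : F) ≠ 0)
    (hTr : T ^ r = 1) (W : Submodule F V) (hW : W.map T ≤ W) (hWnd : ND B W)
    (hWR : W ≤ LinearMap.range (T - 1)) (hW0 : W ≠ ⊥) :
    ∃ P : Submodule F V, P ≤ W ∧ P.map T ≤ P ∧ ND B P ∧
      finrank F P = blk (Fintype.card F) r := by
  classical
  unfold blk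
  obtain ⟨hi, -, -, hdisj, hRinv, -, hdiv, -, -⟩ := pow_one_setup T r hrq hr0 hTr
  obtain ⟨U, hUW, hU, hUi⟩ := exists_inv_dim T r hrq hr0 hTr W hW hWR hW0
  have hUR := le_trans hUW hWR
  have hinfinv : ∀ X Y : Submodule F V, X.map T ≤ X → Y.map T ≤ Y →
      (X ⊓ B.orthogonal Y).map T ≤ X ⊓ B.orthogonal Y := by
    rintro X Y hX hY _ ⟨x, hx, rfl⟩
    exact ⟨hX ⟨x, hx.1, rfl⟩, perp_invariant hN hT hY ⟨x, hx.2, rfl⟩⟩
  rcases inv_eq_bot_or T r hrq hr0 hTr U hUR hUi _ inf_le_left (hinfinv U U hU hU) with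
    hrad | hrad
  · have hUnd : ND B U := nd_of_inf_perp hS hchar2 hrad
    have heven : Even (orderOf ((Fintype.card F : ℕ) : ZMod r)) := by
      rw [← hUi]
      exact even_finrank_of_nd_range hS hchar2 hN T hT r hr2 hrq hr0 hTr U hU hUnd hUR
    exact ⟨U, hUW, hU, hUnd, by rw [if_pos heven]; exact hUi⟩
  · have hUU : Orth B U U := by
      rw [orth_iff_le_perp]
      exact inf_eq_left.mp hrad
    obtain ⟨U', hU'W, hU', hU'i, hU'U⟩ :=
      exists_partner hS hchar2 hN T hT r hrq hr0 hTr W hW hWnd U hUW hU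
    rw [hUi] at hU'i
    have hU'R := le_trans hU'W hWR
    rcases inv_eq_bot_or T r hrq hr0 hTr U' hU'R hU'i _ inf_le_left (hinfinv U' U' hU' hU') with
      hrad' | hrad'
    · have hU'nd : ND B U' := nd_of_inf_perp hS hchar2 hrad'
      have heven : Even (orderOf ((Fintype.card F : ℕ) : ZMod r)) := by
        rw [← hU'i]
        exact even_finrank_of_nd_range hS hchar2 hN T hT r hr2 hrq hr0 hTr U' hU' hU'nd hU'R
      exact ⟨U', hU'W, hU', hU'nd, by rw [if_pos heven]; exact hU'i⟩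
    · have hUU' : Orth B U' U' := by
        rw [orth_iff_le_perp]
        exact inf_eq_left.mp hrad'
      have hU2 : U ⊓ B.orthogonal U' = ⊥ := by
        rcases inv_eq_bot_or T r hrq hr0 hTr U hUR hUi _ inf_le_left (hinfinv U U' hU hU') with
          h | h
        · exact h
        · exfalso
          have h1 : U ≤ B.orthogonal U' := inf_eq_left.mp h
          have h2 : U' ≤ B.orthogonal U :=
            orth_iff_le_perp.mp (orth_symm hS hchar2 (orth_iff_le_perp.mpr h1))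
          have h3 : U' = ⊥ := by
            rw [eq_bot_iff, ← hU'U]
            exact le_inf le_rfl h2
          rw [h3, finrank_bot] at hU'i
          omega
      have hPnd : ND B (U ⊔ U') := nd_pair hS hchar2 hUU hUU' hU'U hU2
      have hPW : U ⊔ U' ≤ W := sup_le hUW hU'W
      have hPinv : (U ⊔ U').map T ≤ U ⊔ U' := by
        rw [Submodule.map_sup]
        exact sup_le_sup hU hU'
      by_cases heven : Even (orderOf ((Fintype.card F : ℕ) : ZMod r))
      · have hdvd : r ∣ Fintype.card F ^ (orderOf ((Fintype.card F : ℕ) : ZMod r) / 2) + 1 :=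
          dvd_half r _ Fintype.card_pos heven hi
        obtain ⟨Z, hZP, hZ, hZnd, hZi⟩ := exists_nd_half hS hchar2 hN T hT r hr2 hTr _
          (by omega) hdvd U U' (U ⊔ U') hU hU' hUi hU'i hUU hUU' rfl hPnd
          (fun Z hZP hZ => hdiv Z (le_trans hZP (le_trans hPW hWR)) hZ)
          (fun v hv hfix => by
            have h1 : v ∈ LinearMap.ker (T - 1) ⊓ LinearMap.range (T - 1) :=
              ⟨LinearMap.mem_ker.mpr (by rw [LinearMap.sub_apply, hfix]; exact sub_self v),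
                hWR (hPW hv)⟩
            rw [hdisj] at h1
            exact (Submodule.mem_bot F).mp h1)
        exact ⟨Z, le_trans hZP hPW, hZ, hZnd, by rw [if_pos heven]; exact hZi⟩
      · refine ⟨U ⊔ U', hPW, hPinv, hPnd, ?_⟩
        rw [if_neg heven]
        have h1 := Submodule.finrank_sup_add_finrank_inf_eq U U'
        have h2 : U ⊓ U' = ⊥ := by
          rw [eq_bot_iff, ← hU'U]
          exact le_inf inf_le_right (le_trans inf_le_left (orth_iff_le_perp.mp hUU))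
        rw [h2, finrank_bot, hUi, hU'i] at h1
        omega

theorem block_step (hS : B.IsSymm) (hchar2 : (2 : F) ≠ 0) (hN : ND B ⊤) (T : Module.End F V) (hT : Isom B T) (r : ℕ)
    [Fact r.Prime] (hr2 : r ≠ 2) (hrq : ¬ r ∣ Fintype.card F) (hr0 : (r : F) ≠ 0)
    (hTr : T ^ r = 1) (W : Submodule F V)
    (hW : ND B W ∧ W.map T ≤ W ∧ W ≤ LinearMap.range (T - 1)) (hW0 : W ≠ ⊥) :
    ∃ P : Submodule F V, P ≤ W ∧ (ND B P ∧ P.map T ≤ P ∧ P ≤ LinearMap.range (T - 1)) ∧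
      finrank F P = blk (Fintype.card F) r ∧
      (ND B (W ⊓ B.orthogonal P) ∧ (W ⊓ B.orthogonal P).map T ≤ W ⊓ B.orthogonal P ∧
        W ⊓ B.orthogonal P ≤ LinearMap.range (T - 1)) := by
  obtain ⟨P, hPW, hPinv, hPnd, hPc⟩ :=
    exists_block hS hchar2 hN T hT r hr2 hrq hr0 hTr W hW.2.1 hW.1 hW.2.2 hW0
  refine ⟨P, hPW, ⟨hPnd, hPinv, le_trans hPW hW.2.2⟩, hPc, (nd_rel hS hchar2 hPnd hW.1 hPW).1, ?_,
    le_trans inf_le_left hW.2.2⟩
  rintro _ ⟨x, hx, rfl⟩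
  exact ⟨hW.2.1 ⟨x, hx.1, rfl⟩, perp_invariant hN hT hPinv ⟨x, hx.2, rfl⟩⟩

theorem blk_dvd_range (hS : B.IsSymm) (hchar2 : (2 : F) ≠ 0) (hN : ND B ⊤) (T : Module.End F V) (hT : Isom B T) (r : ℕ)
    [Fact r.Prime] (hr2 : r ≠ 2) (hrq : ¬ r ∣ Fintype.card F) (hr0 : (r : F) ≠ 0)
    (hTr : T ^ r = 1) (W : Submodule F V) (hW : W.map T ≤ W) (hWnd : ND B W)
    (hWR : W ≤ LinearMap.range (T - 1)) : blk (Fintype.card F) r ∣ finrank F W := by
  obtain ⟨hi, -, -, -, -, -, -, -, -⟩ := pow_one_setup T r hrq hr0 hTr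
  obtain ⟨s, -, -, -, -, hs⟩ := orth_atoms hS hchar2 (blk (Fintype.card F) r) (blk_pos _ _ hi)
    (fun Z => ND B Z ∧ Z.map T ≤ Z ∧ Z ≤ LinearMap.range (T - 1)) (fun Z hZ => hZ.1)
    (fun Z hZ hZ0 => block_step hS hchar2 hN T hT r hr2 hrq hr0 hTr Z hZ hZ0) W ⟨hWnd, hW, hWR⟩
  exact ⟨s, hs⟩

theorem sp_dvd (hS : B.IsSymm) (hchar2 : (2 : F) ≠ 0) (hN : ND B ⊤) (T : Module.End F V) (hT : Isom B T) (r : ℕ)
    [Fact r.Prime] (hr2 : r ≠ 2) (hrq : ¬ r ∣ Fintype.card F) (hr0 : (r : F) ≠ 0)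
    (hTr : T ^ r = 1) (W : Submodule F V) (hW : W.map T ≤ W) (hWnd : ND B W) :
    blk (Fintype.card F) r ∣ finrank F W - finrank F ↥(W ⊓ LinearMap.ker (T - 1)) := by
  obtain ⟨-, hRnd, hRinv, hsum⟩ := fix_setup hS hchar2 hN T hT r hrq hr0 hTr W hW hWnd
  have h1 := blk_dvd_range hS hchar2 hN T hT r hr2 hrq hr0 hTr _ hRinv hRnd inf_le_right
  have h2 : finrank F W - finrank F ↥(W ⊓ LinearMap.ker (T - 1)) =
      finrank F ↥(W ⊓ LinearMap.range (T - 1)) := by omega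
  rw [h2]
  exact h1

theorem mod_le_fixed (hS : B.IsSymm) (hchar2 : (2 : F) ≠ 0) (hN : ND B ⊤) (T : Module.End F V) (hT : Isom B T) (r : ℕ)
    [Fact r.Prime] (hr2 : r ≠ 2) (hrq : ¬ r ∣ Fintype.card F) (hr0 : (r : F) ≠ 0)
    (hTr : T ^ r = 1) (W : Submodule F V) (hW : W.map T ≤ W) (hWnd : ND B W) :
    finrank F W % blk (Fintype.card F) r ≤ finrank F ↥(W ⊓ LinearMap.ker (T - 1)) := by
  have h1 := sp_dvd hS hchar2 hN T hT r hr2 hrq hr0 hTr W hW hWnd
  have hx : finrank F ↥(W ⊓ LinearMap.ker (T - 1)) ≤ finrank F W :=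
    Submodule.finrank_mono inf_le_left
  have h2 : finrank F ↥(W ⊓ LinearMap.ker (T - 1)) % blk (Fintype.card F) r =
      finrank F W % blk (Fintype.card F) r := (Nat.modEq_iff_dvd' hx).mpr h1
  rw [← h2]
  exact Nat.mod_le _ _

end Cfsg.Agent.Lib.Helper98.O72
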