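import Cfsg.Agent.Lib.Helper98.O72Fix
import Cfsg.Agent.Lib.Helper96.SpTI

/-!
Project O72 (S5972): symmetric-form twins of lemmas of `SpTI.lean`.
-/

set_option autoImplicit false
set_option linter.unusedSectionVars false
set_option linter.unusedVariables false

namespace Cfsg.Agent.Lib.Helper98.O72

open Module Polynomial Cfsg.Agent.Lib.Helper96.Sp Cfsg.Agent.Lib.Helper96.BG

variable {F : Type*} [Field F] [Fintype F] {V : Type*} [AddCommGroup V] [Module F V]
  [FiniteDimensional F V] {B : LinearMap.BilinForm F V}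

theorem ti_sup (hS : B.IsSymm) (hchar2 : (2 : F) ≠ 0) {U U' : Submodule F V} (hU : Orth B U U) (hU' : Orth B U' U')
    (h : Orth B U U') : Orth B (U ⊔ U') (U ⊔ U') := by
  have h1 : Orth B U (U ⊔ U') := orth_sup_right hU h
  have h2 : Orth B U' (U ⊔ U') := orth_sup_right (orth_symm hS hchar2 h) hU'
  exact orth_symm hS hchar2 (orth_sup_right (orth_symm hS hchar2 h1) (orth_symm hS hchar2 h2))

theorem ti_le_half (hS : B.IsSymm) (hchar2 : (2 : F) ≠ 0) (hN : ND B ⊤) {K U : Submodule F V} (hK : ND B K)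
    (hUK : U ≤ K) (hU : Orth B U U) : 2 * finrank F U ≤ finrank F K := by
  have h1 := finrank_inf_perp hS hchar2 hN hUK hK
  have h2 : U ≤ K ⊓ B.orthogonal U := le_inf hUK (orth_iff_le_perp.mp hU)
  have h3 := Submodule.finrank_mono h2
  omega

end Cfsg.Agent.Lib.Helper98.O72
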