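import Cfsg.Agent.Lib.Helper98.O72Block
import Cfsg.Agent.Lib.Helper98.O72TI
import Cfsg.Agent.Lib.Helper96.SpTIOdd

/-!
Project O72 (S5972): symmetric-form twins of lemmas of `SpTIOdd.lean`.
-/

set_option autoImplicit false
set_option linter.unusedSectionVars false
set_option linter.unusedVariables false

namespace Cfsg.Agent.Lib.Helper98.O72

open Module Polynomial Cfsg.Agent.Lib.Helper96.Sp Cfsg.Agent.Lib.Helper96.BG

variable {F : Type*} [Field F] [Fintype F] {V : Type*} [AddCommGroup V] [Module F V]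
  [FiniteDimensional F V] {B : LinearMap.BilinForm F V}

theorem ti_sup_finrank (hS : B.IsSymm) (hchar2 : (2 : F) ≠ 0) {Q Q' U U' : Submodule F V} (hQ : ND B Q)
    (hQQ' : Orth B Q Q') (hU : U ≤ Q) (hU' : U' ≤ Q') (hUt : Orth B U U) (hU't : Orth B U' U') :
    Orth B (U ⊔ U') (U ⊔ U') ∧ finrank F ↥(U ⊔ U') = finrank F U + finrank F U' := by
  refine ⟨ti_sup hS hchar2 hUt hU't (orth_mono hQQ' hU hU'), ?_⟩
  have h1 := Submodule.finrank_sup_add_finrank_inf_eq U U'
  have h2 : U ⊓ U' = ⊥ := by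
    rw [eq_bot_iff]
    rintro x ⟨hx1, hx2⟩
    rw [Submodule.mem_bot]
    apply hQ x (hU hx1)
    intro y hy
    rw [sym_swap hS hchar2, hQQ' y hy x (hU' hx2)]
  rw [h2, finrank_bot] at h1
  omega

theorem exists_ti_inv_odd_aux (hS : B.IsSymm) (hchar2 : (2 : F) ≠ 0) (hN : ND B ⊤) (T : Module.End F V)
    (hT : Isom B T) (r : ℕ) [Fact r.Prime] (hr2 : r ≠ 2)
    (hrq : ¬ r ∣ Fintype.card F) (hr0 : (r : F) ≠ 0) (hTr : T ^ r = 1)
    (hodd : Odd (orderOf ((Fintype.card F : ℕ) : ZMod r))) (b : ℕ)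
    (hb : 2 * (orderOf ((Fintype.card F : ℕ) : ZMod r) * b) ≤
      finrank F (LinearMap.range (T - 1))) :
    ∃ Q U : Submodule F V, Q ≤ LinearMap.range (T - 1) ∧ ND B Q ∧ Q.map T ≤ Q ∧
      finrank F Q = 2 * (orderOf ((Fintype.card F : ℕ) : ZMod r) * b) ∧ U ≤ Q ∧ U.map T ≤ U ∧
      Orth B U U ∧ finrank F U = orderOf ((Fintype.card F : ℕ) : ZMod r) * b := by
  induction b with
  | zero =>
    refine ⟨⊥, ⊥, bot_le, nd_bot, by rw [Submodule.map_bot], by rw [finrank_bot, mul_zero, mul_zero],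
      le_rfl, by rw [Submodule.map_bot], ?_, by rw [finrank_bot, mul_zero]⟩
    intro u hu v hv
    rw [Submodule.mem_bot] at hu
    rw [hu, map_zero, LinearMap.zero_apply]
  | succ b ih =>
    have hexp : orderOf ((Fintype.card F : ℕ) : ZMod r) * (b + 1) =
        orderOf ((Fintype.card F : ℕ) : ZMod r) * b + orderOf ((Fintype.card F : ℕ) : ZMod r) := by
      ring
    rw [hexp] at hb
    obtain ⟨Q, U, hQR, hQnd, hQinv, hQfin, hUQ, hUinv, hUti, hUfin⟩ := ih (by omega)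
    have hRnd := nd_range hS hchar2 hN T hT r hrq hr0 hTr
    obtain ⟨hZnd, -, hZfin⟩ := nd_rel hS hchar2 hQnd hRnd hQR
    have hZinv : (LinearMap.range (T - 1) ⊓ B.orthogonal Q).map T ≤
        LinearMap.range (T - 1) ⊓ B.orthogonal Q := by
      refine le_trans (Submodule.map_inf_le T) (inf_le_inf (range_map_le T) ?_)
      exact perp_invariant hN hT hQinv
    have hipos : 0 < orderOf ((Fintype.card F : ℕ) : ZMod r) := hodd.pos
    have hZ0 : LinearMap.range (T - 1) ⊓ B.orthogonal Q ≠ ⊥ := by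
      intro h
      rw [h, finrank_bot] at hZfin
      omega
    obtain ⟨P, hPZ, hPinv, hPnd, hPfin⟩ := exists_block hS hchar2 hN T hT r hr2 hrq hr0 hTr
      (LinearMap.range (T - 1) ⊓ B.orthogonal Q) hZinv hZnd inf_le_left hZ0
    have hblk : blk (Fintype.card F) r = 2 * orderOf ((Fintype.card F : ℕ) : ZMod r) := by
      unfold blk
      rw [if_neg (Nat.not_even_iff_odd.mpr hodd)]
    rw [hblk] at hPfin
    have hPR : P ≤ LinearMap.range (T - 1) := le_trans hPZ inf_le_left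
    have hP0 : P ≠ ⊥ := by
      intro h
      rw [h, finrank_bot] at hPfin
      omega
    obtain ⟨U', hU'P, hU'inv, hU'fin⟩ := exists_inv_dim T r hrq hr0 hTr P hPinv hPR hP0
    have hU'ti : Orth B U' U' := by
      have hinv' : (U' ⊓ B.orthogonal U').map T ≤ U' ⊓ B.orthogonal U' :=
        le_trans (Submodule.map_inf_le T) (inf_le_inf hU'inv (perp_invariant hN hT hU'inv))
      rcases inv_eq_bot_or T r hrq hr0 hTr U' (le_trans hU'P hPR) hU'fin _ inf_le_left hinv' with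
        h | h
      · exfalso
        have h1 := even_finrank_of_nd_range hS hchar2 hN T hT r hr2 hrq hr0 hTr U' hU'inv (nd_of_inf_perp hS hchar2 h) (le_trans hU'P hPR)
        rw [hU'fin] at h1
        exact (Nat.not_even_iff_odd.mpr hodd) h1
      · rw [orth_iff_le_perp]
        exact inf_eq_left.mp h
    have horth : Orth B Q P := orth_iff_le_perp.mpr (le_trans hPZ inf_le_right)
    obtain ⟨hnd, hdim⟩ := nd_sup hS hchar2 hQnd hPnd horth
    obtain ⟨hti, htidim⟩ := ti_sup_finrank hS hchar2 hQnd horth hUQ hU'P hUti hU'ti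
    refine ⟨Q ⊔ P, U ⊔ U', sup_le hQR hPR, hnd, ?_, ?_, sup_le_sup hUQ hU'P, ?_, hti, ?_⟩
    · rw [Submodule.map_sup]
      exact sup_le_sup hQinv hPinv
    · rw [hdim, hQfin, hPfin, hexp]
      ring
    · rw [Submodule.map_sup]
      exact sup_le_sup hUinv hU'inv
    · rw [htidim, hUfin, hU'fin, hexp]

theorem exists_ti_inv_odd {F : Type*} [Field F] [Fintype F] {V : Type*} [AddCommGroup V]
    [Module F V] [FiniteDimensional F V] {B : LinearMap.BilinForm F V} (hS : B.IsSymm) (hchar2 : (2 : F) ≠ 0)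
    (hN : ND B ⊤) (T : Module.End F V) (hT : Isom B T) (r : ℕ) [Fact r.Prime] (hr2 : r ≠ 2)
    (hrq : ¬ r ∣ Fintype.card F) (hr0 : (r : F) ≠ 0) (hTr : T ^ r = 1)
    (hodd : Odd (orderOf ((Fintype.card F : ℕ) : ZMod r))) (b : ℕ)
    (hb : 2 * (orderOf ((Fintype.card F : ℕ) : ZMod r) * b) ≤
      finrank F (LinearMap.range (T - 1))) :
    ∃ U : Submodule F V, U ≤ LinearMap.range (T - 1) ∧ U.map T ≤ U ∧ Orth B U U ∧
      finrank F U = orderOf ((Fintype.card F : ℕ) : ZMod r) * b := by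
  obtain ⟨Q, U, hQR, -, -, -, hUQ, hUinv, hUti, hUfin⟩ :=
    exists_ti_inv_odd_aux hS hchar2 hN T hT r hr2 hrq hr0 hTr hodd b hb
  exact ⟨U, le_trans hUQ hQR, hUinv, hUti, hUfin⟩

end Cfsg.Agent.Lib.Helper98.O72
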