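import Cfsg.Agent.Lib.Helper46.O72TISUB
import Cfsg.Agent.Lib.Helper28.O72PLIN
import Cfsg.Agent.Lib.Helper98.O72Block
import Cfsg.Agent.Lib.Helper98.O72TI
import Cfsg.Agent.Lib.Helper98.O72TIOdd
import Cfsg.Agent.Lib.Helper8.SpPigeon
import Cfsg.Agent.Lib.Helper4.SpALG

/-!
Project O72 (S5972): symmetric-form twins of lemmas of `S5955.lean`.
-/

set_option autoImplicit false
set_option linter.unusedSectionVars false
set_option linter.unusedVariables false

namespace Cfsg.Agent.Lib.Helper98.O72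

open Module Polynomial Cfsg.Agent.Lib.Helper96.Sp Cfsg.Agent.Lib.Helper96.BG

variable {F : Type*} [Field F] [Fintype F] {V : Type*} [AddCommGroup V] [Module F V]
  [FiniteDimensional F V] {B : LinearMap.BilinForm F V}

theorem exists_ti_pair (hS : B.IsSymm) (hchar2 : (2 : F) ≠ 0) (hN : ND B ⊤)
    (T : Module.End F V) (hT : Isom B T) (r : ℕ) [Fact r.Prime] (hr2 : r ≠ 2)
    (hrq : ¬ r ∣ Fintype.card F) (hr0 : (r : F) ≠ 0) (hTr : T ^ r = 1)
    (heven : Even (orderOf ((Fintype.card F : ℕ) : ZMod r)))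
    (hi1 : 1 ≤ orderOf ((Fintype.card F : ℕ) : ZMod r))
    (Z : Submodule F V) (hZ : ND B Z ∧ Z.map T ≤ Z ∧ Z ≤ LinearMap.range (T - 1))
    (hZdim : (r - 1) + orderOf ((Fintype.card F : ℕ) : ZMod r) ≤ finrank F Z) :
    ∃ Q U : Submodule F V, Q ≤ Z ∧ (ND B Q ∧ Q.map T ≤ Q ∧ Q ≤ LinearMap.range (T - 1)) ∧
      finrank F Q = 2 * orderOf ((Fintype.card F : ℕ) : ZMod r) ∧ U ≤ Q ∧ U.map T ≤ U ∧
      Orth B U U ∧ finrank F U = orderOf ((Fintype.card F : ℕ) : ZMod r) := by
  have hblk : blk (Fintype.card F) r = orderOf ((Fintype.card F : ℕ) : ZMod r) := by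
    unfold blk
    rw [if_pos heven]
  obtain ⟨s, P, hP, hPorth, hPsup, hfin⟩ := orth_atoms hS hchar2 (blk (Fintype.card F) r)
    (by rw [hblk]; exact hi1)
    (fun W => ND B W ∧ W.map T ≤ W ∧ W ≤ LinearMap.range (T - 1)) (fun W h => h.1)
    (fun W hW hW0 => block_step hS hchar2 hN T hT r hr2 hrq hr0 hTr W hW hW0) Z hZ
  rw [hblk] at hfin
  have hs : (r - 1) / orderOf ((Fintype.card F : ℕ) : ZMod r) < s := by
    rw [Nat.div_lt_iff_lt_mul (by omega)]
    rw [hfin] at hZdim
    have : orderOf ((Fintype.card F : ℕ) : ZMod r) * s = s * orderOf ((Fintype.card F : ℕ) : ZMod r) :=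
      mul_comm _ _
    omega
  obtain ⟨j, j', hne, f, hf, hk1, hk2⟩ :=
    Cfsg.Agent.Lib.Helper8.SpPigeon.exists_same_type T r hrq hr0 hTr P
      (fun j => ⟨(hP j).1.2.1, (hP j).1.2.2, by rw [(hP j).2.1, hblk]⟩) hs
  obtain ⟨U, hU1, hU2, hU3, hU4⟩ :=
    exists_ti_of_same_type hS hchar2 hN T hT r hr2 hrq hr0 hTr
      (P j) (P j') (hP j).1 (by rw [(hP j).2.1, hblk]) (hP j').1 (by rw [(hP j').2.1, hblk])
      (hPorth j j' hne) f hf hk1 hk2
      (fun E _ _ σ h1 h2 a ha => Cfsg.Agent.Lib.Helper4.SpALG.exists_norm_eq σ h1 h2 a ha)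
  obtain ⟨hnd, hdim⟩ := nd_sup hS hchar2 (hP j).1.1 (hP j').1.1 (hPorth j j' hne)
  refine ⟨P j ⊔ P j', U, sup_le (hP j).2.2 (hP j').2.2, ⟨hnd, ?_, sup_le (hP j).1.2.2 (hP j').1.2.2⟩,
    ?_, hU1, hU2, hU3, hU4⟩
  · rw [Submodule.map_sup]
    exact sup_le_sup (hP j).1.2.1 (hP j').1.2.1
  · rw [hdim, (hP j).2.1, (hP j').2.1, hblk]
    ring

theorem exists_ti_inv_even (hS : B.IsSymm) (hchar2 : (2 : F) ≠ 0) (hN : ND B ⊤)
    (T : Module.End F V) (hT : Isom B T) (r : ℕ) [Fact r.Prime] (hr2 : r ≠ 2)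
    (hrq : ¬ r ∣ Fintype.card F) (hr0 : (r : F) ≠ 0) (hTr : T ^ r = 1)
    (heven : Even (orderOf ((Fintype.card F : ℕ) : ZMod r)))
    (hi1 : 1 ≤ orderOf ((Fintype.card F : ℕ) : ZMod r)) (b : ℕ)
    (hb : b ≠ 0 → (r - 1) + 2 * (orderOf ((Fintype.card F : ℕ) : ZMod r) * b) ≤
      finrank F (LinearMap.range (T - 1)) + orderOf ((Fintype.card F : ℕ) : ZMod r)) :
    ∃ Q U : Submodule F V, Q ≤ LinearMap.range (T - 1) ∧ ND B Q ∧ Q.map T ≤ Q ∧
      finrank F Q = 2 * (orderOf ((Fintype.card F : ℕ) : ZMod r) * b) ∧ U ≤ Q ∧ U.map T ≤ U ∧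
      Orth B U U ∧ finrank F U = orderOf ((Fintype.card F : ℕ) : ZMod r) * b := by
  induction b with
  | zero =>
    refine ⟨⊥, ⊥, bot_le, nd_bot, by rw [Submodule.map_bot], by rw [finrank_bot, mul_zero, mul_zero],
      le_rfl, by rw [Submodule.map_bot], ?_, by rw [finrank_bot, mul_zero]⟩
    intro u hu v hv
    rw [Submodule.mem_bot] at hu
    rw [hu, map_zero, LinearMap.zero_apply]
  | succ b ih =>
    have hb' := hb (Nat.succ_ne_zero b)
    have hexp : orderOf ((Fintype.card F : ℕ) : ZMod r) * (b + 1) =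
        orderOf ((Fintype.card F : ℕ) : ZMod r) * b + orderOf ((Fintype.card F : ℕ) : ZMod r) := by
      ring
    rw [hexp] at hb'
    obtain ⟨Q, U, hQR, hQnd, hQinv, hQfin, hUQ, hUinv, hUti, hUfin⟩ := ih (fun _ => by omega)
    have hRnd := nd_range hS hchar2 hN T hT r hrq hr0 hTr
    obtain ⟨hZnd, -, hZfin⟩ := nd_rel hS hchar2 hQnd hRnd hQR
    have hZinv : (LinearMap.range (T - 1) ⊓ B.orthogonal Q).map T ≤
        LinearMap.range (T - 1) ⊓ B.orthogonal Q := by
      refine le_trans (Submodule.map_inf_le T) (inf_le_inf (range_map_le T) ?_)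
      exact perp_invariant hN hT hQinv
    obtain ⟨Q', U', hQ'Z, ⟨hQ'nd, hQ'inv, hQ'R⟩, hQ'fin, hU'Q', hU'inv, hU'ti, hU'fin⟩ :=
      exists_ti_pair hS hchar2 hN T hT r hr2 hrq hr0 hTr heven hi1
        (LinearMap.range (T - 1) ⊓ B.orthogonal Q) ⟨hZnd, hZinv, inf_le_left⟩ (by omega)
    have horth : Orth B Q Q' := orth_iff_le_perp.mpr (le_trans hQ'Z inf_le_right)
    obtain ⟨hnd, hdim⟩ := nd_sup hS hchar2 hQnd hQ'nd horth
    obtain ⟨hti, htidim⟩ := ti_sup_finrank hS hchar2 hQnd horth hUQ hU'Q' hUti hU'ti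
    refine ⟨Q ⊔ Q', U ⊔ U', sup_le hQR hQ'R, hnd, ?_, ?_, sup_le_sup hUQ hU'Q', ?_, hti, ?_⟩
    · rw [Submodule.map_sup]
      exact sup_le_sup hQinv hQ'inv
    · rw [hdim, hQfin, hQ'fin, hexp]
      ring
    · rw [Submodule.map_sup]
      exact sup_le_sup hUinv hU'inv
    · rw [htidim, hUfin, hU'fin, hexp]

theorem exists_ti_inv_of_pow (hS : B.IsSymm) (hchar2 : (2 : F) ≠ 0) (hN : ND B ⊤)
    (T : Module.End F V) (hT : Isom B T) (r : ℕ) [Fact r.Prime] (hr2 : r ≠ 2)
    (hrq : ¬ r ∣ Fintype.card F) (hr0 : (r : F) ≠ 0) (hTr : T ^ r = 1)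
    (hi1 : 1 ≤ orderOf ((Fintype.card F : ℕ) : ZMod r)) (d m : ℕ)
    (hV : finrank F V = (2 * d + 1)) (hmd : m ≤ d)
    (hk : 2 * (m % orderOf ((Fintype.card F : ℕ) : ZMod r)) ≤ ((2 * d + 1)) % blk (Fintype.card F) r)
    (hcond : Odd (orderOf ((Fintype.card F : ℕ) : ZMod r)) ∨
      (r - 1) / orderOf ((Fintype.card F : ℕ) : ZMod r) +
        2 * (m / orderOf ((Fintype.card F : ℕ) : ZMod r)) ≤
        ((2 * d + 1)) / orderOf ((Fintype.card F : ℕ) : ZMod r)) :
    ∃ W : Submodule F V, W.map T ≤ W ∧ Orth B W W ∧ finrank F W = m := by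
  have hr : r.Prime := Fact.out
  have hKnd := nd_ker hS hchar2 hN T hT r hrq hr0 hTr
  have hRnd := nd_range hS hchar2 hN T hT r hrq hr0 hTr
  have hdimKR := LinearMap.finrank_range_add_finrank_ker (T - 1)
  rw [hV] at hdimKR
  obtain ⟨A, hA'⟩ := blk_dvd_range hS hchar2 hN T hT r hr2 hrq hr0 hTr (LinearMap.range (T - 1))
    (range_map_le T) hRnd le_rfl
  have hKmod : ((2 * d + 1)) % blk (Fintype.card F) r ≤ finrank F (LinearMap.ker (T - 1)) := by
    have h1 : (2 * d + 1) = finrank F (LinearMap.ker (T - 1)) + blk (Fintype.card F) r * A := by omega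
    rw [h1, Nat.add_mul_mod_self_left]
    exact Nat.mod_le _ _
  -- the commutator part
  have key : ∃ (b : ℕ) (U : Submodule F V), U ≤ LinearMap.range (T - 1) ∧ U.map T ≤ U ∧
      Orth B U U ∧ finrank F U = orderOf ((Fintype.card F : ℕ) : ZMod r) * b ∧
      orderOf ((Fintype.card F : ℕ) : ZMod r) * b ≤ m ∧
      2 * (m - orderOf ((Fintype.card F : ℕ) : ZMod r) * b) ≤
        finrank F (LinearMap.ker (T - 1)) := by
    generalize hidef : orderOf ((Fintype.card F : ℕ) : ZMod r) = i at *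
    have hdivmul : i * (m / i) ≤ m := Nat.mul_div_le m i
    have hmodeq : m - i * (m / i) = m % i := by
      have := Nat.div_add_mod m i
      omega
    by_cases hodd : Odd i
    · have hblk : blk (Fintype.card F) r = 2 * i := by
        unfold blk
        rw [hidef, if_neg (Nat.not_even_iff_odd.mpr hodd)]
      rw [hblk] at hA' hKmod hk
      have hle : 2 * (i * min (m / i) A) ≤ finrank F (LinearMap.range (T - 1)) := by
        rw [hA']
        have : i * min (m / i) A ≤ i * A := Nat.mul_le_mul_left i (min_le_right _ _)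
        have e : 2 * i * A = 2 * (i * A) := by ring
        omega
      obtain ⟨U, hU1, hU2, hU3, hU4⟩ :=
        exists_ti_inv_odd hS hchar2 hN T hT r hr2 hrq hr0 hTr
          (by rw [hidef]; exact hodd) (min (m / i) A) (by rw [hidef]; exact hle)
      rw [hidef] at hU4
      refine ⟨min (m / i) A, U, hU1, hU2, hU3, hU4, ?_, ?_⟩
      · exact le_trans (Nat.mul_le_mul_left i (min_le_left _ _)) hdivmul
      · rcases le_total (m / i) A with h | h
        · rw [min_eq_left h, hmodeq]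
          omega
        · rw [min_eq_right h]
          have e : 2 * i * A = 2 * (i * A) := by ring
          omega
    · have heven : Even i := Nat.not_odd_iff_even.mp hodd
      have hblk : blk (Fintype.card F) r = i := by
        unfold blk
        rw [hidef, if_pos heven]
      rw [hblk] at hA' hKmod hk
      have hcond' : (r - 1) / i + 2 * (m / i) ≤ ((2 * d + 1)) / i := by
        rcases hcond with h | h
        · exact absurd h hodd
        · exact h
      have hit : i * ((r - 1) / i) = r - 1 := by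
        apply Nat.mul_div_cancel'
        rw [← hidef]
        apply ZMod.orderOf_dvd_card_sub_one
        intro h0
        exact hrq ((ZMod.natCast_eq_zero_iff _ _).mp h0)
      generalize htdef : (r - 1) / i = t at *
      have hmul1 : i * min (m / i) ((A + 1 - t) / 2) ≤ i * (m / i) :=
        Nat.mul_le_mul_left i (min_le_left _ _)
      have hEven : ∃ Q U : Submodule F V, Q ≤ LinearMap.range (T - 1) ∧ ND B Q ∧ Q.map T ≤ Q ∧
          finrank F Q = 2 * (i * min (m / i) ((A + 1 - t) / 2)) ∧ U ≤ Q ∧ U.map T ≤ U ∧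
          Orth B U U ∧ finrank F U = i * min (m / i) ((A + 1 - t) / 2) := by
        have := exists_ti_inv_even hS hchar2 hN T hT r hr2 hrq hr0 hTr (by rw [hidef]; exact heven)
          (by rw [hidef]; exact hi1) (min (m / i) ((A + 1 - t) / 2)) (by
            rw [hidef]
            intro hb0
            have h1 : min (m / i) ((A + 1 - t) / 2) ≤ (A + 1 - t) / 2 := min_le_right _ _
            have h2 : 2 * min (m / i) ((A + 1 - t) / 2) + t ≤ A + 1 := by omega
            have h3 := Nat.mul_le_mul_left i h2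
            have e1 : i * (2 * min (m / i) ((A + 1 - t) / 2) + t) =
                2 * (i * min (m / i) ((A + 1 - t) / 2)) + i * t := by ring
            have e2 : i * (A + 1) = i * A + i := by ring
            rw [e1, e2] at h3
            omega)
        rw [hidef] at this
        exact this
      obtain ⟨Q, U, hQ1, -, -, -, hUQ, hU2, hU3, hU4⟩ := hEven
      refine ⟨min (m / i) ((A + 1 - t) / 2), U, le_trans hUQ hQ1, hU2, hU3, hU4,
        le_trans hmul1 hdivmul, ?_⟩
      rcases le_total (m / i) ((A + 1 - t) / 2) with h | h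
      · rw [min_eq_left h, hmodeq]
        omega
      · rw [min_eq_right h]
        -- A ≤ 2 s₀ + t
        have h1 : A ≤ 2 * ((A + 1 - t) / 2) + t := by omega
        have h2 := Nat.mul_le_mul_left i h1
        have e1 : i * (2 * ((A + 1 - t) / 2) + t) = 2 * (i * ((A + 1 - t) / 2)) + i * t := by ring
        rw [e1] at h2
        have h3 := Nat.mul_le_mul_left i hcond'
        have e2 : i * (t + 2 * (m / i)) = i * t + 2 * (i * (m / i)) := by ring
        rw [e2] at h3
        have h4 : i * ((2 * d + 1) / i) + ((2 * d + 1)) % i = (2 * d + 1) := Nat.div_add_mod ((2 * d + 1)) i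
        have h5 := Nat.div_add_mod m i
        omega
  obtain ⟨b, U, hU1, hU2, hU3, hU4, hbm, hbK⟩ := key
  have hbK' : 2 * (m - orderOf ((Fintype.card F : ℕ) : ZMod r) * b) + 1 ≤
      finrank F (LinearMap.ker (T - 1)) := by
    obtain ⟨e, he⟩ : Even (blk (Fintype.card F) r * A) :=
      (blk_even (Fintype.card F) r).mul_right A
    omega
  obtain ⟨U', hU'1, hU'2, hU'3⟩ := exists_ti_sub hS hchar2 hN (LinearMap.ker (T - 1)) hKnd
    (m - orderOf ((Fintype.card F : ℕ) : ZMod r) * b) hbK'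
  have horth : Orth B (LinearMap.range (T - 1)) (LinearMap.ker (T - 1)) :=
    orth_symm hS hchar2 (orth_ker_range hT)
  obtain ⟨hti, hdim⟩ := ti_sup_finrank hS hchar2 hRnd horth hU1 hU'1 hU3 hU'2
  refine ⟨U ⊔ U', ?_, hti, ?_⟩
  · rw [Submodule.map_sup]
    refine sup_le_sup hU2 ?_
    rintro _ ⟨u, hu, rfl⟩
    have h1 : u ∈ LinearMap.ker (T - 1) := hU'1 hu
    rw [LinearMap.mem_ker, LinearMap.sub_apply, sub_eq_zero] at h1
    rw [h1]
    exact hu
  · rw [hdim, hU4, hU'3]
    omega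

end Cfsg.Agent.Lib.Helper98.O72
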