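import Mathlib
import Cfsg.Agent.Lib.Helper18.Symp
import Cfsg.Agent.Lib.Helper47.ClassicalEmb
import Cfsg.Agent.S0245
import Cfsg.Agent.S0775

/-!
# Derangements of odd prime order on pairs of complementary Lagrangians

Helper library (helper98): the number of ordered pairs of complementary totally isotropic
subspaces of the symplectic space divides `q^(d(d+1)/2) ∏ (q^i + 1)`, a symplectic matrix of
prime order with small support, and the proof that such a matrix fixes no pair.
-/

set_option autoImplicit false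

namespace Cfsg.Agent.Lib.Helper98

open Matrix Module Cfsg.Agent.Lib.Helper18

section LagDerLinear

variable {F : Type*} [Field F]

/-- For `X` of order prime to the characteristic, `ker (X - 1)` meets `range (X - 1)`
trivially. -/
theorem lagder_ker_range {p : ℕ} [Fact p.Prime] [CharP F p] {V : Type*} [AddCommGroup V]
    [Module F V] (X : V →ₗ[F] V) (r : ℕ) (hr : r.Prime) (hrp : r ≠ p) (hX : X ^ r = 1)
    (u : V) (h : X ((X - 1) u) = (X - 1) u) : (X - 1) u = 0 := by
  have h1 : ∀ k : ℕ, (X ^ k) ((X - 1) u) = (X - 1) u := by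
    intro k
    induction k with
    | zero => simp
    | succ k ih => rw [pow_succ, Module.End.mul_apply, h, ih]
  have h2 : (∑ k ∈ Finset.range r, X ^ k) ((X - 1) u) = (r : F) • ((X - 1) u) := by
    rw [LinearMap.sum_apply, Finset.sum_congr rfl (fun k _ => h1 k), Finset.sum_const,
      Finset.card_range, Nat.cast_smul_eq_nsmul]
  have h3 : (∑ k ∈ Finset.range r, X ^ k) * (X - 1) = X ^ r - 1 := geom_sum_mul X r
  have h4 : (∑ k ∈ Finset.range r, X ^ k) ((X - 1) u) = 0 := by
    rw [← Module.End.mul_apply, h3, hX, sub_self, LinearMap.zero_apply]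
  have hr0 : (r : F) ≠ 0 := by
    intro h0
    have h5 := (CharP.cast_eq_zero_iff F p r).mp h0
    exact hrp ((Nat.prime_dvd_prime_iff_eq Fact.out hr).mp h5).symm
  rw [h2] at h4
  exact (smul_eq_zero.mp h4).resolve_left hr0

/-- An `X`-invariant subspace of `range (X - 1)` has dimension divisible by the order of `q`
modulo `r`. -/
theorem lagder_dvd_finrank [Fintype F] {p : ℕ} [Fact p.Prime] [CharP F p] {V : Type*}
    [AddCommGroup V] [Module F V] [Finite V] (X : V →ₗ[F] V) (r : ℕ) [Fact r.Prime]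
    (hrp : r ≠ p) (hX : X ^ r = 1) (S : Submodule F V) (hSR : S ≤ LinearMap.range (X - 1))
    (hSX : ∀ v ∈ S, X v ∈ S) :
    orderOf ((Fintype.card F : ℕ) : ZMod r) ∣ finrank F S := by
  classical
  have hfinS : Fintype S := Fintype.ofFinite S
  obtain ⟨f, hf⟩ : ∃ f : Function.End S, ∀ v : S, ((f v : S) : V) = X (v : V) :=
    ⟨fun v => ⟨X v, hSX v v.2⟩, fun v => rfl⟩
  have hk : ∀ (k : ℕ) (v : S), (((f ^ k) v : S) : V) = (X ^ k) (v : V) := by
    intro k
    induction k with
    | zero => intro v; rfl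
    | succ k ih =>
      intro v
      rw [pow_succ', pow_succ']
      change ((f ((f ^ k) v) : S) : V) = X ((X ^ k) (v : V))
      rw [hf, ih]
  have hfr : f ^ r ^ 1 = 1 := by
    rw [pow_one]
    funext v
    apply Subtype.ext
    rw [hk, hX]
    rfl
  have key := Equiv.Perm.card_fixedPoints_modEq (p := r) (n := 1) hfr
  have hfix : Nat.card (Function.fixedPoints f) = 1 := by
    rw [Nat.card_eq_one_iff_unique]
    refine ⟨⟨?_⟩, ⟨⟨0, ?_⟩⟩⟩
    · rintro ⟨a, ha⟩ ⟨b, hb⟩
      have hz : ∀ c : S, f c = c → c = 0 := by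
        intro c hc
        have h1 : X (c : V) = (c : V) := by rw [← hf, hc]
        obtain ⟨u, hu⟩ := hSR c.2
        rw [← hu] at h1
        have := lagder_ker_range X r Fact.out hrp hX u h1
        apply Subtype.ext
        rw [← hu, this]
        rfl
      apply Subtype.ext
      change a = b
      rw [hz a ha, hz b hb]
    · apply Subtype.ext
      rw [hf]
      simp
  rw [Fintype.card_eq_nat_card (α := Function.fixedPoints f), hfix,
    Module.card_eq_pow_finrank (K := F) (V := S)] at key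
  have h2 : (((Fintype.card F ^ finrank F S : ℕ)) : ZMod r) = ((1 : ℕ) : ZMod r) :=
    (ZMod.natCast_eq_natCast_iff _ _ _).mpr key
  rw [Nat.cast_pow, Nat.cast_one] at h2
  exact orderOf_dvd_of_pow_eq_one h2

/-- A symplectic matrix of odd prime order `r` (prime to the characteristic) whose support has
dimension at most the order of `q` modulo `r` neither fixes nor swaps a pair of complementary
totally isotropic subspaces. -/
theorem lagder_no_fixed_pair [Fintype F] {p : ℕ} [Fact p.Prime] [CharP F p] (d : ℕ) (hd : 1 ≤ d)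
    (r : ℕ) [Fact r.Prime] (hr2 : r ≠ 2) (hrp : r ≠ p)
    (x : Matrix.symplecticGroup (Fin d) F) (hxr : x ^ r = 1) (hx1 : x ≠ 1)
    (hrank : (x.1 - 1).rank ≤ orderOf ((Fintype.card F : ℕ) : ZMod r))
    (U W : Submodule F (Fin d ⊕ Fin d → F)) (hUW : IsCompl U W)
    (hU : ∀ u ∈ U, ∀ v ∈ U, Cfsg.sympForm d F u v = 0)
    (hW : ∀ u ∈ W, ∀ v ∈ W, Cfsg.sympForm d F u v = 0)
    (h : (U.map (Matrix.toLin' x.1) = U ∧ W.map (Matrix.toLin' x.1) = W) ∨
         (U.map (Matrix.toLin' x.1) = W ∧ W.map (Matrix.toLin' x.1) = U)) : False := by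
  classical
  obtain ⟨X, hXdef⟩ : ∃ X : (Fin d ⊕ Fin d → F) →ₗ[F] (Fin d ⊕ Fin d → F),
      X = Matrix.toLin' x.1 := ⟨_, rfl⟩
  rw [← hXdef] at h
  have hXr : X ^ r = 1 := by
    rw [hXdef, ← Matrix.toLin'_pow, ← SubmonoidClass.coe_pow, hxr]
    simp [Module.End.one_eq_id]
  have hiso : ∀ u v, sympB d (X u) (X v) = sympB d u v := fun u v => by
    rw [hXdef]; exact symplectic_isometry d x.1 x.2 u v
  have hne : Nonempty (Fin d ⊕ Fin d) := ⟨Sum.inl ⟨0, hd⟩⟩
  rcases h with ⟨h1, h2⟩ | ⟨h1, h2⟩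
  swap
  · -- an element of odd order cannot swap
    have hoddk : ∀ k : ℕ, U.map (X ^ (2 * k + 1)) = W := by
      intro k
      induction k with
      | zero => simpa using h1
      | succ k ih =>
        have e : X ^ (2 * (k + 1) + 1) = X ^ (2 * k + 1) * (X * X) := by
          rw [← pow_two, ← pow_add, show 2 * (k + 1) + 1 = 2 * k + 1 + 2 by ring]
        rw [e, Module.End.mul_eq_comp, Submodule.map_comp, Module.End.mul_eq_comp,
          Submodule.map_comp, h1, h2, ih]
    obtain ⟨k, hk⟩ : ∃ k, r = 2 * k + 1 :=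
      ((Fact.out : r.Prime).eq_two_or_odd'.resolve_left hr2)
    have h3 := hoddk k
    rw [← hk, hXr, Module.End.one_eq_id, Submodule.map_id] at h3
    subst h3
    have hb : U = ⊥ := by simpa using hUW.inf_eq_bot
    have ht : U = ⊤ := by simpa using hUW.sup_eq_top
    exact bot_ne_top (hb.symm.trans ht)
  · obtain ⟨Nm, hNm⟩ : ∃ Nm : (Fin d ⊕ Fin d → F) →ₗ[F] (Fin d ⊕ Fin d → F), Nm = X - 1 :=
      ⟨_, rfl⟩
    have hNa : ∀ u, Nm u = X u - u := fun u => by rw [hNm]; rfl
    have hA : ∀ u, X (Nm u) = Nm u → Nm u = 0 := fun u hu => by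
      rw [hNm] at hu ⊢
      exact lagder_ker_range X r Fact.out hrp hXr u hu
    have hcomm : ∀ u, X (Nm u) = Nm (X u) := by
      intro u; rw [hNa, hNa, map_sub]
    have hmemU : ∀ u ∈ U, X u ∈ U := fun u hu => by
      have := Submodule.mem_map_of_mem (f := X) hu
      rwa [h1] at this
    have hmemW : ∀ u ∈ W, X u ∈ W := fun u hu => by
      have := Submodule.mem_map_of_mem (f := X) hu
      rwa [h2] at this
    have hSU_le : U.map Nm ≤ U := by
      rintro _ ⟨u, hu, rfl⟩
      rw [hNa]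
      exact U.sub_mem (hmemU u hu) hu
    have hSW_le : W.map Nm ≤ W := by
      rintro _ ⟨u, hu, rfl⟩
      rw [hNa]
      exact W.sub_mem (hmemW u hu) hu
    have hSU_X : ∀ v ∈ U.map Nm, X v ∈ U.map Nm := by
      rintro _ ⟨u, hu, rfl⟩
      rw [hcomm]
      exact ⟨X u, hmemU u hu, rfl⟩
    have hSW_X : ∀ v ∈ W.map Nm, X v ∈ W.map Nm := by
      rintro _ ⟨u, hu, rfl⟩
      rw [hcomm]
      exact ⟨X u, hmemW u hu, rfl⟩
    have hdU := lagder_dvd_finrank X r hrp hXr (U.map Nm)
      (by rw [hNm]; exact LinearMap.map_le_range) (by rw [hNm] at hSU_X ⊢; exact hSU_X)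
    have hdW := lagder_dvd_finrank X r hrp hXr (W.map Nm)
      (by rw [hNm]; exact LinearMap.map_le_range) (by rw [hNm] at hSW_X ⊢; exact hSW_X)
    have hsup : U.map Nm ⊔ W.map Nm = LinearMap.range Nm := by
      rw [← Submodule.map_sup, hUW.sup_eq_top, Submodule.map_top]
    have hinf : U.map Nm ⊓ W.map Nm = ⊥ :=
      eq_bot_iff.mpr (le_trans (inf_le_inf hSU_le hSW_le) hUW.inf_eq_bot.le)
    have hfr : finrank F (LinearMap.range Nm)
        = finrank F (U.map Nm) + finrank F (W.map Nm) := by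
      have := Submodule.finrank_sup_add_finrank_inf_eq (U.map Nm) (W.map Nm)
      rw [hsup, hinf, finrank_bot, add_zero] at this
      exact this
    have hrk : finrank F (LinearMap.range Nm) = (x.1 - 1).rank := by
      have e : Nm = (x.1 - 1).mulVecLin := by
        apply LinearMap.ext
        intro v
        rw [hNa, hXdef, Matrix.toLin'_apply, Matrix.mulVecLin_apply, Matrix.sub_mulVec,
          Matrix.one_mulVec]
      rw [e, Matrix.rank]
    have hNm0 : Nm ≠ 0 := by
      intro h0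
      apply hx1
      apply Subtype.ext
      apply Matrix.toLin'.injective
      rw [← hXdef]
      have : X - 1 = 0 := by rw [← hNm, h0]
      rw [sub_eq_zero.mp this]
      simp [Module.End.one_eq_id]
    have hti_of : (∀ u, Nm u ∈ U) ∨ (∀ u, Nm u ∈ W) → False := by
      intro hcase
      have hti : ∀ u v, sympB d (Nm u) (Nm v) = 0 := by
        intro u v
        rw [sympB_eq_sympForm]
        rcases hcase with hc | hc
        · exact hU _ (hc u) _ (hc v)
        · exact hW _ (hc u) _ (hc v)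
      have hsurj : ∀ v, ∃ b, X b = v := by
        intro v
        refine ⟨(X ^ (r - 1)) v, ?_⟩
        rw [← Module.End.mul_apply, ← pow_succ',
          Nat.sub_add_cancel (Fact.out : r.Prime).one_lt.le, hXr]
        rfl
      have hN2 : ∀ u, Nm (Nm u) = 0 := by
        intro u
        apply (sympB_nondegenerate (F := F) d).1
        intro v
        obtain ⟨b, rfl⟩ := hsurj v
        have e1 : sympB d (Nm (Nm u)) (X b) = - sympB d (Nm u) (Nm b) := by
          rw [hNa (Nm u), hNa b, map_sub, map_sub, LinearMap.sub_apply, hiso]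
          ring
        rw [e1, hti, neg_zero]
      apply hNm0
      apply LinearMap.ext
      intro u
      apply hA
      have := hN2 u
      rw [hNa (Nm u), sub_eq_zero] at this
      exact this
    have hpos : 0 < finrank F (LinearMap.range Nm) := by
      rw [Nat.pos_iff_ne_zero]
      intro h0
      apply hNm0
      rw [Submodule.finrank_eq_zero] at h0
      exact LinearMap.range_eq_bot.mp h0
    rw [← hrk] at hrank
    have hcases : finrank F (U.map Nm) = 0 ∨ finrank F (W.map Nm) = 0 := by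
      by_contra hcon
      rw [not_or] at hcon
      have h3 := Nat.le_of_dvd (Nat.pos_of_ne_zero hcon.1) hdU
      have h4 := Nat.le_of_dvd (Nat.pos_of_ne_zero hcon.2) hdW
      omega
    apply hti_of
    rcases hcases with hc | hc
    · right
      rw [Submodule.finrank_eq_zero] at hc
      rw [hc, bot_sup_eq] at hsup
      intro u
      exact hSW_le (hsup ▸ LinearMap.mem_range_self Nm u)
    · left
      rw [Submodule.finrank_eq_zero] at hc
      rw [hc, sup_bot_eq] at hsup
      intro u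
      exact hSU_le (hsup ▸ LinearMap.mem_range_self Nm u)

end LagDerLinear

section LagDerBlock

variable {F : Type*} [Field F]

/-- The inclusion `F^a → F^d` as a `0/1` matrix. -/
def lagderE0 (a d : ℕ) (h : a ≤ d) (F : Type*) [Field F] : Matrix (Fin d) (Fin a) F :=
  Matrix.of fun i j => if i = Fin.castLE h j then 1 else 0

theorem lagderE0_mul (a d : ℕ) (h : a ≤ d) :
    (lagderE0 a d h F)ᵀ * lagderE0 a d h F = 1 := by
  ext j j'
  rw [Matrix.mul_apply, Matrix.one_apply]
  simp only [lagderE0, Matrix.transpose_apply, Matrix.of_apply, ite_mul, one_mul, zero_mul,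
    Finset.sum_ite_eq', Finset.mem_univ, if_true]
  by_cases hj : j = j'
  · subst hj; simp
  · rw [if_neg hj, if_neg]
    intro h'
    exact hj (Fin.castLE_injective h h')

/-- The inclusion `F^(2a) → F^(2d)` compatible with the symplectic forms. -/
def lagderE (a d : ℕ) (h : a ≤ d) (F : Type*) [Field F] :
    Matrix (Fin d ⊕ Fin d) (Fin a ⊕ Fin a) F :=
  Matrix.fromBlocks (lagderE0 a d h F) 0 0 (lagderE0 a d h F)

theorem lagderE_mul (a d : ℕ) (h : a ≤ d) :
    (lagderE a d h F)ᵀ * lagderE a d h F = 1 := by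
  rw [lagderE, Matrix.fromBlocks_transpose, Matrix.fromBlocks_multiply]
  simp [lagderE0_mul, Matrix.fromBlocks_one]

theorem lagderE_J (a d : ℕ) (h : a ≤ d) :
    Matrix.J (Fin d) F * lagderE a d h F = lagderE a d h F * Matrix.J (Fin a) F := by
  rw [lagderE, Matrix.J, Matrix.J, Matrix.fromBlocks_multiply, Matrix.fromBlocks_multiply]
  simp

theorem lagderE_J' (a d : ℕ) (h : a ≤ d) :
    (lagderE a d h F)ᵀ * Matrix.J (Fin d) F = Matrix.J (Fin a) F * (lagderE a d h F)ᵀ := by
  have h1 := congrArg Matrix.transpose (lagderE_J (F := F) a d h)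
  rw [Matrix.transpose_mul, Matrix.transpose_mul, Matrix.J_transpose, Matrix.J_transpose] at h1
  rw [Matrix.mul_neg, Matrix.neg_mul] at h1
  exact neg_injective h1

/-- The block embedding `Y ↦ diag(Y, 1)` in the adapted coordinates. -/
def lagderPsi (a d : ℕ) (h : a ≤ d) (Y : Matrix (Fin a ⊕ Fin a) (Fin a ⊕ Fin a) F) :
    Matrix (Fin d ⊕ Fin d) (Fin d ⊕ Fin d) F :=
  lagderE a d h F * Y * (lagderE a d h F)ᵀ + (1 - lagderE a d h F * (lagderE a d h F)ᵀ)

theorem lagderPsi_one (a d : ℕ) (h : a ≤ d) : lagderPsi (F := F) a d h 1 = 1 := by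
  rw [lagderPsi, Matrix.mul_one]
  abel

theorem lagderPsi_mul (a d : ℕ) (h : a ≤ d) (Y Z : Matrix (Fin a ⊕ Fin a) (Fin a ⊕ Fin a) F) :
    lagderPsi a d h Y * lagderPsi a d h Z = lagderPsi a d h (Y * Z) := by
  have hE : ∀ {n : Type} [Fintype n] (M : Matrix (Fin a ⊕ Fin a) n F),
      (lagderE a d h F)ᵀ * (lagderE a d h F * M) = M := by
    intro n _ M
    rw [← Matrix.mul_assoc, lagderE_mul, Matrix.one_mul]
  unfold lagderPsi
  simp only [Matrix.add_mul, Matrix.mul_add, Matrix.sub_mul, Matrix.mul_sub, Matrix.mul_assoc,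
    hE, Matrix.mul_one, Matrix.one_mul]
  abel

theorem lagderPsi_pow (a d : ℕ) (h : a ≤ d) (Y : Matrix (Fin a ⊕ Fin a) (Fin a ⊕ Fin a) F)
    (k : ℕ) : lagderPsi a d h Y ^ k = lagderPsi a d h (Y ^ k) := by
  induction k with
  | zero => rw [pow_zero, pow_zero, lagderPsi_one]
  | succ k ih => rw [pow_succ, pow_succ, ih, lagderPsi_mul]

theorem lagderPsi_inj (a d : ℕ) (h : a ≤ d) (Y : Matrix (Fin a ⊕ Fin a) (Fin a ⊕ Fin a) F)
    (hY : lagderPsi a d h Y = 1) : Y = 1 := by
  have h1 : (lagderE a d h F)ᵀ * lagderPsi a d h Y * lagderE a d h F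
      = (lagderE a d h F)ᵀ * (1 : Matrix (Fin d ⊕ Fin d) (Fin d ⊕ Fin d) F)
        * lagderE a d h F := by rw [hY]
  unfold lagderPsi at h1
  simp only [Matrix.add_mul, Matrix.mul_add, Matrix.sub_mul, Matrix.mul_sub, Matrix.mul_assoc,
    lagderE_mul, Matrix.mul_one, Matrix.one_mul] at h1
  have hE : ∀ (M : Matrix (Fin a ⊕ Fin a) (Fin a ⊕ Fin a) F),
      (lagderE a d h F)ᵀ * (lagderE a d h F * M) = M := by
    intro M
    rw [← Matrix.mul_assoc, lagderE_mul, Matrix.one_mul]
  simpa [hE] using h1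

theorem lagderPsi_mem (a d : ℕ) (h : a ≤ d) (Y : Matrix (Fin a ⊕ Fin a) (Fin a ⊕ Fin a) F)
    (hY : Y ∈ Matrix.symplecticGroup (Fin a) F) :
    lagderPsi a d h Y ∈ Matrix.symplecticGroup (Fin d) F := by
  rw [SymplecticGroup.mem_iff] at hY ⊢
  have hE : ∀ {n : Type} [Fintype n] (M : Matrix (Fin a ⊕ Fin a) n F),
      (lagderE a d h F)ᵀ * (lagderE a d h F * M) = M := by
    intro n _ M
    rw [← Matrix.mul_assoc, lagderE_mul, Matrix.one_mul]
  have hJ1 : ∀ {n : Type} [Fintype n] (M : Matrix (Fin a ⊕ Fin a) n F),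
      Matrix.J (Fin d) F * (lagderE a d h F * M)
        = lagderE a d h F * (Matrix.J (Fin a) F * M) := by
    intro n _ M
    rw [← Matrix.mul_assoc, lagderE_J, Matrix.mul_assoc]
  have hJ2 : ∀ {n : Type} [Fintype n] (M : Matrix (Fin d ⊕ Fin d) n F),
      (lagderE a d h F)ᵀ * (Matrix.J (Fin d) F * M)
        = Matrix.J (Fin a) F * ((lagderE a d h F)ᵀ * M) := by
    intro n _ M
    rw [← Matrix.mul_assoc, lagderE_J', Matrix.mul_assoc]
  have hY' : ∀ {n : Type} [Fintype n] (M : Matrix (Fin a ⊕ Fin a) n F),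
      Y * (Matrix.J (Fin a) F * (Yᵀ * M)) = Matrix.J (Fin a) F * M := by
    intro n _ M
    rw [← Matrix.mul_assoc, ← Matrix.mul_assoc, hY]
  have hT : (lagderPsi a d h Y)ᵀ
      = lagderE a d h F * Yᵀ * (lagderE a d h F)ᵀ
        + (1 - lagderE a d h F * (lagderE a d h F)ᵀ) := by
    unfold lagderPsi
    simp [Matrix.transpose_mul, Matrix.mul_assoc]
  rw [hT]
  unfold lagderPsi
  have hY'' : Y * (Matrix.J (Fin a) F * Yᵀ) = Matrix.J (Fin a) F := by
    rw [← Matrix.mul_assoc, hY]
  simp only [Matrix.add_mul, Matrix.mul_add, Matrix.sub_mul, Matrix.mul_sub, Matrix.mul_assoc,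
    hE, hJ1, hJ2, hY', hY'', lagderE_J', lagderE_J, Matrix.mul_one, Matrix.one_mul]
  abel

/-- A symplectic matrix of prime order `r` whose support has dimension at most `2a`, when
`r` divides `q^(2a) - 1`. -/
theorem lagder_exists_small [Fintype F] {q : ℕ} (hq : Fintype.card F = q) (a d : ℕ)
    (ha : 1 ≤ a) (had : a ≤ d) (r : ℕ) [Fact r.Prime] (hr : r ∣ q ^ (2 * a) - 1) :
    ∃ x : Matrix.symplecticGroup (Fin d) F, x ^ r = 1 ∧ x ≠ 1 ∧ (x.1 - 1).rank ≤ 2 * a := by
  classical
  have hcard := Cfsg.Agent.S0245.result hq a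
  have hdvd : r ∣ Nat.card (Matrix.symplecticGroup (Fin a) F) := by
    rw [hcard]
    apply Dvd.dvd.mul_left
    apply dvd_trans _ (Finset.dvd_prod_of_mem _ (Finset.mem_range.mpr (Nat.sub_lt ha one_pos)))
    rw [Nat.sub_add_cancel ha]
    exact hr
  have hfin : Finite (Matrix.symplecticGroup (Fin a) F) := Subtype.finite
  obtain ⟨Y, hY⟩ := exists_prime_orderOf_dvd_card' r hdvd
  have hYr : Y.1 ^ r = 1 := by
    rw [← SubmonoidClass.coe_pow, ← hY, pow_orderOf_eq_one]
    rfl
  have hY1 : Y.1 ≠ 1 := by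
    intro h1
    have h2 : Y = 1 := Subtype.ext h1
    rw [h2, orderOf_one] at hY
    exact (Fact.out : r.Prime).one_lt.ne hY
  refine ⟨⟨lagderPsi a d had Y.1, lagderPsi_mem a d had Y.1 Y.2⟩, ?_, ?_, ?_⟩
  · apply Subtype.ext
    rw [SubmonoidClass.coe_pow]
    change lagderPsi a d had Y.1 ^ r = 1
    rw [lagderPsi_pow, hYr, lagderPsi_one]
  · intro h1
    apply hY1
    apply lagderPsi_inj a d had
    exact congrArg Subtype.val h1
  · change (lagderPsi a d had Y.1 - 1).rank ≤ 2 * a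
    have e : lagderPsi a d had Y.1 - 1
        = lagderE a d had F * ((Y.1 - 1) * (lagderE a d had F)ᵀ) := by
      unfold lagderPsi
      rw [Matrix.sub_mul, Matrix.one_mul, Matrix.mul_sub, Matrix.mul_assoc]
      abel
    rw [e]
    refine (Matrix.rank_mul_le_left _ _).trans ((Matrix.rank_le_card_width _).trans ?_)
    rw [Fintype.card_sum, Fintype.card_fin]
    omega

end LagDerBlock

section LagDerCount

variable {F : Type*} [Field F]

/-- The standard Lagrangian: vectors supported on the `inl` coordinates. -/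
def lagderU (d : ℕ) (F : Type*) [Field F] : Submodule F (Fin d ⊕ Fin d → F) where
  carrier := {v | ∀ i, v (Sum.inr i) = 0}
  add_mem' := fun {a b} ha hb i => by
    rw [Pi.add_apply, ha i, hb i, add_zero]
  zero_mem' := fun i => rfl
  smul_mem' := fun c v hv i => by
    rw [Pi.smul_apply, hv i, smul_zero]

/-- The opposite standard Lagrangian: vectors supported on the `inr` coordinates. -/
def lagderW (d : ℕ) (F : Type*) [Field F] : Submodule F (Fin d ⊕ Fin d → F) where
  carrier := {v | ∀ i, v (Sum.inl i) = 0}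
  add_mem' := fun {a b} ha hb i => by
    rw [Pi.add_apply, ha i, hb i, add_zero]
  zero_mem' := fun i => rfl
  smul_mem' := fun c v hv i => by
    rw [Pi.smul_apply, hv i, smul_zero]

theorem mem_lagderU (d : ℕ) (v : Fin d ⊕ Fin d → F) :
    v ∈ lagderU d F ↔ ∀ i, v (Sum.inr i) = 0 := Iff.rfl

theorem mem_lagderW (d : ℕ) (v : Fin d ⊕ Fin d → F) :
    v ∈ lagderW d F ↔ ∀ i, v (Sum.inl i) = 0 := Iff.rfl

theorem lagder_std_isCompl (d : ℕ) : IsCompl (lagderU d F) (lagderW d F) := by
  constructor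
  · rw [Submodule.disjoint_def]
    intro v hU hW
    funext s
    rcases s with i | i
    · exact hW i
    · exact hU i
  · rw [codisjoint_iff, eq_top_iff]
    intro v _
    rw [Submodule.mem_sup]
    refine ⟨Sum.elim (v ∘ Sum.inl) 0, fun i => rfl, Sum.elim 0 (v ∘ Sum.inr), fun i => rfl, ?_⟩
    funext s
    rcases s with i | i <;> simp

theorem lagder_sympForm_inl (d : ℕ) (u v : Fin d ⊕ Fin d → F) :
    Cfsg.sympForm d F u v
      = ∑ i, (u (Sum.inr i) * v (Sum.inl i) - u (Sum.inl i) * v (Sum.inr i)) := by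
  unfold Cfsg.sympForm
  rw [Matrix.J, Matrix.fromBlocks_mulVec, dotProduct, Fintype.sum_sum_type]
  simp only [Sum.elim_inl, Sum.elim_inr, Matrix.zero_mulVec, Matrix.neg_mulVec,
    Matrix.one_mulVec, zero_add, add_zero, Pi.neg_apply, Function.comp_apply]
  rw [Finset.sum_sub_distrib]
  simp [Finset.sum_neg_distrib]
  ring

theorem lagder_std_iso (d : ℕ) :
    (∀ u ∈ lagderU d F, ∀ v ∈ lagderU d F, Cfsg.sympForm d F u v = 0) ∧
      (∀ u ∈ lagderW d F, ∀ v ∈ lagderW d F, Cfsg.sympForm d F u v = 0) := by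
  constructor
  · intro u hu v hv
    rw [lagder_sympForm_inl]
    apply Finset.sum_eq_zero
    intro i _
    rw [hu i, hv i]
    ring
  · intro u hu v hv
    rw [lagder_sympForm_inl]
    apply Finset.sum_eq_zero
    intro i _
    rw [hu i, hv i]
    ring

/-- Two complementary pairs, one inside the other, coincide. -/
theorem lagder_eq_of_le {V : Type*} [AddCommGroup V] [Module F V] {A B A' B' : Submodule F V}
    (h : IsCompl A B) (h' : IsCompl A' B') (hA : A ≤ A') (hB : B ≤ B') : A = A' ∧ B = B' := by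
  constructor
  · apply le_antisymm hA
    intro x hx
    have hx' : x ∈ A ⊔ B := by rw [h.sup_eq_top]; trivial
    obtain ⟨a, ha, b, hb, rfl⟩ := Submodule.mem_sup.mp hx'
    have hb' : b ∈ A' := by
      have := A'.sub_mem hx (hA ha)
      rwa [add_sub_cancel_left] at this
    have hb0 : b = 0 := (Submodule.disjoint_def.mp h'.disjoint) b hb' (hB hb)
    rw [hb0, add_zero]
    exact ha
  · apply le_antisymm hB
    intro x hx
    have hx' : x ∈ A ⊔ B := by rw [h.sup_eq_top]; trivial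
    obtain ⟨a, ha, b, hb, rfl⟩ := Submodule.mem_sup.mp hx'
    have ha' : a ∈ B' := by
      have := B'.sub_mem hx (hB hb)
      rwa [add_sub_cancel_right] at this
    have ha0 : a = 0 := (Submodule.disjoint_def.mp h'.disjoint) a (hA ha) ha'
    rw [ha0, zero_add]
    exact hb

theorem lagder_toLin_inj (d : ℕ) (g : Matrix.symplecticGroup (Fin d) F) :
    Function.Injective (Matrix.toLin' g.1) := by
  intro a b hab
  rw [Matrix.toLin'_apply, Matrix.toLin'_apply] at hab
  have h2 := congrArg (fun u => (g⁻¹).1 *ᵥ u) hab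
  simp only [Cfsg.Agent.S0775.act_inv_act] at h2
  exact h2

theorem lagder_toLin_surj (d : ℕ) (g : Matrix.symplecticGroup (Fin d) F) :
    Function.Surjective (Matrix.toLin' g.1) := by
  intro v
  refine ⟨(g⁻¹).1 *ᵥ v, ?_⟩
  rw [Matrix.toLin'_apply, Cfsg.Agent.S0775.act_act_inv]

/-- Symplectic matrices map pairs of complementary Lagrangians to such pairs. -/
theorem lagder_map_pair (d : ℕ) (g : Matrix.symplecticGroup (Fin d) F)
    (U W : Submodule F (Fin d ⊕ Fin d → F)) (hUW : IsCompl U W)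
    (hU : ∀ u ∈ U, ∀ v ∈ U, Cfsg.sympForm d F u v = 0)
    (hW : ∀ u ∈ W, ∀ v ∈ W, Cfsg.sympForm d F u v = 0) :
    IsCompl (U.map (Matrix.toLin' g.1)) (W.map (Matrix.toLin' g.1)) ∧
      (∀ u ∈ U.map (Matrix.toLin' g.1), ∀ v ∈ U.map (Matrix.toLin' g.1),
        Cfsg.sympForm d F u v = 0) ∧
      (∀ u ∈ W.map (Matrix.toLin' g.1), ∀ v ∈ W.map (Matrix.toLin' g.1),
        Cfsg.sympForm d F u v = 0) := by
  refine ⟨⟨?_, ?_⟩, ?_, ?_⟩
  · rw [disjoint_iff, ← Submodule.map_inf _ (lagder_toLin_inj d g), hUW.inf_eq_bot,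
      Submodule.map_bot]
  · rw [codisjoint_iff, ← Submodule.map_sup, hUW.sup_eq_top, Submodule.map_top,
      LinearMap.range_eq_top.mpr (lagder_toLin_surj d g)]
  · rintro _ ⟨u, hu, rfl⟩ _ ⟨v, hv, rfl⟩
    rw [← sympB_eq_sympForm, symplectic_isometry d g.1 g.2, sympB_eq_sympForm]
    exact hU u hu v hv
  · rintro _ ⟨u, hu, rfl⟩ _ ⟨v, hv, rfl⟩
    rw [← sympB_eq_sympForm, symplectic_isometry d g.1 g.2, sympB_eq_sympForm]
    exact hW u hu v hv

/-- Transitivity of the symplectic group on pairs of complementary Lagrangians. -/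
theorem lagder_exists_sp (d : ℕ) (U W : Submodule F (Fin d ⊕ Fin d → F)) (hUW : IsCompl U W)
    (hU : ∀ u ∈ U, ∀ v ∈ U, Cfsg.sympForm d F u v = 0)
    (hW : ∀ u ∈ W, ∀ v ∈ W, Cfsg.sympForm d F u v = 0) :
    ∃ g : Matrix.symplecticGroup (Fin d) F,
      (lagderU d F).map (Matrix.toLin' g.1) = U ∧
        (lagderW d F).map (Matrix.toLin' g.1) = W := by
  classical
  have hfinV : finrank F (Fin d ⊕ Fin d → F) = d + d := by
    rw [Module.finrank_fintype_fun_eq_card, Fintype.card_sum, Fintype.card_fin]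
  have hsum := Submodule.finrank_add_eq_of_isCompl hUW
  rw [hfinV] at hsum
  have hle : ∀ S : Submodule F (Fin d ⊕ Fin d → F),
      (∀ u ∈ S, ∀ v ∈ S, Cfsg.sympForm d F u v = 0) → finrank F S ≤ d := by
    intro S hS
    have h1 : S ≤ (sympB (F := F) d).orthogonal S := by
      intro v hv
      rw [LinearMap.BilinForm.mem_orthogonal_iff]
      intro u hu
      change sympB d u v = 0
      rw [sympB_eq_sympForm]
      exact hS u hu v hv
    have h2 := Submodule.finrank_mono h1
    rw [LinearMap.BilinForm.finrank_orthogonal (sympB_nondegenerate d), hfinV] at h2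
    have h3 := Submodule.finrank_le S
    rw [hfinV] at h3
    omega
  have hUd : finrank F U = d := by
    have h1 := hle U hU
    have h2 := hle W hW
    omega
  have hWd : finrank F W = d := by
    have h1 := hle U hU
    have h2 := hle W hW
    omega
  obtain ⟨b⟩ : Nonempty (Module.Basis (Fin d) F U) := ⟨Module.finBasisOfFinrankEq F U hUd⟩
  obtain ⟨u, hu⟩ : ∃ u : Fin d → (Fin d ⊕ Fin d → F),
      u = fun i => (b i : Fin d ⊕ Fin d → F) := ⟨_, rfl⟩
  have huU : ∀ i, u i ∈ U := fun i => by rw [hu]; exact (b i).2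
  obtain ⟨Φ, hΦ⟩ : ∃ Φ : W →ₗ[F] (Fin d → F),
      ∀ (w : W) i, Φ w i = sympB d (u i) (w : Fin d ⊕ Fin d → F) :=
    ⟨LinearMap.pi (fun i => (sympB (F := F) d (u i)).comp W.subtype), fun w i => rfl⟩
  have hΦinj : Function.Injective Φ := by
    rw [← LinearMap.ker_eq_bot, LinearMap.ker_eq_bot']
    intro w hw
    have h1 : ∀ i, sympB d (u i) (w : Fin d ⊕ Fin d → F) = 0 := fun i => by
      rw [← hΦ, hw]; rfl
    have h2 : ∀ a ∈ U, sympB d a (w : Fin d ⊕ Fin d → F) = 0 := by
      intro a ha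
      have e : a = ∑ i, (b.repr ⟨a, ha⟩ i) • u i := by
        have h3 := congrArg Subtype.val (b.sum_repr ⟨a, ha⟩)
        rw [Submodule.coe_sum] at h3
        rw [hu]
        exact h3.symm
      rw [e, map_sum, LinearMap.sum_apply]
      apply Finset.sum_eq_zero
      intro i _
      rw [map_smul, LinearMap.smul_apply, h1, smul_zero]
    have h3 : ∀ v, sympB d v (w : Fin d ⊕ Fin d → F) = 0 := by
      intro v
      have hv : v ∈ U ⊔ W := by rw [hUW.sup_eq_top]; trivial
      obtain ⟨a, ha, c, hc, rfl⟩ := Submodule.mem_sup.mp hv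
      rw [map_add, LinearMap.add_apply, h2 a ha, sympB_eq_sympForm d c, hW c hc _ w.2, add_zero]
    exact Subtype.ext ((sympB_nondegenerate (F := F) d).2 (w : Fin d ⊕ Fin d → F) h3)
  have hΦsurj : Function.Surjective Φ :=
    (LinearMap.injective_iff_surjective_of_finrank_eq_finrank
      (by rw [hWd, Module.finrank_fin_fun])).mp hΦinj
  choose w hw using fun j : Fin d => hΦsurj (- Pi.single j 1)
  have huw : ∀ i j, sympB d (u i) (w j : Fin d ⊕ Fin d → F) = if i = j then -1 else 0 := by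
    intro i j
    rw [← hΦ, hw, Pi.neg_apply, Pi.single_apply]
    split_ifs <;> simp
  have huu : ∀ i j, sympB d (u i) (u j) = 0 := fun i j => by
    rw [sympB_eq_sympForm]; exact hU _ (huU i) _ (huU j)
  have hww : ∀ i j, sympB d (w i : Fin d ⊕ Fin d → F) (w j : Fin d ⊕ Fin d → F) = 0 :=
    fun i j => by rw [sympB_eq_sympForm]; exact hW _ (w i).2 _ (w j).2
  obtain ⟨cols, hcols⟩ : ∃ cols : Fin d ⊕ Fin d → (Fin d ⊕ Fin d → F),
      cols = Sum.elim u (fun j => (w j : Fin d ⊕ Fin d → F)) := ⟨_, rfl⟩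
  have hgram : ∀ a a', sympB d (cols a) (cols a') = Matrix.J (Fin d) F a a' := by
    intro a a'
    rw [hcols]
    exact darboux_gram_J (sympB_isAlt d)
      (isDarboux_span (sympB (F := F) d) u (fun j => (w j : Fin d ⊕ Fin d → F)) huu hww huw) a a'
  obtain ⟨g, hg⟩ : ∃ g : Matrix (Fin d ⊕ Fin d) (Fin d ⊕ Fin d) F,
      g = (Matrix.of cols)ᵀ := ⟨_, rfl⟩
  have hgmem : g ∈ Matrix.symplecticGroup (Fin d) F := by
    rw [SymplecticGroup.mem_iff']
    ext a a'
    rw [← hgram, sympB_apply, Matrix.mul_assoc, Matrix.mul_apply, dotProduct]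
    apply Finset.sum_congr rfl
    intro s _
    rw [Matrix.mul_apply, Matrix.mulVec, dotProduct, hg]
    rfl
  have hgv : ∀ v : Fin d ⊕ Fin d → F, g *ᵥ v = ∑ t, v t • cols t := by
    intro v
    rw [Matrix.mulVec_eq_sum, hg, Matrix.transpose_transpose]
    apply Finset.sum_congr rfl
    intro t _
    funext s
    simp [mul_comm]
  have hgU : (lagderU d F).map (Matrix.toLin' g) ≤ U := by
    rintro _ ⟨v, hv, rfl⟩
    rw [Matrix.toLin'_apply, hgv]
    apply Submodule.sum_mem
    intro t _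
    rcases t with i | i
    · apply Submodule.smul_mem
      rw [hcols]
      exact huU i
    · rw [hv i, zero_smul]
      exact Submodule.zero_mem _
  have hgW : (lagderW d F).map (Matrix.toLin' g) ≤ W := by
    rintro _ ⟨v, hv, rfl⟩
    rw [Matrix.toLin'_apply, hgv]
    apply Submodule.sum_mem
    intro t _
    rcases t with i | i
    · rw [hv i, zero_smul]
      exact Submodule.zero_mem _
    · apply Submodule.smul_mem
      rw [hcols]
      exact (w i).2
  have hmp := lagder_map_pair d ⟨g, hgmem⟩ (lagderU d F) (lagderW d F) (lagder_std_isCompl d)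
    (lagder_std_iso d).1 (lagder_std_iso d).2
  exact ⟨⟨g, hgmem⟩, lagder_eq_of_le hmp.1 hUW hgU hgW⟩

/-- The action of the symplectic group on pairs of subspaces. -/
@[reducible] def lagderAct (d : ℕ) (F : Type*) [Field F] :
    MulAction (Matrix.symplecticGroup (Fin d) F)
      (Submodule F (Fin d ⊕ Fin d → F) × Submodule F (Fin d ⊕ Fin d → F)) where
  smul g P := (P.1.map (Matrix.toLin' g.1), P.2.map (Matrix.toLin' g.1))
  one_smul P := by
    change (P.1.map (Matrix.toLin' (1 : Matrix (Fin d ⊕ Fin d) (Fin d ⊕ Fin d) F)),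
      P.2.map (Matrix.toLin' (1 : Matrix (Fin d ⊕ Fin d) (Fin d ⊕ Fin d) F))) = P
    rw [Matrix.toLin'_one, Submodule.map_id, Submodule.map_id]
  mul_smul g h P := by
    change (P.1.map (Matrix.toLin' (g.1 * h.1)), P.2.map (Matrix.toLin' (g.1 * h.1)))
      = ((P.1.map (Matrix.toLin' h.1)).map (Matrix.toLin' g.1),
        (P.2.map (Matrix.toLin' h.1)).map (Matrix.toLin' g.1))
    rw [Matrix.toLin'_mul, Submodule.map_comp, Submodule.map_comp]

theorem lagder_arith (q d : ℕ) (hq : 1 ≤ q) :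
    ∏ i ∈ Finset.range d, (q ^ (2 * d - i) - q ^ i)
      = (∏ i ∈ Finset.range d, (q ^ d - q ^ i)) * ∏ i ∈ Finset.range d, (q ^ (d - i) + 1) := by
  rw [← Finset.prod_mul_distrib]
  apply Finset.prod_congr rfl
  intro i hi
  rw [Finset.mem_range] at hi
  obtain ⟨e, rfl⟩ : ∃ e, d = i + e := ⟨d - i, by omega⟩
  have e1 : 2 * (i + e) - i = i + (e + e) := by omega
  have e2 : i + e - i = e := by omega
  rw [e1, e2, pow_add, pow_add, pow_add]
  obtain ⟨y, hy⟩ : ∃ y, q ^ e = y + 1 :=
    ⟨q ^ e - 1, by have := Nat.one_le_pow e q hq; omega⟩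
  rw [hy]
  have a1 : q ^ i * ((y + 1) * (y + 1)) - q ^ i = q ^ i * (y * (y + 2)) := by
    rw [Nat.sub_eq_iff_eq_add (Nat.le_mul_of_pos_right _ (by positivity))]
    ring
  have a2 : q ^ i * (y + 1) - q ^ i = q ^ i * y := by
    rw [Nat.sub_eq_iff_eq_add (Nat.le_mul_of_pos_right _ (by omega))]
    ring
  rw [a1, a2]
  ring

/-- The number of ordered pairs of complementary Lagrangians divides
`q^(d(d+1)/2) ∏ (q^i + 1)`. -/
theorem lagder_card_dvd [Fintype F] {q : ℕ} (hq : Fintype.card F = q) (d : ℕ) :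
    Nat.card {P : Submodule F (Fin d ⊕ Fin d → F) × Submodule F (Fin d ⊕ Fin d → F) //
      IsCompl P.1 P.2 ∧ (∀ u ∈ P.1, ∀ v ∈ P.1, Cfsg.sympForm d F u v = 0) ∧
        (∀ u ∈ P.2, ∀ v ∈ P.2, Cfsg.sympForm d F u v = 0)} ∣
      q ^ (d * (d + 1) / 2) * ∏ i ∈ Finset.range d, (q ^ (d - i) + 1) := by
  classical
  letI := lagderAct d F
  obtain ⟨ω, hω⟩ : ∃ ω : Submodule F (Fin d ⊕ Fin d → F) × Submodule F (Fin d ⊕ Fin d → F),
      ω = (lagderU d F, lagderW d F) := ⟨_, rfl⟩
  have hsm : ∀ (g : Matrix.symplecticGroup (Fin d) F)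
      (P : Submodule F (Fin d ⊕ Fin d → F) × Submodule F (Fin d ⊕ Fin d → F)),
      g • P = (P.1.map (Matrix.toLin' g.1), P.2.map (Matrix.toLin' g.1)) := fun g P => rfl
  have horb : MulAction.orbit (Matrix.symplecticGroup (Fin d) F) ω
      = {P | IsCompl P.1 P.2 ∧ (∀ u ∈ P.1, ∀ v ∈ P.1, Cfsg.sympForm d F u v = 0) ∧
        (∀ u ∈ P.2, ∀ v ∈ P.2, Cfsg.sympForm d F u v = 0)} := by
    ext P
    constructor
    · rintro ⟨g, rfl⟩
      change IsCompl (g • ω).1 (g • ω).2 ∧ _
      rw [hsm, hω]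
      exact lagder_map_pair d g _ _ (lagder_std_isCompl d) (lagder_std_iso d).1
        (lagder_std_iso d).2
    · rintro ⟨h1, h2, h3⟩
      obtain ⟨g, hg1, hg2⟩ := lagder_exists_sp d P.1 P.2 h1 h2 h3
      refine ⟨g, ?_⟩
      change g • ω = P
      rw [hsm, hω]
      exact Prod.ext hg1 hg2
  have h1 : Nat.card (MulAction.stabilizer (Matrix.symplecticGroup (Fin d) F) ω)
      * (MulAction.orbit (Matrix.symplecticGroup (Fin d) F) ω).ncard
      = Nat.card (Matrix.symplecticGroup (Fin d) F) := by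
    rw [← MulAction.index_stabilizer]
    exact Subgroup.card_mul_index _
  have hmem : ∀ A : GL (Fin d) F, Cfsg.Agent.Lib.Helper47.spEmb d F A
      ∈ MulAction.stabilizer (Matrix.symplecticGroup (Fin d) F) ω := by
    intro A
    rw [MulAction.mem_stabilizer_iff, hsm, hω]
    have hmp := lagder_map_pair d (Cfsg.Agent.Lib.Helper47.spEmb d F A) (lagderU d F)
      (lagderW d F) (lagder_std_isCompl d) (lagder_std_iso d).1 (lagder_std_iso d).2
    have hle1 : (lagderU d F).map (Matrix.toLin' (Cfsg.Agent.Lib.Helper47.spEmb d F A).1)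
        ≤ lagderU d F := by
      rintro _ ⟨v, hv, rfl⟩ i
      rw [Matrix.toLin'_apply]
      change (Cfsg.Agent.Lib.Helper47.hypMat A *ᵥ v) (Sum.inr i) = 0
      have hv0 : v ∘ Sum.inr = 0 := funext hv
      rw [Cfsg.Agent.Lib.Helper47.hypMat_apply, Matrix.fromBlocks_mulVec, hv0]
      simp
    have hle2 : (lagderW d F).map (Matrix.toLin' (Cfsg.Agent.Lib.Helper47.spEmb d F A).1)
        ≤ lagderW d F := by
      rintro _ ⟨v, hv, rfl⟩ i
      rw [Matrix.toLin'_apply]
      change (Cfsg.Agent.Lib.Helper47.hypMat A *ᵥ v) (Sum.inl i) = 0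
      have hv0 : v ∘ Sum.inl = 0 := funext hv
      rw [Cfsg.Agent.Lib.Helper47.hypMat_apply, Matrix.fromBlocks_mulVec, hv0]
      simp
    obtain ⟨e1, e2⟩ := lagder_eq_of_le hmp.1 (lagder_std_isCompl d) hle1 hle2
    exact Prod.ext e1 e2
  have h2 : Nat.card (GL (Fin d) F)
      ∣ Nat.card (MulAction.stabilizer (Matrix.symplecticGroup (Fin d) F) ω) :=
    Subgroup.card_dvd_of_injective ((Cfsg.Agent.Lib.Helper47.spEmb d F).codRestrict _ hmem)
      (fun a b hab => Cfsg.Agent.Lib.Helper47.spEmb_injective d F (congrArg Subtype.val hab))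
  have hq1 : 1 ≤ q := by rw [← hq]; exact Fintype.card_pos
  have hGL : Nat.card (GL (Fin d) F) = ∏ i ∈ Finset.range d, (q ^ d - q ^ i) := by
    rw [Matrix.card_GL_field, hq]
    exact Fin.prod_univ_eq_prod_range (fun i => q ^ d - q ^ i) d
  have hSp : Nat.card (Matrix.symplecticGroup (Fin d) F)
      = (∏ i ∈ Finset.range d, (q ^ d - q ^ i))
        * ((∏ i ∈ Finset.range d, (q ^ (d - i) + 1)) * q ^ (d * (d + 1) / 2)) := by
    rw [Cfsg.Agent.S0245.result hq d, ← Cfsg.Agent.S0775.arith q d d le_rfl, lagder_arith q d hq1]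
    simp [mul_assoc]
  have hN : (MulAction.orbit (Matrix.symplecticGroup (Fin d) F) ω).ncard
      = Nat.card {P : Submodule F (Fin d ⊕ Fin d → F) × Submodule F (Fin d ⊕ Fin d → F) //
      IsCompl P.1 P.2 ∧ (∀ u ∈ P.1, ∀ v ∈ P.1, Cfsg.sympForm d F u v = 0) ∧
        (∀ u ∈ P.2, ∀ v ∈ P.2, Cfsg.sympForm d F u v = 0)} := by
    rw [horb, ← Nat.card_coe_set_eq]
    rfl
  rw [← hN]
  obtain ⟨m, hm⟩ := h2
  rw [hm, hSp, hGL, mul_assoc] at h1
  have hpos : 0 < ∏ i ∈ Finset.range d, (q ^ d - q ^ i) := by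
    rw [← hGL]
    have : Finite (GL (Fin d) F) := inferInstance
    exact Nat.card_pos
  have h3 := Nat.eq_of_mul_eq_mul_left hpos h1
  exact ⟨m, by rw [mul_comm _ m, h3, mul_comm]⟩

/-- The number of ordered pairs of complementary Lagrangians is even. -/
theorem lagder_card_even [Fintype F] (d : ℕ) (hd : 1 ≤ d) :
    2 ∣ Nat.card {P : Submodule F (Fin d ⊕ Fin d → F) × Submodule F (Fin d ⊕ Fin d → F) //
      IsCompl P.1 P.2 ∧ (∀ u ∈ P.1, ∀ v ∈ P.1, Cfsg.sympForm d F u v = 0) ∧
        (∀ u ∈ P.2, ∀ v ∈ P.2, Cfsg.sympForm d F u v = 0)} := by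
  classical
  have hne : Nonempty (Fin d ⊕ Fin d) := ⟨Sum.inl ⟨0, hd⟩⟩
  have hfin : Fintype {P : Submodule F (Fin d ⊕ Fin d → F)
        × Submodule F (Fin d ⊕ Fin d → F) //
      IsCompl P.1 P.2 ∧ (∀ u ∈ P.1, ∀ v ∈ P.1, Cfsg.sympForm d F u v = 0) ∧
        (∀ u ∈ P.2, ∀ v ∈ P.2, Cfsg.sympForm d F u v = 0)} := Fintype.ofFinite _
  obtain ⟨f, hf⟩ : ∃ f : Function.End {P : Submodule F (Fin d ⊕ Fin d → F)
        × Submodule F (Fin d ⊕ Fin d → F) //
      IsCompl P.1 P.2 ∧ (∀ u ∈ P.1, ∀ v ∈ P.1, Cfsg.sympForm d F u v = 0) ∧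
        (∀ u ∈ P.2, ∀ v ∈ P.2, Cfsg.sympForm d F u v = 0)},
      ∀ P, (f P).1 = (P.1.2, P.1.1) :=
    ⟨fun P => ⟨(P.1.2, P.1.1), P.2.1.symm, P.2.2.2, P.2.2.1⟩, fun P => rfl⟩
  have hf2 : f ^ 2 ^ 1 = 1 := by
    rw [pow_one, pow_two]
    funext P
    apply Subtype.ext
    change (f (f P)).1 = P.1
    rw [hf, hf]
  have key := Equiv.Perm.card_fixedPoints_modEq (p := 2) (n := 1) hf2
  have hfix : IsEmpty (Function.fixedPoints f) := by
    constructor
    rintro ⟨P, hP⟩
    have h1 : (f P).1 = P.1 := congrArg Subtype.val hP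
    rw [hf] at h1
    have h2 : P.1.2 = P.1.1 := congrArg Prod.fst h1
    have h3 := P.2.1
    rw [h2] at h3
    have hb : P.1.1 = ⊥ := by simpa using h3.inf_eq_bot
    have ht : P.1.1 = ⊤ := by simpa using h3.sup_eq_top
    exact bot_ne_top (hb.symm.trans ht)
  have h0 : Nat.card (Function.fixedPoints f) = 0 := Nat.card_of_isEmpty
  rw [Fintype.card_eq_nat_card (α := Function.fixedPoints f), h0, Fintype.card_eq_nat_card] at key
  exact (Nat.modEq_zero_iff_dvd).mp key

end LagDerCount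

end Cfsg.Agent.Lib.Helper98
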