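import Mathlib
import Cfsg.Prelude.Def_GeometricClasses
import Cfsg.Agent.Lib.Helper18.Darboux
import Cfsg.Agent.Lib.Helper47.SpConj
import Cfsg.Agent.Lib.Helper97.SpOver
import Cfsg.Agent.Lib.Helper6.PSLCard
import Cfsg.Agent.Lib.Helper98.LagDer
import Cfsg.Agent.S0245

/-!
# Derangements of odd prime order on the cosets of the similarity group of a symplectic form

Helper library (helper98): the index of `GSp(f) ∩ SL_n` in `SL_n` is only divisible by `p` and
by primes dividing `q^j - 1` for odd `j ≥ 3`, and three families of elements of `SL_n` of prime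
order that are not conjugate to a similarity of a symplectic form.
-/

set_option autoImplicit false

namespace Cfsg.Agent.Lib.Helper98

open Matrix Module Cfsg.Agent.Lib.Helper47

section AltDerIndex

variable {F : Type*} [Field F]

/-- Every symplectic form on `F^n`, `n = 2m`, is isometric to the standard one. -/
theorem altder_exists_iso [Finite F] (m n : ℕ) (hmn : n = 2 * m)
    (f : (Fin n → F) → (Fin n → F) → F) (hf : Cfsg.Geo.IsSymplecticForm f) :
    ∃ Θ : (Fin m ⊕ Fin m → F) ≃ₗ[F] (Fin n → F),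
      ∀ x y, f (Θ x) (Θ y) = spForm (Fin m) F x y := by
  classical
  have hcp : (LinearMap.id : Module.End F (Fin m ⊕ Fin m → F)).charpoly
      = (LinearMap.id : Module.End F (Fin n → F)).charpoly := by
    have e1 : (LinearMap.id : Module.End F (Fin m ⊕ Fin m → F)) = 1 := rfl
    have e2 : (LinearMap.id : Module.End F (Fin n → F)) = 1 := rfl
    rw [e1, e2, LinearMap.charpoly_one, LinearMap.charpoly_one,
      Module.finrank_fintype_fun_eq_card, Module.finrank_fintype_fun_eq_card, Fintype.card_sum,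
      Fintype.card_fin, Fintype.card_fin, hmn, two_mul]
  have hfS : IsSForm (RingHom.id F) (-1) f :=
    ⟨hf.bilinear.add_left, hf.bilinear.smul_left, fun x y => by
      rw [hf.skew y x]; simp⟩
  have hfN : Nondeg f := by
    intro x hx
    by_contra hx0
    obtain ⟨y, hy⟩ := (hf.nondegenerate x hx0).2
    exact hy (hx y)
  obtain ⟨Θ, -, hΘ⟩ := exists_isometry_conj (σ := RingHom.id F) (ε := -1) (fun _ => rfl)
    (Or.inl ⟨rfl, rfl⟩) _ (Fin m ⊕ Fin m → F) (Fin n → F) (spForm (Fin m) F) f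
    LinearMap.id LinearMap.id rfl spForm_isSForm hfS spForm_nondeg hfN
    (fun _ => spForm_alt) (fun _ => hf.alternating)
    Module.End.isSemisimple_id Module.End.isSemisimple_id (fun _ _ => rfl) (fun _ _ => rfl) hcp
  exact ⟨Θ, hΘ⟩

/-- The order of `Sp_{2m}(q)` divides the order of `GSp(f) ∩ SL_n`. -/
theorem altder_card_dvd [Fintype F] (m n : ℕ) (hmn : n = 2 * m)
    (f : (Fin n → F) → (Fin n → F) → F) (hf : Cfsg.Geo.IsSymplecticForm f) :
    Nat.card (Matrix.symplecticGroup (Fin m) F) ∣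
      Nat.card ((Cfsg.Geo.similarityGroup f).comap
        (Matrix.SpecialLinearGroup.toGL :
          Matrix.SpecialLinearGroup (Fin n) F →* GL (Fin n) F)) := by
  classical
  obtain ⟨Θ, hΘ⟩ := altder_exists_iso m n hmn f hf
  have hdet : ∀ g : Matrix.symplecticGroup (Fin m) F,
      (LinearMap.toMatrix' (Θ.conj (Matrix.toLin' g.1))).det = 1 := by
    intro g
    rw [LinearMap.det_toMatrix', LinearEquiv.conj_apply, LinearMap.comp_assoc,
      LinearMap.det_conj, LinearMap.det_toLin', SymplecticGroup.det_eq_one g.2]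
  obtain ⟨φ, hφ⟩ : ∃ φ : Matrix.symplecticGroup (Fin m) F →*
      Matrix.SpecialLinearGroup (Fin n) F,
      ∀ g, (φ g).1 = LinearMap.toMatrix' (Θ.conj (Matrix.toLin' g.1)) := by
    refine ⟨MonoidHom.mk' (fun g => ⟨LinearMap.toMatrix' (Θ.conj (Matrix.toLin' g.1)), hdet g⟩)
      ?_, fun g => rfl⟩
    intro a b
    apply Subtype.ext
    change LinearMap.toMatrix' (Θ.conj (Matrix.toLin' (a.1 * b.1)))
      = LinearMap.toMatrix' (Θ.conj (Matrix.toLin' a.1))
        * LinearMap.toMatrix' (Θ.conj (Matrix.toLin' b.1))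
    rw [Matrix.toLin'_mul, LinearEquiv.conj_comp, LinearMap.toMatrix'_comp]
  have hmem : ∀ g, φ g ∈ (Cfsg.Geo.similarityGroup f).comap
      (Matrix.SpecialLinearGroup.toGL :
        Matrix.SpecialLinearGroup (Fin n) F →* GL (Fin n) F) := by
    intro g
    rw [Subgroup.mem_comap]
    refine ⟨1, fun u v => ?_⟩
    have e : ∀ w : Fin n → F,
        ((Matrix.SpecialLinearGroup.toGL (φ g) : GL (Fin n) F) : Matrix (Fin n) (Fin n) F) *ᵥ w
          = Θ (Matrix.toLin' g.1 (Θ.symm w)) := by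
      intro w
      change (φ g).1 *ᵥ w = _
      rw [hφ, ← Matrix.toLin'_apply, Matrix.toLin'_toMatrix', LinearEquiv.conj_apply_apply]
    rw [e, e, hΘ, spForm_isometry g.2, ← hΘ, LinearEquiv.apply_symm_apply,
      LinearEquiv.apply_symm_apply, Units.val_one, one_mul]
  have hinj : Function.Injective (φ.codRestrict _ hmem) := by
    intro a b hab
    have h1 : (φ a).1 = (φ b).1 := congrArg (fun t => (t.1).1) hab
    rw [hφ, hφ] at h1
    have h2 := Θ.conj.injective (LinearMap.toMatrix'.injective h1)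
    exact Subtype.ext (Matrix.toLin'.injective h2)
  exact Subgroup.card_dvd_of_injective _ hinj

end AltDerIndex

section AltDerArith

/-- Splitting a product over `range (2m)` into even and odd indices. -/
theorem altder_prod_split (g : ℕ → ℕ) (m : ℕ) :
    ∏ k ∈ Finset.range (2 * m), g k
      = (∏ j ∈ Finset.range m, g (2 * j)) * ∏ j ∈ Finset.range m, g (2 * j + 1) := by
  induction m with
  | zero => simp
  | succ m ih =>
    rw [show 2 * (m + 1) = 2 * m + 1 + 1 by ring, Finset.prod_range_succ,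
      Finset.prod_range_succ, ih, Finset.prod_range_succ, Finset.prod_range_succ]
    ring

theorem altder_gl_prod (q n : ℕ) :
    ∏ i ∈ Finset.range n, (q ^ n - q ^ i)
      = (∏ i ∈ Finset.range n, q ^ i) * ∏ k ∈ Finset.range n, (q ^ (k + 1) - 1) := by
  rw [← Finset.prod_range_reflect (fun k => q ^ (k + 1) - 1) n, ← Finset.prod_mul_distrib]
  apply Finset.prod_congr rfl
  intro i hi
  rw [Finset.mem_range] at hi
  have e : n - 1 - i + 1 = n - i := by omega
  rw [e, Nat.mul_sub, mul_one, ← pow_add]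
  congr 2
  omega

/-- The arithmetic behind the index of `GSp_{2m}(q) ∩ SL_{2m}(q)` in `SL_{2m}(q)`. -/
theorem altder_index_arith (q m r N t : ℕ) (hq : 2 ≤ q) (hm : 1 ≤ m) (hr : r.Prime)
    (hrq : ¬ r ∣ q)
    (h : (q - 1) * (N * (t * (q ^ (m ^ 2)
        * ∏ i ∈ Finset.range m, (q ^ (2 * (i + 1)) - 1))))
      = ∏ i ∈ Finset.range (2 * m), (q ^ (2 * m) - q ^ i))
    (hrN : r ∣ N) : ∃ j, j < m - 1 ∧ r ∣ q ^ (2 * j + 3) - 1 := by
  obtain ⟨m', rfl⟩ : ∃ m', m = m' + 1 := ⟨m - 1, by omega⟩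
  rw [altder_gl_prod, altder_prod_split (fun k => q ^ (k + 1) - 1) (m' + 1)] at h
  have e1 : ∏ j ∈ Finset.range (m' + 1), (q ^ (2 * j + 1) - 1)
      = (∏ j ∈ Finset.range m', (q ^ (2 * j + 3) - 1)) * (q - 1) := by
    rw [Finset.prod_range_succ']
    simp only [mul_zero, zero_add, pow_one]
    congr 1
  have e2 : ∏ j ∈ Finset.range (m' + 1), (q ^ (2 * j + 1 + 1) - 1)
      = ∏ i ∈ Finset.range (m' + 1), (q ^ (2 * (i + 1)) - 1) :=
    Finset.prod_congr rfl (fun i _ => by rw [show 2 * i + 1 + 1 = 2 * (i + 1) by ring])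
  rw [e1, e2] at h
  obtain ⟨E, hE⟩ : ∃ E, E = ∏ i ∈ Finset.range (m' + 1), (q ^ (2 * (i + 1)) - 1) := ⟨_, rfl⟩
  obtain ⟨Q, hQ⟩ : ∃ Q, Q = ∏ i ∈ Finset.range (2 * (m' + 1)), q ^ i := ⟨_, rfl⟩
  obtain ⟨O, hO⟩ : ∃ O, O = ∏ j ∈ Finset.range m', (q ^ (2 * j + 3) - 1) := ⟨_, rfl⟩
  rw [← hE, ← hQ, ← hO] at h
  have hEpos : 0 < E := by
    rw [hE]
    apply Finset.prod_pos
    intro i _
    have : 2 ≤ q ^ (2 * (i + 1)) := by
      calc 2 ≤ q := hq
        _ = q ^ 1 := (pow_one q).symm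
        _ ≤ q ^ (2 * (i + 1)) := Nat.pow_le_pow_right (by omega) (by omega)
    omega
  have h' : ((q - 1) * E) * (N * (t * q ^ ((m' + 1) ^ 2))) = ((q - 1) * E) * (Q * O) := by
    calc ((q - 1) * E) * (N * (t * q ^ ((m' + 1) ^ 2)))
        = (q - 1) * (N * (t * (q ^ (m' + 1) ^ 2 * E))) := by ring
      _ = Q * (O * (q - 1) * E) := h
      _ = ((q - 1) * E) * (Q * O) := by ring
  have h'' := Nat.eq_of_mul_eq_mul_left (Nat.mul_pos (by omega) hEpos) h'
  have h3 : r ∣ Q * O := by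
    rw [← h'']
    exact Dvd.dvd.mul_right hrN _
  rcases (Nat.Prime.dvd_mul hr).mp h3 with h4 | h4
  · exfalso
    rw [hQ] at h4
    obtain ⟨i, -, hi⟩ := (Prime.dvd_finsetProd_iff hr.prime _).mp h4
    exact hrq (hr.dvd_of_dvd_pow hi)
  · rw [hO] at h4
    obtain ⟨j, hj, hj'⟩ := (Prime.dvd_finsetProd_iff hr.prime _).mp h4
    exact ⟨j, by simpa using Finset.mem_range.mp hj, hj'⟩

end AltDerArith

section AltDerIndex2

variable {F : Type*} [Field F]

/-- A prime `r ≠ p` dividing the index of `GSp(f) ∩ SL_n` in `SL_n` divides `q^j - 1` for an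
odd `j` with `3 ≤ j ≤ n - 1`. -/
theorem altder_index_prime [Fintype F] {p : ℕ} [Fact p.Prime] [CharP F p] {q : ℕ}
    (hq : Fintype.card F = q) (m : ℕ) (hm : 1 ≤ m)
    (f : (Fin (2 * m) → F) → (Fin (2 * m) → F) → F) (hf : Cfsg.Geo.IsSymplecticForm f)
    (r : ℕ) (hr : r.Prime) (hrp : r ≠ p)
    (hΩ : r ∣ ((Cfsg.Geo.similarityGroup f).comap
        (Matrix.SpecialLinearGroup.toGL :
          Matrix.SpecialLinearGroup (Fin (2 * m)) F →* GL (Fin (2 * m)) F)).index) :
    ∃ j, j < m - 1 ∧ r ∣ q ^ (2 * j + 3) - 1 := by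
  classical
  have hpprime : p.Prime := Fact.out
  obtain ⟨k, hk⟩ := FiniteField.card F p
  rw [hq] at hk
  have hrq : ¬ r ∣ q := by
    rw [hk.2]
    intro h
    exact hrp ((Nat.prime_dvd_prime_iff_eq hr hpprime).mp (hr.dvd_of_dvd_pow h))
  have hq2 : 2 ≤ q := by rw [← hq]; exact Fintype.one_lt_card
  obtain ⟨t, ht⟩ := altder_card_dvd m (2 * m) rfl f hf
  have h1 := Subgroup.card_mul_index ((Cfsg.Geo.similarityGroup f).comap
        (Matrix.SpecialLinearGroup.toGL :
          Matrix.SpecialLinearGroup (Fin (2 * m)) F →* GL (Fin (2 * m)) F))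
  have h2 := Cfsg.Agent.Lib.Helper6.card_sl hq (2 * m) (by omega)
  rw [Fin.prod_univ_eq_prod_range (fun i => q ^ (2 * m) - q ^ i) (2 * m)] at h2
  rw [← h1, ht, Cfsg.Agent.S0245.result hq m] at h2
  refine altder_index_arith q m r _ t hq2 hm hr hrq ?_ hΩ
  rw [← h2]
  ring

end AltDerIndex2

section AltDerForm

open Cfsg.Agent.Lib.Helper97 Cfsg.Agent.Lib.Helper18

variable {F : Type*} [Field F] {n : ℕ} {f : (Fin n → F) → (Fin n → F) → F}

theorem altder_exists_ne (hf : Cfsg.Geo.IsSymplecticForm f) (hn : 0 < n) :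
    ∃ u v, f u v ≠ 0 := by
  have hne : (Pi.single (⟨0, hn⟩ : Fin n) (1 : F) : Fin n → F) ≠ 0 := by
    intro h
    have := congrFun h ⟨0, hn⟩
    simp at this
  obtain ⟨w, hw⟩ := (hf.nondegenerate _ hne).2
  exact ⟨_, w, hw⟩

/-- The multiplier of a similarity `G` with `G ^ k = 1` is a `k`-th root of unity. -/
theorem altder_mult_pow (hf : Cfsg.Geo.IsSymplecticForm f) (hn : 0 < n)
    (G : Matrix (Fin n) (Fin n) F) (c : F)
    (hG : ∀ u v, f (G *ᵥ u) (G *ᵥ v) = c * f u v) (k : ℕ) (hk : G ^ k = 1) : c ^ k = 1 := by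
  have h1 : ∀ j : ℕ, ∀ u v, f ((G ^ j) *ᵥ u) ((G ^ j) *ᵥ v) = c ^ j * f u v := by
    intro j
    induction j with
    | zero => intro u v; simp
    | succ j ih =>
      intro u v
      rw [pow_succ', ← Matrix.mulVec_mulVec, ← Matrix.mulVec_mulVec, hG, ih, pow_succ]
      ring
  obtain ⟨u, v, huv⟩ := altder_exists_ne hf hn
  have h2 := h1 k u v
  rw [hk, Matrix.one_mulVec, Matrix.one_mulVec] at h2
  have h3 : (c ^ k - 1) * f u v = 0 := by rw [sub_mul, one_mul, ← h2, sub_self]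
  rcases mul_eq_zero.mp h3 with h4 | h4
  · exact sub_eq_zero.mp h4
  · exact absurd h4 huv

theorem altder_rank_eq (G : Matrix (Fin n) (Fin n) F) (μ : F) :
    (G - μ • (1 : Matrix (Fin n) (Fin n) F)).rank
      = finrank F (LinearMap.range (Matrix.toLin' G - μ • LinearMap.id)) := by
  have e : (G - μ • (1 : Matrix (Fin n) (Fin n) F)).mulVecLin
      = Matrix.toLin' G - μ • LinearMap.id := by
    apply LinearMap.ext
    intro v
    rw [Matrix.mulVecLin_apply, Matrix.sub_mulVec, Matrix.smul_mulVec, Matrix.one_mulVec,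
      LinearMap.sub_apply, Matrix.toLin'_apply, LinearMap.smul_apply, LinearMap.id_apply]
  rw [Matrix.rank, e]

/-- An isometry of a symplectic form of order prime to the characteristic has even-dimensional
support. -/
theorem altder_even_rank [Fintype F] {p : ℕ} [Fact p.Prime] [CharP F p]
    (hf : Cfsg.Geo.IsSymplecticForm f) (G : Matrix (Fin n) (Fin n) F)
    (hG : ∀ u v, f (G *ᵥ u) (G *ᵥ v) = f u v) (r : ℕ) (hr : r.Prime) (hrp : r ≠ p)
    (hGr : G ^ r = 1) : Even (G - 1).rank := by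
  classical
  obtain ⟨X, hXdef⟩ : ∃ X : (Fin n → F) →ₗ[F] (Fin n → F), X = Matrix.toLin' G := ⟨_, rfl⟩
  have hXr : X ^ r = 1 := by
    rw [hXdef, ← Matrix.toLin'_pow, hGr, Matrix.toLin'_one]
    rfl
  have hXa : ∀ u, X u = G *ᵥ u := fun u => by rw [hXdef, Matrix.toLin'_apply]
  have hiso : ∀ u v, f (X u) (X v) = f u v := fun u v => by rw [hXa, hXa, hG]
  have hb := hf.bilinear
  have hBalt : (bil hb).IsAlt := fun x => hf.alternating x
  have hsurj : ∀ v, ∃ b, X b = v := by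
    intro v
    refine ⟨(X ^ (r - 1)) v, ?_⟩
    rw [← Module.End.mul_apply, ← pow_succ', Nat.sub_add_cancel hr.one_lt.le, hXr]
    rfl
  have hnd : ∀ w ∈ LinearMap.range (X - 1),
      (∀ w' ∈ LinearMap.range (X - 1), bil hb w w' = 0) → w = 0 := by
    rintro _ ⟨a, rfl⟩ hw
    apply lagder_ker_range X r hr hrp hXr a
    obtain ⟨w, hwdef⟩ : ∃ w, w = (X - 1) a := ⟨_, rfl⟩
    rw [← hwdef] at hw ⊢
    have h1 : ∀ b, f (X w - w) (X b) = 0 := by
      intro b
      have h2 : f w ((X - 1) b) = 0 := hw ((X - 1) b) ⟨b, rfl⟩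
      have h3 : (X - 1) b = X b - b := rfl
      rw [h3, form_sub_right hb] at h2
      rw [form_sub_left hb, hiso]
      rw [sub_eq_zero] at h2 ⊢
      exact h2.symm
    have h4 : X w - w = 0 := by
      by_contra hne
      obtain ⟨y, hy⟩ := (hf.nondegenerate _ hne).2
      obtain ⟨b, rfl⟩ := hsurj y
      exact hy (h1 b)
    exact sub_eq_zero.mp h4
  obtain ⟨k, e, g, hD⟩ := exists_darboux (bil hb) hBalt _ (LinearMap.range (X - 1)) rfl hnd
  have h5 := hD.finrank_eq hBalt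
  have h6 := altder_rank_eq G 1
  rw [one_smul] at h6
  have h7 : Matrix.toLin' G - (1 : F) • LinearMap.id = X - 1 := by
    rw [one_smul, hXdef]
    rfl
  rw [h6, h7, h5]
  exact even_two_mul k

/-- For a similarity `G` with multiplier `c`, the eigenspaces for `λ` and `c λ⁻¹` have the same
dimension. -/
theorem altder_rank_dual (hf : Cfsg.Geo.IsSymplecticForm f) (G : Matrix (Fin n) (Fin n) F)
    (hGu : IsUnit G.det) (c : F) (hc : c ≠ 0)
    (hG : ∀ u v, f (G *ᵥ u) (G *ᵥ v) = c * f u v) (lam : F) (hlam : lam ≠ 0) :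
    (G - (c * lam⁻¹) • (1 : Matrix (Fin n) (Fin n) F)).rank
      = (G - lam • (1 : Matrix (Fin n) (Fin n) F)).rank := by
  classical
  obtain ⟨X, hXdef⟩ : ∃ X : (Fin n → F) →ₗ[F] (Fin n → F), X = Matrix.toLin' G := ⟨_, rfl⟩
  have hXa : ∀ u, X u = G *ᵥ u := fun u => by rw [hXdef, Matrix.toLin'_apply]
  have hiso : ∀ u v, f (X u) (X v) = c * f u v := fun u v => by rw [hXa, hXa, hG]
  have hb := hf.bilinear
  have hsurj : ∀ v, ∃ b, X b = v := by
    intro v
    refine ⟨G⁻¹ *ᵥ v, ?_⟩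
    rw [hXa, Matrix.mulVec_mulVec, Matrix.mul_nonsing_inv _ hGu, Matrix.one_mulVec]
  have hsub : ∀ (μ : F) (u : Fin n → F),
      (X - μ • (LinearMap.id : (Fin n → F) →ₗ[F] (Fin n → F))) u = X u - μ • u :=
    fun μ u => rfl
  have horth : LinearMap.BilinForm.orthogonal (bil hb) (LinearMap.range (X - lam • LinearMap.id))
      = LinearMap.ker (X - (c * lam⁻¹) • LinearMap.id) := by
    ext v
    rw [LinearMap.BilinForm.mem_orthogonal_iff, LinearMap.mem_ker]
    constructor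
    · intro h
      have h1 : ∀ u, f (X u) v = lam * f u v := by
        intro u
        have h2 : f ((X - lam • (LinearMap.id : (Fin n → F) →ₗ[F] (Fin n → F))) u) v = 0 :=
          h _ ⟨u, rfl⟩
        rw [hsub, form_sub_left hb, hb.smul_left, sub_eq_zero] at h2
        exact h2
      rw [hsub]
      by_contra hne
      obtain ⟨y, hy⟩ := (hf.nondegenerate _ hne).1
      obtain ⟨u, rfl⟩ := hsurj y
      apply hy
      rw [form_sub_right hb, hb.smul_right, hiso, h1]
      field_simp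
      ring
    · intro h
      rintro _ ⟨u, rfl⟩
      rw [hsub, sub_eq_zero] at h
      change f ((X - lam • (LinearMap.id : (Fin n → F) →ₗ[F] (Fin n → F))) u) v = 0
      rw [hsub, form_sub_left hb, hb.smul_left, sub_eq_zero]
      have h5 := hiso u v
      rw [h, hb.smul_right] at h5
      have h6 : c * (lam⁻¹ * f (X u) v) = c * f u v := by rw [← h5]; ring
      have h7 := mul_left_cancel₀ hc h6
      rw [← h7]
      field_simp
  have h1 := LinearMap.BilinForm.finrank_orthogonal (bil_nondegenerate hf)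
    (LinearMap.range (X - lam • LinearMap.id))
  rw [horth, Module.finrank_fintype_fun_eq_card, Fintype.card_fin] at h1
  have h2 := LinearMap.finrank_range_add_finrank_ker (X - (c * lam⁻¹) • LinearMap.id)
  rw [Module.finrank_fintype_fun_eq_card, Fintype.card_fin] at h2
  have h3 : finrank F (LinearMap.range (X - lam • LinearMap.id)) ≤ n := by
    have := Submodule.finrank_le (LinearMap.range (X - lam • LinearMap.id))
    rwa [Module.finrank_fintype_fun_eq_card, Fintype.card_fin] at this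
  rw [altder_rank_eq, altder_rank_eq, ← hXdef]
  omega

end AltDerForm

section AltDerConj

open Cfsg.Agent.Lib.Helper97 Cfsg.Agent.Lib.Helper18

variable {F : Type*} [Field F] {n : ℕ} {f : (Fin n → F) → (Fin n → F) → F}

theorem altder_conj_pow (x P Pinv : Matrix (Fin n) (Fin n) F) (hPiP : Pinv * P = 1)
    (hPPi : P * Pinv = 1) (k : ℕ) : (Pinv * x * P) ^ k = Pinv * x ^ k * P := by
  induction k with
  | zero => rw [pow_zero, pow_zero, Matrix.mul_one, hPiP]
  | succ k ih =>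
    rw [pow_succ, ih, pow_succ]
    calc Pinv * x ^ k * P * (Pinv * x * P) = Pinv * x ^ k * (P * Pinv) * x * P := by
          simp only [Matrix.mul_assoc]
      _ = Pinv * (x ^ k * x) * P := by rw [hPPi, Matrix.mul_one, Matrix.mul_assoc Pinv]

theorem altder_conj_rank (x P Pinv : Matrix (Fin n) (Fin n) F) (hPiP : Pinv * P = 1) (μ : F) :
    (Pinv * x * P - μ • (1 : Matrix (Fin n) (Fin n) F)).rank
      = (x - μ • (1 : Matrix (Fin n) (Fin n) F)).rank := by
  have e : Pinv * x * P - μ • (1 : Matrix (Fin n) (Fin n) F)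
      = Pinv * (x - μ • (1 : Matrix (Fin n) (Fin n) F)) * P := by
    rw [Matrix.mul_sub, Matrix.sub_mul, Matrix.mul_smul, Matrix.mul_one, Matrix.smul_mul, hPiP]
  rw [e, Matrix.rank_mul_eq_left_of_isUnit_det P _ (Matrix.isUnit_det_of_left_inverse hPiP),
    Matrix.rank_mul_eq_right_of_isUnit_det Pinv _ (Matrix.isUnit_det_of_right_inverse hPiP)]

/-- An element of prime order `r` whose support has odd dimension `ord_r(q) ≠ 1` is not
conjugate to a similarity of a symplectic form. -/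
theorem altder_block_not_sim [Fintype F] {p : ℕ} [Fact p.Prime] [CharP F p]
    (hf : Cfsg.Geo.IsSymplecticForm f) (hn : 0 < n) (r : ℕ) [Fact r.Prime] (hrp : r ≠ p)
    (hodd : Odd (orderOf ((Fintype.card F : ℕ) : ZMod r)))
    (hr1 : ¬ r ∣ Fintype.card F - 1)
    (x P Pinv : Matrix (Fin n) (Fin n) F) (hPiP : Pinv * P = 1) (hPPi : P * Pinv = 1)
    (hxr : x ^ r = 1) (hx1 : x ≠ 1)
    (hrank : (x - 1).rank ≤ orderOf ((Fintype.card F : ℕ) : ZMod r))
    (c : Fˣ) (hsim : ∀ u v, f ((Pinv * x * P) *ᵥ u) ((Pinv * x * P) *ᵥ v) = (c : F) * f u v) :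
    False := by
  classical
  have hr : r.Prime := Fact.out
  obtain ⟨G, hGdef⟩ : ∃ G, G = Pinv * x * P := ⟨_, rfl⟩
  rw [← hGdef] at hsim
  have hGr : G ^ r = 1 := by
    rw [hGdef, altder_conj_pow x P Pinv hPiP hPPi, hxr, Matrix.mul_one, hPiP]
  have hc1 : (c : F) = 1 := by
    have h1 := altder_mult_pow hf hn G c hsim r hGr
    have h2 := FiniteField.pow_card_sub_one_eq_one (c : F) c.ne_zero
    have h3 : (c : F) ^ Nat.gcd r (Fintype.card F - 1) = 1 := pow_gcd_eq_one.mpr ⟨h1, h2⟩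
    have h4 : Nat.gcd r (Fintype.card F - 1) = 1 := (Nat.Prime.coprime_iff_not_dvd hr).mpr hr1
    rw [h4, pow_one] at h3
    exact h3
  have hiso : ∀ u v, f (G *ᵥ u) (G *ᵥ v) = f u v := fun u v => by rw [hsim, hc1, one_mul]
  have heven := altder_even_rank hf G hiso r hr hrp hGr
  have hrk : (G - 1).rank = (x - 1).rank := by
    have h1 := altder_conj_rank x P Pinv hPiP 1
    rw [one_smul] at h1
    rw [hGdef]
    exact h1
  obtain ⟨X, hXdef⟩ : ∃ X : (Fin n → F) →ₗ[F] (Fin n → F), X = Matrix.toLin' G := ⟨_, rfl⟩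
  have hXr : X ^ r = 1 := by
    rw [hXdef, ← Matrix.toLin'_pow, hGr, Matrix.toLin'_one]
    rfl
  have hdvd := lagder_dvd_finrank X r hrp hXr (LinearMap.range (X - 1)) le_rfl (by
    rintro _ ⟨u, rfl⟩
    refine ⟨X u, ?_⟩
    change X (X u) - X u = X (X u - u)
    rw [map_sub])
  have h6 : (G - 1).rank = finrank F (LinearMap.range (X - 1)) := by
    have h1 := altder_rank_eq G 1
    rw [one_smul] at h1
    have h7 : Matrix.toLin' G - (1 : F) • LinearMap.id = X - 1 := by
      rw [one_smul, hXdef]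
      rfl
    rw [h1, h7]
  have hpos : 0 < (G - 1).rank := by
    rw [Nat.pos_iff_ne_zero, h6]
    intro h0
    rw [Submodule.finrank_eq_zero] at h0
    have h1 : X - 1 = 0 := LinearMap.range_eq_bot.mp h0
    have h2 : G = 1 := by
      apply Matrix.toLin'.injective
      rw [← hXdef, sub_eq_zero.mp h1, Matrix.toLin'_one]
      rfl
    apply hx1
    have h3 : P * G * Pinv = x := by
      rw [hGdef]
      calc P * (Pinv * x * P) * Pinv = (P * Pinv) * x * (P * Pinv) := by simp only [Matrix.mul_assoc]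
        _ = x := by rw [hPPi, Matrix.one_mul, Matrix.mul_one]
    rw [← h3, h2, Matrix.mul_one, hPPi]
  rw [← h6] at hdvd
  have h8 : (G - 1).rank = orderOf ((Fintype.card F : ℕ) : ZMod r) :=
    le_antisymm (hrk ▸ hrank) (Nat.le_of_dvd hpos hdvd)
  rw [h8] at heven
  exact (Nat.not_even_iff_odd.mpr hodd) heven

end AltDerConj

section AltDerPsi

variable {F : Type*} [Field F] {ι κ : Type*} [Fintype ι] [Fintype κ] [DecidableEq ι]
  [DecidableEq κ]

/-- The block embedding `Y ↦ E Y Eᵀ + (1 - E Eᵀ)` for a matrix `E` with `Eᵀ E = 1`. -/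
def altderPsi (E : Matrix ι κ F) (Y : Matrix κ κ F) : Matrix ι ι F :=
  E * Y * Eᵀ + (1 - E * Eᵀ)

theorem altderPsi_one (E : Matrix ι κ F) : altderPsi E 1 = 1 := by
  rw [altderPsi, Matrix.mul_one]
  abel

theorem altderPsi_mul (E : Matrix ι κ F) (hE : Eᵀ * E = 1) (Y Z : Matrix κ κ F) :
    altderPsi E Y * altderPsi E Z = altderPsi E (Y * Z) := by
  have hE' : ∀ (M : Matrix κ ι F), Eᵀ * (E * M) = M := by
    intro M
    rw [← Matrix.mul_assoc, hE, Matrix.one_mul]
  unfold altderPsi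
  simp only [Matrix.add_mul, Matrix.mul_add, Matrix.sub_mul, Matrix.mul_sub, Matrix.mul_assoc,
    hE', Matrix.mul_one, Matrix.one_mul]
  abel

theorem altderPsi_pow (E : Matrix ι κ F) (hE : Eᵀ * E = 1) (Y : Matrix κ κ F) (k : ℕ) :
    altderPsi E Y ^ k = altderPsi E (Y ^ k) := by
  induction k with
  | zero => rw [pow_zero, pow_zero, altderPsi_one]
  | succ k ih => rw [pow_succ, pow_succ, ih, altderPsi_mul E hE]

theorem altderPsi_inj (E : Matrix ι κ F) (hE : Eᵀ * E = 1) (Y : Matrix κ κ F)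
    (hY : altderPsi E Y = 1) : Y = 1 := by
  have h1 : Eᵀ * altderPsi E Y * E = Eᵀ * (1 : Matrix ι ι F) * E := by rw [hY]
  unfold altderPsi at h1
  have hE' : ∀ (M : Matrix κ κ F), Eᵀ * (E * M) = M := by
    intro M
    rw [← Matrix.mul_assoc, hE, Matrix.one_mul]
  simp only [Matrix.add_mul, Matrix.mul_add, Matrix.sub_mul, Matrix.mul_sub, Matrix.mul_assoc,
    hE, Matrix.mul_one, Matrix.one_mul] at h1
  simpa [hE'] using h1

theorem altderPsi_rank (E : Matrix ι κ F) (Y : Matrix κ κ F) :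
    (altderPsi E Y - 1).rank ≤ Fintype.card κ := by
  have e : altderPsi E Y - 1 = E * ((Y - 1) * Eᵀ) := by
    unfold altderPsi
    rw [Matrix.sub_mul, Matrix.one_mul, Matrix.mul_sub, Matrix.mul_assoc]
    abel
  rw [e]
  exact (Matrix.rank_mul_le_left _ _).trans (Matrix.rank_le_card_width _)

end AltDerPsi

section AltDerExists

variable {F : Type*} [Field F]

/-- Packaging a matrix of determinant one as an element of `SL_n` with the derangement
property. -/
theorem altder_wrap (n : ℕ) (f : (Fin n → F) → (Fin n → F) → F) (r : ℕ)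
    (X₀ : Matrix (Fin n) (Fin n) F) (hdet : X₀.det = 1) (hXr : X₀ ^ r = 1)
    (hns : ∀ z : F, X₀ ≠ z • (1 : Matrix (Fin n) (Fin n) F))
    (hno : ∀ P Pinv : Matrix (Fin n) (Fin n) F, Pinv * P = 1 → P * Pinv = 1 → ∀ c : Fˣ,
        ¬ (∀ u v, f ((Pinv * X₀ * P) *ᵥ u) ((Pinv * X₀ * P) *ᵥ v) = (c : F) * f u v)) :
    ∃ x : Matrix.SpecialLinearGroup (Fin n) F,
      (∃ z : F, ((x ^ r : Matrix.SpecialLinearGroup (Fin n) F) : Matrix (Fin n) (Fin n) F)
        = z • (1 : Matrix (Fin n) (Fin n) F)) ∧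
      (∀ z : F, (x : Matrix (Fin n) (Fin n) F) ≠ z • (1 : Matrix (Fin n) (Fin n) F)) ∧
      ∀ P : Matrix.SpecialLinearGroup (Fin n) F, P⁻¹ * x * P ∉
        ((Cfsg.Geo.similarityGroup f).comap (Matrix.SpecialLinearGroup.toGL :
          Matrix.SpecialLinearGroup (Fin n) F →* GL (Fin n) F)) := by
  obtain ⟨x, hx⟩ : ∃ x : Matrix.SpecialLinearGroup (Fin n) F, x.1 = X₀ := ⟨⟨X₀, hdet⟩, rfl⟩
  refine ⟨x, ⟨1, ?_⟩, ?_, ?_⟩
  · rw [one_smul, Matrix.SpecialLinearGroup.coe_pow]
    change x.1 ^ r = 1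
    rw [hx]
    exact hXr
  · intro z
    change x.1 ≠ _
    rw [hx]
    exact hns z
  · intro P hP
    rw [Subgroup.mem_comap] at hP
    obtain ⟨c, hc⟩ := hP
    refine hno P.1 (P⁻¹).1 ?_ ?_ c ?_
    · rw [← Matrix.SpecialLinearGroup.coe_mul, inv_mul_cancel]
      rfl
    · rw [← Matrix.SpecialLinearGroup.coe_mul, mul_inv_cancel]
      rfl
    · intro u v
      rw [← hx]
      exact hc u v

/-- In a finite field, a `r`-th root of unity is trivial when `r` does not divide `q - 1`. -/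
theorem altder_root_one [Fintype F] (r : ℕ) (hr : r.Prime) (hr1 : ¬ r ∣ Fintype.card F - 1)
    (z : F) (hz : z ^ r = 1) : z = 1 := by
  have hz0 : z ≠ 0 := by
    intro h0
    rw [h0, zero_pow hr.ne_zero] at hz
    exact zero_ne_one hz
  have h2 := FiniteField.pow_card_sub_one_eq_one z hz0
  have h3 : z ^ Nat.gcd r (Fintype.card F - 1) = 1 := pow_gcd_eq_one.mpr ⟨hz, h2⟩
  have h4 : Nat.gcd r (Fintype.card F - 1) = 1 := (Nat.Prime.coprime_iff_not_dvd hr).mpr hr1
  rw [h4, pow_one] at h3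
  exact h3

theorem altder_smul_pow (n : ℕ) (hn : 0 < n) (z : F) (k : ℕ)
    (h : (z • (1 : Matrix (Fin n) (Fin n) F)) ^ k = 1) : z ^ k = 1 := by
  rw [smul_pow, one_pow] at h
  have h1 := congrFun (congrFun h ⟨0, hn⟩) ⟨0, hn⟩
  rw [Matrix.smul_apply, Matrix.one_apply_eq, smul_eq_mul, mul_one] at h1
  exact h1

/-- The derangement when the order of `q` modulo `r` is odd and at least three. -/
theorem altder_exists_block [Fintype F] {p : ℕ} [Fact p.Prime] [CharP F p] {q : ℕ}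
    (hq : Fintype.card F = q) (n : ℕ) (f : (Fin n → F) → (Fin n → F) → F)
    (hf : Cfsg.Geo.IsSymplecticForm f) (r : ℕ) [Fact r.Prime] (hrp : r ≠ p)
    (hodd : Odd (orderOf ((q : ℕ) : ZMod r))) (hr1 : ¬ r ∣ q - 1)
    (hle : orderOf ((q : ℕ) : ZMod r) ≤ n) :
    ∃ x : Matrix.SpecialLinearGroup (Fin n) F,
      (∃ z : F, ((x ^ r : Matrix.SpecialLinearGroup (Fin n) F) : Matrix (Fin n) (Fin n) F)
        = z • (1 : Matrix (Fin n) (Fin n) F)) ∧
      (∀ z : F, (x : Matrix (Fin n) (Fin n) F) ≠ z • (1 : Matrix (Fin n) (Fin n) F)) ∧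
      ∀ P : Matrix.SpecialLinearGroup (Fin n) F, P⁻¹ * x * P ∉
        ((Cfsg.Geo.similarityGroup f).comap (Matrix.SpecialLinearGroup.toGL :
          Matrix.SpecialLinearGroup (Fin n) F →* GL (Fin n) F)) := by
  classical
  subst hq
  have hr : r.Prime := Fact.out
  obtain ⟨i₀, hi₀⟩ : ∃ i₀, i₀ = orderOf ((Fintype.card F : ℕ) : ZMod r) := ⟨_, rfl⟩
  rw [← hi₀] at hodd hle
  have hi₀pos : 0 < i₀ := hodd.pos
  have hn : 0 < n := by omega
  have hq1 : 1 ≤ Fintype.card F := Fintype.card_pos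
  have hdvd : r ∣ Fintype.card F ^ i₀ - 1 := by
    have h3 : ((Fintype.card F : ℕ) : ZMod r) ^ i₀ = 1 := by
      rw [hi₀]
      exact pow_orderOf_eq_one _
    have h4 : ((Fintype.card F ^ i₀ - 1 : ℕ) : ZMod r) = 0 := by
      rw [Nat.cast_sub (Nat.one_le_pow _ _ hq1)]
      push_cast
      rw [h3, sub_self]
    exact (ZMod.natCast_eq_zero_iff _ _).mp h4
  have hcard : r ∣ Nat.card (GL (Fin i₀) F) := by
    rw [Matrix.card_GL_field]
    apply dvd_trans _ (Finset.dvd_prod_of_mem _ (Finset.mem_univ (⟨0, hi₀pos⟩ : Fin i₀)))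
    simpa using hdvd
  obtain ⟨y, hy⟩ := exists_prime_orderOf_dvd_card' r hcard
  have hyr : y.1 ^ r = 1 := by
    rw [← Units.val_pow_eq_pow_val, ← hy, pow_orderOf_eq_one]
    rfl
  have hy1 : y.1 ≠ 1 := by
    intro h1
    have h2 : y = 1 := Units.ext h1
    rw [h2, orderOf_one] at hy
    exact hr.one_lt.ne hy
  have hE := lagderE0_mul (F := F) i₀ n hle
  obtain ⟨X₀, hX₀⟩ : ∃ X₀, X₀ = altderPsi (lagderE0 i₀ n hle F) y.1 := ⟨_, rfl⟩
  have hXr : X₀ ^ r = 1 := by rw [hX₀, altderPsi_pow _ hE, hyr, altderPsi_one]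
  have hX1 : X₀ ≠ 1 := by
    intro h1
    rw [hX₀] at h1
    exact hy1 (altderPsi_inj _ hE _ h1)
  have hrank : (X₀ - 1).rank ≤ i₀ := by
    have := altderPsi_rank (lagderE0 i₀ n hle F) y.1
    rwa [Fintype.card_fin, ← hX₀] at this
  have hdet : X₀.det = 1 := by
    apply altder_root_one r hr hr1
    rw [← Matrix.det_pow, hXr, Matrix.det_one]
  refine altder_wrap n f r X₀ hdet hXr ?_ ?_
  · intro z hz
    apply hX1
    have hz1 : z = 1 := by
      apply altder_root_one r hr hr1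
      apply altder_smul_pow n hn
      rw [← hz, hXr]
    rw [hz, hz1, one_smul]
  · intro P Pinv hPiP hPPi c hsim
    exact altder_block_not_sim hf hn r hrp (hi₀ ▸ hodd) hr1 X₀ P Pinv hPiP hPPi hXr hX1
      (hi₀ ▸ hrank) c hsim

end AltDerExists

section AltDerUnip

open Cfsg.Agent.Lib.Helper97

variable {F : Type*} [Field F]

/-- The nilpotent matrix `E₀₁ + E₁₂`. -/
def altderN (n : ℕ) (h : 3 ≤ n) (F : Type*) [Field F] : Matrix (Fin n) (Fin n) F :=
  Matrix.single (⟨0, by omega⟩ : Fin n) (⟨1, by omega⟩ : Fin n) (1 : F)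
    + Matrix.single (⟨1, by omega⟩ : Fin n) (⟨2, by omega⟩ : Fin n) (1 : F)

theorem altderN_sq (n : ℕ) (h : 3 ≤ n) :
    altderN n h F * altderN n h F
      = Matrix.single (⟨0, by omega⟩ : Fin n) (⟨2, by omega⟩ : Fin n) (1 : F) := by
  have h10 : (⟨1, by omega⟩ : Fin n) ≠ ⟨0, by omega⟩ := by simp [Fin.ext_iff]
  have h20 : (⟨2, by omega⟩ : Fin n) ≠ ⟨0, by omega⟩ := by simp [Fin.ext_iff]
  have h21 : (⟨2, by omega⟩ : Fin n) ≠ ⟨1, by omega⟩ := by simp [Fin.ext_iff]
  unfold altderN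
  rw [Matrix.add_mul, Matrix.mul_add, Matrix.mul_add, Matrix.single_mul_single_same,
    Matrix.single_mul_single_of_ne (h := h10), Matrix.single_mul_single_of_ne (h := h20),
    Matrix.single_mul_single_of_ne (h := h21)]
  simp

theorem altderN_cube (n : ℕ) (h : 3 ≤ n) :
    altderN n h F * altderN n h F * altderN n h F = 0 := by
  have h20 : (⟨2, by omega⟩ : Fin n) ≠ ⟨0, by omega⟩ := by simp [Fin.ext_iff]
  have h21 : (⟨2, by omega⟩ : Fin n) ≠ ⟨1, by omega⟩ := by simp [Fin.ext_iff]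
  rw [altderN_sq]
  unfold altderN
  rw [Matrix.mul_add, Matrix.single_mul_single_of_ne (h := h20),
    Matrix.single_mul_single_of_ne (h := h21), add_zero]

theorem altder_pow_char_one {p : ℕ} [Fact p.Prime] [CharP F p] {a : F} (h : a ^ p = 1) :
    a = 1 := by
  have h1 : (a - 1) ^ p = 0 := by rw [sub_pow_char, h, one_pow, sub_self]
  exact sub_eq_zero.mp (pow_eq_zero_iff (Fact.out : p.Prime).ne_zero |>.mp h1)

theorem altder_unip_pow {p : ℕ} [Fact p.Prime] [CharP F p] (hp3 : 3 ≤ p) (n : ℕ) (h : 3 ≤ n) :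
    (1 + altderN n h F) ^ p = 1 := by
  have hne : Nonempty (Fin n) := ⟨⟨0, by omega⟩⟩
  have hN3 : altderN n h F ^ 3 = 0 := by
    rw [pow_succ, pow_two]
    exact altderN_cube n h
  have hNp : altderN n h F ^ p = 0 := by
    rw [← Nat.sub_add_cancel hp3, pow_add, hN3, mul_zero]
  rw [add_pow_char_of_commute p (Commute.one_left _), one_pow, hNp,
    add_zero]

/-- The unipotent element `1 + E₀₁ + E₁₂` is not conjugate to a similarity of a symplectic
form in odd characteristic. -/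
theorem altder_unip_not_sim {p : ℕ} [Fact p.Prime] [CharP F p] (hp3 : 3 ≤ p)
    (h2 : (2 : F) ≠ 0) (n : ℕ) (h3 : 3 ≤ n) (f : (Fin n → F) → (Fin n → F) → F)
    (hf : Cfsg.Geo.IsSymplecticForm f)
    (P Pinv : Matrix (Fin n) (Fin n) F) (hPiP : Pinv * P = 1) (hPPi : P * Pinv = 1) (c : Fˣ)
    (hsim : ∀ u v, f ((Pinv * (1 + altderN n h3 F) * P) *ᵥ u)
      ((Pinv * (1 + altderN n h3 F) * P) *ᵥ v) = (c : F) * f u v) : False := by
  classical
  have hb := hf.bilinear
  have hn : 0 < n := by omega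
  obtain ⟨N, hN⟩ : ∃ N, N = altderN n h3 F := ⟨_, rfl⟩
  rw [← hN] at hsim
  have hNN : N * N = Matrix.single (⟨0, by omega⟩ : Fin n) (⟨2, by omega⟩ : Fin n) (1 : F) := by
    rw [hN]; exact altderN_sq n h3
  have hNNN : N * N * N = 0 := by rw [hN]; exact altderN_cube n h3
  obtain ⟨G, hGdef⟩ : ∃ G, G = Pinv * (1 + N) * P := ⟨_, rfl⟩
  rw [← hGdef] at hsim
  have hxp : (1 + N) ^ p = 1 := by rw [hN]; exact altder_unip_pow hp3 n h3
  have hGp : G ^ p = 1 := by
    rw [hGdef, altder_conj_pow _ P Pinv hPiP hPPi, hxp, Matrix.mul_one, hPiP]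
  have hc1 : (c : F) = 1 := altder_pow_char_one (altder_mult_pow hf hn G c hsim p hGp)
  obtain ⟨M, hM⟩ : ∃ M, M = Pinv * N * P := ⟨_, rfl⟩
  have hGM : G = 1 + M := by
    rw [hGdef, hM, Matrix.mul_add, Matrix.mul_one, Matrix.add_mul, hPiP]
  have hstar : ∀ u v, f (M *ᵥ u) v + f u (M *ᵥ v) + f (M *ᵥ u) (M *ᵥ v) = 0 := by
    intro u v
    have h1 := hsim u v
    rw [hc1, one_mul, hGM, Matrix.add_mulVec, Matrix.one_mulVec, Matrix.add_mulVec,
      Matrix.one_mulVec, hb.add_left, hb.add_right, hb.add_right] at h1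
    linear_combination h1
  have hMM : M * M = Pinv * (N * N) * P := by
    rw [hM]
    calc Pinv * N * P * (Pinv * N * P) = Pinv * N * (P * Pinv) * N * P := by
          simp only [Matrix.mul_assoc]
      _ = Pinv * (N * N) * P := by rw [hPPi, Matrix.mul_one, Matrix.mul_assoc Pinv]
  have hMMM : M * M * M = 0 := by
    rw [hMM, hM]
    calc Pinv * (N * N) * P * (Pinv * N * P) = Pinv * (N * N) * (P * Pinv) * N * P := by
          simp only [Matrix.mul_assoc]
      _ = Pinv * (N * N * N) * P := by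
          rw [hPPi, Matrix.mul_one]
          simp only [Matrix.mul_assoc]
      _ = 0 := by rw [hNNN, Matrix.mul_zero, Matrix.zero_mul]
  have hT3 : ∀ u, M *ᵥ (M *ᵥ (M *ᵥ u)) = 0 := by
    intro u
    rw [Matrix.mulVec_mulVec, Matrix.mulVec_mulVec, hMMM, Matrix.zero_mulVec]
  have key : ∀ u v, f (M *ᵥ (M *ᵥ u)) v = f u (M *ᵥ (M *ᵥ v)) := by
    intro u v
    have e1 := hstar (M *ᵥ u) v
    have e2 := hstar u (M *ᵥ v)
    have e3 := hstar (M *ᵥ (M *ᵥ u)) v
    have e4 := hstar u (M *ᵥ (M *ᵥ v))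
    rw [hT3, form_zero_left hb, form_zero_left hb] at e3
    rw [hT3, form_zero_right hb, form_zero_right hb] at e4
    linear_combination e1 - e2 - e3 + e4
  obtain ⟨w₀, hw₀⟩ : ∃ w₀ : Fin n → F,
      w₀ = Pinv *ᵥ Pi.single (⟨0, by omega⟩ : Fin n) (1 : F) := ⟨_, rfl⟩
  have hMMv : ∀ v, M *ᵥ (M *ᵥ v) = ((P *ᵥ v) (⟨2, by omega⟩ : Fin n)) • w₀ := by
    intro v
    rw [Matrix.mulVec_mulVec, hMM, hNN, ← Matrix.mulVec_mulVec, ← Matrix.mulVec_mulVec,
      Matrix.single_mulVec, one_mul, hw₀, ← Matrix.mulVec_smul]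
    congr 1
    ext k
    simp [Function.update_apply, Pi.single_apply]
  obtain ⟨u₀, hu₀⟩ : ∃ u₀ : Fin n → F,
      u₀ = Pinv *ᵥ Pi.single (⟨2, by omega⟩ : Fin n) (1 : F) := ⟨_, rfl⟩
  have ha0 : (P *ᵥ u₀) (⟨2, by omega⟩ : Fin n) = 1 := by
    rw [hu₀, Matrix.mulVec_mulVec, hPPi, Matrix.one_mulVec]
    simp
  have sym : ∀ u v, (P *ᵥ u) (⟨2, by omega⟩ : Fin n) * f w₀ v
      = (P *ᵥ v) (⟨2, by omega⟩ : Fin n) * f u w₀ := by
    intro u v
    have h1 := key u v
    rw [hMMv, hMMv, hb.smul_left, hb.smul_right] at h1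
    exact h1
  have h00 : f w₀ u₀ = 0 := by
    have h1 := sym u₀ u₀
    rw [ha0, one_mul, one_mul, hf.skew u₀ w₀] at h1
    have h4 : (2 : F) * f w₀ u₀ = 0 := by linear_combination h1
    exact (mul_eq_zero.mp h4).resolve_left h2
  have hall : ∀ v, f w₀ v = 0 := by
    intro v
    have h1 := sym u₀ v
    rw [ha0, one_mul, hf.skew u₀ w₀, h00, neg_zero, mul_zero] at h1
    exact h1
  have hw₀ne : w₀ ≠ 0 := by
    intro h0
    have h1 : P *ᵥ w₀ = Pi.single (⟨0, by omega⟩ : Fin n) (1 : F) := by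
      rw [hw₀, Matrix.mulVec_mulVec, hPPi, Matrix.one_mulVec]
    rw [h0, Matrix.mulVec_zero] at h1
    have h5 := congrFun h1 (⟨0, by omega⟩ : Fin n)
    simp at h5
  obtain ⟨y, hy⟩ := (hf.nondegenerate w₀ hw₀ne).2
  exact hy (hall y)

/-- The derangement of order `p` (for odd `p`). -/
theorem altder_exists_unip {p : ℕ} [Fact p.Prime] [CharP F p] (hp3 : 3 ≤ p)
    (n : ℕ) (h3 : 3 ≤ n) (f : (Fin n → F) → (Fin n → F) → F)
    (hf : Cfsg.Geo.IsSymplecticForm f) :
    ∃ x : Matrix.SpecialLinearGroup (Fin n) F,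
      (∃ z : F, ((x ^ p : Matrix.SpecialLinearGroup (Fin n) F) : Matrix (Fin n) (Fin n) F)
        = z • (1 : Matrix (Fin n) (Fin n) F)) ∧
      (∀ z : F, (x : Matrix (Fin n) (Fin n) F) ≠ z • (1 : Matrix (Fin n) (Fin n) F)) ∧
      ∀ P : Matrix.SpecialLinearGroup (Fin n) F, P⁻¹ * x * P ∉
        ((Cfsg.Geo.similarityGroup f).comap (Matrix.SpecialLinearGroup.toGL :
          Matrix.SpecialLinearGroup (Fin n) F →* GL (Fin n) F)) := by
  classical
  have hp : p.Prime := Fact.out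
  have h2 : (2 : F) ≠ 0 := by
    intro h0
    have h1 : ((2 : ℕ) : F) = 0 := by exact_mod_cast h0
    have h4 := (CharP.cast_eq_zero_iff F p 2).mp h1
    have := Nat.le_of_dvd (by norm_num) h4
    omega
  have hxp := altder_unip_pow (F := F) hp3 n h3
  refine altder_wrap n f p (1 + altderN n h3 F) ?_ hxp ?_ ?_
  · apply altder_pow_char_one (p := p)
    rw [← Matrix.det_pow, hxp, Matrix.det_one]
  · intro z hz
    have h1 := congrFun (congrFun hz (⟨0, by omega⟩ : Fin n)) (⟨1, by omega⟩ : Fin n)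
    have h10 : (⟨0, by omega⟩ : Fin n) ≠ ⟨1, by omega⟩ := by simp [Fin.ext_iff]
    simp [altderN, Matrix.one_apply, h10, Fin.ext_iff] at h1
  · intro P Pinv hPiP hPPi c hsim
    exact altder_unip_not_sim hp3 h2 n h3 f hf P Pinv hPiP hPPi c hsim

end AltDerUnip

section AltDerDiag

variable {F : Type*} [Field F]

/-- A matrix with an eigenvalue `ζ` of a multiplicity that no other eigenvalue has, with
eigenvalue `1` but without eigenvalue `ζ²`, is not conjugate to a similarity of a symplectic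
form. -/
theorem altder_not_sim_of_rank {n : ℕ} {f : (Fin n → F) → (Fin n → F) → F}
    (hf : Cfsg.Geo.IsSymplecticForm f)
    (x P Pinv : Matrix (Fin n) (Fin n) F) (hPiP : Pinv * P = 1)
    (hxu : IsUnit x.det) (zeta : F) (hz : zeta ≠ 0)
    (hR2 : ∀ μ : F, (x - μ • (1 : Matrix (Fin n) (Fin n) F)).rank
      = (x - zeta • (1 : Matrix (Fin n) (Fin n) F)).rank → μ = zeta)
    (hR34 : (x - (zeta * zeta) • (1 : Matrix (Fin n) (Fin n) F)).rank
      ≠ (x - (1 : F) • (1 : Matrix (Fin n) (Fin n) F)).rank)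
    (c : Fˣ) (hsim : ∀ u v, f ((Pinv * x * P) *ᵥ u) ((Pinv * x * P) *ᵥ v) = (c : F) * f u v) :
    False := by
  have hGu : IsUnit (Pinv * x * P).det := by
    rw [Matrix.det_mul, Matrix.det_mul]
    exact ((Matrix.isUnit_det_of_right_inverse hPiP).mul hxu).mul
      (Matrix.isUnit_det_of_left_inverse hPiP)
  have h1 := altder_rank_dual hf _ hGu (c : F) c.ne_zero hsim zeta hz
  rw [altder_conj_rank x P Pinv hPiP, altder_conj_rank x P Pinv hPiP] at h1
  have h2 := hR2 _ h1
  have hc : (c : F) = zeta * zeta := by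
    calc (c : F) = (c : F) * zeta⁻¹ * zeta := by field_simp
      _ = zeta * zeta := by rw [h2]
  have h3 := altder_rank_dual hf _ hGu (c : F) c.ne_zero hsim 1 one_ne_zero
  rw [altder_conj_rank x P Pinv hPiP, altder_conj_rank x P Pinv hPiP, inv_one, mul_one, hc] at h3
  exact hR34 h3

/-- The diagonal `(ζ, ζ, ζ⁻², 1, …, 1)`. -/
def altderD (m : ℕ) (zeta : F) : Fin (m + 1 + 1 + 1 + 1) → F :=
  Fin.cons zeta (Fin.cons zeta (Fin.cons (zeta⁻¹ * zeta⁻¹) (fun _ => 1)))

theorem altderD_count [DecidableEq F] (m : ℕ) (zeta μ : F) :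
    Nat.card {i : Fin (m + 1 + 1 + 1 + 1) // altderD m zeta i - μ ≠ 0}
      = (if zeta = μ then 0 else 1) + ((if zeta = μ then 0 else 1)
        + ((if zeta⁻¹ * zeta⁻¹ = μ then 0 else 1) + (m + 1) * (if (1 : F) = μ then 0 else 1))) := by
  rw [Nat.card_eq_fintype_card, Fintype.card_subtype, Finset.card_filter, Fin.sum_univ_succ,
    Fin.sum_univ_succ, Fin.sum_univ_succ]
  simp only [altderD, Fin.cons_zero, Fin.cons_succ]
  simp [sub_eq_zero]

theorem altderD_rank [DecidableEq F] (m : ℕ) (zeta μ : F) :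
    (Matrix.diagonal (altderD m zeta) - μ • (1 : Matrix (Fin (m + 1 + 1 + 1 + 1))
        (Fin (m + 1 + 1 + 1 + 1)) F)).rank
      = (if zeta = μ then 0 else 1) + ((if zeta = μ then 0 else 1)
        + ((if zeta⁻¹ * zeta⁻¹ = μ then 0 else 1) + (m + 1) * (if (1 : F) = μ then 0 else 1))) := by
  rw [Matrix.smul_one_eq_diagonal, Matrix.diagonal_sub, Matrix.rank_diagonal,
    ← Nat.card_eq_fintype_card]
  exact altderD_count m zeta μ

/-- The derangement of order `r` for `r` dividing `q - 1`. -/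
theorem altder_exists_diag (m : ℕ) (hmeven : Even m)
    (f : (Fin (m + 1 + 1 + 1 + 1) → F) → (Fin (m + 1 + 1 + 1 + 1) → F) → F)
    (hf : Cfsg.Geo.IsSymplecticForm f) (r : ℕ) [Fact r.Prime] (hr2 : r ≠ 2)
    (hgap : ¬ (m = 2 ∧ r = 3)) (zeta : F) (hzr : zeta ^ r = 1) (hz1 : zeta ≠ 1) :
    ∃ x : Matrix.SpecialLinearGroup (Fin (m + 1 + 1 + 1 + 1)) F,
      (∃ z : F, ((x ^ r : Matrix.SpecialLinearGroup (Fin (m + 1 + 1 + 1 + 1)) F) :
          Matrix (Fin (m + 1 + 1 + 1 + 1)) (Fin (m + 1 + 1 + 1 + 1)) F)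
        = z • (1 : Matrix (Fin (m + 1 + 1 + 1 + 1)) (Fin (m + 1 + 1 + 1 + 1)) F)) ∧
      (∀ z : F, (x : Matrix (Fin (m + 1 + 1 + 1 + 1)) (Fin (m + 1 + 1 + 1 + 1)) F)
        ≠ z • (1 : Matrix (Fin (m + 1 + 1 + 1 + 1)) (Fin (m + 1 + 1 + 1 + 1)) F)) ∧
      ∀ P : Matrix.SpecialLinearGroup (Fin (m + 1 + 1 + 1 + 1)) F, P⁻¹ * x * P ∉
        ((Cfsg.Geo.similarityGroup f).comap (Matrix.SpecialLinearGroup.toGL :
          Matrix.SpecialLinearGroup (Fin (m + 1 + 1 + 1 + 1)) F →*
            GL (Fin (m + 1 + 1 + 1 + 1)) F)) := by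
  classical
  have hr : r.Prime := Fact.out
  have hord : orderOf zeta = r := orderOf_eq_prime hzr hz1
  have hz0 : zeta ≠ 0 := by
    rintro rfl
    rw [zero_pow hr.ne_zero] at hzr
    exact zero_ne_one hzr
  have hk : ∀ k : ℕ, zeta ^ k = 1 → r ∣ k := fun k hk => hord ▸ orderOf_dvd_of_pow_eq_one hk
  have hz2 : zeta * zeta ≠ 1 := by
    intro h
    have h1 := hk 2 (by rw [pow_two]; exact h)
    exact hr2 ((Nat.prime_dvd_prime_iff_eq hr Nat.prime_two).mp h1)
  have hz4 : zeta * zeta * (zeta * zeta) ≠ 1 := by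
    intro h
    have h1 := hk 4 (by rw [← h]; ring)
    have h3 : r ∣ 2 := hr.dvd_of_dvd_pow (show r ∣ 2 ^ 2 by norm_num; exact h1)
    exact hr2 ((Nat.prime_dvd_prime_iff_eq hr Nat.prime_two).mp h3)
  have hz3 : zeta * zeta * zeta = 1 → r = 3 := by
    intro h
    have h1 := hk 3 (by rw [← h]; ring)
    exact (Nat.prime_dvd_prime_iff_eq hr Nat.prime_three).mp h1
  have hB1 : ¬ zeta⁻¹ * zeta⁻¹ = 1 := by
    intro h
    apply hz2
    calc zeta * zeta = zeta * zeta * (zeta⁻¹ * zeta⁻¹) := by rw [h, mul_one]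
      _ = 1 := by field_simp
  have hBz : zeta⁻¹ * zeta⁻¹ = zeta → zeta * zeta * zeta = 1 := by
    intro h
    calc zeta * zeta * zeta = zeta * zeta * (zeta⁻¹ * zeta⁻¹) := by rw [h]
      _ = 1 := by field_simp
  have hA2 : ¬ zeta = zeta * zeta := by
    intro h
    apply hz1
    have h1 : zeta * 1 = zeta * zeta := by rw [mul_one]; exact h
    exact (mul_left_cancel₀ hz0 h1).symm
  have hB2 : ¬ zeta⁻¹ * zeta⁻¹ = zeta * zeta := by
    intro h
    apply hz4
    calc zeta * zeta * (zeta * zeta) = zeta * zeta * (zeta⁻¹ * zeta⁻¹) := by rw [h]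
      _ = 1 := by field_simp
  have hC2 : ¬ (1 : F) = zeta * zeta := fun h => hz2 h.symm
  have hdet : (Matrix.diagonal (altderD m zeta)).det = 1 := by
    rw [Matrix.det_diagonal, Fin.prod_univ_succ, Fin.prod_univ_succ, Fin.prod_univ_succ]
    simp only [altderD, Fin.cons_zero, Fin.cons_succ, Finset.prod_const_one, mul_one]
    field_simp
  have hpw : ∀ i, altderD m zeta i ^ r = 1 := by
    intro i
    refine Fin.cases ?_ (fun i => ?_) i
    · simp only [altderD, Fin.cons_zero]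
      exact hzr
    · refine Fin.cases ?_ (fun i => ?_) i
      · simp only [altderD, Fin.cons_succ, Fin.cons_zero]
        exact hzr
      · refine Fin.cases ?_ (fun i => ?_) i
        · simp only [altderD, Fin.cons_succ, Fin.cons_zero]
          rw [mul_pow, inv_pow, hzr]
          simp
        · simp only [altderD, Fin.cons_succ]
          exact one_pow r
  have hXr : Matrix.diagonal (altderD m zeta) ^ r = 1 := by
    rw [Matrix.diagonal_pow]
    have : altderD m zeta ^ r = 1 := funext hpw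
    rw [this]
    exact Matrix.diagonal_one
  refine altder_wrap _ f r (Matrix.diagonal (altderD m zeta)) hdet hXr ?_ ?_
  · intro z hz
    rw [Matrix.smul_one_eq_diagonal] at hz
    have h := Matrix.diagonal_injective hz
    have h0 := congrFun h 0
    have h3 := congrFun h (Fin.succ (Fin.succ (Fin.succ 0)))
    simp only [altderD, Fin.cons_zero, Fin.cons_succ] at h0 h3
    exact hz1 (h0.trans h3.symm)
  · intro P Pinv hPiP hPPi c hsim
    refine altder_not_sim_of_rank hf _ P Pinv hPiP (by rw [hdet]; exact isUnit_one) zeta hz0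
      ?_ ?_ c hsim
    · intro μ hμ
      rw [altderD_rank, altderD_rank] at hμ
      by_contra hne
      have hne' : ¬ zeta = μ := fun h => hne h.symm
      have hz1' : ¬ (1 : F) = zeta := fun h => hz1 h.symm
      by_cases hμ1 : (1 : F) = μ
      · subst hμ1
        by_cases h3 : zeta⁻¹ * zeta⁻¹ = zeta
        · have hr3 := hz3 (hBz h3)
          simp [hz1, hz1', hB1, h3] at hμ
          exact hgap ⟨by omega, hr3⟩
        · simp [hz1, hz1', hB1, h3] at hμ
          obtain ⟨k, hk'⟩ := hmeven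
          omega
      · by_cases h3 : zeta⁻¹ * zeta⁻¹ = zeta
        · by_cases h4 : zeta⁻¹ * zeta⁻¹ = μ
          · exact hne' (h3.symm.trans h4)
          · simp [hne', hz1', hμ1, h3, h4] at hμ <;> omega
        · by_cases h4 : zeta⁻¹ * zeta⁻¹ = μ
          · simp [hne', hne, hz1', hμ1, h4] at hμ <;> omega
          · simp [hne', hz1', hμ1, h3, h4] at hμ <;> omega
    · rw [altderD_rank, altderD_rank]
      simp [hA2, hB2, hC2, hz1, hB1]
      omega

end AltDerDiag

section AltDerMain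

variable {F : Type*} [Field F]

/-- Derangements of odd prime order of `PSL_n(q)` on the cosets of the similarity group of a
symplectic form. -/
theorem altder_main [Fintype F] {p : ℕ} [Fact p.Prime] [CharP F p] {q : ℕ}
    (hq : Fintype.card F = q) (n : ℕ) (hn : 4 ≤ n) (he : Even n)
    (f : (Fin n → F) → (Fin n → F) → F) (hf : Cfsg.Geo.IsSymplecticForm f)
    (r : ℕ) [Fact r.Prime] (hr2 : r ≠ 2) (hgap : ¬ (n = 6 ∧ r = 3))
    (hΩ : r ∣ ((Cfsg.Geo.similarityGroup f).comap (Matrix.SpecialLinearGroup.toGL :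
      Matrix.SpecialLinearGroup (Fin n) F →* GL (Fin n) F)).index) :
    ∃ x : Matrix.SpecialLinearGroup (Fin n) F,
      (∃ z : F, ((x ^ r : Matrix.SpecialLinearGroup (Fin n) F) : Matrix (Fin n) (Fin n) F)
        = z • (1 : Matrix (Fin n) (Fin n) F)) ∧
      (∀ z : F, (x : Matrix (Fin n) (Fin n) F) ≠ z • (1 : Matrix (Fin n) (Fin n) F)) ∧
      ∀ P : Matrix.SpecialLinearGroup (Fin n) F, P⁻¹ * x * P ∉
        ((Cfsg.Geo.similarityGroup f).comap (Matrix.SpecialLinearGroup.toGL :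
          Matrix.SpecialLinearGroup (Fin n) F →* GL (Fin n) F)) := by
  classical
  have hr : r.Prime := Fact.out
  by_cases hrp : r = p
  · subst hrp
    exact altder_exists_unip (by have := hr.two_le; omega) n (by omega) f hf
  · have hq1 : 1 ≤ q := by rw [← hq]; exact Fintype.card_pos
    have hfacts : Odd (orderOf ((q : ℕ) : ZMod r)) ∧ orderOf ((q : ℕ) : ZMod r) ≤ n := by
      obtain ⟨m, hm⟩ : ∃ m, n = 2 * m := by
        obtain ⟨k, hk⟩ := he
        exact ⟨k, by omega⟩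
      subst hm
      obtain ⟨j, hj, hrj⟩ := altder_index_prime hq m (by omega) f hf r hr hrp hΩ
      have hz : ((q : ℕ) : ZMod r) ^ (2 * j + 3) = 1 := by
        have h4 : ((q ^ (2 * j + 3) - 1 : ℕ) : ZMod r) = 0 :=
          (ZMod.natCast_eq_zero_iff _ _).mpr hrj
        rw [Nat.cast_sub (Nat.one_le_pow _ _ hq1)] at h4
        push_cast at h4
        exact sub_eq_zero.mp h4
      have hdvd : orderOf ((q : ℕ) : ZMod r) ∣ 2 * j + 3 := orderOf_dvd_of_pow_eq_one hz
      exact ⟨Odd.of_dvd_nat ⟨j + 1, by ring⟩ hdvd,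
        le_trans (Nat.le_of_dvd (by omega) hdvd) (by omega)⟩
    obtain ⟨hodd, hle⟩ := hfacts
    by_cases hr1 : r ∣ q - 1
    · have hcard : r ∣ Nat.card Fˣ := by
        rw [Nat.card_units, Nat.card_eq_fintype_card, hq]
        exact hr1
      obtain ⟨u, hu⟩ := exists_prime_orderOf_dvd_card' r hcard
      have hzr : (u : F) ^ r = 1 := by
        rw [← Units.val_pow_eq_pow_val, ← hu, pow_orderOf_eq_one]
        rfl
      have hz1 : (u : F) ≠ 1 := by
        intro h
        have h1 : u = 1 := Units.ext h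
        rw [h1, orderOf_one] at hu
        exact hr.one_lt.ne hu
      obtain ⟨k, rfl⟩ : ∃ k, n = k + 1 + 1 + 1 + 1 := ⟨n - 4, by omega⟩
      have hk : Even k := by
        obtain ⟨t, ht⟩ := he
        exact ⟨t - 2, by omega⟩
      exact altder_exists_diag k hk f hf r hr2 (fun h => hgap ⟨by omega, h.2⟩) (u : F) hzr hz1
    · subst hq
      exact altder_exists_block rfl n f hf r hrp hodd hr1 hle

end AltDerMain

end Cfsg.Agent.Lib.Helper98
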