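import Mathlib

/-!
Combinatorial packing lemma: a finite set of size `a * t` with an involution can be split into `t`
blocks of size `a` that the involution permutes.  Plus a linear-algebra assembly lemma turning such
a block map on the index set of a basis into a decomposition into subspaces permuted by a linear map.
-/

namespace Cfsg.Agent.Lib.Helper98

section comb

variable {ι : Type*} [DecidableEq ι]

theorem exists_invariant_subset (π : ι → ι) (hπ : Function.Involutive π) (S : Finset ι)
    (hS : ∀ i ∈ S, π i ∈ S) :
    ∀ m, m ≤ S.card → (Even m ∨ ∃ i ∈ S, π i = i) →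
      ∃ B : Finset ι, B ⊆ S ∧ B.card = m ∧ ∀ i ∈ B, π i ∈ B := by
  intro m
  induction m using Nat.strong_induction_on with
  | _ m ih =>
  intro hm hpar
  rcases Nat.lt_or_ge m 2 with hlt | hge
  · interval_cases m
    · exact ⟨∅, by simp, by simp, by simp⟩
    · rcases hpar with h | ⟨i, hi, hfix⟩
      · exact absurd h (by decide)
      · exact ⟨{i}, by simpa using hi, by simp, by simp [hfix]⟩
  · have hpar' : Even (m - 2) ∨ ∃ i ∈ S, π i = i := by
      rcases hpar with h | h
      · left
        obtain ⟨k, hk⟩ := h
        exact ⟨k - 1, by omega⟩
      · exact Or.inr h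
    obtain ⟨B', hB'S, hB'c, hB'inv⟩ := ih (m - 2) (by omega) (by omega) hpar'
    have hex : ∃ i ∈ S, i ∉ B' := by
      by_contra h
      push_neg at h
      have h1 : S ⊆ B' := h
      have h2 := Finset.card_le_card h1
      omega
    obtain ⟨i, hiS, hiB⟩ := hex
    have hπnot : ∀ j, j ∉ B' → π j ∉ B' := by
      intro j hj hπj
      have h1 := hB'inv _ hπj
      rw [hπ j] at h1
      exact hj h1
    by_cases hfix : π i = i
    · have hex2 : ∃ i' ∈ S, i' ∉ insert i B' := by
        by_contra h
        push_neg at h
        have h1 : S ⊆ insert i B' := h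
        have h2 := Finset.card_le_card h1
        rw [Finset.card_insert_of_notMem hiB] at h2
        omega
      obtain ⟨i', hi'S, hi'B⟩ := hex2
      rw [Finset.mem_insert, not_or] at hi'B
      by_cases hfix' : π i' = i'
      · refine ⟨insert i (insert i' B'), ?_, ?_, ?_⟩
        · exact Finset.insert_subset hiS (Finset.insert_subset hi'S hB'S)
        · rw [Finset.card_insert_of_notMem, Finset.card_insert_of_notMem hi'B.2, hB'c]
          · omega
          · rw [Finset.mem_insert, not_or]
            exact ⟨fun h => hi'B.1 h.symm, hiB⟩
        · intro j hj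
          simp only [Finset.mem_insert] at hj ⊢
          rcases hj with rfl | rfl | hj
          · left; exact hfix
          · right; left; exact hfix'
          · right; right; exact hB'inv j hj
      · refine ⟨insert i' (insert (π i') B'), ?_, ?_, ?_⟩
        · exact Finset.insert_subset hi'S (Finset.insert_subset (hS i' hi'S) hB'S)
        · rw [Finset.card_insert_of_notMem, Finset.card_insert_of_notMem (hπnot i' hi'B.2), hB'c]
          · omega
          · rw [Finset.mem_insert, not_or]
            exact ⟨fun h => hfix' h.symm, hi'B.2⟩
        · intro j hj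
          simp only [Finset.mem_insert] at hj ⊢
          rcases hj with rfl | rfl | hj
          · right; left; rfl
          · left; exact hπ _
          · right; right; exact hB'inv j hj
    · refine ⟨insert i (insert (π i) B'), ?_, ?_, ?_⟩
      · exact Finset.insert_subset hiS (Finset.insert_subset (hS i hiS) hB'S)
      · rw [Finset.card_insert_of_notMem, Finset.card_insert_of_notMem (hπnot i hiB), hB'c]
        · omega
        · rw [Finset.mem_insert, not_or]
          exact ⟨fun h => hfix h.symm, hiB⟩
      · intro j hj
        simp only [Finset.mem_insert] at hj ⊢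
        rcases hj with rfl | rfl | hj
        · right; left; rfl
        · left; exact hπ _
        · right; right; exact hB'inv j hj

theorem exists_section_subset (π : ι → ι) (hπ : Function.Involutive π) (S : Finset ι)
    (hnf : ∀ i ∈ S, π i ≠ i) :
    ∀ m, 2 * m ≤ S.card → ∃ B : Finset ι, B ⊆ S ∧ B.card = m ∧ ∀ i ∈ B, π i ∉ B := by
  intro m
  induction m with
  | zero => intro _; exact ⟨∅, by simp, by simp, by simp⟩
  | succ m ih =>
    intro hm
    obtain ⟨B', hB'S, hB'c, hB'sec⟩ := ih (by omega)
    have hex : ∃ i ∈ S, i ∉ B' ∪ B'.image π := by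
      by_contra h
      push_neg at h
      have hsub : S ⊆ B' ∪ B'.image π := h
      have h1 := Finset.card_le_card hsub
      have h2 := Finset.card_union_le B' (B'.image π)
      have h3 := Finset.card_image_le (s := B') (f := π)
      omega
    obtain ⟨i, hiS, hi⟩ := hex
    rw [Finset.mem_union, not_or] at hi
    refine ⟨insert i B', Finset.insert_subset hiS hB'S, by
      rw [Finset.card_insert_of_notMem hi.1, hB'c], ?_⟩
    intro j hj
    rw [Finset.mem_insert] at hj ⊢
    rcases hj with rfl | hj
    · rintro (h | h)
      · exact hnf j hiS h
      · exact hi.2 (Finset.mem_image.mpr ⟨π j, h, hπ j⟩)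
    · rintro (h | h)
      · exact hi.2 (Finset.mem_image.mpr ⟨j, hj, h⟩)
      · exact hB'sec j hj h

omit [DecidableEq ι] in
theorem even_card_of_no_fixed (π : ι → ι) (hπ : Function.Involutive π) (S : Finset ι)
    (hS : ∀ i ∈ S, π i ∈ S) (hnf : ∀ i ∈ S, π i ≠ i) : Even S.card := by
  have h := Finset.sum_involution (s := S) (f := fun _ => (1 : ZMod 2)) (fun a _ => π a)
    (fun a _ => by decide) (fun a ha _ => hnf a ha) (fun a ha => hS a ha) (fun a _ => hπ a)
  rw [Finset.sum_const, nsmul_eq_mul, mul_one] at h
  exact ZMod.natCast_eq_zero_iff_even.mp h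

theorem exists_block_map (a : ℕ) (ha : 1 ≤ a) (π : ι → ι) (hπ : Function.Involutive π) :
    ∀ (t : ℕ) (S : Finset ι), 1 ≤ t → (∀ i ∈ S, π i ∈ S) → S.card = a * t →
      ∃ (κ : Type) (_ : Fintype κ) (g : ι → κ) (σ : Equiv.Perm κ), Fintype.card κ = t ∧
        (∀ j, Set.ncard {i | i ∈ S ∧ g i = j} = a) ∧ ∀ i ∈ S, g (π i) = σ (g i) := by
  intro t
  induction t using Nat.strong_induction_on with
  | _ t ih =>
  intro S ht hS hcard
  by_cases hA : Even a ∨ ∃ i ∈ S, π i = i
  · rcases Nat.lt_or_ge t 2 with ht2 | ht2
    · have ht1 : t = 1 := by omega
      subst ht1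
      refine ⟨Unit, inferInstance, fun _ => (), Equiv.refl _, by simp, ?_, by simp⟩
      intro j
      have h1 : {i | i ∈ S ∧ () = j} = (S : Set ι) := by
        ext i
        simp
      rw [h1, Set.ncard_coe_finset, hcard, mul_one]
    · obtain ⟨B, hBS, hBc, hBinv⟩ := exists_invariant_subset π hπ S hS a
        (by rw [hcard]; nlinarith) hA
      have hS' : ∀ i ∈ S \ B, π i ∈ S \ B := by
        intro i hi
        rw [Finset.mem_sdiff] at hi ⊢
        refine ⟨hS i hi.1, fun h => hi.2 ?_⟩
        have h1 := hBinv _ h
        rwa [hπ i] at h1
      have hc' : (S \ B).card = a * (t - 1) := by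
        rw [Finset.card_sdiff_of_subset hBS, hcard, hBc, Nat.mul_sub, mul_one]
      obtain ⟨κ', _, g', σ', hκ', hfib', heq'⟩ := ih (t - 1) (by omega) (S \ B) (by omega) hS' hc'
      refine ⟨Option κ', inferInstance, fun i => if i ∈ B then none else some (g' i),
        Equiv.optionCongr σ', by rw [Fintype.card_option, hκ']; omega, ?_, ?_⟩
      · intro j
        cases j with
        | none =>
          have h1 : {i | i ∈ S ∧ (if i ∈ B then none else some (g' i)) = none} = (B : Set ι) := by
            ext i
            simp only [Set.mem_setOf_eq, Finset.mem_coe]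
            constructor
            · rintro ⟨_, h⟩
              by_contra hi
              simp [hi] at h
            · intro hi
              exact ⟨hBS hi, by simp [hi]⟩
          rw [h1, Set.ncard_coe_finset, hBc]
        | some j' =>
          have h1 : {i | i ∈ S ∧ (if i ∈ B then none else some (g' i)) = some j'} =
              {i | i ∈ S \ B ∧ g' i = j'} := by
            ext i
            simp only [Set.mem_setOf_eq, Finset.mem_sdiff]
            constructor
            · rintro ⟨hiS, h⟩
              by_cases hi : i ∈ B
              · simp [hi] at h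
              · simp only [hi, if_false, Option.some.injEq] at h
                exact ⟨⟨hiS, hi⟩, h⟩
            · rintro ⟨⟨hiS, hi⟩, h⟩
              exact ⟨hiS, by simp [hi, h]⟩
          rw [h1, hfib']
      · intro i hi
        by_cases hiB : i ∈ B
        · have h1 := hBinv i hiB
          simp [hiB, h1]
        · have h1 : π i ∉ B := by
            intro h
            have h2 := hBinv _ h
            rw [hπ i] at h2
            exact hiB h2
          simp only [hiB, h1, if_false]
          rw [heq' i (Finset.mem_sdiff.mpr ⟨hi, hiB⟩)]
          rfl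
  · push_neg at hA
    obtain ⟨haodd, hnf⟩ := hA
    have hev : Even S.card := even_card_of_no_fixed π hπ S hS hnf
    rw [hcard] at hev
    have htev : Even t := by
      rcases Nat.even_mul.mp hev with h | h
      · exact absurd h haodd
      · exact h
    have ht2 : 2 ≤ t := by
      obtain ⟨k, hk⟩ := htev
      omega
    obtain ⟨B, hBS, hBc, hBsec⟩ := exists_section_subset π hπ S hnf a
      (by rw [hcard]; nlinarith)
    have hπinj : Function.Injective π := hπ.injective
    have hBπc : (B.image π).card = a := by rw [Finset.card_image_of_injective _ hπinj, hBc]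
    have hdisj : Disjoint B (B.image π) := by
      rw [Finset.disjoint_left]
      intro i hi hi'
      obtain ⟨j, hj, rfl⟩ := Finset.mem_image.mp hi'
      exact hBsec j hj hi
    have hBπS : B.image π ⊆ S := by
      intro i hi
      obtain ⟨j, hj, rfl⟩ := Finset.mem_image.mp hi
      exact hS j (hBS hj)
    have hmemπ : ∀ i, i ∈ B.image π ↔ π i ∈ B := by
      intro i
      constructor
      · intro hi
        obtain ⟨j, hj, rfl⟩ := Finset.mem_image.mp hi
        rwa [hπ j]
      · intro hi
        exact Finset.mem_image.mpr ⟨π i, hi, hπ i⟩
    have hCS : B ∪ B.image π ⊆ S := Finset.union_subset hBS hBπS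
    have hCc : (B ∪ B.image π).card = 2 * a := by
      rw [Finset.card_union_of_disjoint hdisj, hBc, hBπc]
      omega
    rcases Nat.lt_or_ge t 3 with ht3 | ht3
    · have ht2' : t = 2 := by omega
      subst ht2'
      have hSeq : B ∪ B.image π = S :=
        Finset.eq_of_subset_of_card_le hCS (by rw [hCc, hcard]; omega)
      refine ⟨Bool, inferInstance, fun i => decide (i ∈ B), Equiv.boolNot, by simp, ?_, ?_⟩
      · intro j
        cases j with
        | true =>
          have h1 : {i | i ∈ S ∧ decide (i ∈ B) = true} = (B : Set ι) := by
            ext i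
            simp only [Set.mem_setOf_eq, decide_eq_true_eq, Finset.mem_coe]
            exact ⟨fun h => h.2, fun h => ⟨hBS h, h⟩⟩
          rw [h1, Set.ncard_coe_finset, hBc]
        | false =>
          have h1 : {i | i ∈ S ∧ decide (i ∈ B) = false} = ((B.image π : Finset ι) : Set ι) := by
            ext i
            simp only [Set.mem_setOf_eq, decide_eq_false_iff_not, Finset.mem_coe]
            constructor
            · rintro ⟨hiS, hiB⟩
              rw [← hSeq, Finset.mem_union] at hiS
              rcases hiS with h | h
              · exact absurd h hiB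
              · exact h
            · intro h
              exact ⟨hBπS h, fun hB => (Finset.disjoint_left.mp hdisj) hB h⟩
          rw [h1, Set.ncard_coe_finset, hBπc]
      · intro i hi
        by_cases hiB : i ∈ B
        · have h1 : π i ∉ B := hBsec i hiB
          simp [hiB, h1, Equiv.boolNot]
        · have h1 : π i ∈ B := by
            rw [← hSeq, Finset.mem_union] at hi
            rcases hi with h | h
            · exact absurd h hiB
            · exact (hmemπ i).mp h
          simp [hiB, h1, Equiv.boolNot]
    · have hS' : ∀ i ∈ S \ (B ∪ B.image π), π i ∈ S \ (B ∪ B.image π) := by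
        intro i hi
        rw [Finset.mem_sdiff, Finset.mem_union, not_or] at hi ⊢
        refine ⟨hS i hi.1, fun h => hi.2.2 ((hmemπ i).mpr h), fun h => hi.2.1 ?_⟩
        have h1 := (hmemπ (π i)).mp h
        rwa [hπ i] at h1
      have hc' : (S \ (B ∪ B.image π)).card = a * (t - 2) := by
        rw [Finset.card_sdiff_of_subset hCS, hcard, hCc, Nat.mul_sub]
        omega
      obtain ⟨κ', _, g', σ', hκ', hfib', heq'⟩ :=
        ih (t - 2) (by omega) (S \ (B ∪ B.image π)) (by omega) hS' hc'
      refine ⟨κ' ⊕ Bool, inferInstance,
        fun i => if i ∈ B then Sum.inr true else if π i ∈ B then Sum.inr false else Sum.inl (g' i),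
        Equiv.sumCongr σ' Equiv.boolNot, by rw [Fintype.card_sum, hκ', Fintype.card_bool]; omega,
        ?_, ?_⟩
      · intro j
        rcases j with j' | j'
        · have h1 : {i | i ∈ S ∧ (if i ∈ B then (Sum.inr true : κ' ⊕ Bool) else
              if π i ∈ B then Sum.inr false else Sum.inl (g' i)) = Sum.inl j'} =
              {i | i ∈ S \ (B ∪ B.image π) ∧ g' i = j'} := by
            ext i
            simp only [Set.mem_setOf_eq, Finset.mem_sdiff, Finset.mem_union, not_or, hmemπ]
            constructor
            · rintro ⟨hiS, h⟩
              by_cases hi : i ∈ B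
              · simp [hi] at h
              · by_cases hi' : π i ∈ B
                · simp [hi, hi'] at h
                · simp only [hi, hi', if_false, Sum.inl.injEq] at h
                  exact ⟨⟨hiS, hi, hi'⟩, h⟩
            · rintro ⟨⟨hiS, hi, hi'⟩, h⟩
              exact ⟨hiS, by simp [hi, hi', h]⟩
          rw [h1, hfib']
        · cases j' with
          | true =>
            have h1 : {i | i ∈ S ∧ (if i ∈ B then (Sum.inr true : κ' ⊕ Bool) else
                if π i ∈ B then Sum.inr false else Sum.inl (g' i)) = Sum.inr true} = (B : Set ι) := by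
              ext i
              simp only [Set.mem_setOf_eq, Finset.mem_coe]
              constructor
              · rintro ⟨_, h⟩
                by_contra hi
                by_cases hi' : π i ∈ B
                · simp [hi, hi'] at h
                · simp [hi, hi'] at h
              · intro hi
                exact ⟨hBS hi, by simp [hi]⟩
            rw [h1, Set.ncard_coe_finset, hBc]
          | false =>
            have h1 : {i | i ∈ S ∧ (if i ∈ B then (Sum.inr true : κ' ⊕ Bool) else
                if π i ∈ B then Sum.inr false else Sum.inl (g' i)) = Sum.inr false} =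
                ((B.image π : Finset ι) : Set ι) := by
              ext i
              simp only [Set.mem_setOf_eq, Finset.mem_coe, hmemπ]
              constructor
              · rintro ⟨_, h⟩
                by_contra hi'
                by_cases hi : i ∈ B
                · simp [hi] at h
                · simp [hi, hi'] at h
              · intro hi'
                have hi : i ∉ B := fun hB => hBsec i hB hi'
                exact ⟨hBπS ((hmemπ i).mpr hi'), by simp [hi, hi']⟩
            rw [h1, Set.ncard_coe_finset, hBπc]
      · intro i hi
        by_cases hiB : i ∈ B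
        · have h1 : π i ∉ B := hBsec i hiB
          simp [hiB, h1, hπ i, Equiv.boolNot]
        · by_cases hiB' : π i ∈ B
          · simp [hiB, hiB', Equiv.boolNot]
          · simp only [hiB, hiB', hπ i, if_false]
            rw [heq' i (Finset.mem_sdiff.mpr ⟨hi, by
              rw [Finset.mem_union, not_or]
              exact ⟨hiB, fun h => hiB' ((hmemπ i).mp h)⟩⟩)]
            rfl

end comb

/-- A finite type of size `a * t` with an involution `π` admits a map onto `Fin t` with all fibres
of size `a` and compatible with `π` through a permutation of `Fin t`. -/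
theorem exists_block_map_fin (a t : ℕ) (ha : 1 ≤ a) (ht : 1 ≤ t) {ι : Type*} [Fintype ι]
    (π : ι → ι) (hπ : Function.Involutive π) (hcard : Fintype.card ι = a * t) :
    ∃ (g : ι → Fin t) (σ : Equiv.Perm (Fin t)),
      (∀ j, Set.ncard {i | g i = j} = a) ∧ ∀ i, g (π i) = σ (g i) := by
  classical
  obtain ⟨κ, _, g, σ, hκ, hfib, heq⟩ := exists_block_map a ha π hπ t Finset.univ ht
    (fun i _ => Finset.mem_univ _) (by rw [Finset.card_univ, hcard])
  let e : κ ≃ Fin t := Fintype.equivFinOfCardEq hκ
  refine ⟨fun i => e (g i), e.permCongr σ, ?_, ?_⟩
  · intro j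
    have h1 : {i | e (g i) = j} = {i | i ∈ Finset.univ ∧ g i = e.symm j} := by
      ext i
      simp only [Set.mem_setOf_eq, Finset.mem_univ, true_and]
      constructor
      · intro h
        rw [← h, Equiv.symm_apply_apply]
      · intro h
        rw [h, Equiv.apply_symm_apply]
    rw [h1, hfib]
  · intro i
    show e (g (π i)) = (e.permCongr σ) (e (g i))
    rw [heq i (Finset.mem_univ _), Equiv.permCongr_apply, Equiv.symm_apply_apply]

section assembly

variable {F V : Type*} [Field F] [AddCommGroup V] [Module F V]

/-- Grouping a basis along a block map gives a decomposition into subspaces of equal dimension which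
a linear map respecting the blocks permutes. -/
theorem decomposition_of_basis [FiniteDimensional F V] {κ : Type*} [Finite κ] (b : κ → V)
    (hli : LinearIndependent F b) (hsp : Submodule.span F (Set.range b) = ⊤) {t m : ℕ}
    (h : κ → Fin t) (hfib : ∀ j, Set.ncard {k | h k = j} = m) (σ : Equiv.Perm (Fin t))
    (X : V →ₗ[F] V) (hinj : Function.Injective X)
    (hX : ∀ k, X (b k) ∈ Submodule.span F (b '' {k' | h k' = σ (h k)})) :
    (∀ j, Module.finrank F (Submodule.span F (b '' {k | h k = j})) = m) ∧
    iSupIndep (fun j => Submodule.span F (b '' {k | h k = j})) ∧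
    (⨆ j, Submodule.span F (b '' {k | h k = j})) = ⊤ ∧
    ∀ j, (Submodule.span F (b '' {k | h k = j})).map X = Submodule.span F (b '' {k | h k = σ j}) := by
  have hfin : ∀ j, Module.finrank F (Submodule.span F (b '' {k | h k = j})) = m := by
    intro j
    have h1 : LinearIndependent F (fun k : {k | h k = j} => b k) :=
      hli.comp _ Subtype.val_injective
    have h2 : Set.range (fun k : {k | h k = j} => b k) = b '' {k | h k = j} := by
      ext v
      constructor
      · rintro ⟨k, rfl⟩
        exact ⟨k.1, k.2, rfl⟩
      · rintro ⟨k, hk, rfl⟩
        exact ⟨⟨k, hk⟩, rfl⟩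
    have : Fintype {k | h k = j} := Fintype.ofFinite _
    rw [← h2, finrank_span_eq_card h1, ← Nat.card_eq_fintype_card, ← hfib j]
    exact Nat.card_coe_set_eq _
  refine ⟨hfin, ?_, ?_, ?_⟩
  · intro j
    have h1 : (⨆ (j') (_ : j' ≠ j), Submodule.span F (b '' {k | h k = j'})) ≤
        Submodule.span F (b '' {k | h k ≠ j}) := by
      refine iSup₂_le (fun j' hj' => Submodule.span_mono (Set.image_mono ?_))
      intro k hk
      have hk' : h k = j' := hk
      show h k ≠ j
      rw [hk']
      exact hj'
    refine Disjoint.mono_right h1 (hli.disjoint_span_image ?_)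
    rw [Set.disjoint_left]
    intro k hk hk'
    exact hk' hk
  · rw [eq_top_iff, ← hsp]
    refine Submodule.span_le.mpr ?_
    rintro _ ⟨k, rfl⟩
    exact Submodule.mem_iSup_of_mem (h k) (Submodule.subset_span ⟨k, rfl, rfl⟩)
  · intro j
    have hle : (Submodule.span F (b '' {k | h k = j})).map X ≤
        Submodule.span F (b '' {k | h k = σ j}) := by
      rw [Submodule.map_span, Submodule.span_le]
      rintro _ ⟨_, ⟨k, hk, rfl⟩, rfl⟩
      have h3 := hX k
      rw [show h k = j from hk] at h3
      exact h3
    apply Submodule.eq_of_le_of_finrank_eq hle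
    rw [hfin (σ j), ← hfin j]
    exact (Submodule.equivMapOfInjective X hinj _).finrank_eq.symm

end assembly

end Cfsg.Agent.Lib.Helper98
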