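import Mathlib
import Cfsg.Prelude.Def_GeometricClasses
import Cfsg.Agent.Lib.Helper98.TensO3

/-!
# Imprimitive orthogonal stabilisers preserving a frame are not maximal (helper98)

* `card_eq_of_decomp`: `t * m = card ι` for an `m`-decomposition into `t` blocks.
* `frame_decomp_not_maximal`: in odd characteristic, if the stabiliser in `Ω` of an orthogonal
  decomposition `D` (at least five blocks) preserves a set `L` consisting, up to sign, of vectors
  `a i j ∈ D i` (with `a i j₁` of constant norm and orthogonal to the other `a i j`), then it is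
  not maximal in `Ω`: the stabiliser of `L` lies strictly in between.
* `IsFrameOn.map_isometry`: frames are transported by isometries between subspaces.
* `decomp3_three`: decompositions into non-degenerate 3-spaces over the field with three elements
  (`O_3(3) wr S_t`).
* `decomp2_minus_three`: decompositions into anisotropic planes over the field with three elements
  (`O_2^-(3) wr S_t`).
-/

set_option autoImplicit false
set_option linter.unusedSectionVars false
set_option linter.unusedSimpArgs false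

namespace Cfsg.Agent.Lib.Helper98

open Cfsg Module Matrix QuadraticMap

section

variable {ι : Type} [Fintype ι] [DecidableEq ι] {F : Type*} [Field F]

theorem card_eq_of_decomp {t m : ℕ} (D : Fin t → Submodule F (ι → F))
    (hD : Cfsg.Geo.IsMDecomposition m D) : t * m = Fintype.card ι := by
  classical
  have hInt : DirectSum.IsInternal D :=
    DirectSum.isInternal_submodule_of_iSupIndep_of_iSup_eq_top hD.indep hD.iSup_eq_top
  have h1 := Module.finrank_eq_card_basis
    (hInt.collectedBasis (fun j => Module.finBasisOfFinrankEq F (D j) (hD.finrank_eq j)))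
  rw [Module.finrank_fintype_fun_eq_card] at h1
  simp at h1
  exact h1.symm

theorem rmap_neg (Q : QuadraticForm F (ι → F)) (x v : ι → F) :
    rmap Q x (-v) = -rmap Q x v := by
  unfold rmap
  rw [polar_neg_right]
  module

variable [Fintype F]

/-- In odd characteristic, an imprimitive stabiliser in `Ω` preserving a set of frame vectors (up
to sign) is not maximal. -/
theorem frame_decomp_not_maximal (Q : QuadraticForm F (ι → F)) (h2 : (2 : F) ≠ 0) {t : ℕ}
    (ht : 5 ≤ t) (D : Fin t → Submodule F (ι → F))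
    (hDo : ∀ i i', i ≠ i' → ∀ u ∈ D i, ∀ v ∈ D i', polar ⇑Q u v = 0)
    {κ : Type} (j₁ j₂ : κ) (hj : j₂ ≠ j₁) (a : Fin t → κ → (ι → F)) (δ : F) (hδ : δ ≠ 0)
    (haD : ∀ i j, a i j ∈ D i) (haQ₁ : ∀ i, Q (a i j₁) = δ) (haQ₂ : ∀ i, Q (a i j₂) ≠ 0)
    (hao : ∀ i j, j ≠ j₁ → polar ⇑Q (a i j₁) (a i j) = 0) (L : Set (ι → F))
    (hLH : ∀ g ∈ Cfsg.Geo.decompositionStabilizer D ⊓ Cfsg.Geo.omegaGL ⇑Q, ∀ v ∈ L,
      (g : Matrix ι ι F) *ᵥ v ∈ L)
    (hLe : ∀ v ∈ L, ∃ i j, v = a i j ∨ v = -a i j)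
    (hLa : ∀ i j, a i j ∈ L ∧ -a i j ∈ L) :
    ∃ K : Subgroup (GL ι F), Cfsg.Geo.decompositionStabilizer D ⊓ Cfsg.Geo.omegaGL ⇑Q < K ∧
      K < Cfsg.Geo.omegaGL ⇑Q := by
  classical
  obtain ⟨i0, hi0⟩ : ∃ i : Fin t, i = ⟨0, by omega⟩ := ⟨_, rfl⟩
  obtain ⟨i1, hi1⟩ : ∃ i : Fin t, i = ⟨1, by omega⟩ := ⟨_, rfl⟩
  obtain ⟨i2, hi2⟩ : ∃ i : Fin t, i = ⟨2, by omega⟩ := ⟨_, rfl⟩
  obtain ⟨i3, hi3⟩ : ∃ i : Fin t, i = ⟨3, by omega⟩ := ⟨_, rfl⟩
  obtain ⟨i4, hi4⟩ : ∃ i : Fin t, i = ⟨4, by omega⟩ := ⟨_, rfl⟩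
  have h01 : i0 ≠ i1 := by rw [hi0, hi1]; simp
  have h02 : i0 ≠ i2 := by rw [hi0, hi2]; simp
  have h03 : i0 ≠ i3 := by rw [hi0, hi3]; simp
  have h04 : i0 ≠ i4 := by rw [hi0, hi4]; simp
  have h12 : i1 ≠ i2 := by rw [hi1, hi2]; simp
  have h13 : i1 ≠ i3 := by rw [hi1, hi3]; simp
  have h14 : i1 ≠ i4 := by rw [hi1, hi4]; simp
  have h23 : i2 ≠ i3 := by rw [hi2, hi3]; simp
  have h24 : i2 ≠ i4 := by rw [hi2, hi4]; simp
  have h34 : i3 ≠ i4 := by rw [hi3, hi4]; simp
  have hBs : ∀ x, polar ⇑Q x x = 2 * Q x := fun x => by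
    rw [polar_self, two_mul]
    exact two_nsmul _
  have hBsl : ∀ (c : F) x y, polar ⇑Q (c • x) y = c * polar ⇑Q x y := fun c x y => by
    rw [polar_smul_left, smul_eq_mul]
  have h2δ : 2 * δ ≠ 0 := mul_ne_zero h2 hδ
  have hp : ∀ p i j, polar ⇑Q (a p j₁) (a i j) = if i = p ∧ j = j₁ then 2 * δ else 0 := by
    intro p i j
    split_ifs with h
    · rw [h.1, h.2, hBs, haQ₁]
    · by_cases hip : i = p
      · rw [hip]
        exact hao p j (fun hj' => h ⟨hip, hj'⟩)
      · exact hDo p i (Ne.symm hip) _ (haD p j₁) _ (haD i j)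
  have hQd : ∀ p q, p ≠ q → Q (a p j₁ - a q j₁) = 2 * δ := by
    intro p q hpq
    rw [sub_eq_add_neg, QuadraticMap.map_add Q (a p j₁) (-a q j₁), QuadraticMap.map_neg, haQ₁,
      haQ₁, polar_neg_right, hp, if_neg (fun h => hpq h.1.symm)]
    ring
  have hrd : ∀ p q, p ≠ q → ∀ i j, rmap Q (a p j₁ - a q j₁) (a i j) =
      if i = p ∧ j = j₁ then a q j₁ else if i = q ∧ j = j₁ then a p j₁ else a i j := by
    intro p q hpq i j
    unfold rmap
    rw [hQd p q hpq, polar_sub_left, hp, hp]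
    by_cases h1 : i = p ∧ j = j₁
    · rw [if_pos h1, if_neg (fun h => hpq (h1.1.symm.trans h.1)), if_pos h1, sub_zero,
        inv_mul_cancel₀ h2δ, one_smul, h1.1, h1.2]
      abel
    · by_cases h2' : i = q ∧ j = j₁
      · rw [if_neg h1, if_pos h2', if_neg h1, if_pos h2', zero_sub, h2'.1, h2'.2, mul_neg,
          inv_mul_cancel₀ h2δ, neg_smul, one_smul]
        abel
      · rw [if_neg h1, if_neg h2', if_neg h1, if_neg h2', sub_zero, mul_zero, zero_smul, sub_zero]
  have huniq : ∀ v i i', v ∈ D i → v ∈ D i' → Q v ≠ 0 → i = i' := by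
    intro v i i' hvi hvi' hQv
    by_contra hii
    have h4 := hDo i i' hii v hvi v hvi'
    rw [hBs] at h4
    exact mul_ne_zero h2 hQv h4
  refine ⟨stabSet (Cfsg.Geo.omegaGL ⇑Q) L, ?_, ?_⟩
  · rw [lt_iff_le_and_ne]
    constructor
    · intro g hg
      exact mem_stabSet_of_forall _ _ _ hg.2 (hLH g hg)
    · intro hEq
      obtain ⟨g, hgΩ, hgv⟩ := exists_two_refl Q h2 (a i0 j₁ - a i1 j₁) (a i2 j₁ - a i3 j₁)
        (by rw [hQd _ _ h01]; exact h2δ) (by rw [hQd _ _ h01, hQd _ _ h23])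
      have hga : ∀ i j, ∃ i' j', (g : Matrix ι ι F) *ᵥ a i j = a i' j' := by
        intro i j
        rw [hgv, hrd _ _ h23]
        split_ifs
        all_goals (rw [hrd _ _ h01]; split_ifs <;> exact ⟨_, _, rfl⟩)
      have hgK : g ∈ stabSet (Cfsg.Geo.omegaGL ⇑Q) L := by
        apply mem_stabSet_of_forall _ _ _ hgΩ
        intro v hv
        obtain ⟨i, j, hv' | hv'⟩ := hLe v hv
        · obtain ⟨i', j', h'⟩ := hga i j
          rw [hv', h']
          exact (hLa i' j').1
        · obtain ⟨i', j', h'⟩ := hga i j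
          rw [hv', Matrix.mulVec_neg, h']
          exact (hLa i' j').2
      rw [← hEq] at hgK
      obtain ⟨σ, hσ⟩ := hgK.1
      have hg1 : (g : Matrix ι ι F) *ᵥ a i0 j₁ = a i1 j₁ := by
        rw [hgv, hrd _ _ h23, if_neg (fun h => h02 h.1), if_neg (fun h => h03 h.1), hrd _ _ h01,
          if_pos ⟨rfl, rfl⟩]
      have hg2 : (g : Matrix ι ι F) *ᵥ a i0 j₂ = a i0 j₂ := by
        rw [hgv, hrd _ _ h23, if_neg (fun h => hj h.2), if_neg (fun h => hj h.2), hrd _ _ h01,
          if_neg (fun h => hj h.2), if_neg (fun h => hj h.2)]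
      have hmem : ∀ v ∈ D i0, (g : Matrix ι ι F) *ᵥ v ∈ D (σ i0) := by
        intro v hv
        rw [← hσ i0]
        exact ⟨v, hv, by rw [Matrix.toLin'_apply]⟩
      have hm1 := hmem _ (haD i0 j₁)
      rw [hg1] at hm1
      have hm2 := hmem _ (haD i0 j₂)
      rw [hg2] at hm2
      have e1 := huniq _ _ _ hm1 (haD i1 j₁) (by rw [haQ₁]; exact hδ)
      have e2 := huniq _ _ _ hm2 (haD i0 j₂) (haQ₂ i0)
      exact h01 (e2.symm.trans e1)
  · rw [lt_iff_le_and_ne]
    constructor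
    · exact fun g hg => hg.1
    · intro hEq
      obtain ⟨x, hx⟩ : ∃ x, x = a i0 j₁ + a i1 j₁ + a i2 j₁ + a i3 j₁ := ⟨_, rfl⟩
      have hpx : ∀ i j, polar ⇑Q x (a i j) = (if i = i0 ∧ j = j₁ then 2 * δ else 0) +
          (if i = i1 ∧ j = j₁ then 2 * δ else 0) + (if i = i2 ∧ j = j₁ then 2 * δ else 0) +
          (if i = i3 ∧ j = j₁ then 2 * δ else 0) := by
        intro i j
        rw [hx, polar_add_left, polar_add_left, polar_add_left, hp, hp, hp, hp]
      have hQx : Q x = 4 * δ := by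
        have h5 : polar ⇑Q x x = 4 * (2 * δ) := by
          have h6 : polar ⇑Q x x = polar ⇑Q x (a i0 j₁) + polar ⇑Q x (a i1 j₁) +
              polar ⇑Q x (a i2 j₁) + polar ⇑Q x (a i3 j₁) := by
            rw [← polar_add_right, ← polar_add_right, ← polar_add_right, ← hx]
          rw [h6, hpx, hpx, hpx, hpx]
          simp only [true_and, and_true, if_true, h01, h02, h03, h12, h13, h23, h01.symm,
            h02.symm, h03.symm, h12.symm, h13.symm, h23.symm, if_false, add_zero, zero_add]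
          ring
        rw [hBs] at h5
        exact mul_left_cancel₀ h2 (by linear_combination h5)
      have h4ne : (4 : F) ≠ 0 := by
        have h5 : (4 : F) = 2 * 2 := by norm_num
        rw [h5]
        exact mul_ne_zero h2 h2
      have h4δ : 4 * δ ≠ 0 := mul_ne_zero h4ne hδ
      have hQy : Q ((2 : F) • a i4 j₁) = 4 * δ := by
        rw [QuadraticMap.map_smul, haQ₁, smul_eq_mul]
        ring
      obtain ⟨g, hgΩ, hgv⟩ := exists_two_refl Q h2 x ((2 : F) • a i4 j₁)
        (by rw [hQx]; exact h4δ) (by rw [hQx, hQy])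
      have hgK : g ∈ stabSet (Cfsg.Geo.omegaGL ⇑Q) L := by
        rw [hEq]
        exact hgΩ
      have h4 : (g : Matrix ι ι F) *ᵥ a i0 j₁ ∈ L := (hgK.2 _).mpr (hLa i0 j₁).1
      have hgv1 : (g : Matrix ι ι F) *ᵥ a i0 j₁ = a i0 j₁ - (2 : F)⁻¹ • x := by
        rw [hgv]
        unfold rmap
        rw [hBsl, hp, if_neg (fun h => h04 h.1), mul_zero, mul_zero, zero_smul, sub_zero, hpx, hQx]
        simp only [true_and, and_true, if_true, h01, h02, h03, if_false, add_zero]
        have h5 : (4 * δ)⁻¹ * (2 * δ) = (2 : F)⁻¹ := by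
          field_simp
          ring
        rw [h5]
      obtain ⟨i, j, hij⟩ := hLe _ h4
      rw [hgv1] at hij
      have hk : ∀ p, p = i1 ∨ p = i2 → polar ⇑Q (a i0 j₁ - (2 : F)⁻¹ • x) (a p j₁) = -δ := by
        intro p hp'
        rw [polar_sub_left, hBsl, hp, hpx]
        rcases hp' with rfl | rfl
        · simp only [true_and, and_true, if_true, h01, h01.symm, h12, h13, if_false, add_zero,
            zero_add]
          field_simp
          ring
        · simp only [true_and, and_true, if_true, h02, h02.symm, h12.symm, h23, if_false, add_zero,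
            zero_add]
          field_simp
          ring
      have hR : ∀ p, polar ⇑Q (a i0 j₁ - (2 : F)⁻¹ • x) (a p j₁) ≠ 0 → i = p := by
        intro p hne
        by_contra hip
        apply hne
        rcases hij with h | h
        · rw [h]
          exact hDo i p hip _ (haD i j) _ (haD p j₁)
        · rw [h, polar_neg_left, hDo i p hip _ (haD i j) _ (haD p j₁), neg_zero]
      have e1 := hR i1 (by rw [hk i1 (Or.inl rfl)]; exact neg_ne_zero.mpr hδ)
      have e2 := hR i2 (by rw [hk i2 (Or.inr rfl)]; exact neg_ne_zero.mpr hδ)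
      exact h12 (e1.symm.trans e2)

/-- Frames are transported by isometries between subspaces. -/
theorem IsFrameOn.map_isometry (Q : QuadraticForm F (ι → F)) {W W' : Submodule F (ι → F)}
    (e : W ≃ₗ[F] W') (he : ∀ w : W, Q ((e w : W') : ι → F) = Q (w : ι → F)) {κ : Type*} {d : F}
    {a : κ → (ι → F)} (h : IsFrameOn (polarBilin Q) W d a) :
    IsFrameOn (polarBilin Q) W' d (fun j => ((e ⟨a j, h.mem j⟩ : W') : ι → F)) := by
  have hpol : ∀ u v : W, polar ⇑Q ((e u : W') : ι → F) ((e v : W') : ι → F) =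
      polar ⇑Q (u : ι → F) (v : ι → F) := by
    intro u v
    unfold polar
    rw [← Submodule.coe_add, ← map_add, he, he, he, Submodule.coe_add]
  refine ⟨fun j => (e _).2, h.ne, fun j => ?_, fun j k hjk => ?_, fun w hw hwj => ?_⟩
  · rw [polarBilin_apply_apply, hpol]
    have h4 := h.norm j
    rwa [polarBilin_apply_apply] at h4
  · rw [polarBilin_apply_apply, hpol]
    have h4 := h.orth j k hjk
    rwa [polarBilin_apply_apply] at h4
  · have h4 : ((e.symm ⟨w, hw⟩ : W) : ι → F) = 0 := by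
      apply h.span _ (e.symm ⟨w, hw⟩).2
      intro j
      have h5 := hwj j
      rw [polarBilin_apply_apply] at h5 ⊢
      have h6 := hpol (e.symm ⟨w, hw⟩) ⟨a j, h.mem j⟩
      rw [LinearEquiv.apply_symm_apply] at h6
      rw [← h6]
      exact h5
    have h5 : e.symm ⟨w, hw⟩ = 0 := Subtype.ext h4
    have h6 : (⟨w, hw⟩ : W') = 0 := by
      rw [← e.apply_symm_apply ⟨w, hw⟩, h5, map_zero]
    exact congrArg Subtype.val h6

/-- The blocks of an orthogonal decomposition are permuted by its stabiliser. -/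
theorem decomp_map_mem {t : ℕ} (D : Fin t → Submodule F (ι → F)) (g : GL ι F)
    (σ : Equiv.Perm (Fin t))
    (hσ : ∀ i, (D i).map (Matrix.toLin' (g : Matrix ι ι F)) = D (σ i)) (i : Fin t) :
    (∀ v ∈ D i, (g : Matrix ι ι F) *ᵥ v ∈ D (σ i)) ∧
      (∀ w ∈ D (σ i), ∃ v ∈ D i, (g : Matrix ι ι F) *ᵥ v = w) := by
  constructor
  · intro v hv
    rw [← hσ i]
    exact ⟨v, hv, by rw [Matrix.toLin'_apply]⟩
  · intro w hw
    rw [← hσ i] at hw
    obtain ⟨v, hv, hvw⟩ := hw
    exact ⟨v, hv, by rw [← hvw, Matrix.toLin'_apply]⟩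

/-- Over the field with three elements the stabiliser in `Ω` of an orthogonal decomposition into
at least five isometric non-degenerate 3-spaces (type `O_3(3) wr S_t`) is not maximal. -/
theorem decomp3_three (Q : QuadraticForm F (ι → F)) (hq : Fintype.card F = 3) {t : ℕ}
    (ht : 5 ≤ t) (D : Fin t → Submodule F (ι → F))
    (hD : Cfsg.Geo.IsOrthogonalMDecomposition ⇑Q 3 D) :
    ∃ K : Subgroup (GL ι F), Cfsg.Geo.decompositionStabilizer D ⊓ Cfsg.Geo.omegaGL ⇑Q < K ∧
      K < Cfsg.Geo.omegaGL ⇑Q := by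
  classical
  have h3 := three_eq_zero hq
  have h2 := two_ne_zero_three hq
  have hBs : LinearMap.BilinForm.IsSymm (polarBilin Q) := ⟨fun x y => by
    rw [polarBilin_apply_apply, polarBilin_apply_apply, polar_comm]⟩
  have hself : ∀ x, polar ⇑Q x x = 2 * Q x := fun x => by
    rw [polar_self, two_mul]
    exact two_nsmul _
  obtain ⟨i0, hi0⟩ : ∃ i : Fin t, i = ⟨0, by omega⟩ := ⟨_, rfl⟩
  obtain ⟨d, a₀, hfr₀⟩ := exists_frame3 hq (polarBilin Q) hBs (D i0)
    (hD.decomp.decomp.finrank_eq i0) (fun w hw hw0 => by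
      obtain ⟨x, hx, hxw⟩ := (hD.decomp.nondegenerate i0 w hw hw0).1
      exact ⟨x, hx, by rw [polarBilin_apply_apply]; exact hxw⟩)
  have hiso : ∀ i, ∃ e : D i0 ≃ₗ[F] D i, ∀ w : D i0, Q ((e w : D i) : ι → F) = Q (w : ι → F) :=
    fun i => hD.isometric i0 i
  choose e he using hiso
  obtain ⟨a, ha⟩ : ∃ a : Fin t → Fin 3 → (ι → F),
      a = fun i j => ((e i ⟨a₀ j, hfr₀.mem j⟩ : D i) : ι → F) := ⟨_, rfl⟩
  have hfr : ∀ i, IsFrameOn (polarBilin Q) (D i) d (a i) := by
    intro i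
    rw [ha]
    exact hfr₀.map_isometry Q (e i) (he i)
  have hQa : ∀ i j, Q (a i j) = 2⁻¹ * d := by
    intro i j
    have h4 := (hfr i).norm j
    rw [polarBilin_apply_apply, hself] at h4
    rw [← h4]
    field_simp
  have hd := hfr₀.ne
  have hδ : (2 : F)⁻¹ * d ≠ 0 := mul_ne_zero (inv_ne_zero h2) hd
  apply frame_decomp_not_maximal Q h2 ht D (fun i i' hii' => hD.decomp.orthogonal i i' hii')
    (0 : Fin 3) 1 (by decide) a (2⁻¹ * d) hδ (fun i j => (hfr i).mem j) (fun i => hQa i 0)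
    (fun i => by rw [hQa]; exact hδ)
    (fun i j hj => by
      have h4 := (hfr i).orth 0 j (Ne.symm hj)
      rwa [polarBilin_apply_apply] at h4)
    {v | ∃ i, IsFVOn (polarBilin Q) (D i) v}
  · rintro g hg v ⟨i, hv⟩
    obtain ⟨σ, hσ⟩ := hg.1
    obtain ⟨hfwd, hbwd⟩ := decomp_map_mem D g σ hσ i
    refine ⟨σ i, hfwd v hv.1, ?_, ?_⟩
    · rw [polarBilin_apply_apply, omegaGL_polar Q g hg.2]
      have h4 := hv.2.1
      rwa [polarBilin_apply_apply] at h4
    · intro w hw hw0 hgw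
      obtain ⟨w₀, hw₀, rfl⟩ := hbwd w hw
      rw [polarBilin_apply_apply, omegaGL_polar Q g hg.2] at hgw ⊢
      have hw₀0 : w₀ ≠ 0 := by
        rintro rfl
        exact hw0 (Matrix.mulVec_zero _)
      have h4 := hv.2.2 w₀ hw₀ hw₀0 (by rw [polarBilin_apply_apply]; exact hgw)
      rwa [polarBilin_apply_apply] at h4
  · rintro v ⟨i, hv⟩
    obtain ⟨j, hj⟩ := (hfr i).eq_of_isFV hq hv
    exact ⟨i, j, hj⟩
  · intro i j
    exact ⟨⟨i, (hfr i).isFV hq hBs j⟩, ⟨i, ((hfr i).isFV hq hBs j).neg⟩⟩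

end

end Cfsg.Agent.Lib.Helper98
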