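import Mathlib
import Cfsg.Prelude.Def_GeometricClasses
import Cfsg.Agent.Lib.Helper98.FrameDec

/-!
# Imprimitive orthogonal stabilisers of type `O_2^-(3) wr S_t` (helper98)

* `IsFrameOn.expand2`: expansion in a two-vector frame.
* `exists_frame2_minus`: an anisotropic non-degenerate plane over the field with three elements
  has an orthogonal basis of vectors with `Q = 1` (frame norm `polar a a = -1`).
* `IsFrameOn.eq_of_Q_one`: in such a plane the vectors with `Q = 1` are the frame vectors and
  their negatives.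
* `aniso_of_not_plus`: a plane which is not of plus type is anisotropic.
* `decomp2_minus_three`: the stabiliser in `Ω` of an orthogonal decomposition into at least five
  isometric anisotropic planes over the field with three elements is not maximal.
-/

set_option autoImplicit false
set_option linter.unusedSectionVars false
set_option linter.unusedSimpArgs false

namespace Cfsg.Agent.Lib.Helper98

open Cfsg Module Matrix QuadraticMap

section Abstract

variable {F : Type*} [Field F] {M : Type*} [AddCommGroup M] [Module F M]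

/-- Expansion of a vector of `W` in a two-vector frame. -/
theorem IsFrameOn.expand2 {B : LinearMap.BilinForm F M} {W : Submodule F M} {d : F}
    {a : Fin 2 → M} (h : IsFrameOn B W d a) (w : M) (hw : w ∈ W) :
    w = (d⁻¹ * B w (a 0)) • a 0 + (d⁻¹ * B w (a 1)) • a 1 := by
  have hd := h.ne
  have key : w - ((d⁻¹ * B w (a 0)) • a 0 + (d⁻¹ * B w (a 1)) • a 1) = 0 := by
    apply h.span
    · exact W.sub_mem hw (W.add_mem (W.smul_mem _ (h.mem 0)) (W.smul_mem _ (h.mem 1)))
    · intro j
      fin_cases j
      · simp only [map_sub, map_add, map_smul, LinearMap.sub_apply, LinearMap.add_apply,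
          LinearMap.smul_apply, smul_eq_mul, Fin.zero_eta]
        rw [h.norm 0, h.orth 1 0 (by decide)]
        field_simp
        ring
      · simp only [map_sub, map_add, map_smul, LinearMap.sub_apply, LinearMap.add_apply,
          LinearMap.smul_apply, smul_eq_mul, Fin.mk_one]
        rw [h.norm 1, h.orth 0 1 (by decide)]
        field_simp
        ring
  exact sub_eq_zero.mp key

theorem IsFrameOn.norm_expand2 {B : LinearMap.BilinForm F M} {W : Submodule F M} {d : F}
    {a : Fin 2 → M} (h : IsFrameOn B W d a) (x0 x1 : F) :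
    B (x0 • a 0 + x1 • a 1) (x0 • a 0 + x1 • a 1) = d * (x0 * x0 + x1 * x1) := by
  simp only [map_add, map_smul, LinearMap.add_apply, LinearMap.smul_apply, smul_eq_mul, h.norm,
    h.orth 0 1 (by decide), h.orth 1 0 (by decide)]
  ring

/-- Over the field with three elements, two orthogonal vectors of equal non-zero norm spanning `W`
give a two-vector frame of norm `-1`. -/
theorem frame2_of_eq [Fintype F] (hq : Fintype.card F = 3) (B : LinearMap.BilinForm F M)
    (hB : B.IsSymm) (W : Submodule F M) (x y : M) (hx : x ∈ W) (hy : y ∈ W) (p : F) (hp : p ≠ 0)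
    (hxx : B x x = p) (hyy : B y y = p) (hxy : B x y = 0)
    (hspan : ∀ w ∈ W, B w x = 0 → B w y = 0 → w = 0) :
    ∃ a : Fin 2 → M, IsFrameOn B W (-1) a := by
  have h3 := three_eq_zero hq
  have h2 := two_ne_zero_three hq
  have hyx : B y x = 0 := by rw [hB.eq]; exact hxy
  rcases three_cases hq p with h | h | h
  · exact absurd h hp
  · refine ⟨![x + y, x - y], ?_, neg_ne_zero.mpr one_ne_zero, ?_, ?_, ?_⟩
    · intro j
      fin_cases j
      · exact W.add_mem hx hy
      · exact W.sub_mem hx hy
    · intro j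
      fin_cases j
      · show B (x + y) (x + y) = -1
        simp only [map_add, LinearMap.add_apply, hxx, hyy, hxy, hyx, h]
        linear_combination h3
      · show B (x - y) (x - y) = -1
        simp only [map_sub, LinearMap.sub_apply, hxx, hyy, hxy, hyx, h]
        linear_combination h3
    · intro j k hjk
      fin_cases j <;> fin_cases k <;> first | exact absurd rfl hjk | skip
      · show B (x + y) (x - y) = 0
        simp only [map_add, map_sub, LinearMap.add_apply, LinearMap.sub_apply, hxx, hyy, hxy, hyx]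
        ring
      · show B (x - y) (x + y) = 0
        simp only [map_add, map_sub, LinearMap.add_apply, LinearMap.sub_apply, hxx, hyy, hxy, hyx]
        ring
    · intro w hw hwj
      have h0 : B w (x + y) = 0 := hwj 0
      have h1 : B w (x - y) = 0 := hwj 1
      rw [map_add] at h0
      rw [map_sub] at h1
      have hwx : B w x = 0 := by
        have h4 : (2 : F) * B w x = 0 := by linear_combination h0 + h1
        rcases mul_eq_zero.mp h4 with h5 | h5
        · exact absurd h5 h2
        · exact h5
      have hwy : B w y = 0 := by linear_combination h0 - hwx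
      exact hspan w hw hwx hwy
  · refine ⟨![x, y], ?_, neg_ne_zero.mpr one_ne_zero, ?_, ?_, ?_⟩
    · intro j
      fin_cases j
      · exact hx
      · exact hy
    · intro j
      fin_cases j
      · exact hxx.trans h
      · exact hyy.trans h
    · intro j k hjk
      fin_cases j <;> fin_cases k <;> first | exact absurd rfl hjk | skip
      · exact hxy
      · exact hyx
    · intro w hw hwj
      exact hspan w hw (hwj 0) (hwj 1)

end Abstract

section

variable {ι : Type} [Fintype ι] [DecidableEq ι] {F : Type*} [Field F] [Fintype F]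

/-- An anisotropic non-degenerate plane over the field with three elements has an orthogonal basis
of vectors with `Q = 1`. -/
theorem exists_frame2_minus (hq : Fintype.card F = 3) (Q : QuadraticForm F (ι → F))
    (W : Submodule F (ι → F)) (hW : finrank F W = 2)
    (hnd : ∀ w ∈ W, w ≠ 0 → ∃ x ∈ W, polar ⇑Q x w ≠ 0) (haniso : ∀ v ∈ W, Q v = 0 → v = 0) :
    ∃ a : Fin 2 → (ι → F), IsFrameOn (polarBilin Q) W (-1) a := by
  have h3 := three_eq_zero hq
  have h2 := two_ne_zero_three hq
  have hBs : LinearMap.BilinForm.IsSymm (polarBilin Q) := ⟨fun x y => by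
    rw [polarBilin_apply_apply, polarBilin_apply_apply, polar_comm]⟩
  have hself : ∀ x, polar ⇑Q x x = 2 * Q x := fun x => by
    rw [polar_self, two_mul]
    exact two_nsmul _
  obtain ⟨x, hxW, hxx, hxo, hxs⟩ := exists_orth_basis_on h2 (polarBilin Q) hBs W
    (fun w hw hw0 => by
      obtain ⟨y, hy, hyw⟩ := hnd w hw hw0
      exact ⟨y, hy, by rw [polarBilin_apply_apply]; exact hyw⟩) 2 hW
  have h01 : polarBilin Q (x 0) (x 1) = 0 := hxo 0 1 (by decide)
  have heq : polarBilin Q (x 0) (x 0) = polarBilin Q (x 1) (x 1) := by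
    by_contra hne
    have hval : ∀ j, polarBilin Q (x j) (x j) = 1 ∨ polarBilin Q (x j) (x j) = -1 := by
      intro j
      rcases three_cases hq (polarBilin Q (x j) (x j)) with h | h | h
      · exact absurd h (hxx j)
      · exact Or.inl h
      · exact Or.inr h
    have hsum : polarBilin Q (x 0) (x 0) + polarBilin Q (x 1) (x 1) = 0 := by
      rcases hval 0 with h0 | h0 <;> rcases hval 1 with h1 | h1
      · exact absurd (h0.trans h1.symm) hne
      · rw [h0, h1]; ring
      · rw [h0, h1]; ring
      · exact absurd (h0.trans h1.symm) hne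
    have hQ0 : Q (x 0 + x 1) = 0 := by
      have h4 : polar ⇑Q (x 0 + x 1) (x 0 + x 1) = 0 := by
        have h10 : polar ⇑Q (x 1) (x 0) = 0 := by rw [polar_comm]; exact h01
        have h01' : polar ⇑Q (x 0) (x 1) = 0 := h01
        rw [polarBilin_apply_apply, polarBilin_apply_apply] at hsum
        rw [polar_add_left, polar_add_right, polar_add_right, h10, h01']
        linear_combination hsum
      rw [hself] at h4
      rcases mul_eq_zero.mp h4 with h5 | h5
      · exact absurd h5 h2
      · exact h5
    have h5 := haniso _ (W.add_mem (hxW 0) (hxW 1)) hQ0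
    have h6 : polarBilin Q (x 0 + x 1) (x 0) = polarBilin Q (x 0) (x 0) := by
      rw [map_add, LinearMap.add_apply, hxo 1 0 (by decide), add_zero]
    rw [h5] at h6
    simp only [map_zero, LinearMap.zero_apply] at h6
    exact hxx 0 h6.symm
  exact frame2_of_eq hq (polarBilin Q) hBs W (x 0) (x 1) (hxW 0) (hxW 1) _ (hxx 0) rfl heq.symm h01
    (fun w hw h0 h1 => hxs w hw (fun j => by
      fin_cases j
      · exact h0
      · exact h1))

/-- In a plane with a frame of vectors with `Q = 1` over the field with three elements, the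
vectors with `Q = 1` are the frame vectors and their negatives. -/
theorem IsFrameOn.eq_of_Q_one (hq : Fintype.card F = 3) (Q : QuadraticForm F (ι → F))
    {W : Submodule F (ι → F)} {a : Fin 2 → (ι → F)} (h : IsFrameOn (polarBilin Q) W (-1) a)
    {v : ι → F} (hv : v ∈ W) (hQv : Q v = 1) : ∃ j, v = a j ∨ v = -a j := by
  have h3 := three_eq_zero hq
  have h2 := two_ne_zero_three hq
  have hself : ∀ x, polar ⇑Q x x = 2 * Q x := fun x => by
    rw [polar_self, two_mul]
    exact two_nsmul _
  have hexp := h.expand2 v hv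
  obtain ⟨y0, hy0⟩ : ∃ y, y = (-1 : F)⁻¹ * polarBilin Q v (a 0) := ⟨_, rfl⟩
  obtain ⟨y1, hy1⟩ : ∃ y, y = (-1 : F)⁻¹ * polarBilin Q v (a 1) := ⟨_, rfl⟩
  rw [← hy0, ← hy1] at hexp
  have hn := h.norm_expand2 y0 y1
  rw [← hexp, polarBilin_apply_apply, hself, hQv] at hn
  have hsum : y0 * y0 + y1 * y1 = 1 := by linear_combination hn - h3
  have hsgn : ∀ (y : F) (j : Fin 2), y ≠ 0 → v = y • a j → ∃ j, v = a j ∨ v = -a j := by
    intro y j hy hvy
    refine ⟨j, ?_⟩
    rcases three_cases hq y with h' | h' | h'
    · exact absurd h' hy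
    · left; rw [hvy, h', one_smul]
    · right; rw [hvy, h', neg_smul, one_smul]
  by_cases h0 : y0 = 0
  · have h1 : y1 ≠ 0 := by
      rintro rfl
      rw [h0] at hsum
      simp at hsum
    exact hsgn y1 1 h1 (by rw [hexp, h0, zero_smul, zero_add])
  · by_cases h1 : y1 = 0
    · exact hsgn y0 0 h0 (by rw [hexp, h1, zero_smul, add_zero])
    · exfalso
      rw [sq_eq_one_three hq y0 h0, sq_eq_one_three hq y1 h1] at hsum
      exact one_ne_zero (α := F) (by linear_combination hsum)

theorem IsFrameOn.Q_eq_one (hq : Fintype.card F = 3) (Q : QuadraticForm F (ι → F))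
    {W : Submodule F (ι → F)} {κ : Type*} {a : κ → (ι → F)}
    (h : IsFrameOn (polarBilin Q) W (-1) a) (j : κ) : Q (a j) = 1 := by
  have h3 := three_eq_zero hq
  have h4 := h.norm j
  have hself : polar ⇑Q (a j) (a j) = 2 * Q (a j) := by
    rw [polar_self, two_mul]
    exact two_nsmul _
  rw [polarBilin_apply_apply, hself] at h4
  linear_combination -h4 + Q (a j) * h3

/-- A plane which is not of plus type is anisotropic. -/
theorem aniso_of_not_plus (Q : QuadraticForm F (ι → F)) (W : Submodule F (ι → F))
    (hW : finrank F W = 2) (hminus : ¬ Cfsg.Geo.IsPlusTypeOn ⇑Q W) :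
    ∀ v ∈ W, Q v = 0 → v = 0 := by
  intro v hv hQv
  by_contra hv0
  apply hminus
  refine ⟨Submodule.span F {v}, ?_, ?_, ?_⟩
  · rw [Submodule.span_le]
    rintro y rfl
    exact hv
  · intro w hw
    obtain ⟨c, rfl⟩ := Submodule.mem_span_singleton.mp hw
    rw [QuadraticMap.map_smul, hQv, smul_zero]
  · rw [finrank_span_singleton hv0, hW]

/-- Over the field with three elements the stabiliser in `Ω` of an orthogonal decomposition into
at least five isometric anisotropic planes (type `O_2^-(3) wr S_t`) is not maximal. -/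
theorem decomp2_minus_three (Q : QuadraticForm F (ι → F)) (hq : Fintype.card F = 3) {t : ℕ}
    (ht : 5 ≤ t) (D : Fin t → Submodule F (ι → F))
    (hD : Cfsg.Geo.IsOrthogonalMDecomposition ⇑Q 2 D) (i0 : Fin t)
    (hminus : ¬ Cfsg.Geo.IsPlusTypeOn ⇑Q (D i0)) :
    ∃ K : Subgroup (GL ι F), Cfsg.Geo.decompositionStabilizer D ⊓ Cfsg.Geo.omegaGL ⇑Q < K ∧
      K < Cfsg.Geo.omegaGL ⇑Q := by
  classical
  have h3 := three_eq_zero hq
  have h2 := two_ne_zero_three hq
  obtain ⟨a₀, hfr₀⟩ := exists_frame2_minus hq Q (D i0) (hD.decomp.decomp.finrank_eq i0)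
    (fun w hw hw0 => (hD.decomp.nondegenerate i0 w hw hw0).1)
    (aniso_of_not_plus Q (D i0) (hD.decomp.decomp.finrank_eq i0) hminus)
  have hiso : ∀ i, ∃ e : D i0 ≃ₗ[F] D i, ∀ w : D i0, Q ((e w : D i) : ι → F) = Q (w : ι → F) :=
    fun i => hD.isometric i0 i
  choose e he using hiso
  obtain ⟨a, ha⟩ : ∃ a : Fin t → Fin 2 → (ι → F),
      a = fun i j => ((e i ⟨a₀ j, hfr₀.mem j⟩ : D i) : ι → F) := ⟨_, rfl⟩
  have hfr : ∀ i, IsFrameOn (polarBilin Q) (D i) (-1) (a i) := by
    intro i
    rw [ha]
    exact hfr₀.map_isometry Q (e i) (he i)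
  have hQa : ∀ i j, Q (a i j) = 1 := fun i j => (hfr i).Q_eq_one hq Q j
  apply frame_decomp_not_maximal Q h2 ht D (fun i i' hii' => hD.decomp.orthogonal i i' hii')
    (0 : Fin 2) 1 (by decide) a 1 one_ne_zero (fun i j => (hfr i).mem j) (fun i => hQa i 0)
    (fun i => by rw [hQa]; exact one_ne_zero)
    (fun i j hj => by
      have h4 := (hfr i).orth 0 j (Ne.symm hj)
      rwa [polarBilin_apply_apply] at h4)
    {v | ∃ i, v ∈ D i ∧ Q v = 1}
  · rintro g hg v ⟨i, hv, hQv⟩
    obtain ⟨σ, hσ⟩ := hg.1
    obtain ⟨hfwd, -⟩ := decomp_map_mem D g σ hσ i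
    exact ⟨σ i, hfwd v hv, by rw [omegaGL_isometry Q g hg.2, hQv]⟩
  · rintro v ⟨i, hv, hQv⟩
    obtain ⟨j, hj⟩ := (hfr i).eq_of_Q_one hq Q hv hQv
    exact ⟨i, j, hj⟩
  · intro i j
    exact ⟨⟨i, (hfr i).mem j, hQa i j⟩, ⟨i, (D i).neg_mem ((hfr i).mem j), by
      rw [QuadraticMap.map_neg, hQa]⟩⟩

end

end Cfsg.Agent.Lib.Helper98
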