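import Mathlib
import Cfsg.Agent.Lib.Helper98.FrameDec2

/-!
# Decompositions into hyperbolic planes over the fields with three and five elements

Helper library (helper98). A hyperbolic pair for a plane of plus type, a transport lemma for
frames of a decomposition into planes, and the two odd cases `O_2^+(3) wr S_t`,
`O_2^+(5) wr S_t` of non-maximality.
-/

set_option autoImplicit false
set_option linter.unusedSectionVars false
set_option linter.unusedSimpArgs false

namespace Cfsg.Agent.Lib.Helper98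

open Cfsg Module Matrix QuadraticMap Cfsg.Agent.Lib.Helper51

section

variable {ι : Type} [Fintype ι] [DecidableEq ι] {F : Type*} [Field F]

/-- A plane of plus type has a hyperbolic pair spanning it. -/
theorem exists_hyp_pair (Q : QuadraticForm F (ι → F)) (W : Submodule F (ι → F))
    (hdim : finrank F W = 2) (hW : Cfsg.Geo.IsNondegenerateOn (polar ⇑Q) W)
    (hplus : Cfsg.Geo.IsPlusTypeOn ⇑Q W) :
    ∃ e ∈ W, ∃ f ∈ W, Q e = 0 ∧ Q f = 0 ∧ polar ⇑Q e f = 1 ∧
      ∀ w ∈ W, ∃ α β : F, w = α • e + β • f := by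
  classical
  have hBal : ∀ x y z, polar ⇑Q (x + y) z = polar ⇑Q x z + polar ⇑Q y z :=
    fun x y z => polar_add_left Q x y z
  have hBar : ∀ x y z, polar ⇑Q x (y + z) = polar ⇑Q x y + polar ⇑Q x z :=
    fun x y z => polar_add_right Q x y z
  have hBsl : ∀ (a : F) x y, polar ⇑Q (a • x) y = a * polar ⇑Q x y :=
    fun a x y => polar_smul_left' Q x y a
  have hBsr : ∀ (a : F) x y, polar ⇑Q x (a • y) = a * polar ⇑Q x y :=
    fun a x y => polar_smul_right' Q x y a
  have hBc : ∀ x y, polar ⇑Q x y = polar ⇑Q y x := fun x y => polar_comm' Q x y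
  have hBs : ∀ x, polar ⇑Q x x = 2 * Q x := fun x => polar_self Q x
  have hQa : ∀ x y, Q (x + y) = Q x + Q y + polar ⇑Q x y := fun x y => QuadraticMap.map_add Q x y
  have hQs : ∀ (a : F) x, Q (a • x) = a * a * Q x := fun a x => by
    rw [QuadraticMap.map_smul, smul_eq_mul]
  have hB0 : ∀ y, polar ⇑Q 0 y = 0 := fun y => by
    have h4 := hBsl 0 0 y
    rw [zero_smul, zero_mul] at h4
    exact h4
  obtain ⟨U, hUW, hU0, hUdim⟩ := hplus
  have hU1 : finrank F U = 1 := by omega
  have hUne : U ≠ ⊥ := by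
    intro h
    rw [h, finrank_bot] at hU1
    omega
  obtain ⟨e, heU, he0⟩ := Submodule.exists_mem_ne_zero_of_ne_bot hUne
  have heW : e ∈ W := hUW heU
  have hQe : Q e = 0 := hU0 e heU
  obtain ⟨x, hxW, hxe⟩ := (hW e heW he0).1
  obtain ⟨f, hfW, hQf, hef⟩ : ∃ f ∈ W, Q f = 0 ∧ polar ⇑Q e f = 1 := by
    refine ⟨(polar ⇑Q x e)⁻¹ • x + (-(Q ((polar ⇑Q x e)⁻¹ • x))) • e,
      W.add_mem (W.smul_mem _ hxW) (W.smul_mem _ heW), ?_, ?_⟩
    · rw [hQa, hQs (-(Q ((polar ⇑Q x e)⁻¹ • x))) e, hQe, hBsr, hBsl, inv_mul_cancel₀ hxe]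
      ring
    · rw [hBar, hBsr, hBsr, hBs, hQe, hBc e x, inv_mul_cancel₀ hxe]
      ring
  have hfe : polar ⇑Q f e = 1 := by rw [hBc]; exact hef
  have hee : polar ⇑Q e e = 0 := by rw [hBs, hQe]; ring
  have hff : polar ⇑Q f f = 0 := by rw [hBs, hQf]; ring
  have hli : LinearIndependent F ![e, f] := by
    rw [LinearIndependent.pair_iff]
    intro α β hab
    have h1 : polar ⇑Q (α • e + β • f) f = 0 := by rw [hab]; exact hB0 _
    have h1' : polar ⇑Q (α • e + β • f) e = 0 := by rw [hab]; exact hB0 _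
    rw [hBal, hBsl, hBsl, hef, hff] at h1
    rw [hBal, hBsl, hBsl, hee, hfe] at h1'
    exact ⟨by linear_combination h1, by linear_combination h1'⟩
  have hspan : Submodule.span F {e, f} = W := by
    apply Submodule.eq_of_le_of_finrank_eq
    · rw [Submodule.span_le]
      rintro y (rfl | rfl)
      · exact heW
      · exact hfW
    · rw [hdim]
      have h4 := finrank_span_eq_card hli
      rw [Matrix.range_cons_cons_empty] at h4
      rw [h4]
      simp
  refine ⟨e, heW, f, hfW, hQe, hQf, hef, ?_⟩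
  intro w hw
  rw [← hspan] at hw
  obtain ⟨α, β, h⟩ := Submodule.mem_span_pair.mp hw
  exact ⟨α, β, h.symm⟩

variable [Fintype F]

/-- Transport of a two-vector frame along the isometries of a decomposition into planes: if the
vectors of the first plane whose norm satisfies `P` are the frame vectors up to sign, the
imprimitive stabiliser in `Ω` is not maximal (odd characteristic, at least five planes). -/
theorem decomp2_frame_transport (Q : QuadraticForm F (ι → F)) (h2 : (2 : F) ≠ 0) {t : ℕ}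
    (ht : 5 ≤ t) (D : Fin t → Submodule F (ι → F))
    (hD : Cfsg.Geo.IsOrthogonalMDecomposition ⇑Q 2 D) (i0 : Fin t) (P : F → Prop)
    (a₀ : Fin 2 → (ι → F)) (ha₀ : ∀ j, a₀ j ∈ D i0) (hQ₀ : ∀ j, Q (a₀ j) ≠ 0)
    (hP₀ : ∀ j, P (Q (a₀ j))) (horth : polar ⇑Q (a₀ 0) (a₀ 1) = 0)
    (hall : ∀ w ∈ D i0, P (Q w) → ∃ j, w = a₀ j ∨ w = -a₀ j) :
    ∃ K : Subgroup (GL ι F), Cfsg.Geo.decompositionStabilizer D ⊓ Cfsg.Geo.omegaGL ⇑Q < K ∧
      K < Cfsg.Geo.omegaGL ⇑Q := by
  classical
  have hiso : ∀ i, ∃ e : D i0 ≃ₗ[F] D i, ∀ w : D i0, Q ((e w : D i) : ι → F) = Q (w : ι → F) :=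
    fun i => hD.isometric i0 i
  choose e he using hiso
  obtain ⟨a, ha⟩ : ∃ a : Fin t → Fin 2 → (ι → F),
      a = fun i j => ((e i ⟨a₀ j, ha₀ j⟩ : D i) : ι → F) := ⟨_, rfl⟩
  have haD : ∀ i j, a i j ∈ D i := by
    intro i j
    rw [ha]
    exact (e i _).2
  have hQa : ∀ i j, Q (a i j) = Q (a₀ j) := by
    intro i j
    rw [ha]
    exact he i _
  have hpol : ∀ i (u v : D i0), polar ⇑Q ((e i u : D i) : ι → F) ((e i v : D i) : ι → F) =
      polar ⇑Q (u : ι → F) (v : ι → F) := by
    intro i u v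
    unfold polar
    rw [← Submodule.coe_add, ← map_add, he, he, he, Submodule.coe_add]
  apply frame_decomp_not_maximal Q h2 ht D (fun i i' hii' => hD.decomp.orthogonal i i' hii')
    (0 : Fin 2) 1 (by decide) a (Q (a₀ 0)) (hQ₀ 0) haD (fun i => hQa i 0)
    (fun i => by rw [hQa]; exact hQ₀ 1)
    (fun i j hj => by
      have hj1 : j = 1 := by
        fin_cases j
        · exact absurd rfl hj
        · rfl
      rw [hj1, ha]
      exact (hpol i _ _).trans horth)
    {v | ∃ i, v ∈ D i ∧ P (Q v)}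
  · rintro g hg v ⟨i, hv, hPv⟩
    obtain ⟨σ, hσ⟩ := hg.1
    obtain ⟨hfwd, -⟩ := decomp_map_mem D g σ hσ i
    exact ⟨σ i, hfwd v hv, by rw [omegaGL_isometry Q g hg.2]; exact hPv⟩
  · rintro v ⟨i, hv, hPv⟩
    have hw := he i ((e i).symm ⟨v, hv⟩)
    rw [LinearEquiv.apply_symm_apply] at hw
    obtain ⟨j, hj⟩ := hall _ ((e i).symm ⟨v, hv⟩).2 (by rw [← hw]; exact hPv)
    refine ⟨i, j, ?_⟩
    have hv' : v = ((e i ((e i).symm ⟨v, hv⟩) : D i) : ι → F) := by
      rw [LinearEquiv.apply_symm_apply]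
    rcases hj with hj | hj
    · left
      have h5 : (e i).symm ⟨v, hv⟩ = ⟨a₀ j, ha₀ j⟩ := Subtype.ext hj
      rw [hv', h5, ha]
    · right
      have h5 : (e i).symm ⟨v, hv⟩ = -⟨a₀ j, ha₀ j⟩ := Subtype.ext hj
      rw [hv', h5, map_neg, ha]
      rfl
  · intro i j
    exact ⟨⟨i, haD i j, by rw [hQa]; exact hP₀ j⟩, ⟨i, (D i).neg_mem (haD i j), by
      rw [QuadraticMap.map_neg, hQa]; exact hP₀ j⟩⟩

/-- Over the field with three elements the stabiliser in `Ω` of an orthogonal decomposition into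
at least five hyperbolic planes (type `O_2^+(3) wr S_t`) is not maximal. -/
theorem decomp2_plus_three (Q : QuadraticForm F (ι → F)) (hq : Fintype.card F = 3) {t : ℕ}
    (ht : 5 ≤ t) (D : Fin t → Submodule F (ι → F))
    (hD : Cfsg.Geo.IsOrthogonalMDecomposition ⇑Q 2 D) (i0 : Fin t)
    (hplus : Cfsg.Geo.IsPlusTypeOn ⇑Q (D i0)) :
    ∃ K : Subgroup (GL ι F), Cfsg.Geo.decompositionStabilizer D ⊓ Cfsg.Geo.omegaGL ⇑Q < K ∧
      K < Cfsg.Geo.omegaGL ⇑Q := by
  classical
  have h3 := three_eq_zero hq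
  have h2 := two_ne_zero_three hq
  obtain ⟨e, heW, f, hfW, hQe, hQf, hef, hexp⟩ := exists_hyp_pair Q (D i0)
    (hD.decomp.decomp.finrank_eq i0) (hD.decomp.nondegenerate i0) hplus
  have hBsl : ∀ (a : F) x y, polar ⇑Q (a • x) y = a * polar ⇑Q x y :=
    fun a x y => polar_smul_left' Q x y a
  have hBsr : ∀ (a : F) x y, polar ⇑Q x (a • y) = a * polar ⇑Q x y :=
    fun a x y => polar_smul_right' Q x y a
  have hBs : ∀ x, polar ⇑Q x x = 2 * Q x := fun x => polar_self Q x
  have hfe : polar ⇑Q f e = 1 := by rw [polar_comm' Q]; exact hef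
  have hQab : ∀ α β : F, Q (α • e + β • f) = α * β := by
    intro α β
    rw [QuadraticMap.map_add Q, QuadraticMap.map_smul, QuadraticMap.map_smul, hQe, hQf, hBsl, hBsr,
      hef]
    simp
  have e1 : e + f = (1 : F) • e + (1 : F) • f := by rw [one_smul, one_smul]
  have e2 : e + (-1 : F) • f = (1 : F) • e + (-1 : F) • f := by rw [one_smul]
  apply decomp2_frame_transport Q h2 ht D hD i0 (fun c => c ≠ 0) ![e + f, e + (-1 : F) • f]
  · intro j
    fin_cases j
    · exact (D i0).add_mem heW hfW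
    · exact (D i0).add_mem heW ((D i0).smul_mem _ hfW)
  · intro j
    fin_cases j
    · show Q (e + f) ≠ 0
      rw [e1, hQab]
      simp
    · show Q (e + (-1 : F) • f) ≠ 0
      rw [e2, hQab]
      simp
  · intro j
    fin_cases j
    · show Q (e + f) ≠ 0
      rw [e1, hQab]
      simp
    · show Q (e + (-1 : F) • f) ≠ 0
      rw [e2, hQab]
      simp
  · show polar ⇑Q (e + f) (e + (-1 : F) • f) = 0
    rw [polar_add_left, polar_add_right, polar_add_right, hBsr, hBsr, hBs, hBs, hQe, hQf, hef, hfe]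
    ring
  · intro w hw hQw
    obtain ⟨α, β, rfl⟩ := hexp w hw
    rw [hQab] at hQw
    have hα : α ≠ 0 := fun h => hQw (by rw [h, zero_mul])
    have hβ : β ≠ 0 := fun h => hQw (by rw [h, mul_zero])
    rcases three_cases hq α with h | h | h
    · exact absurd h hα
    · rcases three_cases hq β with h' | h' | h'
      · exact absurd h' hβ
      · exact ⟨0, Or.inl (by rw [h, h']; simp)⟩
      · exact ⟨1, Or.inl (by rw [h, h']; simp)⟩
    · rcases three_cases hq β with h' | h' | h'
      · exact absurd h' hβ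
      · refine ⟨1, Or.inr ?_⟩
        rw [h, h']
        show (-1 : F) • e + (1 : F) • f = -(e + (-1 : F) • f)
        module
      · refine ⟨0, Or.inr ?_⟩
        rw [h, h']
        show (-1 : F) • e + (-1 : F) • f = -(e + f)
        module

/-- Over the field with five elements the stabiliser in `Ω` of an orthogonal decomposition into
at least five hyperbolic planes (type `O_2^+(5) wr S_t`) is not maximal. -/
theorem decomp2_plus_five (Q : QuadraticForm F (ι → F)) (hq : Fintype.card F = 5) {t : ℕ}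
    (ht : 5 ≤ t) (D : Fin t → Submodule F (ι → F))
    (hD : Cfsg.Geo.IsOrthogonalMDecomposition ⇑Q 2 D) (i0 : Fin t)
    (hplus : Cfsg.Geo.IsPlusTypeOn ⇑Q (D i0)) :
    ∃ K : Subgroup (GL ι F), Cfsg.Geo.decompositionStabilizer D ⊓ Cfsg.Geo.omegaGL ⇑Q < K ∧
      K < Cfsg.Geo.omegaGL ⇑Q := by
  classical
  have h5 : (5 : F) = 0 := by
    have h := FiniteField.cast_card_eq_zero F
    rw [hq] at h
    exact_mod_cast h
  have h2 : (2 : F) ≠ 0 := by
    intro h
    exact one_ne_zero (α := F) (by linear_combination h5 - 2 * h)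
  obtain ⟨e, heW, f, hfW, hQe, hQf, hef, hexp⟩ := exists_hyp_pair Q (D i0)
    (hD.decomp.decomp.finrank_eq i0) (hD.decomp.nondegenerate i0) hplus
  have hBsl : ∀ (a : F) x y, polar ⇑Q (a • x) y = a * polar ⇑Q x y :=
    fun a x y => polar_smul_left' Q x y a
  have hBsr : ∀ (a : F) x y, polar ⇑Q x (a • y) = a * polar ⇑Q x y :=
    fun a x y => polar_smul_right' Q x y a
  have hBs : ∀ x, polar ⇑Q x x = 2 * Q x := fun x => polar_self Q x
  have hfe : polar ⇑Q f e = 1 := by rw [polar_comm' Q]; exact hef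
  have hQab : ∀ α β : F, Q (α • e + β • f) = α * β := by
    intro α β
    rw [QuadraticMap.map_add Q, QuadraticMap.map_smul, QuadraticMap.map_smul, hQe, hQf, hBsl, hBsr,
      hef]
    simp
  have e1 : e + f = (1 : F) • e + (1 : F) • f := by rw [one_smul, one_smul]
  have hQ1 : Q (e + f) = 1 := by rw [e1, hQab]; ring
  have hQ2 : Q ((2 : F) • e + (-2 : F) • f) = 1 := by
    rw [hQab]
    linear_combination -h5
  apply decomp2_frame_transport Q h2 ht D hD i0 (fun c => c = 1)
    ![e + f, (2 : F) • e + (-2 : F) • f]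
  · intro j
    fin_cases j
    · exact (D i0).add_mem heW hfW
    · exact (D i0).add_mem ((D i0).smul_mem _ heW) ((D i0).smul_mem _ hfW)
  · intro j
    fin_cases j
    · show Q (e + f) ≠ 0
      rw [hQ1]
      exact one_ne_zero
    · show Q ((2 : F) • e + (-2 : F) • f) ≠ 0
      rw [hQ2]
      exact one_ne_zero
  · intro j
    fin_cases j
    · exact hQ1
    · exact hQ2
  · show polar ⇑Q (e + f) ((2 : F) • e + (-2 : F) • f) = 0
    rw [polar_add_left, polar_add_right, polar_add_right, hBsr, hBsr, hBsr, hBsr, hBs, hBs, hQe,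
      hQf, hef, hfe]
    ring
  · intro w hw hQw
    obtain ⟨α, β, rfl⟩ := hexp w hw
    rw [hQab] at hQw
    have hα : α ≠ 0 := fun h => zero_ne_one (α := F) (by rw [← hQw, h, zero_mul])
    have hα4 : α ^ 4 = 1 := by
      have h := FiniteField.pow_card_sub_one_eq_one α hα
      rw [hq] at h
      exact h
    have hfac : (α - 1) * (α + 1) * ((α - 2) * (α + 2)) = 0 := by
      linear_combination hα4 - (α ^ 2 - 1) * h5
    rcases mul_eq_zero.mp hfac with h | h
    · rcases mul_eq_zero.mp h with h | h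
      · have hα1 : α = 1 := by linear_combination h
        have hβ1 : β = 1 := by rw [hα1, one_mul] at hQw; exact hQw
        exact ⟨0, Or.inl (by rw [hα1, hβ1]; simp)⟩
      · have hα1 : α = -1 := by linear_combination h
        have hβ1 : β = -1 := by rw [hα1] at hQw; linear_combination -hQw
        refine ⟨0, Or.inr ?_⟩
        rw [hα1, hβ1]
        show (-1 : F) • e + (-1 : F) • f = -(e + f)
        module
    · rcases mul_eq_zero.mp h with h | h
      · have hα1 : α = 2 := by linear_combination h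
        have hβ1 : β = -2 := by rw [hα1] at hQw; linear_combination 3 * hQw + (1 - β) * h5
        exact ⟨1, Or.inl (by rw [hα1, hβ1]; simp)⟩
      · have hα1 : α = -2 := by linear_combination h
        have hβ1 : β = 2 := by rw [hα1] at hQw; linear_combination 2 * hQw + β * h5
        refine ⟨1, Or.inr ?_⟩
        rw [hα1, hβ1]
        show (-2 : F) • e + (2 : F) • f = -((2 : F) • e + (-2 : F) • f)
        module

end

end Cfsg.Agent.Lib.Helper98
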