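import Mathlib
import Cfsg.Agent.Lib.Helper98.FrameDec3
import Cfsg.Agent.Lib.Helper52.Siegel

/-!
# Non-maximal imprimitive stabilisers in `Ω` in characteristic two

Helper library (helper98). A general criterion (`stab_set_not_maximal`) and the cases
`O_2^+(2) wr S_t`, `O_2^+(4) wr S_t` of decompositions into hyperbolic planes.
-/

set_option autoImplicit false
set_option linter.unusedSectionVars false
set_option linter.unusedSimpArgs false

namespace Cfsg.Agent.Lib.Helper98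

open Cfsg Module Matrix QuadraticMap Cfsg.Agent.Lib.Helper51

section

variable {ι : Type} [Fintype ι] [DecidableEq ι] {F : Type*} [Field F]

/-- A vector not orthogonal to two different blocks lies in no block. -/
theorem not_mem_block (Q : QuadraticForm F (ι → F)) {t : ℕ} (D : Fin t → Submodule F (ι → F))
    (hDo : ∀ i i', i ≠ i' → ∀ u ∈ D i, ∀ v ∈ D i', polar ⇑Q u v = 0) {a b : Fin t} (hab : a ≠ b)
    {x ya yb : ι → F} (hya : ya ∈ D a) (hyb : yb ∈ D b) (ha : polar ⇑Q x ya ≠ 0)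
    (hb : polar ⇑Q x yb ≠ 0) (j : Fin t) : x ∉ D j := by
  intro hx
  by_cases hja : j = a
  · subst hja
    exact hb (hDo j b hab x hx yb hyb)
  · exact ha (hDo j a hja x hx ya hya)

variable [Fintype F]

/-- An element moving a block vector outside all blocks does not stabilise the decomposition. -/
theorem not_mem_decomp_of_moved {t : ℕ} (D : Fin t → Submodule F (ι → F)) (g : GL ι F)
    (i : Fin t) (v : ι → F) (hv : v ∈ D i) (h : ∀ j, (g : Matrix ι ι F) *ᵥ v ∉ D j) :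
    g ∉ Cfsg.Geo.decompositionStabilizer D := by
  rintro ⟨σ, hσ⟩
  exact h (σ i) ((decomp_map_mem D g σ hσ i).1 v hv)

/-- If the imprimitive stabiliser `H` in `Ω` preserves a set `L` of vectors, some element of
`Ω` outside `H` preserves `L` and some element of `Ω` does not, then `H` is not maximal. -/
theorem stab_set_not_maximal (Q : QuadraticForm F (ι → F)) {t : ℕ}
    (D : Fin t → Submodule F (ι → F)) (L : Set (ι → F))
    (hLH : ∀ g ∈ Cfsg.Geo.decompositionStabilizer D ⊓ Cfsg.Geo.omegaGL ⇑Q, ∀ v ∈ L,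
      (g : Matrix ι ι F) *ᵥ v ∈ L)
    (g₁ : GL ι F) (hg₁ : g₁ ∈ Cfsg.Geo.omegaGL ⇑Q)
    (hg₁L : ∀ v ∈ L, (g₁ : Matrix ι ι F) *ᵥ v ∈ L)
    (hg₁D : g₁ ∉ Cfsg.Geo.decompositionStabilizer D)
    (g₂ : GL ι F) (hg₂ : g₂ ∈ Cfsg.Geo.omegaGL ⇑Q)
    (hg₂L : ∃ v ∈ L, (g₂ : Matrix ι ι F) *ᵥ v ∉ L) :
    ∃ K : Subgroup (GL ι F), Cfsg.Geo.decompositionStabilizer D ⊓ Cfsg.Geo.omegaGL ⇑Q < K ∧
      K < Cfsg.Geo.omegaGL ⇑Q := by
  refine ⟨stabSet (Cfsg.Geo.omegaGL ⇑Q) L, ?_, ?_⟩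
  · refine lt_of_le_of_ne (fun g hg => mem_stabSet_of_forall _ L g hg.2 (hLH g hg)) ?_
    intro heq
    have h1 : g₁ ∈ stabSet (Cfsg.Geo.omegaGL ⇑Q) L := mem_stabSet_of_forall _ L g₁ hg₁ hg₁L
    rw [← heq] at h1
    exact hg₁D h1.1
  · refine lt_of_le_of_ne (fun g hg => hg.1) ?_
    intro heq
    rw [← heq] at hg₂
    obtain ⟨v, hv, hnv⟩ := hg₂L
    exact hnv ((hg₂.2 v).mpr hv)

/-- Over the field with two elements the stabiliser in `Ω` of an orthogonal decomposition into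
at least four hyperbolic planes (type `O_2^+(2) wr S_t`) is not maximal: it preserves the set of
the non-singular vectors of the planes. -/
theorem decomp2_plus_two (Q : QuadraticForm F (ι → F)) (hnd : (polarBilin Q).Nondegenerate)
    (hq : Fintype.card F = 2) (hn : 5 ≤ Fintype.card ι) {t : ℕ} (ht : 4 ≤ t)
    (D : Fin t → Submodule F (ι → F)) (hD : Cfsg.Geo.IsOrthogonalMDecomposition ⇑Q 2 D)
    (hplus : ∀ i, Cfsg.Geo.IsPlusTypeOn ⇑Q (D i)) :
    ∃ K : Subgroup (GL ι F), Cfsg.Geo.decompositionStabilizer D ⊓ Cfsg.Geo.omegaGL ⇑Q < K ∧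
      K < Cfsg.Geo.omegaGL ⇑Q := by
  classical
  have h2 := two_eq_zero_two hq
  have hpair := fun i => exists_hyp_pair Q (D i) (hD.decomp.decomp.finrank_eq i)
    (hD.decomp.nondegenerate i) (hplus i)
  choose e he f hf hQe hQf hef hexp using hpair
  have hDo : ∀ i i', i ≠ i' → ∀ u ∈ D i, ∀ v ∈ D i', polar ⇑Q u v = 0 :=
    fun i i' hii' => hD.decomp.orthogonal i i' hii'
  have hBs : ∀ x, polar ⇑Q x x = 2 * Q x := fun x => polar_self Q x
  have hfe : ∀ i, polar ⇑Q (f i) (e i) = 1 := fun i => by rw [polar_comm' Q]; exact hef i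
  have hee : ∀ i, polar ⇑Q (e i) (e i) = 0 := fun i => by rw [hBs, hQe]; ring
  have hff : ∀ i, polar ⇑Q (f i) (f i) = 0 := fun i => by rw [hBs, hQf]; ring
  obtain ⟨s, hs⟩ : ∃ s : Fin t → (ι → F), s = fun i => e i + f i := ⟨_, rfl⟩
  have hsD : ∀ i, s i ∈ D i := fun i => by rw [hs]; exact (D i).add_mem (he i) (hf i)
  have hQs : ∀ i, Q (s i) = 1 := fun i => by
    rw [hs]
    show Q (e i + f i) = 1
    rw [QuadraticMap.map_add Q, hQe, hQf, hef]
    ring
  have hss : ∀ i j, polar ⇑Q (s i) (s j) = 0 := by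
    intro i j
    by_cases hij : i = j
    · subst hij
      rw [hBs, hQs]
      linear_combination h2
    · exact hDo i j hij _ (hsD i) _ (hsD j)
  have hse : ∀ i, polar ⇑Q (s i) (e i) = 1 := fun i => by
    rw [hs]
    show polar ⇑Q (e i + f i) (e i) = 1
    rw [polar_add_left, hee, hfe]
    ring
  have hes : ∀ i, polar ⇑Q (e i) (s i) = 1 := fun i => by rw [polar_comm' Q]; exact hse i
  have huniq : ∀ i, ∀ v ∈ D i, Q v ≠ 0 → v = s i := by
    intro i v hv hQv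
    obtain ⟨α, β, rfl⟩ := hexp i v hv
    have hQab : Q (α • e i + β • f i) = α * β := by
      rw [QuadraticMap.map_add Q, QuadraticMap.map_smul, QuadraticMap.map_smul, hQe, hQf,
        polar_smul_left' Q, polar_smul_right' Q, hef]
      simp
    rw [hQab] at hQv
    rcases two_cases hq α with h | h
    · exact absurd (by rw [h, zero_mul]) hQv
    · rcases two_cases hq β with h' | h'
      · exact absurd (by rw [h', mul_zero]) hQv
      · rw [h, h', one_smul, one_smul, hs]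
  obtain ⟨i0, hi0⟩ : ∃ i : Fin t, i = ⟨0, by omega⟩ := ⟨_, rfl⟩
  obtain ⟨i1, hi1⟩ : ∃ i : Fin t, i = ⟨1, by omega⟩ := ⟨_, rfl⟩
  obtain ⟨i2, hi2⟩ : ∃ i : Fin t, i = ⟨2, by omega⟩ := ⟨_, rfl⟩
  obtain ⟨i3, hi3⟩ : ∃ i : Fin t, i = ⟨3, by omega⟩ := ⟨_, rfl⟩
  have h01 : i0 ≠ i1 := by rw [hi0, hi1]; simp
  have h02 : i0 ≠ i2 := by rw [hi0, hi2]; simp
  have h03 : i0 ≠ i3 := by rw [hi0, hi3]; simp
  have h12 : i1 ≠ i2 := by rw [hi1, hi2]; simp
  have h13 : i1 ≠ i3 := by rw [hi1, hi3]; simp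
  have h23 : i2 ≠ i3 := by rw [hi2, hi3]; simp
  -- the two reflection vectors for `g₁`
  obtain ⟨a, ha⟩ : ∃ a, a = s i0 + s i1 + s i2 := ⟨_, rfl⟩
  have hQa : Q a = 1 := by
    rw [ha, QuadraticMap.map_add Q, QuadraticMap.map_add Q, polar_add_left, hQs, hQs, hQs, hss,
      hss, hss]
    linear_combination h2
  have hpas : ∀ i, polar ⇑Q a (s i) = 0 := fun i => by
    rw [ha, polar_add_left, polar_add_left, hss, hss, hss]
    ring
  obtain ⟨g₁, hg₁Ω, hg₁⟩ := exists_two_refl_gen Q hnd (Or.inr (by omega)) a (s i3)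
    (by rw [hQa]; exact one_ne_zero) (by rw [hQa, hQs])
  -- the two reflection vectors for `g₂`
  obtain ⟨c, hc⟩ : ∃ c, c = e i0 + s i1 := ⟨_, rfl⟩
  have hQc : Q c = 1 := by
    rw [hc, QuadraticMap.map_add Q, hQe, hQs, hDo i0 i1 h01 _ (he i0) _ (hsD i1)]
    ring
  obtain ⟨g₂, hg₂Ω, hg₂⟩ := exists_two_refl_gen Q hnd (Or.inr (by omega)) c (s i2)
    (by rw [hQc]; exact one_ne_zero) (by rw [hQc, hQs])
  apply stab_set_not_maximal Q D {v | ∃ i, v ∈ D i ∧ Q v ≠ 0} ?_ g₁ hg₁Ω ?_ ?_ g₂ hg₂Ω ?_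
  · rintro g hg v ⟨i, hv, hQv⟩
    obtain ⟨σ, hσ⟩ := hg.1
    obtain ⟨hfwd, -⟩ := decomp_map_mem D g σ hσ i
    exact ⟨σ i, hfwd v hv, by rw [omegaGL_isometry Q g hg.2]; exact hQv⟩
  · rintro v ⟨i, hv, hQv⟩
    have hvs := huniq i v hv hQv
    have h1 : (g₁ : Matrix ι ι F) *ᵥ v = v := by
      rw [hg₁, hvs]
      unfold rmap
      rw [hss, mul_zero, zero_smul, sub_zero, hpas, mul_zero, zero_smul, sub_zero]
    rw [h1]
    exact ⟨i, hv, hQv⟩
  · apply not_mem_decomp_of_moved D g₁ i0 (e i0) (he i0)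
    have h1 : (g₁ : Matrix ι ι F) *ᵥ e i0 = e i0 - a := by
      rw [hg₁]
      unfold rmap
      rw [hDo i3 i0 (Ne.symm h03) _ (hsD i3) _ (he i0), mul_zero, zero_smul, sub_zero, hQa]
      have h4 : polar ⇑Q a (e i0) = 1 := by
        rw [ha, polar_add_left, polar_add_left, hse, hDo i1 i0 (Ne.symm h01) _ (hsD i1) _ (he i0),
          hDo i2 i0 (Ne.symm h02) _ (hsD i2) _ (he i0)]
        ring
      rw [h4]
      simp
    rw [h1]
    apply not_mem_block Q D hDo h12 (he i1) (he i2)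
    · rw [polar_sub_left, hDo i0 i1 h01 _ (he i0) _ (he i1), ha, polar_add_left, polar_add_left,
        hse, hDo i0 i1 h01 _ (hsD i0) _ (he i1), hDo i2 i1 (Ne.symm h12) _ (hsD i2) _ (he i1)]
      simp
    · rw [polar_sub_left, hDo i0 i2 h02 _ (he i0) _ (he i2), ha, polar_add_left, polar_add_left,
        hse, hDo i0 i2 h02 _ (hsD i0) _ (he i2), hDo i1 i2 h12 _ (hsD i1) _ (he i2)]
      simp
  · refine ⟨s i0, ⟨i0, hsD i0, by rw [hQs]; exact one_ne_zero⟩, ?_⟩
    have h1 : (g₂ : Matrix ι ι F) *ᵥ s i0 = s i0 - c := by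
      rw [hg₂]
      unfold rmap
      rw [hss, mul_zero, zero_smul, sub_zero, hQc]
      have h4 : polar ⇑Q c (s i0) = 1 := by
        rw [hc, polar_add_left, hes, hss]
        ring
      rw [h4]
      simp
    rw [h1]
    rintro ⟨j, hj, -⟩
    refine not_mem_block Q D hDo h01 (he i0) (he i1) ?_ ?_ j hj
    · rw [polar_sub_left, hse, hc, polar_add_left, hee,
        hDo i1 i0 (Ne.symm h01) _ (hsD i1) _ (he i0)]
      simp
    · rw [polar_sub_left, hDo i0 i1 h01 _ (hsD i0) _ (he i1), hc, polar_add_left,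
        hDo i0 i1 h01 _ (he i0) _ (he i1), hse]
      simp

end

end Cfsg.Agent.Lib.Helper98
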