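import Mathlib
import Cfsg.Agent.Lib.Helper98.DecTwo

/-!
# Decompositions into hyperbolic planes over the field with four elements

Helper library (helper98). The stabiliser in `Ω` of a decomposition into hyperbolic planes over
the field with four elements (type `O_2^+(4) wr S_t`) preserves the dual of the additive group
spanned by the vectors of norm one of the planes, so it is not maximal.
-/

set_option autoImplicit false
set_option linter.unusedSectionVars false
set_option linter.unusedSimpArgs false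

namespace Cfsg.Agent.Lib.Helper98

open Cfsg Module Matrix QuadraticMap Cfsg.Agent.Lib.Helper51

section

variable {ι : Type} [Fintype ι] [DecidableEq ι] {F : Type*} [Field F] [Fintype F]

theorem two_eq_zero_four (hq : Fintype.card F = 4) : (2 : F) = 0 := by
  have h3 := FiniteField.cast_card_eq_zero F
  rw [hq] at h3
  have h4 : (2 : F) * 2 = 0 := by
    have h5 : ((4 : ℕ) : F) = 2 * 2 := by norm_num
    rw [← h5]
    exact h3
  exact mul_self_eq_zero.mp h4

theorem exists_omega_four (hq : Fintype.card F = 4) :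
    ∃ ω : F, ω ≠ 0 ∧ ω ≠ 1 ∧ ω * ω + ω + 1 = 0 := by
  classical
  have h2 := two_eq_zero_four hq
  obtain ⟨ω, hω0, hω1⟩ : ∃ ω : F, ω ≠ 0 ∧ ω ≠ 1 := by
    by_contra hcon
    push Not at hcon
    have h1 : (Finset.univ : Finset F) ⊆ {0, 1} := by
      intro x _
      by_cases hx : x = 0
      · simp [hx]
      · simp [hcon x hx]
    have h3 := Finset.card_le_card h1
    rw [Finset.card_univ, hq] at h3
    have h4 : ({0, 1} : Finset F).card ≤ 2 := Finset.card_le_two
    omega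
  refine ⟨ω, hω0, hω1, ?_⟩
  have h4 : ω ^ 4 = ω := by
    have := FiniteField.pow_card ω
    rw [hq] at this
    exact this
  have h5 : ω * ((ω - 1) * (ω * ω + ω + 1)) = 0 := by linear_combination h4
  rcases mul_eq_zero.mp h5 with h | h
  · exact absurd h hω0
  · rcases mul_eq_zero.mp h with h | h
    · exact absurd (sub_eq_zero.mp h) hω1
    · exact h

/-- Over the field with four elements the stabiliser in `Ω` of an orthogonal decomposition into
at least four hyperbolic planes (type `O_2^+(4) wr S_t`) is not maximal. -/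
theorem decomp2_plus_four (Q : QuadraticForm F (ι → F)) (hnd : (polarBilin Q).Nondegenerate)
    (hq : Fintype.card F = 4) {t : ℕ} (ht : 4 ≤ t)
    (D : Fin t → Submodule F (ι → F)) (hD : Cfsg.Geo.IsOrthogonalMDecomposition ⇑Q 2 D)
    (hplus : ∀ i, Cfsg.Geo.IsPlusTypeOn ⇑Q (D i)) :
    ∃ K : Subgroup (GL ι F), Cfsg.Geo.decompositionStabilizer D ⊓ Cfsg.Geo.omegaGL ⇑Q < K ∧
      K < Cfsg.Geo.omegaGL ⇑Q := by
  classical
  have h2 := two_eq_zero_four hq
  have hpow : ∀ x : F, x ^ 4 = x := fun x => by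
    have := FiniteField.pow_card x
    rw [hq] at this
    exact this
  obtain ⟨ω, hω0, hω1, hω⟩ := exists_omega_four hq
  have hpair := fun i => exists_hyp_pair Q (D i) (hD.decomp.decomp.finrank_eq i)
    (hD.decomp.nondegenerate i) (hplus i)
  choose e he f hf hQe hQf hef hexp using hpair
  have hDo : ∀ i i', i ≠ i' → ∀ u ∈ D i, ∀ v ∈ D i', polar ⇑Q u v = 0 :=
    fun i i' hii' => hD.decomp.orthogonal i i' hii'
  have hBs : ∀ x, polar ⇑Q x x = 2 * Q x := fun x => polar_self Q x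
  have hfe : ∀ i, polar ⇑Q (f i) (e i) = 1 := fun i => by rw [polar_comm' Q]; exact hef i
  have hee : ∀ i, polar ⇑Q (e i) (e i) = 0 := fun i => by rw [hBs, hQe]; ring
  have hff : ∀ i, polar ⇑Q (f i) (f i) = 0 := fun i => by rw [hBs, hQf]; ring
  obtain ⟨s, hs⟩ : ∃ s : Fin t → (ι → F), s = fun i => e i + f i := ⟨_, rfl⟩
  have hsD : ∀ i, s i ∈ D i := fun i => by rw [hs]; exact (D i).add_mem (he i) (hf i)
  have hQs : ∀ i, Q (s i) = 1 := fun i => by
    rw [hs]
    show Q (e i + f i) = 1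
    rw [QuadraticMap.map_add Q, hQe, hQf, hef]
    ring
  have hss : ∀ i j, polar ⇑Q (s i) (s j) = 0 := by
    intro i j
    by_cases hij : i = j
    · subst hij
      rw [hBs, hQs]
      linear_combination h2
    · exact hDo i j hij _ (hsD i) _ (hsD j)
  have hse : ∀ i, polar ⇑Q (s i) (e i) = 1 := fun i => by
    rw [hs]
    show polar ⇑Q (e i + f i) (e i) = 1
    rw [polar_add_left, hee, hfe]
    ring
  have hsf : ∀ i, polar ⇑Q (s i) (f i) = 1 := fun i => by
    rw [hs]
    show polar ⇑Q (e i + f i) (f i) = 1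
    rw [polar_add_left, hff, hef]
    ring
  have hes : ∀ i, polar ⇑Q (e i) (s i) = 1 := fun i => by rw [polar_comm' Q]; exact hse i
  -- the key fact: norm-one vectors of a plane have inner products in the prime field
  have hkey : ∀ i, ∀ w ∈ D i, ∀ w' ∈ D i, Q w = 1 → Q w' = 1 →
      polar ⇑Q w w' = 0 ∨ polar ⇑Q w w' = 1 := by
    intro i w hw w' hw' hQw hQw'
    obtain ⟨α, β, rfl⟩ := hexp i w hw
    obtain ⟨α', β', rfl⟩ := hexp i w' hw'
    have hQab : ∀ a b : F, Q (a • e i + b • f i) = a * b := by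
      intro a b
      rw [QuadraticMap.map_add Q, QuadraticMap.map_smul, QuadraticMap.map_smul, hQe, hQf,
        polar_smul_left' Q, polar_smul_right' Q, hef]
      simp
    rw [hQab] at hQw hQw'
    have hβ : β = α ^ 2 := by
      have h1 := hpow α
      have h3 : α ≠ 0 := by
        rintro rfl
        rw [zero_mul] at hQw
        exact zero_ne_one hQw
      have h4 : α * (α ^ 2 - β) = 0 := by
        have h5 : α * (α ^ 3 - 1) = 0 := by linear_combination h1
        have h6 : α ^ 3 = 1 := by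
          rcases mul_eq_zero.mp h5 with h | h
          · exact absurd h h3
          · exact sub_eq_zero.mp h
        linear_combination h6 - hQw
      rcases mul_eq_zero.mp h4 with h | h
      · exact absurd h h3
      · exact (sub_eq_zero.mp h).symm
    have hβ' : β' = α' ^ 2 := by
      have h1 := hpow α'
      have h3 : α' ≠ 0 := by
        rintro rfl
        rw [zero_mul] at hQw'
        exact zero_ne_one hQw'
      have h4 : α' * (α' ^ 2 - β') = 0 := by
        have h5 : α' * (α' ^ 3 - 1) = 0 := by linear_combination h1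
        have h6 : α' ^ 3 = 1 := by
          rcases mul_eq_zero.mp h5 with h | h
          · exact absurd h h3
          · exact sub_eq_zero.mp h
        linear_combination h6 - hQw'
      rcases mul_eq_zero.mp h4 with h | h
      · exact absurd h h3
      · exact (sub_eq_zero.mp h).symm
    have hp : polar ⇑Q (α • e i + β • f i) (α' • e i + β' • f i) = α * β' + β * α' := by
      rw [polar_add_left, polar_add_right, polar_add_right, polar_smul_left' Q,
        polar_smul_left' Q, polar_smul_left' Q, polar_smul_left' Q, polar_smul_right' Q,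
        polar_smul_right' Q, polar_smul_right' Q, polar_smul_right' Q, hee, hff, hef, hfe]
      ring
    rw [hp, hβ, hβ']
    have h1 := hpow α
    have h1' := hpow α'
    have h5 : (α * α' ^ 2 + α ^ 2 * α') * ((α * α' ^ 2 + α ^ 2 * α') - 1) = 0 := by
      linear_combination α ^ 2 * h1' + α' ^ 2 * h1 + α ^ 3 * α' ^ 3 * h2
    rcases mul_eq_zero.mp h5 with h | h
    · exact Or.inl h
    · exact Or.inr (sub_eq_zero.mp h)
  have hL1 : ∀ w w', (∃ i, w ∈ D i ∧ Q w = 1) → (∃ i, w' ∈ D i ∧ Q w' = 1) →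
      polar ⇑Q w w' = 0 ∨ polar ⇑Q w w' = 1 := by
    rintro w w' ⟨i, hw, hQw⟩ ⟨j, hw', hQw'⟩
    by_cases hij : i = j
    · subst hij
      exact hkey i w hw w' hw' hQw hQw'
    · exact Or.inl (hDo i j hij w hw w' hw')
  have hBadd : ∀ x y : F, (x = 0 ∨ x = 1) → (y = 0 ∨ y = 1) → (x + y = 0 ∨ x + y = 1) := by
    rintro x y (rfl | rfl) (rfl | rfl)
    · left; ring
    · right; ring
    · right; ring
    · left; linear_combination h2
  have hBsub : ∀ x y : F, (x = 0 ∨ x = 1) → (y = 0 ∨ y = 1) → (x - y = 0 ∨ x - y = 1) := by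
    rintro x y (rfl | rfl) (rfl | rfl)
    · left; ring
    · right; linear_combination -h2
    · right; ring
    · left; ring
  obtain ⟨L, hL⟩ : ∃ L : Set (ι → F), L = {v | ∀ w, (∃ i, w ∈ D i ∧ Q w = 1) →
      (polar ⇑Q v w = 0 ∨ polar ⇑Q v w = 1)} := ⟨_, rfl⟩
  have hLmem : ∀ v, v ∈ L ↔ ∀ w, (∃ i, w ∈ D i ∧ Q w = 1) →
      (polar ⇑Q v w = 0 ∨ polar ⇑Q v w = 1) := fun v => by rw [hL]; rfl
  -- vectors all of whose inner products with `L` lie in the prime field
  have hPs : ∀ i, s i ∈ L ∧ ∀ v ∈ L, (polar ⇑Q (s i) v = 0 ∨ polar ⇑Q (s i) v = 1) := by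
    intro i
    refine ⟨(hLmem _).mpr fun w hw => hL1 _ _ ⟨i, hsD i, hQs i⟩ hw, fun v hv => ?_⟩
    rw [polar_comm' Q]
    exact (hLmem v).mp hv _ ⟨i, hsD i, hQs i⟩
  have hPadd : ∀ c c', (c ∈ L ∧ ∀ v ∈ L, (polar ⇑Q c v = 0 ∨ polar ⇑Q c v = 1)) →
      (c' ∈ L ∧ ∀ v ∈ L, (polar ⇑Q c' v = 0 ∨ polar ⇑Q c' v = 1)) →
      (c + c' ∈ L ∧ ∀ v ∈ L, (polar ⇑Q (c + c') v = 0 ∨ polar ⇑Q (c + c') v = 1)) := by
    rintro c c' ⟨h1, h1'⟩ ⟨h3, h3'⟩
    refine ⟨(hLmem _).mpr fun w hw => ?_, fun v hv => ?_⟩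
    · rw [polar_add_left]
      exact hBadd _ _ ((hLmem c).mp h1 w hw) ((hLmem c').mp h3 w hw)
    · rw [polar_add_left]
      exact hBadd _ _ (h1' v hv) (h3' v hv)
  have hrefl : ∀ c, Q c = 1 → (c ∈ L ∧ ∀ v ∈ L, (polar ⇑Q c v = 0 ∨ polar ⇑Q c v = 1)) →
      ∀ v ∈ L, rmap Q c v ∈ L := by
    rintro c hQc ⟨h1, h1'⟩ v hv
    unfold rmap
    rw [hQc, inv_one, one_mul]
    rcases h1' v hv with h | h
    · rw [h, zero_smul, sub_zero]
      exact hv
    · rw [h, one_smul]
      refine (hLmem _).mpr fun w hw => ?_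
      rw [polar_sub_left]
      exact hBsub _ _ ((hLmem v).mp hv w hw) ((hLmem c).mp h1 w hw)
  obtain ⟨i0, hi0⟩ : ∃ i : Fin t, i = ⟨0, by omega⟩ := ⟨_, rfl⟩
  obtain ⟨i1, hi1⟩ : ∃ i : Fin t, i = ⟨1, by omega⟩ := ⟨_, rfl⟩
  obtain ⟨i2, hi2⟩ : ∃ i : Fin t, i = ⟨2, by omega⟩ := ⟨_, rfl⟩
  obtain ⟨i3, hi3⟩ : ∃ i : Fin t, i = ⟨3, by omega⟩ := ⟨_, rfl⟩
  have h01 : i0 ≠ i1 := by rw [hi0, hi1]; simp
  have h02 : i0 ≠ i2 := by rw [hi0, hi2]; simp
  have h03 : i0 ≠ i3 := by rw [hi0, hi3]; simp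
  have h12 : i1 ≠ i2 := by rw [hi1, hi2]; simp
  have h13 : i1 ≠ i3 := by rw [hi1, hi3]; simp
  have h23 : i2 ≠ i3 := by rw [hi2, hi3]; simp
  -- the two reflection vectors for `g₁`
  obtain ⟨a, ha⟩ : ∃ a, a = s i0 + s i1 + s i2 := ⟨_, rfl⟩
  have hQa : Q a = 1 := by
    rw [ha, QuadraticMap.map_add Q, QuadraticMap.map_add Q, polar_add_left, hQs, hQs, hQs, hss,
      hss, hss]
    linear_combination h2
  have hPa : a ∈ L ∧ ∀ v ∈ L, (polar ⇑Q a v = 0 ∨ polar ⇑Q a v = 1) := by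
    rw [ha]
    exact hPadd _ _ (hPadd _ _ (hPs i0) (hPs i1)) (hPs i2)
  obtain ⟨g₁, hg₁Ω, hg₁⟩ := exists_two_refl_gen Q hnd (Or.inl (by omega)) a (s i3)
    (by rw [hQa]; exact one_ne_zero) (by rw [hQa, hQs])
  -- the two reflection vectors for `g₂`
  obtain ⟨c, hc⟩ : ∃ c, c = s i0 + ω • e i1 := ⟨_, rfl⟩
  have hQc : Q c = 1 := by
    rw [hc, QuadraticMap.map_add Q, QuadraticMap.map_smul, hQe, hQs, polar_smul_right' Q,
      hDo i0 i1 h01 _ (hsD i0) _ (he i1)]
    simp
  obtain ⟨g₂, hg₂Ω, hg₂⟩ := exists_two_refl_gen Q hnd (Or.inl (by omega)) c (s i3)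
    (by rw [hQc]; exact one_ne_zero) (by rw [hQc, hQs])
  -- the stabiliser permutes the norm-one vectors of the planes
  have hL1H : ∀ g ∈ Cfsg.Geo.decompositionStabilizer D ⊓ Cfsg.Geo.omegaGL ⇑Q, ∀ w,
      (∃ i, w ∈ D i ∧ Q w = 1) → ∃ i, (g : Matrix ι ι F) *ᵥ w ∈ D i ∧
        Q ((g : Matrix ι ι F) *ᵥ w) = 1 := by
    rintro g hg w ⟨i, hw, hQw⟩
    obtain ⟨σ, hσ⟩ := hg.1
    obtain ⟨hfwd, -⟩ := decomp_map_mem D g σ hσ i
    exact ⟨σ i, hfwd w hw, by rw [omegaGL_isometry Q g hg.2]; exact hQw⟩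
  apply stab_set_not_maximal Q D L ?_ g₁ hg₁Ω ?_ ?_ g₂ hg₂Ω ?_
  · intro g hg v hv
    refine (hLmem _).mpr fun w hw => ?_
    have hw' := hL1H g⁻¹ (inv_mem hg) w hw
    have h1 : (g : Matrix ι ι F) *ᵥ (((g⁻¹ : GL ι F) : Matrix ι ι F) *ᵥ w) = w := by
      rw [Matrix.mulVec_mulVec, ← Units.val_mul, mul_inv_cancel, Units.val_one, Matrix.one_mulVec]
    rw [← h1, omegaGL_polar Q g hg.2]
    exact (hLmem v).mp hv _ hw'
  · intro v hv
    rw [hg₁]
    exact hrefl a hQa hPa _ (hrefl (s i3) (hQs i3) (hPs i3) v hv)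
  · apply not_mem_decomp_of_moved D g₁ i0 (e i0) (he i0)
    have h1 : (g₁ : Matrix ι ι F) *ᵥ e i0 = e i0 - a := by
      rw [hg₁]
      unfold rmap
      rw [hDo i3 i0 (Ne.symm h03) _ (hsD i3) _ (he i0), mul_zero, zero_smul, sub_zero, hQa]
      have h4 : polar ⇑Q a (e i0) = 1 := by
        rw [ha, polar_add_left, polar_add_left, hse, hDo i1 i0 (Ne.symm h01) _ (hsD i1) _ (he i0),
          hDo i2 i0 (Ne.symm h02) _ (hsD i2) _ (he i0)]
        ring
      rw [h4]
      simp
    rw [h1]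
    apply not_mem_block Q D hDo h12 (he i1) (he i2)
    · rw [polar_sub_left, hDo i0 i1 h01 _ (he i0) _ (he i1), ha, polar_add_left, polar_add_left,
        hse, hDo i0 i1 h01 _ (hsD i0) _ (he i1), hDo i2 i1 (Ne.symm h12) _ (hsD i2) _ (he i1)]
      simp
    · rw [polar_sub_left, hDo i0 i2 h02 _ (he i0) _ (he i2), ha, polar_add_left, polar_add_left,
        hse, hDo i0 i2 h02 _ (hsD i0) _ (he i2), hDo i1 i2 h12 _ (hsD i1) _ (he i2)]
      simp
  · refine ⟨s i1, (hPs i1).1, ?_⟩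
    have h1 : (g₂ : Matrix ι ι F) *ᵥ s i1 = s i1 - ω • c := by
      rw [hg₂]
      unfold rmap
      rw [hss, mul_zero, zero_smul, sub_zero, hQc]
      have h4 : polar ⇑Q c (s i1) = ω := by
        rw [hc, polar_add_left, polar_smul_left' Q, hes, hss]
        ring
      rw [h4]
      simp
    rw [h1]
    intro hmem
    have hwD : ω • e i0 + (ω * ω) • f i0 ∈ D i0 :=
      (D i0).add_mem ((D i0).smul_mem _ (he i0)) ((D i0).smul_mem _ (hf i0))
    have hQw : Q (ω • e i0 + (ω * ω) • f i0) = 1 := by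
      rw [QuadraticMap.map_add Q, QuadraticMap.map_smul, QuadraticMap.map_smul, hQe, hQf,
        polar_smul_left' Q, polar_smul_right' Q, hef]
      simp only [smul_eq_mul, mul_zero, add_zero, zero_add, mul_one]
      have h5 : ω * ((ω - 1) * (ω * ω + ω + 1)) = 0 := by rw [hω]; ring
      have h6 := hpow ω
      have h7 : ω * (ω * (ω * ω) - 1) = 0 := by linear_combination h6
      rcases mul_eq_zero.mp h7 with h | h
      · exact absurd h hω0
      · exact sub_eq_zero.mp h
    have h8 := (hLmem _).mp hmem _ ⟨i0, hwD, hQw⟩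
    have h9 : polar ⇑Q (s i1 - ω • c) (ω • e i0 + (ω * ω) • f i0) = ω := by
      rw [polar_sub_left, polar_smul_left' Q, hc, polar_add_left, polar_smul_left' Q,
        polar_add_right, polar_add_right, polar_add_right, polar_smul_right' Q,
        polar_smul_right' Q, polar_smul_right' Q, polar_smul_right' Q, polar_smul_right' Q,
        polar_smul_right' Q, hse, hsf,
        hDo i1 i0 (Ne.symm h01) _ (hsD i1) _ (he i0), hDo i1 i0 (Ne.symm h01) _ (hsD i1) _ (hf i0),
        hDo i1 i0 (Ne.symm h01) _ (he i1) _ (he i0), hDo i1 i0 (Ne.symm h01) _ (he i1) _ (hf i0)]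
      linear_combination (-ω) * hω
    rw [h9] at h8
    rcases h8 with h | h
    · exact hω0 h
    · exact hω1 h

end

end Cfsg.Agent.Lib.Helper98
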