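import Mathlib
import Cfsg.Agent.Lib.Helper98.DecTwo

/-!
# Decompositions into four-dimensional spaces of plus type over the field with two elements

Helper library (helper98). A hyperbolic basis of a four-dimensional space of plus type, the two
anisotropic planes of such a space over the field with two elements, and the non-maximality of
the stabiliser in `Ω` of a decomposition of type `O_4^+(2) wr S_t`.
-/

set_option autoImplicit false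
set_option linter.unusedSectionVars false
set_option linter.unusedSimpArgs false

namespace Cfsg.Agent.Lib.Helper98

open Cfsg Module Matrix QuadraticMap Cfsg.Agent.Lib.Helper51 Cfsg.Agent.Lib.Helper52

section

variable {ι : Type} [Fintype ι] [DecidableEq ι] {F : Type*} [Field F]

/-- A four-dimensional space of plus type has a hyperbolic basis. -/
theorem exists_hyp_quad (Q : QuadraticForm F (ι → F)) (W : Submodule F (ι → F))
    (hdim : finrank F W = 4) (hW : Cfsg.Geo.IsNondegenerateOn (polar ⇑Q) W)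
    (hplus : Cfsg.Geo.IsPlusTypeOn ⇑Q W) :
    ∃ e₁ ∈ W, ∃ f₁ ∈ W, ∃ e₂ ∈ W, ∃ f₂ ∈ W, Q e₁ = 0 ∧ Q f₁ = 0 ∧ Q e₂ = 0 ∧ Q f₂ = 0 ∧
      polar ⇑Q e₁ f₁ = 1 ∧ polar ⇑Q e₂ f₂ = 1 ∧ polar ⇑Q e₁ e₂ = 0 ∧ polar ⇑Q e₁ f₂ = 0 ∧
      polar ⇑Q f₁ e₂ = 0 ∧ polar ⇑Q f₁ f₂ = 0 ∧
      ∀ w ∈ W, ∃ α β γ δ : F, w = α • e₁ + β • f₁ + γ • e₂ + δ • f₂ := by
  classical
  have hBal : ∀ x y z, polar ⇑Q (x + y) z = polar ⇑Q x z + polar ⇑Q y z :=
    fun x y z => polar_add_left Q x y z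
  have hBar : ∀ x y z, polar ⇑Q x (y + z) = polar ⇑Q x y + polar ⇑Q x z :=
    fun x y z => polar_add_right Q x y z
  have hBsl : ∀ (a : F) x y, polar ⇑Q (a • x) y = a * polar ⇑Q x y :=
    fun a x y => polar_smul_left' Q x y a
  have hBsr : ∀ (a : F) x y, polar ⇑Q x (a • y) = a * polar ⇑Q x y :=
    fun a x y => polar_smul_right' Q x y a
  have hBc : ∀ x y, polar ⇑Q x y = polar ⇑Q y x := fun x y => polar_comm' Q x y
  have hBs : ∀ x, polar ⇑Q x x = 2 * Q x := fun x => polar_self Q x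
  have hQa : ∀ x y, Q (x + y) = Q x + Q y + polar ⇑Q x y := fun x y => QuadraticMap.map_add Q x y
  have hQs : ∀ (a : F) x, Q (a • x) = a * a * Q x := fun a x => by
    rw [QuadraticMap.map_smul, smul_eq_mul]
  have hB0 : ∀ y, polar ⇑Q 0 y = 0 := fun y => by
    have h4 := hBsl 0 0 y
    rw [zero_smul, zero_mul] at h4
    exact h4
  obtain ⟨U, hUW, hU0, hUdim⟩ := hplus
  have hU2 : finrank F U = 2 := by omega
  have hUne : U ≠ ⊥ := by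
    intro h
    rw [h, finrank_bot] at hU2
    omega
  obtain ⟨e₁, he₁U, he₁0⟩ := Submodule.exists_mem_ne_zero_of_ne_bot hUne
  have he₁W : e₁ ∈ W := hUW he₁U
  have hQe₁ : Q e₁ = 0 := hU0 e₁ he₁U
  obtain ⟨x, hxW, hxe⟩ := (hW e₁ he₁W he₁0).1
  obtain ⟨f₁, hf₁W, hQf₁, hef₁⟩ : ∃ f ∈ W, Q f = 0 ∧ polar ⇑Q e₁ f = 1 := by
    refine ⟨(polar ⇑Q x e₁)⁻¹ • x + (-(Q ((polar ⇑Q x e₁)⁻¹ • x))) • e₁,
      W.add_mem (W.smul_mem _ hxW) (W.smul_mem _ he₁W), ?_, ?_⟩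
    · rw [hQa, hQs (-(Q ((polar ⇑Q x e₁)⁻¹ • x))) e₁, hQe₁, hBsr, hBsl, inv_mul_cancel₀ hxe]
      ring
    · rw [hBar, hBsr, hBsr, hBs, hQe₁, hBc e₁ x, inv_mul_cancel₀ hxe]
      ring
  have hfe₁ : polar ⇑Q f₁ e₁ = 1 := by rw [hBc]; exact hef₁
  have hee₁ : polar ⇑Q e₁ e₁ = 0 := by rw [hBs, hQe₁]; ring
  have hff₁ : polar ⇑Q f₁ f₁ = 0 := by rw [hBs, hQf₁]; ring
  -- the second singular vector
  have h1 : finrank F U ≤ finrank F ↥(U ⊓ LinearMap.ker (polarBilin Q f₁)) + 1 :=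
    finrank_le_inf_ker_add_one _ _
  have hne : U ⊓ LinearMap.ker (polarBilin Q f₁) ≠ ⊥ := by
    intro h
    rw [h, finrank_bot] at h1
    omega
  obtain ⟨e₂, he₂mem, he₂0⟩ := Submodule.exists_mem_ne_zero_of_ne_bot hne
  have he₂U : e₂ ∈ U := he₂mem.1
  have hf₁e₂ : polar ⇑Q f₁ e₂ = 0 := by
    have h3 : e₂ ∈ LinearMap.ker (polarBilin Q f₁) := he₂mem.2
    rw [LinearMap.mem_ker] at h3
    exact h3
  have he₂f₁ : polar ⇑Q e₂ f₁ = 0 := by rw [hBc]; exact hf₁e₂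
  have he₂W : e₂ ∈ W := hUW he₂U
  have hQe₂ : Q e₂ = 0 := hU0 e₂ he₂U
  have he₁e₂ : polar ⇑Q e₁ e₂ = 0 := by
    have h3 := hU0 (e₁ + e₂) (U.add_mem he₁U he₂U)
    rw [hQa, hQe₁, hQe₂] at h3
    linear_combination h3
  have he₂e₁ : polar ⇑Q e₂ e₁ = 0 := by rw [hBc]; exact he₁e₂
  have hee₂ : polar ⇑Q e₂ e₂ = 0 := by rw [hBs, hQe₂]; ring
  obtain ⟨y, hyW, hye⟩ := (hW e₂ he₂W he₂0).1
  obtain ⟨y', hy'⟩ : ∃ y', y' = y - polar ⇑Q y f₁ • e₁ - polar ⇑Q y e₁ • f₁ := ⟨_, rfl⟩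
  have hy'W : y' ∈ W := by
    rw [hy']
    exact W.sub_mem (W.sub_mem hyW (W.smul_mem _ he₁W)) (W.smul_mem _ hf₁W)
  have hy'e₁ : polar ⇑Q y' e₁ = 0 := by
    rw [hy', polar_sub_left, polar_sub_left, hBsl, hBsl, hee₁, hfe₁]; ring
  have hy'f₁ : polar ⇑Q y' f₁ = 0 := by
    rw [hy', polar_sub_left, polar_sub_left, hBsl, hBsl, hef₁, hff₁]; ring
  have hy'e₂ : polar ⇑Q y' e₂ = polar ⇑Q y e₂ := by
    rw [hy', polar_sub_left, polar_sub_left, hBsl, hBsl, he₁e₂, hf₁e₂]; ring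
  have hy'e₂0 : polar ⇑Q y' e₂ ≠ 0 := by rw [hy'e₂]; exact hye
  obtain ⟨f₂, hf₂W, hQf₂, hef₂, he₁f₂, hf₁f₂⟩ : ∃ f ∈ W, Q f = 0 ∧ polar ⇑Q e₂ f = 1 ∧
      polar ⇑Q e₁ f = 0 ∧ polar ⇑Q f₁ f = 0 := by
    refine ⟨(polar ⇑Q y' e₂)⁻¹ • y' + (-(Q ((polar ⇑Q y' e₂)⁻¹ • y'))) • e₂,
      W.add_mem (W.smul_mem _ hy'W) (W.smul_mem _ he₂W), ?_, ?_, ?_, ?_⟩
    · rw [hQa, hQs (-(Q ((polar ⇑Q y' e₂)⁻¹ • y'))) e₂, hQe₂, hBsr, hBsl, inv_mul_cancel₀ hy'e₂0]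
      ring
    · rw [hBar, hBsr, hBsr, hBs, hQe₂, hBc e₂ y', inv_mul_cancel₀ hy'e₂0]
      ring
    · rw [hBar, hBsr, hBsr, hBc e₁ y', hy'e₁, he₁e₂]
      ring
    · rw [hBar, hBsr, hBsr, hBc f₁ y', hy'f₁, hf₁e₂]
      ring
  have hfe₂ : polar ⇑Q f₂ e₂ = 1 := by rw [hBc]; exact hef₂
  have hff₂ : polar ⇑Q f₂ f₂ = 0 := by rw [hBs, hQf₂]; ring
  have hf₂e₁ : polar ⇑Q f₂ e₁ = 0 := by rw [hBc]; exact he₁f₂
  have hf₂f₁ : polar ⇑Q f₂ f₁ = 0 := by rw [hBc]; exact hf₁f₂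
  have hli : LinearIndependent F ![e₁, f₁, e₂, f₂] := by
    rw [Fintype.linearIndependent_iff]
    intro g hg
    rw [Fin.sum_univ_four] at hg
    have hg' : g 0 • e₁ + g 1 • f₁ + g 2 • e₂ + g 3 • f₂ = 0 := hg
    have k1 : polar ⇑Q (g 0 • e₁ + g 1 • f₁ + g 2 • e₂ + g 3 • f₂) f₁ = 0 := by
      rw [hg']; exact hB0 _
    have k2 : polar ⇑Q (g 0 • e₁ + g 1 • f₁ + g 2 • e₂ + g 3 • f₂) e₁ = 0 := by
      rw [hg']; exact hB0 _
    have k3 : polar ⇑Q (g 0 • e₁ + g 1 • f₁ + g 2 • e₂ + g 3 • f₂) f₂ = 0 := by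
      rw [hg']; exact hB0 _
    have k4 : polar ⇑Q (g 0 • e₁ + g 1 • f₁ + g 2 • e₂ + g 3 • f₂) e₂ = 0 := by
      rw [hg']; exact hB0 _
    rw [hBal, hBal, hBal, hBsl, hBsl, hBsl, hBsl, hef₁, hff₁, he₂f₁, hf₂f₁] at k1
    rw [hBal, hBal, hBal, hBsl, hBsl, hBsl, hBsl, hee₁, hfe₁, he₂e₁, hf₂e₁] at k2
    rw [hBal, hBal, hBal, hBsl, hBsl, hBsl, hBsl, he₁f₂, hf₁f₂, hef₂, hff₂] at k3
    rw [hBal, hBal, hBal, hBsl, hBsl, hBsl, hBsl, he₁e₂, hf₁e₂, hee₂, hfe₂] at k4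
    intro i
    fin_cases i
    · show g 0 = 0
      linear_combination k1
    · show g 1 = 0
      linear_combination k2
    · show g 2 = 0
      linear_combination k3
    · show g 3 = 0
      linear_combination k4
  have hspan : Submodule.span F (Set.range ![e₁, f₁, e₂, f₂]) = W := by
    apply Submodule.eq_of_le_of_finrank_eq
    · rw [Submodule.span_le]
      rintro _ ⟨i, rfl⟩
      fin_cases i
      · exact he₁W
      · exact hf₁W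
      · exact he₂W
      · exact hf₂W
    · rw [hdim, finrank_span_eq_card hli]
      simp
  refine ⟨e₁, he₁W, f₁, hf₁W, e₂, he₂W, f₂, hf₂W, hQe₁, hQf₁, hQe₂, hQf₂, hef₁, hef₂, he₁e₂,
    he₁f₂, hf₁e₂, hf₁f₂, ?_⟩
  intro w hw
  rw [← hspan] at hw
  obtain ⟨c, hc⟩ := (Submodule.mem_span_range_iff_exists_fun F).mp hw
  rw [Fin.sum_univ_four] at hc
  exact ⟨c 0, c 1, c 2, c 3, hc.symm⟩

variable [Fintype F]

/-- Over the field with two elements a four-dimensional space of plus type contains an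
anisotropic pair `p`, `q` such that every non-singular vector lies in their span or is
orthogonal to both. -/
theorem exists_quad_data (Q : QuadraticForm F (ι → F)) (hq : Fintype.card F = 2)
    (W : Submodule F (ι → F))
    (hdim : finrank F W = 4) (hW : Cfsg.Geo.IsNondegenerateOn (polar ⇑Q) W)
    (hplus : Cfsg.Geo.IsPlusTypeOn ⇑Q W) :
    ∃ p ∈ W, ∃ q ∈ W, ∃ e ∈ W, ∃ e' ∈ W, Q p = 1 ∧ Q q = 1 ∧ polar ⇑Q p q = 1 ∧ Q e = 0 ∧
      polar ⇑Q e p = 1 ∧ polar ⇑Q e q = 0 ∧ polar ⇑Q e e' = 0 ∧ polar ⇑Q q e' = 1 ∧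
      ∀ v ∈ W, Q v ≠ 0 → (polar ⇑Q v p = 0 ∧ polar ⇑Q v q = 0) ∨
        v = polar ⇑Q v q • p + polar ⇑Q v p • q := by
  classical
  have h2 := two_eq_zero_two hq
  have h11 : (1 : F) + 1 = 0 := by rw [one_add_one_eq_two]; exact h2
  have hBal : ∀ x y z, polar ⇑Q (x + y) z = polar ⇑Q x z + polar ⇑Q y z :=
    fun x y z => polar_add_left Q x y z
  have hBar : ∀ x y z, polar ⇑Q x (y + z) = polar ⇑Q x y + polar ⇑Q x z :=
    fun x y z => polar_add_right Q x y z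
  have hBsl : ∀ (a : F) x y, polar ⇑Q (a • x) y = a * polar ⇑Q x y :=
    fun a x y => polar_smul_left' Q x y a
  have hBsr : ∀ (a : F) x y, polar ⇑Q x (a • y) = a * polar ⇑Q x y :=
    fun a x y => polar_smul_right' Q x y a
  have hBc : ∀ x y, polar ⇑Q x y = polar ⇑Q y x := fun x y => polar_comm' Q x y
  have hBs : ∀ x, polar ⇑Q x x = 2 * Q x := fun x => polar_self Q x
  have hQa : ∀ x y, Q (x + y) = Q x + Q y + polar ⇑Q x y := fun x y => QuadraticMap.map_add Q x y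
  have hQs : ∀ (a : F) x, Q (a • x) = a * a * Q x := fun a x => by
    rw [QuadraticMap.map_smul, smul_eq_mul]
  obtain ⟨e₁, he₁W, f₁, hf₁W, e₂, he₂W, f₂, hf₂W, hQe₁, hQf₁, hQe₂, hQf₂, hef₁, hef₂, he₁e₂,
    he₁f₂, hf₁e₂, hf₁f₂, hexp⟩ := exists_hyp_quad Q W hdim hW hplus
  have hfe₁ : polar ⇑Q f₁ e₁ = 1 := by rw [hBc]; exact hef₁
  have hee₁ : polar ⇑Q e₁ e₁ = 0 := by rw [hBs, hQe₁]; ring
  have hff₁ : polar ⇑Q f₁ f₁ = 0 := by rw [hBs, hQf₁]; ring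
  have hfe₂ : polar ⇑Q f₂ e₂ = 1 := by rw [hBc]; exact hef₂
  have hee₂ : polar ⇑Q e₂ e₂ = 0 := by rw [hBs, hQe₂]; ring
  have hff₂ : polar ⇑Q f₂ f₂ = 0 := by rw [hBs, hQf₂]; ring
  have he₂e₁ : polar ⇑Q e₂ e₁ = 0 := by rw [hBc]; exact he₁e₂
  have hf₂e₁ : polar ⇑Q f₂ e₁ = 0 := by rw [hBc]; exact he₁f₂
  have he₂f₁ : polar ⇑Q e₂ f₁ = 0 := by rw [hBc]; exact hf₁e₂
  have hf₂f₁ : polar ⇑Q f₂ f₁ = 0 := by rw [hBc]; exact hf₁f₂
  have hQw : ∀ α β γ δ : F, Q (α • e₁ + β • f₁ + γ • e₂ + δ • f₂) = α * β + γ * δ := by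
    intro α β γ δ
    rw [hQa, hQa, hQa, hQs, hQs, hQs, hQs, hQe₁, hQf₁, hQe₂, hQf₂, hBal, hBal, hBal, hBsl, hBsl,
      hBsl, hBsl, hBsl, hBsl, hBsr, hBsr, hBsr, hBsr, hBsr, hBsr, hef₁, he₁e₂, hf₁e₂, he₁f₂,
      hf₁f₂, hef₂]
    ring
  have hpw : ∀ α β γ δ : F, polar ⇑Q (α • e₁ + β • f₁ + γ • e₂ + δ • f₂) (e₁ + f₁) = α + β := by
    intro α β γ δ
    rw [hBal, hBal, hBal, hBsl, hBsl, hBsl, hBsl, hBar, hBar, hBar, hBar, hee₁, hef₁, hfe₁, hff₁,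
      he₂e₁, he₂f₁, hf₂e₁, hf₂f₁]
    ring
  have hqw : ∀ α β γ δ : F, polar ⇑Q (α • e₁ + β • f₁ + γ • e₂ + δ • f₂) (e₂ + f₂ + e₁)
      = β + γ + δ := by
    intro α β γ δ
    rw [hBal, hBal, hBal, hBsl, hBsl, hBsl, hBsl, hBar, hBar, hBar, hBar, hBar, hBar, hBar, hBar,
      hee₁, hfe₁, he₂e₁, hf₂e₁, he₁e₂, he₁f₂, hf₁e₂, hf₁f₂, hee₂, hef₂, hfe₂, hff₂]
    ring
  have hvec : ∀ α β γ δ : F, γ + δ = 0 → α + β + γ = 0 → α + β + δ = 0 →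
      α • e₁ + β • f₁ + γ • e₂ + δ • f₂ = (β + γ + δ) • (e₁ + f₁) + (α + β) • (e₂ + f₂ + e₁) := by
    intro α β γ δ k1 k2 k3
    have k4 : (β + γ + δ) • (e₁ + f₁) + (α + β) • (e₂ + f₂ + e₁)
        = α • e₁ + β • f₁ + γ • e₂ + δ • f₂ + ((2 * β + (γ + δ)) • e₁ + (γ + δ) • f₁
          + ((α + β + γ) - 2 * γ) • e₂ + ((α + β + δ) - 2 * δ) • f₂) := by
      module
    rw [k4, k1, k2, k3, h2]
    simp
  have hnum : ∀ α β γ δ : F, α * β + γ * δ ≠ 0 → (α + β = 0 ∧ β + γ + δ = 0) ∨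
      (γ + δ = 0 ∧ α + β + γ = 0 ∧ α + β + δ = 0) := by
    intro α β γ δ
    rcases two_cases hq α with rfl | rfl <;> rcases two_cases hq β with rfl | rfl <;>
      rcases two_cases hq γ with rfl | rfl <;> rcases two_cases hq δ with rfl | rfl <;>
      simp [h2, h11]
  refine ⟨e₁ + f₁, W.add_mem he₁W hf₁W, e₂ + f₂ + e₁, W.add_mem (W.add_mem he₂W hf₂W) he₁W,
    e₁, he₁W, e₂, he₂W, ?_, ?_, ?_, hQe₁, ?_, ?_, he₁e₂, ?_, ?_⟩
  · rw [hQa, hQe₁, hQf₁, hef₁]; ring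
  · rw [hQa, hQa, hQe₁, hQf₂, hQe₂, hef₂, hBal, he₂e₁, hf₂e₁]; ring
  · rw [hBal, hBar, hBar, hBar, hBar, he₁e₂, he₁f₂, hee₁, hf₁e₂, hf₁f₂, hfe₁]; ring
  · rw [hBar, hee₁, hef₁]; ring
  · rw [hBar, hBar, he₁e₂, he₁f₂, hee₁]; ring
  · rw [hBal, hBal, hee₂, hfe₂, he₁e₂]; ring
  · intro v hv hQv
    obtain ⟨α, β, γ, δ, rfl⟩ := hexp v hv
    rw [hQw] at hQv
    rw [hpw, hqw]
    rcases hnum α β γ δ hQv with ⟨k1, k2⟩ | ⟨k1, k2, k3⟩
    · exact Or.inl ⟨k1, k2⟩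
    · exact Or.inr (hvec α β γ δ k1 k2 k3)

/-- Over the field with two elements the stabiliser in `Ω` of an orthogonal decomposition into
at least two four-dimensional spaces of plus type (type `O_4^+(2) wr S_t`) is not maximal: it
preserves the set of the non-singular vectors of the members. -/
theorem decomp4_plus_two (Q : QuadraticForm F (ι → F)) (hnd : (polarBilin Q).Nondegenerate)
    (hq : Fintype.card F = 2) (hn : 5 ≤ Fintype.card ι) {t : ℕ} (ht : 2 ≤ t)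
    (D : Fin t → Submodule F (ι → F)) (hD : Cfsg.Geo.IsOrthogonalMDecomposition ⇑Q 4 D)
    (hplus : ∀ i, Cfsg.Geo.IsPlusTypeOn ⇑Q (D i)) :
    ∃ K : Subgroup (GL ι F), Cfsg.Geo.decompositionStabilizer D ⊓ Cfsg.Geo.omegaGL ⇑Q < K ∧
      K < Cfsg.Geo.omegaGL ⇑Q := by
  classical
  have h2 := two_eq_zero_two hq
  have hdata := fun i => exists_quad_data Q hq (D i) (hD.decomp.decomp.finrank_eq i)
    (hD.decomp.nondegenerate i) (hplus i)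
  choose p hp q hq' e he e' he' hQp hQq hpq hQe hep heq hee' hqe' hstar using hdata
  have hDo : ∀ i i', i ≠ i' → ∀ u ∈ D i, ∀ v ∈ D i', polar ⇑Q u v = 0 :=
    fun i i' hii' => hD.decomp.orthogonal i i' hii'
  have hBc : ∀ x y, polar ⇑Q x y = polar ⇑Q y x := fun x y => polar_comm' Q x y
  have hBs : ∀ x, polar ⇑Q x x = 2 * Q x := fun x => polar_self Q x
  obtain ⟨i0, hi0⟩ : ∃ i : Fin t, i = ⟨0, by omega⟩ := ⟨_, rfl⟩
  obtain ⟨i1, hi1⟩ : ∃ i : Fin t, i = ⟨1, by omega⟩ := ⟨_, rfl⟩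
  have h01 : i0 ≠ i1 := by rw [hi0, hi1]; simp
  have h10 : i1 ≠ i0 := Ne.symm h01
  -- the long root element swapping two anisotropic planes
  have hQu : Q (p i0 + p i1) = 0 := by
    rw [QuadraticMap.map_add Q, hQp, hQp, hDo i0 i1 h01 _ (hp i0) _ (hp i1)]
    linear_combination h2
  have hQw : Q (q i0 + q i1) = 0 := by
    rw [QuadraticMap.map_add Q, hQq, hQq, hDo i0 i1 h01 _ (hq' i0) _ (hq' i1)]
    linear_combination h2
  have huw : polar ⇑Q (p i0 + p i1) (q i0 + q i1) = 0 := by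
    rw [polar_add_left, polar_add_right, polar_add_right, hpq, hpq,
      hDo i0 i1 h01 _ (hp i0) _ (hq' i1), hDo i1 i0 h10 _ (hp i1) _ (hq' i0)]
    linear_combination h2
  obtain ⟨g₁, hg₁Ω, hg₁⟩ : ∃ g : GL ι F, g ∈ Cfsg.Geo.omegaGL ⇑Q ∧ ∀ x,
      (g : Matrix ι ι F) *ᵥ x = x + polar ⇑Q (q i0 + q i1) x • (p i0 + p i1)
        - polar ⇑Q (p i0 + p i1) x • (q i0 + q i1) := by
    refine ⟨((eich Q (p i0 + p i1) (q i0 + q i1) hQu huw : isometryGroup F ⇑Q) : GL ι F),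
      ⟨_, eich_mem_commutator Q hnd hn _ _ hQu huw, rfl⟩, fun x => ?_⟩
    rw [coe_eich, eichMat_mulVec, hQw, zero_mul, zero_smul, sub_zero]
  -- the Eichler element moving a non-singular vector outside the members
  have hu₂ : polar ⇑Q (e i0) (p i1) = 0 := hDo i0 i1 h01 _ (he i0) _ (hp i1)
  obtain ⟨g₂, hg₂Ω, hg₂⟩ : ∃ g : GL ι F, g ∈ Cfsg.Geo.omegaGL ⇑Q ∧ ∀ x,
      (g : Matrix ι ι F) *ᵥ x = x + polar ⇑Q (p i1) x • e i0
        - polar ⇑Q (e i0) x • p i1 - (Q (p i1) * polar ⇑Q (e i0) x) • e i0 := by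
    refine ⟨((eich Q (e i0) (p i1) (hQe i0) hu₂ : isometryGroup F ⇑Q) : GL ι F),
      ⟨_, eich_mem_commutator Q hnd hn _ _ (hQe i0) hu₂, rfl⟩, fun x => ?_⟩
    rw [coe_eich, eichMat_mulVec]
  -- the swap preserves the non-singular vectors of the two members
  have hswap : ∀ a b : Fin t, a ≠ b → ∀ g : GL ι F, g ∈ Cfsg.Geo.omegaGL ⇑Q →
      (∀ x, (g : Matrix ι ι F) *ᵥ x = x + polar ⇑Q (q a + q b) x • (p a + p b)
        - polar ⇑Q (p a + p b) x • (q a + q b)) →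
      ∀ v ∈ D a, Q v ≠ 0 → ∃ j, (g : Matrix ι ι F) *ᵥ v ∈ D j ∧ Q ((g : Matrix ι ι F) *ᵥ v) ≠ 0 := by
    intro a b hab g hgΩ hg v hv hQv
    have k1 : polar ⇑Q (q a + q b) v = polar ⇑Q v (q a) := by
      rw [polar_add_left, hDo b a (Ne.symm hab) _ (hq' b) _ hv, add_zero, hBc]
    have k2 : polar ⇑Q (p a + p b) v = polar ⇑Q v (p a) := by
      rw [polar_add_left, hDo b a (Ne.symm hab) _ (hp b) _ hv, add_zero, hBc]
    rcases hstar a v hv hQv with ⟨k3, k4⟩ | k3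
    · refine ⟨a, ?_, by rw [omegaGL_isometry Q g hgΩ]; exact hQv⟩
      rw [hg, k1, k2, k3, k4, zero_smul, zero_smul, add_zero, sub_zero]
      exact hv
    · refine ⟨b, ?_, by rw [omegaGL_isometry Q g hgΩ]; exact hQv⟩
      rw [hg, k1, k2]
      have k5 : v + polar ⇑Q v (q a) • (p a + p b) - polar ⇑Q v (p a) • (q a + q b)
          = (v - (polar ⇑Q v (q a) • p a + polar ⇑Q v (p a) • q a))
            + ((2 * polar ⇑Q v (q a)) • p a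
              + (polar ⇑Q v (q a) • p b - polar ⇑Q v (p a) • q b)) := by
        module
      rw [k5, ← k3, sub_self, h2, zero_mul, zero_smul, zero_add, zero_add]
      exact (D b).sub_mem ((D b).smul_mem _ (hp b)) ((D b).smul_mem _ (hq' b))
  apply stab_set_not_maximal Q D {v | ∃ i, v ∈ D i ∧ Q v ≠ 0} ?_ g₁ hg₁Ω ?_ ?_ g₂ hg₂Ω ?_
  · rintro g hg v ⟨i, hv, hQv⟩
    obtain ⟨σ, hσ⟩ := hg.1
    obtain ⟨hfwd, -⟩ := decomp_map_mem D g σ hσ i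
    exact ⟨σ i, hfwd v hv, by rw [omegaGL_isometry Q g hg.2]; exact hQv⟩
  · rintro v ⟨i, hv, hQv⟩
    by_cases hi0' : i = i0
    · subst hi0'
      exact hswap i i1 h01 g₁ hg₁Ω hg₁ v hv hQv
    · by_cases hi1' : i = i1
      · subst hi1'
        refine hswap i i0 h10 g₁ hg₁Ω (fun x => ?_) v hv hQv
        rw [hg₁ x, add_comm (q i) (q i0), add_comm (p i) (p i0)]
      · refine ⟨i, ?_, by rw [omegaGL_isometry Q g₁ hg₁Ω]; exact hQv⟩
        rw [hg₁, polar_add_left, polar_add_left, hDo i0 i (Ne.symm hi0') _ (hq' i0) _ hv,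
          hDo i1 i (Ne.symm hi1') _ (hq' i1) _ hv, hDo i0 i (Ne.symm hi0') _ (hp i0) _ hv,
          hDo i1 i (Ne.symm hi1') _ (hp i1) _ hv, add_zero, zero_smul, zero_smul, add_zero,
          sub_zero]
        exact hv
  · apply not_mem_decomp_of_moved D g₁ i0 (e i0) (he i0)
    have h1 : (g₁ : Matrix ι ι F) *ᵥ e i0 = e i0 - (q i0 + q i1) := by
      rw [hg₁, polar_add_left, polar_add_left, hBc (q i0) (e i0), heq,
        hDo i1 i0 h10 _ (hq' i1) _ (he i0), hBc (p i0) (e i0), hep,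
        hDo i1 i0 h10 _ (hp i1) _ (he i0)]
      simp
    rw [h1]
    apply not_mem_block Q D hDo h01 (he' i0) (hp i1)
    · rw [polar_sub_left, hee', polar_add_left, hqe', hDo i1 i0 h10 _ (hq' i1) _ (he' i0)]
      simp
    · rw [polar_sub_left, hDo i0 i1 h01 _ (he i0) _ (hp i1), polar_add_left,
        hDo i0 i1 h01 _ (hq' i0) _ (hp i1), hBc (q i1) (p i1), hpq]
      simp
  · refine ⟨p i0, ⟨i0, hp i0, by rw [hQp]; exact one_ne_zero⟩, ?_⟩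
    have h1 : (g₂ : Matrix ι ι F) *ᵥ p i0 = p i0 - p i1 - e i0 := by
      rw [hg₂, hDo i1 i0 h10 _ (hp i1) _ (hp i0), hep, hQp]
      simp
    rw [h1]
    rintro ⟨j, hj, -⟩
    refine not_mem_block Q D hDo h01 (he i0) (hq' i1) ?_ ?_ j hj
    · rw [polar_sub_left, polar_sub_left, hBc (p i0) (e i0), hep,
        hDo i1 i0 h10 _ (hp i1) _ (he i0), hBs, hQe]
      simp
    · rw [polar_sub_left, polar_sub_left, hDo i0 i1 h01 _ (hp i0) _ (hq' i1), hpq,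
        hDo i0 i1 h01 _ (he i0) _ (hq' i1)]
      simp

end

end Cfsg.Agent.Lib.Helper98
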