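import Mathlib

/-!
# Groups of order 27: commutators are central, non-commuting pairs generate
-/

set_option autoImplicit false

namespace Cfsg.Agent.Lib.Helper98

section E27Group

/-- In a group of order `27` every commutator is central. -/
theorem e27_comm_central {G : Type*} [Group G] (hG : Nat.card G = 27) (a b g : G) :
    g * (a * b * a⁻¹ * b⁻¹) = (a * b * a⁻¹ * b⁻¹) * g := by
  haveI : Finite G := Nat.finite_of_card_ne_zero (by rw [hG]; norm_num)
  haveI : Fact (Nat.Prime 3) := ⟨Nat.prime_three⟩
  have hP : IsPGroup 3 G := IsPGroup.of_card (n := 3) (by rw [hG]; norm_num)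
  by_cases hc : ∀ x y : G, x * y = y * x
  · rw [hc g]
  · haveI : Nontrivial G := by
      by_contra hnt
      rw [not_nontrivial_iff_subsingleton] at hnt
      exact hc (fun x y => Subsingleton.elim _ _)
    have hZnt : Nontrivial (Subgroup.center G) := hP.center_nontrivial
    have hZ1 : Nat.card (Subgroup.center G) ≠ 1 := by
      intro h
      have hs : Subsingleton (Subgroup.center G) := (Nat.card_eq_one_iff_unique.mp h).1
      exact not_subsingleton _ hs
    have hmul := Subgroup.card_eq_card_quotient_mul_card_subgroup (Subgroup.center G)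
    rw [hG] at hmul
    have hdvd : Nat.card (Subgroup.center G) ∣ 3 ^ 3 := ⟨_, by rw [mul_comm]; exact hmul⟩
    obtain ⟨k, hk, hZk⟩ := (Nat.dvd_prime_pow Nat.prime_three).mp hdvd
    have hmem : a * b * a⁻¹ * b⁻¹ ∈ Subgroup.center G := by
      interval_cases k
      · exact absurd hZk hZ1
      · have hQ : Nat.card (G ⧸ Subgroup.center G) = 3 ^ 2 := by
          rw [hZk] at hmul
          omega
        have hQc := IsPGroup.commutative_of_card_eq_prime_sq hQ
        rw [← QuotientGroup.eq_one_iff]
        simp only [QuotientGroup.mk_mul, QuotientGroup.mk_inv]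
        rw [hQc (a : G ⧸ Subgroup.center G) b]
        group
      · exfalso
        have hQ : Nat.card (G ⧸ Subgroup.center G) = 3 := by
          rw [hZk] at hmul
          omega
        haveI : IsCyclic (G ⧸ Subgroup.center G) := isCyclic_of_prime_card hQ
        apply hc
        exact commutative_of_cyclic_center_quotient (QuotientGroup.mk' (Subgroup.center G))
          (by rw [QuotientGroup.ker_mk'])
      · exfalso
        have htop : Subgroup.center G = ⊤ :=
          Subgroup.eq_top_of_card_eq _ (by rw [hZk, hG]; norm_num)
        apply hc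
        intro x y
        have hx : x ∈ Subgroup.center G := by
          rw [htop]
          trivial
        exact ((Subgroup.mem_center_iff.mp hx) y).symm
    exact (Subgroup.mem_center_iff.mp hmem) g

/-- Two non-commuting elements of a group of order `27` generate it. -/
theorem e27_closure {G : Type*} [Group G] (R : Subgroup G) (hR : Nat.card R = 27) (a b : G)
    (ha : a ∈ R) (hb : b ∈ R) (hab : a * b ≠ b * a) : R = Subgroup.closure {a, b} := by
  haveI : Finite R := Nat.finite_of_card_ne_zero (by rw [hR]; norm_num)
  haveI : Fact (Nat.Prime 3) := ⟨Nat.prime_three⟩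
  obtain ⟨K, hK⟩ : ∃ K : Subgroup G, K = Subgroup.closure ({a, b} : Set G) := ⟨_, rfl⟩
  rw [← hK]
  have hle : K ≤ R := by
    rw [hK, Subgroup.closure_le]
    intro s hs
    rcases hs with rfl | hs
    · exact ha
    · rw [Set.mem_singleton_iff] at hs
      rw [hs]
      exact hb
  have haK : a ∈ K := by
    rw [hK]
    exact Subgroup.subset_closure (by simp)
  have hbK : b ∈ K := by
    rw [hK]
    exact Subgroup.subset_closure (by simp)
  have hnc : ¬ ∀ x y : K, x * y = y * x := by
    intro h
    apply hab
    have h1 := h ⟨a, haK⟩ ⟨b, hbK⟩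
    exact congrArg Subtype.val h1
  have hdvd : Nat.card K ∣ 3 ^ 3 := by
    have h1 := Subgroup.card_dvd_of_le hle
    rw [hR] at h1
    exact h1
  obtain ⟨k, hk, hKk⟩ := (Nat.dvd_prime_pow Nat.prime_three).mp hdvd
  haveI : Finite K := Finite.of_injective (Subgroup.inclusion hle) (Subgroup.inclusion_injective hle)
  interval_cases k
  · exfalso
    apply hnc
    have hs : Subsingleton K := (Nat.card_eq_one_iff_unique.mp hKk).1
    intro x y
    rw [Subsingleton.elim x y]
  · exfalso
    apply hnc
    haveI : IsCyclic K := isCyclic_of_prime_card (p := 3) hKk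
    intro x y
    obtain ⟨g, hg⟩ := IsCyclic.exists_generator (α := K)
    obtain ⟨m, rfl⟩ := Subgroup.mem_zpowers_iff.mp (hg x)
    obtain ⟨n, rfl⟩ := Subgroup.mem_zpowers_iff.mp (hg y)
    rw [← zpow_add, ← zpow_add, add_comm]
  · exfalso
    apply hnc
    exact IsPGroup.commutative_of_card_eq_prime_sq (p := 3) hKk
  · exact (Subgroup.eq_of_le_of_card_ge hle (by rw [hKk, hR]; norm_num)).symm

end E27Group

end Cfsg.Agent.Lib.Helper98
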