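import Mathlib

/-!
# Standard form of a non-commuting pair of order three with central commutator in `GL_3`
-/

set_option autoImplicit false

namespace Cfsg.Agent.Lib.Helper98

open Matrix

section E27Lin

variable {F : Type*} [Field F]

/-- The quadratic cofactor `T² + eT + e²` of `T - e` in `T³ - e³`. -/
def e27Q (T : Matrix (Fin 3) (Fin 3) F) (e : F) : Matrix (Fin 3) (Fin 3) F :=
  T * T + e • T + (e * e) • (1 : Matrix (Fin 3) (Fin 3) F)

/-- The cyclic permutation matrix `e₀ ↦ e₁ ↦ e₂ ↦ e₀`. -/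
def e27Pm (F : Type*) [Field F] : Matrix (Fin 3) (Fin 3) F := !![0, 0, 1; 1, 0, 0; 0, 1, 0]

theorem e27Q_mul (T : Matrix (Fin 3) (Fin 3) F) (e : F) (hT : T * T * T = 1) (he : e ^ 3 = 1) :
    T * e27Q T e = e • e27Q T e := by
  unfold e27Q
  rw [Matrix.mul_add, Matrix.mul_add, ← Matrix.mul_assoc, hT, Matrix.mul_smul, Matrix.mul_smul,
    Matrix.mul_one, smul_add, smul_add, smul_smul, smul_smul]
  have h1 : e * (e * e) = 1 := by linear_combination he
  rw [h1, one_smul]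
  abel

theorem e27Q_sum (T : Matrix (Fin 3) (Fin 3) F) (μ : F) (hμ : μ ^ 2 + μ + 1 = 0) :
    e27Q T 1 + μ • e27Q T μ + μ ^ 2 • e27Q T (μ ^ 2)
      = (3 : F) • (1 : Matrix (Fin 3) (Fin 3) F) := by
  unfold e27Q
  have h1 : T * T + (1 : F) • T + ((1 : F) * 1) • (1 : Matrix (Fin 3) (Fin 3) F)
      + μ • (T * T + μ • T + (μ * μ) • (1 : Matrix (Fin 3) (Fin 3) F))
      + μ ^ 2 • (T * T + μ ^ 2 • T + (μ ^ 2 * μ ^ 2) • (1 : Matrix (Fin 3) (Fin 3) F))
      = (μ ^ 2 + μ + 1) • (T * T) + ((μ ^ 2 + μ + 1) * (μ ^ 2 - μ + 1)) • T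
        + (3 + (μ ^ 2 + μ + 1) * ((μ - 1) * (μ ^ 3 + 2))) • (1 : Matrix (Fin 3) (Fin 3) F) := by
    module
  rw [h1, hμ, zero_mul, zero_mul, zero_smul, zero_smul, zero_add, zero_add, add_zero]

theorem e27Q_comm (T S : Matrix (Fin 3) (Fin 3) F) (e : F) (h : S * T = T * S) :
    S * e27Q T e = e27Q T e * S := by
  unfold e27Q
  rw [Matrix.mul_add, Matrix.mul_add, Matrix.add_mul, Matrix.add_mul, Matrix.mul_smul,
    Matrix.mul_smul, Matrix.smul_mul, Matrix.smul_mul, Matrix.mul_one, Matrix.one_mul, h,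
    ← Matrix.mul_assoc, h, Matrix.mul_assoc, h, Matrix.mul_assoc]

/-- Standard form: a non-commuting pair `A, B` of order three with central commutator `C`. -/
theorem e27_std (hchar : (3 : F) ≠ 0) (ω : F) (hω : ω ^ 2 + ω + 1 = 0)
    (A B C : Matrix (Fin 3) (Fin 3) F) (hA : A * A * A = 1) (hB : B * B * B = 1)
    (hC : C * C * C = 1) (hC1 : C ≠ 1) (hAB : A * B = C * B * A) (hCA : C * A = A * C)
    (hCB : C * B = B * C) :
    ∃ (μ lam : F) (W : Matrix (Fin 3) (Fin 3) F), μ ^ 2 + μ + 1 = 0 ∧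
      (lam = 1 ∨ lam = μ ∨ lam = μ ^ 2) ∧ IsUnit W ∧
      A * W = W * Matrix.diagonal ![lam, lam * μ, lam * μ ^ 2] ∧ B * W = W * e27Pm F ∧
      C = μ • (1 : Matrix (Fin 3) (Fin 3) F) := by
  have hω3 : ω ^ 3 = 1 := by linear_combination (ω - 1) * hω
  obtain ⟨μ, hμ, hQμ⟩ : ∃ μ : F, μ ^ 2 + μ + 1 = 0 ∧ e27Q C μ ≠ 0 := by
    by_contra hcon
    push Not at hcon
    have h1 := hcon ω hω
    have h2 := hcon (ω ^ 2) (by linear_combination (ω ^ 2 - ω + 1) * hω)
    have hs := e27Q_sum C ω hω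
    rw [h1, h2, smul_zero, smul_zero, add_zero, add_zero] at hs
    have hm := e27Q_mul C 1 hC (one_pow 3)
    rw [hs, one_smul, Matrix.mul_smul, Matrix.mul_one] at hm
    apply hC1
    calc C = (3 : F)⁻¹ • ((3 : F) • C) := by rw [smul_smul, inv_mul_cancel₀ hchar, one_smul]
      _ = 1 := by rw [hm, smul_smul, inv_mul_cancel₀ hchar, one_smul]
  have hμ3 : μ ^ 3 = 1 := by linear_combination (μ - 1) * hμ
  have hμ1 : μ ≠ 1 := by
    intro h
    rw [h] at hμ
    apply hchar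
    linear_combination hμ
  have hμ0 : μ ≠ 0 := by
    intro h
    rw [h] at hμ3
    simp at hμ3
  obtain ⟨u, hu⟩ : ∃ u : Fin 3 → F, e27Q C μ *ᵥ u ≠ 0 := by
    by_contra hcon
    push Not at hcon
    apply hQμ
    apply Matrix.mulVec_injective
    funext u
    rw [hcon u, Matrix.zero_mulVec]
  obtain ⟨w, hw⟩ : ∃ w : Fin 3 → F, w = e27Q C μ *ᵥ u := ⟨_, rfl⟩
  rw [← hw] at hu
  have hCw : C *ᵥ w = μ • w := by
    rw [hw, Matrix.mulVec_mulVec, e27Q_mul C μ hC hμ3, Matrix.smul_mulVec]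
  have hsumw : e27Q A 1 *ᵥ w + μ • (e27Q A μ *ᵥ w) + μ ^ 2 • (e27Q A (μ ^ 2) *ᵥ w)
      = (3 : F) • w := by
    have h1 := congrArg (fun M : Matrix (Fin 3) (Fin 3) F => M *ᵥ w) (e27Q_sum A μ hμ)
    simp only [Matrix.add_mulVec, Matrix.smul_mulVec, Matrix.one_mulVec] at h1
    exact h1
  obtain ⟨lam, hlam, hv⟩ : ∃ lam : F, (lam = 1 ∨ lam = μ ∨ lam = μ ^ 2) ∧
      e27Q A lam *ᵥ w ≠ 0 := by
    by_contra hcon
    push Not at hcon
    have h1 := hcon 1 (Or.inl rfl)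
    have h2 := hcon μ (Or.inr (Or.inl rfl))
    have h3 := hcon (μ ^ 2) (Or.inr (Or.inr rfl))
    rw [h1, h2, h3, smul_zero, smul_zero, add_zero, add_zero] at hsumw
    apply hu
    calc w = (3 : F)⁻¹ • ((3 : F) • w) := by rw [smul_smul, inv_mul_cancel₀ hchar, one_smul]
      _ = 0 := by rw [← hsumw, smul_zero]
  have hlam3 : lam ^ 3 = 1 := by
    rcases hlam with rfl | rfl | rfl
    · exact one_pow 3
    · exact hμ3
    · rw [← pow_mul, mul_comm, pow_mul, hμ3, one_pow]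
  have hlam0 : lam ≠ 0 := by
    intro h
    rw [h] at hlam3
    simp at hlam3
  obtain ⟨v, hvdef⟩ : ∃ v : Fin 3 → F, v = e27Q A lam *ᵥ w := ⟨_, rfl⟩
  rw [← hvdef] at hv
  have hAv : A *ᵥ v = lam • v := by
    rw [hvdef, Matrix.mulVec_mulVec, e27Q_mul A lam hA hlam3, Matrix.smul_mulVec]
  have hCv : C *ᵥ v = μ • v := by
    rw [hvdef, Matrix.mulVec_mulVec, e27Q_comm A C lam hCA, ← Matrix.mulVec_mulVec, hCw,
      Matrix.mulVec_smul]
  have hstep : ∀ (α : F) (x : Fin 3 → F), A *ᵥ x = α • x → C *ᵥ x = μ • x →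
      A *ᵥ (B *ᵥ x) = (α * μ) • (B *ᵥ x) ∧ C *ᵥ (B *ᵥ x) = μ • (B *ᵥ x) := by
    intro α x hAx hCx
    have hc : C *ᵥ (B *ᵥ x) = μ • (B *ᵥ x) := by
      rw [Matrix.mulVec_mulVec, hCB, ← Matrix.mulVec_mulVec, hCx, Matrix.mulVec_smul]
    refine ⟨?_, hc⟩
    rw [Matrix.mulVec_mulVec, hAB, ← Matrix.mulVec_mulVec, hAx, Matrix.mulVec_smul,
      ← Matrix.mulVec_mulVec, hc, smul_smul]
  obtain ⟨v1, hv1⟩ : ∃ v1 : Fin 3 → F, v1 = B *ᵥ v := ⟨_, rfl⟩
  obtain ⟨v2, hv2⟩ : ∃ v2 : Fin 3 → F, v2 = B *ᵥ v1 := ⟨_, rfl⟩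
  have hBv2 : B *ᵥ v2 = v := by
    rw [hv2, hv1, Matrix.mulVec_mulVec, Matrix.mulVec_mulVec, hB, Matrix.one_mulVec]
  obtain ⟨hAv1, hCv1⟩ := hstep lam v hAv hCv
  rw [← hv1] at hAv1 hCv1
  obtain ⟨hAv2, hCv2⟩ := hstep (lam * μ) v1 hAv1 hCv1
  rw [← hv2] at hAv2 hCv2
  have hv10 : v1 ≠ 0 := by
    intro h
    apply hv
    rw [← hBv2, hv2, h, Matrix.mulVec_zero, Matrix.mulVec_zero]
  have hv20 : v2 ≠ 0 := by
    intro h
    apply hv
    rw [← hBv2, h, Matrix.mulVec_zero]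
  obtain ⟨W, hWdef⟩ : ∃ W : Matrix (Fin 3) (Fin 3) F, W = Matrix.of fun i j => ![v, v1, v2] j i :=
    ⟨_, rfl⟩
  have hW : ∀ c : Fin 3 → F, W *ᵥ c = c 0 • v + c 1 • v1 + c 2 • v2 := by
    intro c
    ext i
    simp [hWdef, Matrix.mulVec, dotProduct, Fin.sum_univ_three]
    ring
  have hinj : Function.Injective W.mulVec := by
    have hker : ∀ c : Fin 3 → F, W *ᵥ c = 0 → c = 0 := by
      intro c hc
      rw [hW] at hc
      -- apply A and A²
      have hc1 : c 0 • v + (c 1 * μ) • v1 + (c 2 * μ ^ 2) • v2 = 0 := by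
        have h1 := congrArg (fun x => A *ᵥ x) hc
        simp only [Matrix.mulVec_add, Matrix.mulVec_smul, hAv, hAv1, hAv2, Matrix.mulVec_zero]
          at h1
        have h2 : lam • (c 0 • v + (c 1 * μ) • v1 + (c 2 * μ ^ 2) • v2) = 0 := by
          rw [← h1]
          module
        rcases smul_eq_zero.mp h2 with h3 | h3
        · exact absurd h3 hlam0
        · exact h3
      have hc2 : c 0 • v + (c 1 * μ ^ 2) • v1 + (c 2 * μ ^ 4) • v2 = 0 := by
        have h1 := congrArg (fun x => A *ᵥ x) hc1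
        simp only [Matrix.mulVec_add, Matrix.mulVec_smul, hAv, hAv1, hAv2, Matrix.mulVec_zero]
          at h1
        have h2 : lam • (c 0 • v + (c 1 * μ ^ 2) • v1 + (c 2 * μ ^ 4) • v2) = 0 := by
          rw [← h1]
          module
        rcases smul_eq_zero.mp h2 with h3 | h3
        · exact absurd h3 hlam0
        · exact h3
      have e0 : ((3 : F) * c 0) • v = 0 := by
        have h1 : ((3 : F) * c 0) • v
            = (c 0 • v + c 1 • v1 + c 2 • v2) + (c 0 • v + (c 1 * μ) • v1 + (c 2 * μ ^ 2) • v2)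
              + (c 0 • v + (c 1 * μ ^ 2) • v1 + (c 2 * μ ^ 4) • v2)
              - (c 1 * (μ ^ 2 + μ + 1)) • v1
              - (c 2 * ((μ ^ 2 + μ + 1) * (μ ^ 2 - μ + 1))) • v2 := by module
        rw [h1, hc, hc1, hc2, hμ]
        simp
      have e1 : ((3 : F) * c 1) • v1 = 0 := by
        have h1 : ((3 : F) * c 1) • v1
            = (c 0 • v + c 1 • v1 + c 2 • v2)
              + μ ^ 2 • (c 0 • v + (c 1 * μ) • v1 + (c 2 * μ ^ 2) • v2)
              + μ • (c 0 • v + (c 1 * μ ^ 2) • v1 + (c 2 * μ ^ 4) • v2)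
              - (c 0 * (μ ^ 2 + μ + 1)) • v
              - (c 1 * (2 * (μ ^ 3 - 1))) • v1
              - (c 2 * ((μ ^ 2 + μ + 1) + (μ ^ 3 - 1) * (μ ^ 2 + μ))) • v2 := by module
        rw [h1, hc, hc1, hc2, hμ, hμ3]
        simp
      have e2 : ((3 : F) * c 2) • v2 = 0 := by
        have h1 : ((3 : F) * c 2) • v2
            = (c 0 • v + c 1 • v1 + c 2 • v2)
              + μ • (c 0 • v + (c 1 * μ) • v1 + (c 2 * μ ^ 2) • v2)
              + μ ^ 2 • (c 0 • v + (c 1 * μ ^ 2) • v1 + (c 2 * μ ^ 4) • v2)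
              - (c 0 * (μ ^ 2 + μ + 1)) • v
              - (c 1 * ((μ ^ 2 + μ + 1) * (μ ^ 2 - μ + 1))) • v1
              - (c 2 * ((μ ^ 3 - 1) * (μ ^ 3 + 2))) • v2 := by module
        rw [h1, hc, hc1, hc2, hμ, hμ3]
        simp
      have f0 : c 0 = 0 := by
        rcases smul_eq_zero.mp e0 with h | h
        · rcases mul_eq_zero.mp h with h' | h'
          · exact absurd h' hchar
          · exact h'
        · exact absurd h hv
      have f1 : c 1 = 0 := by
        rcases smul_eq_zero.mp e1 with h | h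
        · rcases mul_eq_zero.mp h with h' | h'
          · exact absurd h' hchar
          · exact h'
        · exact absurd h hv10
      have f2 : c 2 = 0 := by
        rcases smul_eq_zero.mp e2 with h | h
        · rcases mul_eq_zero.mp h with h' | h'
          · exact absurd h' hchar
          · exact h'
        · exact absurd h hv20
      funext i
      fin_cases i
      · exact f0
      · exact f1
      · exact f2
    intro c c' hcc
    have h1 : W *ᵥ (c - c') = 0 := by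
      rw [Matrix.mulVec_sub]
      exact sub_eq_zero.mpr hcc
    exact sub_eq_zero.mp (hker _ h1)
  have hunit : IsUnit W := Matrix.mulVec_injective_iff_isUnit.mp hinj
  refine ⟨μ, lam, W, hμ, hlam, hunit, ?_, ?_, ?_⟩
  · apply Matrix.mulVec_injective
    funext c
    rw [← Matrix.mulVec_mulVec, ← Matrix.mulVec_mulVec, hW, hW, Matrix.mulVec_add,
      Matrix.mulVec_add, Matrix.mulVec_smul, Matrix.mulVec_smul, Matrix.mulVec_smul, hAv, hAv1,
      hAv2]
    simp only [Matrix.mulVec_diagonal]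
    simp
    module
  · apply Matrix.mulVec_injective
    funext c
    rw [← Matrix.mulVec_mulVec, ← Matrix.mulVec_mulVec, hW, hW, Matrix.mulVec_add,
      Matrix.mulVec_add, Matrix.mulVec_smul, Matrix.mulVec_smul, Matrix.mulVec_smul, ← hv1,
      ← hv2, hBv2]
    simp [e27Pm, Matrix.mulVec, dotProduct, Fin.sum_univ_three]
    module
  · have hCW : C * W = (μ • (1 : Matrix (Fin 3) (Fin 3) F)) * W := by
      apply Matrix.mulVec_injective
      funext c
      rw [← Matrix.mulVec_mulVec, ← Matrix.mulVec_mulVec, hW, Matrix.mulVec_add,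
        Matrix.mulVec_add, Matrix.mulVec_smul, Matrix.mulVec_smul, Matrix.mulVec_smul, hCv,
        hCv1, hCv2, Matrix.smul_mulVec, Matrix.one_mulVec]
      module
    exact hunit.mul_left_inj.mp hCW

end E27Lin

end Cfsg.Agent.Lib.Helper98
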