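import Mathlib
import Cfsg.Prelude.Def_GeometricClasses
import Cfsg.Agent.Lib.Helper99.Norm
import Cfsg.Agent.Lib.Helper98.E27A
import Cfsg.Agent.Lib.Helper98.E27B

/-!
# Extraspecial subgroups `3^{1+2}` of `GL_3(F)`: standard form and normaliser elements
-/

set_option autoImplicit false

namespace Cfsg.Agent.Lib.Helper98

open Matrix

section E27Struct

variable {F : Type*} [Field F]

/-- Standard form of a non-abelian subgroup of order `27` and exponent `3` of `GL_3(F)`. -/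
theorem e27_structure (hchar : (3 : F) ≠ 0) (ω : F) (hω : ω ^ 2 + ω + 1 = 0)
    (R : Subgroup (GL (Fin 3) F)) (hR : Nat.card R = 27) (hRe : Monoid.exponent R = 3)
    (hRna : ¬ IsMulCommutative R) :
    ∃ (μ : F) (P a b c : GL (Fin 3) F), μ ^ 2 + μ + 1 = 0 ∧ a ∈ R ∧ b ∈ R ∧ c ∈ R ∧
      R = Subgroup.closure {a, b} ∧
      (a : Matrix (Fin 3) (Fin 3) F) * (P : Matrix (Fin 3) (Fin 3) F)
        = (P : Matrix (Fin 3) (Fin 3) F) * Matrix.diagonal ![1, μ, μ ^ 2] ∧
      (b : Matrix (Fin 3) (Fin 3) F) * (P : Matrix (Fin 3) (Fin 3) F)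
        = (P : Matrix (Fin 3) (Fin 3) F) * e27Pm F ∧
      (c : Matrix (Fin 3) (Fin 3) F) = μ • (1 : Matrix (Fin 3) (Fin 3) F) := by
  have hnc : ∃ a0 b0 : R, a0 * b0 ≠ b0 * a0 := by
    by_contra hcon
    push Not at hcon
    exact hRna (isMulCommutative_iff.mpr hcon)
  obtain ⟨a0, b0, hab0⟩ := hnc
  have hcube : ∀ g : R, g ^ 3 = 1 := by
    intro g
    have h := Monoid.pow_exponent_eq_one g
    rw [hRe] at h
    exact h
  obtain ⟨c0, hc0⟩ : ∃ c0 : R, c0 = a0 * b0 * a0⁻¹ * b0⁻¹ := ⟨_, rfl⟩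
  have hcen : ∀ g : R, g * c0 = c0 * g := by
    intro g
    rw [hc0]
    exact e27_comm_central hR a0 b0 g
  have hc01 : c0 ≠ 1 := by
    intro h
    apply hab0
    rw [hc0] at h
    have h1 : a0 * b0 = (a0 * b0 * a0⁻¹ * b0⁻¹) * (b0 * a0) := by group
    rw [h1, h, one_mul]
  have hrel : a0 * b0 = c0 * b0 * a0 := by
    rw [hc0]
    group
  have hmat3 : ∀ g : R, ((g : GL (Fin 3) F) : Matrix (Fin 3) (Fin 3) F) * (g : GL (Fin 3) F)
      * (g : GL (Fin 3) F) = 1 := by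
    intro g
    have h1 : (g : GL (Fin 3) F) ^ 3 = 1 := by
      rw [← Subgroup.coe_pow, hcube g]
      rfl
    have h2 := congrArg (fun x : GL (Fin 3) F => (x : Matrix (Fin 3) (Fin 3) F)) h1
    simp only [Units.val_pow_eq_pow_val, Units.val_one] at h2
    rw [pow_three'] at h2
    exact h2
  have hC1 : ((c0 : GL (Fin 3) F) : Matrix (Fin 3) (Fin 3) F) ≠ 1 := by
    intro h
    apply hc01
    apply Subtype.ext
    apply Units.ext
    rw [h]
    rfl
  have hAB : ((a0 : GL (Fin 3) F) : Matrix (Fin 3) (Fin 3) F) * (b0 : GL (Fin 3) F)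
      = (c0 : GL (Fin 3) F) * (b0 : GL (Fin 3) F) * (a0 : GL (Fin 3) F) := by
    have h1 := congrArg (fun x : R => ((x : GL (Fin 3) F) : Matrix (Fin 3) (Fin 3) F)) hrel
    simp only [Subgroup.coe_mul, Units.val_mul] at h1
    exact h1
  have hCA : ((c0 : GL (Fin 3) F) : Matrix (Fin 3) (Fin 3) F) * (a0 : GL (Fin 3) F)
      = (a0 : GL (Fin 3) F) * (c0 : GL (Fin 3) F) := by
    have h1 := congrArg (fun x : R => ((x : GL (Fin 3) F) : Matrix (Fin 3) (Fin 3) F))
      (hcen a0).symm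
    simp only [Subgroup.coe_mul, Units.val_mul] at h1
    exact h1
  have hCB : ((c0 : GL (Fin 3) F) : Matrix (Fin 3) (Fin 3) F) * (b0 : GL (Fin 3) F)
      = (b0 : GL (Fin 3) F) * (c0 : GL (Fin 3) F) := by
    have h1 := congrArg (fun x : R => ((x : GL (Fin 3) F) : Matrix (Fin 3) (Fin 3) F))
      (hcen b0).symm
    simp only [Subgroup.coe_mul, Units.val_mul] at h1
    exact h1
  obtain ⟨μ, lam, W, hμ, hlam, hunit, hAW, hBW, hCμ⟩ :=
    e27_std hchar ω hω _ _ _ (hmat3 a0) (hmat3 b0) (hmat3 c0) hC1 hAB hCA hCB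
  have hμ3 : μ ^ 3 = 1 := by linear_combination (μ - 1) * hμ
  obtain ⟨k, hk⟩ : ∃ k : ℕ, μ ^ k * lam = 1 := by
    rcases hlam with h | h | h
    · exact ⟨0, by rw [h]; simp⟩
    · exact ⟨2, by rw [h]; linear_combination hμ3⟩
    · exact ⟨1, by rw [h]; linear_combination hμ3⟩
  obtain ⟨a1, ha1⟩ : ∃ a1 : R, a1 = c0 ^ k * a0 := ⟨_, rfl⟩
  have ha1mat : ((a1 : GL (Fin 3) F) : Matrix (Fin 3) (Fin 3) F)
      = μ ^ k • ((a0 : GL (Fin 3) F) : Matrix (Fin 3) (Fin 3) F) := by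
    rw [ha1]
    simp only [Subgroup.coe_mul, Subgroup.coe_pow, Units.val_mul, Units.val_pow_eq_pow_val]
    rw [hCμ, smul_pow, one_pow, Matrix.smul_mul, Matrix.one_mul]
  have hne : (a1 : GL (Fin 3) F) * (b0 : GL (Fin 3) F) ≠ (b0 : GL (Fin 3) F) * (a1 : GL (Fin 3) F) := by
    intro h
    apply hab0
    have h1 : a1 * b0 = b0 * a1 := Subtype.ext h
    rw [ha1] at h1
    have h2 : Commute b0 (c0 ^ k) := Commute.pow_right (hcen b0) k
    have h3 : c0 ^ k * (a0 * b0) = c0 ^ k * (b0 * a0) := by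
      calc c0 ^ k * (a0 * b0) = c0 ^ k * a0 * b0 := by rw [mul_assoc]
        _ = b0 * (c0 ^ k * a0) := h1
        _ = (b0 * c0 ^ k) * a0 := by rw [mul_assoc]
        _ = (c0 ^ k * b0) * a0 := by rw [h2.eq]
        _ = c0 ^ k * (b0 * a0) := by rw [mul_assoc]
    exact mul_left_cancel h3
  refine ⟨μ, hunit.unit, a1, b0, c0, hμ, a1.2, b0.2, c0.2,
    e27_closure R hR _ _ a1.2 b0.2 hne, ?_, ?_, hCμ⟩
  · rw [IsUnit.unit_spec, ha1mat, Matrix.smul_mul, hAW, ← Matrix.mul_smul, ← Matrix.diagonal_smul]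
    congr 2
    funext i
    fin_cases i
    · simp
      exact hk
    · simp
      linear_combination μ * hk
    · simp
      linear_combination μ ^ 2 * hk
  · rw [IsUnit.unit_spec]
    exact hBW

/-- Scalar multiples of normalising elements normalise. -/
theorem e27_smul_mem (R : Subgroup (GL (Fin 3) F)) (n u : GL (Fin 3) F) (t : F)
    (hn : n ∈ Cfsg.Geo.subgroupNormalizer R)
    (hu : (u : Matrix (Fin 3) (Fin 3) F) = t • (n : Matrix (Fin 3) (Fin 3) F)) :
    u ∈ Cfsg.Geo.subgroupNormalizer R := by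
  unfold Cfsg.Geo.subgroupNormalizer at hn ⊢
  rw [Subgroup.mem_set_normalizer_iff] at hn ⊢
  intro h
  have h1 : u * h * u⁻¹ = n * h * n⁻¹ := by
    rw [mul_inv_eq_iff_eq_mul]
    apply Units.ext
    simp only [Units.val_mul]
    rw [hu, Matrix.smul_mul, Matrix.mul_smul, Matrix.mul_assoc (n.val * h.val), Units.inv_mul,
      Matrix.mul_one]
  rw [h1]
  exact hn h

/-- Normaliser criterion on generators. -/
theorem e27_norm_mem (R : Subgroup (GL (Fin 3) F)) [Finite R] (a b n a' b' : GL (Fin 3) F)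
    (hcl : R = Subgroup.closure {a, b}) (ha' : a' ∈ R) (hb' : b' ∈ R) (h1 : n * a = a' * n)
    (h2 : n * b = b' * n) : n ∈ Cfsg.Geo.subgroupNormalizer R := by
  unfold Cfsg.Geo.subgroupNormalizer
  apply Cfsg.Agent.Lib.Helper99.mem_normalizer_of_finite
  apply Cfsg.Agent.Lib.Helper99.conj_mem_of_closure R _ hcl
  intro s hs
  rcases hs with rfl | hs
  · rw [h1, mul_inv_cancel_right]
    exact ha'
  · rw [Set.mem_singleton_iff] at hs
    rw [hs, h2, mul_inv_cancel_right]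
    exact hb'

/-- Normaliser elements from relations in standard coordinates. -/
theorem e27_model_mem (R : Subgroup (GL (Fin 3) F)) [Finite R] (a b P m wa wb : GL (Fin 3) F)
    (hcl : R = Subgroup.closure {a, b}) (hwa : P * wa * P⁻¹ ∈ R) (hwb : P * wb * P⁻¹ ∈ R)
    (h1 : m * (P⁻¹ * a * P) = wa * m) (h2 : m * (P⁻¹ * b * P) = wb * m) :
    P * m * P⁻¹ ∈ Cfsg.Geo.subgroupNormalizer R := by
  apply e27_norm_mem R a b _ _ _ hcl hwa hwb
  · calc P * m * P⁻¹ * a = P * (m * (P⁻¹ * a * P)) * P⁻¹ := by group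
      _ = P * (wa * m) * P⁻¹ := by rw [h1]
      _ = P * wa * P⁻¹ * (P * m * P⁻¹) := by group
  · calc P * m * P⁻¹ * b = P * (m * (P⁻¹ * b * P)) * P⁻¹ := by group
      _ = P * (wb * m) * P⁻¹ := by rw [h2]
      _ = P * wb * P⁻¹ * (P * m * P⁻¹) := by group

/-- The involution `-(1 2)` in standard coordinates. -/
def e27J (F : Type*) [Field F] : Matrix (Fin 3) (Fin 3) F := !![-1, 0, 0; 0, 0, -1; 0, -1, 0]

theorem e27J_sq : e27J F * e27J F = 1 := by
  ext i j
  fin_cases i <;> fin_cases j <;> simp [e27J, Matrix.mul_apply, Fin.sum_univ_three]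

theorem e27J_D (μ : F) (hμ : μ ^ 2 + μ + 1 = 0) :
    e27J F * Matrix.diagonal ![1, μ, μ ^ 2]
      = Matrix.diagonal ![1, μ, μ ^ 2] * Matrix.diagonal ![1, μ, μ ^ 2] * e27J F := by
  have hμ3 : μ ^ 3 = 1 := by linear_combination (μ - 1) * hμ
  ext i j
  fin_cases i <;> fin_cases j <;>
    simp [e27J, Matrix.mul_apply, Fin.sum_univ_three, Matrix.diagonal_apply]
  · ring
  · linear_combination (-μ) * hμ3

theorem e27J_P : e27J F * e27Pm F = e27Pm F * e27Pm F * e27J F := by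
  ext i j
  fin_cases i <;> fin_cases j <;>
    simp [e27J, e27Pm, Matrix.mul_apply, Fin.sum_univ_three]

theorem e27M_D (μ s ν : F) :
    Matrix.diagonal ![s, s, s * ν] * Matrix.diagonal ![1, μ, μ ^ 2]
      = Matrix.diagonal ![1, μ, μ ^ 2] * Matrix.diagonal ![s, s, s * ν] := by
  rw [Matrix.diagonal_mul_diagonal, Matrix.diagonal_mul_diagonal]
  congr 1
  funext i
  rw [mul_comm]

theorem e27M_P1 (μ s : F) (hμ : μ ^ 2 + μ + 1 = 0) :
    Matrix.diagonal ![s, s, s * μ] * e27Pm F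
      = e27Pm F * Matrix.diagonal ![1, μ, μ ^ 2] * Matrix.diagonal ![s, s, s * μ] := by
  have hμ3 : μ ^ 3 = 1 := by linear_combination (μ - 1) * hμ
  rw [Matrix.mul_assoc, Matrix.diagonal_mul_diagonal]
  ext i j
  fin_cases i <;> fin_cases j <;>
    simp [e27Pm, Matrix.mul_apply, Fin.sum_univ_three, Matrix.diagonal_apply]
  · linear_combination (-s) * hμ3
  · ring

theorem e27M_P2 (μ s : F) (hμ : μ ^ 2 + μ + 1 = 0) :
    Matrix.diagonal ![s, s, s * μ ^ 2] * e27Pm F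
      = e27Pm F * (Matrix.diagonal ![1, μ, μ ^ 2] * Matrix.diagonal ![1, μ, μ ^ 2])
        * Matrix.diagonal ![s, s, s * μ ^ 2] := by
  have hμ3 : μ ^ 3 = 1 := by linear_combination (μ - 1) * hμ
  rw [Matrix.mul_assoc, Matrix.diagonal_mul_diagonal, Matrix.diagonal_mul_diagonal]
  ext i j
  fin_cases i <;> fin_cases j <;>
    simp [e27Pm, Matrix.mul_apply, Fin.sum_univ_three, Matrix.diagonal_apply]
  · linear_combination (-s * (μ ^ 3 + 1)) * hμ3
  · ring

end E27Struct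

end Cfsg.Agent.Lib.Helper98
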