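import Mathlib
import Cfsg.Prelude.Def_GeometricClasses
import Cfsg.Agent.Lib.Helper99.Norm
import Cfsg.Agent.Lib.Helper99.Mat2
import Cfsg.Agent.Lib.Helper47.InvSL
import Cfsg.Agent.Lib.Helper47.SemiConjMat
import Cfsg.Agent.Lib.Helper98.E27C

/-!
# Elements of order two and three of `SL_3(F)` and the normaliser of `3^{1+2}`
-/

set_option autoImplicit false

namespace Cfsg.Agent.Lib.Helper98

open Matrix Polynomial

section E27Class

variable {F : Type*} [Field F]

theorem e27_aeval_two (M : Matrix (Fin 3) (Fin 3) F) (a b : F)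
    (h : (M - a • (1 : Matrix (Fin 3) (Fin 3) F)) * (M - b • (1 : Matrix (Fin 3) (Fin 3) F)) = 0) :
    aeval (toLin' M) ((X - C a) * (X - C b) : F[X]) = 0 := by
  have h1 : aeval M ((X - C a) * (X - C b) : F[X]) = 0 := by
    rw [map_mul, map_sub, map_sub, aeval_X, aeval_C, aeval_C, Algebra.algebraMap_eq_smul_one,
      Algebra.algebraMap_eq_smul_one]
    exact h
  have h2 := Polynomial.aeval_algHom_apply
    (Matrix.toLinAlgEquiv' : Matrix (Fin 3) (Fin 3) F ≃ₐ[F] _).toAlgHom M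
    ((X - C a) * (X - C b))
  rw [h1, map_zero] at h2
  exact h2

/-- A non-scalar `3 × 3` matrix killed by `(X - a)(X - b)`, `a ≠ b`. -/
theorem e27_two_roots (M : Matrix (Fin 3) (Fin 3) F) (a b : F) (hab : a ≠ b)
    (h : (M - a • (1 : Matrix (Fin 3) (Fin 3) F)) * (M - b • (1 : Matrix (Fin 3) (Fin 3) F)) = 0)
    (hns : ∀ c : F, M ≠ c • (1 : Matrix (Fin 3) (Fin 3) F)) :
    Module.End.IsSemisimple (toLin' M) ∧
      (M.charpoly = (X - C a) ^ 2 * (X - C b) ∨ M.charpoly = (X - C a) * (X - C b) ^ 2) := by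
  obtain ⟨hs, s, t, hst⟩ := Cfsg.Agent.Lib.Helper47.charpoly_two_roots (Fin 3 → F) (toLin' M) a b
    hab (e27_aeval_two M a b h)
  rw [Matrix.charpoly_toLin'] at hst
  refine ⟨hs, ?_⟩
  have hdeg : s + t = 3 := by
    have h1 := congrArg natDegree hst
    rw [Matrix.charpoly_natDegree_eq_dim, Fintype.card_fin,
      natDegree_mul (pow_ne_zero _ (X_sub_C_ne_zero a)) (pow_ne_zero _ (X_sub_C_ne_zero b)),
      natDegree_pow, natDegree_pow, natDegree_X_sub_C, natDegree_X_sub_C] at h1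
    omega
  have hCH := Matrix.aeval_self_charpoly M
  have hcomm : (M - b • (1 : Matrix (Fin 3) (Fin 3) F)) * (M - a • (1 : Matrix (Fin 3) (Fin 3) F))
      = 0 := by
    rw [← h]
    simp only [sub_mul, mul_sub, Matrix.smul_mul, Matrix.mul_smul, Matrix.one_mul,
      Matrix.mul_one, smul_sub, smul_smul]
    rw [mul_comm a b]
    abel
  have hsqa : (M - a • (1 : Matrix (Fin 3) (Fin 3) F)) * (M - a • (1 : Matrix (Fin 3) (Fin 3) F))
      = (b - a) • (M - a • (1 : Matrix (Fin 3) (Fin 3) F)) := by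
    have h1 : (M - a • (1 : Matrix (Fin 3) (Fin 3) F))
        = (M - b • (1 : Matrix (Fin 3) (Fin 3) F)) + (b - a) • (1 : Matrix (Fin 3) (Fin 3) F) := by
      module
    calc (M - a • (1 : Matrix (Fin 3) (Fin 3) F)) * (M - a • (1 : Matrix (Fin 3) (Fin 3) F))
        = (M - a • (1 : Matrix (Fin 3) (Fin 3) F))
          * ((M - b • (1 : Matrix (Fin 3) (Fin 3) F)) + (b - a) • (1 : Matrix (Fin 3) (Fin 3) F)) := by
          rw [← h1]
      _ = (b - a) • (M - a • (1 : Matrix (Fin 3) (Fin 3) F)) := by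
          rw [Matrix.mul_add, h, zero_add, Matrix.mul_smul, Matrix.mul_one]
  have hsqb : (M - b • (1 : Matrix (Fin 3) (Fin 3) F)) * (M - b • (1 : Matrix (Fin 3) (Fin 3) F))
      = (a - b) • (M - b • (1 : Matrix (Fin 3) (Fin 3) F)) := by
    have h1 : (M - b • (1 : Matrix (Fin 3) (Fin 3) F))
        = (M - a • (1 : Matrix (Fin 3) (Fin 3) F)) + (a - b) • (1 : Matrix (Fin 3) (Fin 3) F) := by
      module
    calc (M - b • (1 : Matrix (Fin 3) (Fin 3) F)) * (M - b • (1 : Matrix (Fin 3) (Fin 3) F))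
        = (M - b • (1 : Matrix (Fin 3) (Fin 3) F))
          * ((M - a • (1 : Matrix (Fin 3) (Fin 3) F)) + (a - b) • (1 : Matrix (Fin 3) (Fin 3) F)) := by
          rw [← h1]
      _ = (a - b) • (M - b • (1 : Matrix (Fin 3) (Fin 3) F)) := by
          rw [Matrix.mul_add, hcomm, zero_add, Matrix.mul_smul, Matrix.mul_one]
  have hab' : a - b ≠ 0 := sub_ne_zero.mpr hab
  have hba' : b - a ≠ 0 := sub_ne_zero.mpr (Ne.symm hab)
  rcases (by omega : s = 0 ∨ s = 1 ∨ s = 2 ∨ s = 3) with h0 | h0 | h0 | h0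
  · exfalso
    have ht : t = 3 := by omega
    rw [hst, h0, ht, pow_zero, one_mul, map_pow, map_sub, aeval_X, aeval_C,
      Algebra.algebraMap_eq_smul_one, pow_three, hsqb, Matrix.mul_smul, hsqb, smul_smul] at hCH
    rcases smul_eq_zero.mp hCH with h1 | h1
    · exact hab' (mul_self_eq_zero.mp h1)
    · exact hns b (sub_eq_zero.mp h1)
  · right
    have ht : t = 2 := by omega
    rw [hst, h0, ht, pow_one]
  · left
    have ht : t = 1 := by omega
    rw [hst, h0, ht, pow_one]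
  · exfalso
    have ht : t = 0 := by omega
    rw [hst, h0, ht, pow_zero, mul_one, map_pow, map_sub, aeval_X, aeval_C,
      Algebra.algebraMap_eq_smul_one, pow_three, hsqa, Matrix.mul_smul, hsqa, smul_smul] at hCH
    rcases smul_eq_zero.mp hCH with h1 | h1
    · exact hba' (mul_self_eq_zero.mp h1)
    · exact hns a (sub_eq_zero.mp h1)

/-- Non-scalar involutions of determinant one in dimension three. -/
theorem e27_inv_class (h2 : (2 : F) ≠ 0) (M : Matrix (Fin 3) (Fin 3) F) (hM : M * M = 1)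
    (hns : ∀ c : F, M ≠ c • (1 : Matrix (Fin 3) (Fin 3) F)) (hdet : M.det = 1) :
    Module.End.IsSemisimple (toLin' M) ∧ M.charpoly = (X - C 1) * (X - C (-1)) ^ 2 := by
  have h : (M - (1 : F) • (1 : Matrix (Fin 3) (Fin 3) F))
      * (M - (-1 : F) • (1 : Matrix (Fin 3) (Fin 3) F)) = 0 := by
    rw [one_smul, neg_smul, one_smul, sub_neg_eq_add, sub_mul, mul_add, mul_add, hM]
    simp only [Matrix.mul_one, Matrix.one_mul]
    abel
  have hne : (1 : F) ≠ -1 := by
    intro h'
    apply h2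
    linear_combination h'
  obtain ⟨hs, hc | hc⟩ := e27_two_roots M 1 (-1) hne h hns
  · exfalso
    have hd := Matrix.det_eq_sign_charpoly_coeff M
    rw [hc, Fintype.card_fin, hdet, Polynomial.coeff_zero_eq_eval_zero] at hd
    have hd' : (1 : F) = (-1) ^ 3 := by simpa using hd
    apply hne
    calc (1 : F) = (-1) ^ 3 := hd'
      _ = -1 := by ring
  · exact ⟨hs, hc⟩

/-- Non-scalar matrices of order three in dimension three. -/
theorem e27_ord3_class (hchar : (3 : F) ≠ 0) (μ : F) (hμ : μ ^ 2 + μ + 1 = 0)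
    (M : Matrix (Fin 3) (Fin 3) F) (hM : M * M * M = 1)
    (hns : ∀ c : F, M ≠ c • (1 : Matrix (Fin 3) (Fin 3) F)) :
    Module.End.IsSemisimple (toLin' M) ∧
      (M.charpoly = (X - C 1) * (X - C μ) * (X - C (μ ^ 2)) ∨
        ∃ s ν : F, s ^ 3 = 1 ∧ (ν = μ ∨ ν = μ ^ 2) ∧
          M.charpoly = (X - C s) * (X - C s) * (X - C (s * ν))) := by
  have hμ3 : μ ^ 3 = 1 := by linear_combination (μ - 1) * hμ
  have hμ1 : μ ≠ 1 := by
    intro h
    rw [h] at hμ
    apply hchar
    linear_combination hμ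
  have hμ0 : μ ≠ 0 := by
    intro h
    rw [h] at hμ3
    simp at hμ3
  have hcube : ∀ e : F, (e = 1 ∨ e = μ ∨ e = μ ^ 2) → e ^ 3 = 1 := by
    intro e he
    rcases he with rfl | rfl | rfl
    · exact one_pow 3
    · exact hμ3
    · rw [← pow_mul, mul_comm, pow_mul, hμ3, one_pow]
  have hss : Module.End.IsSemisimple (toLin' M) :=
    Cfsg.Agent.Lib.Helper47.isSemisimple_toLin'_of_pow_eq_one M 3 (by exact_mod_cast hchar)
      (by rw [pow_three', hM])
  refine ⟨hss, ?_⟩
  by_cases hex : ∃ e : F, (e = 1 ∨ e = μ ∨ e = μ ^ 2) ∧ e27Q M e = 0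
  · right
    obtain ⟨e, he, hQ⟩ := hex
    have he3 : e ^ 3 = 1 := hcube e he
    have he0 : e ≠ 0 := by
      intro h
      rw [h] at he3
      simp at he3
    have hfac : (M - (e * μ) • (1 : Matrix (Fin 3) (Fin 3) F))
        * (M - (e * μ ^ 2) • (1 : Matrix (Fin 3) (Fin 3) F)) = 0 := by
      rw [← hQ]
      unfold e27Q
      simp only [sub_mul, mul_sub, Matrix.smul_mul, Matrix.mul_smul, Matrix.one_mul,
        Matrix.mul_one, smul_sub, smul_smul]
      have h1 : M * M - (e * μ) • M - ((e * μ ^ 2) • M - (e * μ ^ 2 * (e * μ)) • (1 : Matrix (Fin 3) (Fin 3) F))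
          = M * M + e • M + (e * e) • (1 : Matrix (Fin 3) (Fin 3) F)
            - (e * (μ ^ 2 + μ + 1)) • M + (e * e * (μ ^ 3 - 1)) • (1 : Matrix (Fin 3) (Fin 3) F) := by
        module
      rw [h1, hμ, hμ3, sub_self, mul_zero, mul_zero, zero_smul, zero_smul, sub_zero, add_zero]
    have hne : e * μ ≠ e * μ ^ 2 := by
      intro h
      have h1 : e * μ * (1 - μ) = 0 := by linear_combination h
      rcases mul_eq_zero.mp h1 with h2 | h2
      · rcases mul_eq_zero.mp h2 with h3 | h3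
        · exact he0 h3
        · exact hμ0 h3
      · exact hμ1 (sub_eq_zero.mp h2).symm
    obtain ⟨-, hc | hc⟩ := e27_two_roots M (e * μ) (e * μ ^ 2) hne hfac hns
    · refine ⟨e * μ, μ, ?_, Or.inl rfl, ?_⟩
      · rw [mul_pow, he3, hμ3, one_mul]
      · rw [hc, show e * μ * μ = e * μ ^ 2 by ring]
        ring
    · refine ⟨e * μ ^ 2, μ ^ 2, ?_, Or.inr rfl, ?_⟩
      · rw [mul_pow, he3, one_mul, ← pow_mul, mul_comm, pow_mul, hμ3, one_pow]
      · have h1 : e * μ ^ 2 * μ ^ 2 = e * μ := by linear_combination (e * μ) * hμ3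
        rw [hc, h1]
        ring
  · left
    push Not at hex
    have hroot : ∀ e : F, (e = 1 ∨ e = μ ∨ e = μ ^ 2) → M.charpoly.IsRoot e := by
      intro e he
      have he3 : e ^ 3 = 1 := hcube e he
      rw [Polynomial.IsRoot, Matrix.eval_charpoly]
      by_contra hdet
      apply hex e he
      have hun : IsUnit (Matrix.scalar (Fin 3) e - M) :=
        (Matrix.isUnit_iff_isUnit_det _).mpr (Ne.isUnit hdet)
      have hz : (Matrix.scalar (Fin 3) e - M) * e27Q M e = 0 := by
        rw [sub_mul, e27Q_mul M e hM he3, Matrix.scalar_apply, ← Matrix.smul_eq_diagonal_mul,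
          sub_self]
      exact hun.mul_right_eq_zero.mp hz
    have h1 := (Polynomial.dvd_iff_isRoot).mpr (hroot 1 (Or.inl rfl))
    have h2 := (Polynomial.dvd_iff_isRoot).mpr (hroot μ (Or.inr (Or.inl rfl)))
    have h3 := (Polynomial.dvd_iff_isRoot).mpr (hroot (μ ^ 2) (Or.inr (Or.inr rfl)))
    have hne12 : (1 : F) - μ ≠ 0 := sub_ne_zero.mpr (Ne.symm hμ1)
    have hne13 : (1 : F) - μ ^ 2 ≠ 0 := by
      intro h
      apply hμ1
      have h4 : μ ^ 2 = 1 := by linear_combination -h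
      calc μ = μ ^ 3 * μ := by rw [hμ3, one_mul]
        _ = (μ ^ 2) ^ 2 := by ring
        _ = 1 := by rw [h4, one_pow]
    have hne23 : μ - μ ^ 2 ≠ 0 := by
      intro h
      have h4 : μ * (1 - μ) = 0 := by linear_combination h
      rcases mul_eq_zero.mp h4 with h5 | h5
      · exact hμ0 h5
      · exact hne12 h5
    have hcop12 : IsCoprime (X - C (1 : F)) (X - C μ) :=
      isCoprime_X_sub_C_of_isUnit_sub hne12.isUnit
    have hcop13 : IsCoprime (X - C (1 : F)) (X - C (μ ^ 2)) :=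
      isCoprime_X_sub_C_of_isUnit_sub hne13.isUnit
    have hcop23 : IsCoprime (X - C μ) (X - C (μ ^ 2)) :=
      isCoprime_X_sub_C_of_isUnit_sub hne23.isUnit
    have hdvd : (X - C (1 : F)) * (X - C μ) * (X - C (μ ^ 2)) ∣ M.charpoly :=
      IsCoprime.mul_dvd (IsCoprime.mul_left hcop13 hcop23) (hcop12.mul_dvd h1 h2) h3
    have hmon : ((X - C (1 : F)) * (X - C μ) * (X - C (μ ^ 2))).Monic :=
      ((monic_X_sub_C _).mul (monic_X_sub_C _)).mul (monic_X_sub_C _)
    apply Polynomial.eq_of_monic_of_dvd_of_natDegree_le hmon (Matrix.charpoly_monic M) hdvd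
    rw [Matrix.charpoly_natDegree_eq_dim, Fintype.card_fin,
      ((monic_X_sub_C (1 : F)).mul (monic_X_sub_C μ)).natDegree_mul (monic_X_sub_C (μ ^ 2)),
      (monic_X_sub_C (1 : F)).natDegree_mul (monic_X_sub_C μ), natDegree_X_sub_C,
      natDegree_X_sub_C, natDegree_X_sub_C]

end E27Class

end Cfsg.Agent.Lib.Helper98
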