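import Mathlib
import Cfsg.Prelude.Def_GeometricClasses
import Cfsg.Agent.Lib.Helper99.Norm
import Cfsg.Agent.Lib.Helper99.Mat2
import Cfsg.Agent.Lib.Helper47.InvSL
import Cfsg.Agent.Lib.Helper47.SemiConjMat
import Cfsg.Agent.Lib.Helper6.PSLCard
import Cfsg.Agent.Lib.Helper98.E27D

/-!
# The normaliser of `3^{1+2}` in `SL_3(p)`: fixed points of elements of prime order
-/

set_option autoImplicit false

namespace Cfsg.Agent.Lib.Helper98

open Matrix Polynomial

section E27Main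

variable {F : Type*} [Field F]

theorem e27_sl_conj [Finite F] (M Y : Matrix (Fin 3) (Fin 3) F)
    (hM : Module.End.IsSemisimple (toLin' M)) (hY : Module.End.IsSemisimple (toLin' Y))
    (hc : M.charpoly = Y.charpoly) :
    ∃ g : Matrix (Fin 3) (Fin 3) F, g.det = 1 ∧ g * M = Y * g := by
  obtain ⟨P, hP, hPM⟩ := Cfsg.Agent.Lib.Helper47.exists_conj_matrix M Y hM hY hc
  obtain ⟨c, hcM, hcd⟩ := Cfsg.Agent.Lib.Helper47.exists_commute_matrix_det M hM (P.det)⁻¹
  refine ⟨P * c, by rw [Matrix.det_mul, hcd, mul_inv_cancel₀ hP.ne_zero], ?_⟩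
  rw [Matrix.mul_assoc, hcM, ← Matrix.mul_assoc, hPM, Matrix.mul_assoc]

/-- An element `x = t • M` of `SL_3` with `M` semisimple of the same characteristic polynomial as
a semisimple element `n` of the normaliser is `SL_3`-conjugate into the normaliser. -/
theorem e27_conj_into [Finite F] (R : Subgroup (GL (Fin 3) F)) (x n : GL (Fin 3) F) (t : F)
    (M : Matrix (Fin 3) (Fin 3) F) (hxM : (x : Matrix (Fin 3) (Fin 3) F) = t • M)
    (hMs : Module.End.IsSemisimple (toLin' M)) (hn : n ∈ Cfsg.Geo.subgroupNormalizer R)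
    (hns : Module.End.IsSemisimple (toLin' (n : Matrix (Fin 3) (Fin 3) F)))
    (hc : M.charpoly = (n : Matrix (Fin 3) (Fin 3) F).charpoly) :
    ∃ g ∈ Cfsg.Geo.specialLinear (Fin 3) F, g⁻¹ * x * g ∈ Cfsg.Geo.subgroupNormalizer R := by
  obtain ⟨G, hGd, hGM⟩ := e27_sl_conj M _ hMs hns hc
  obtain ⟨gU, hgU⟩ : ∃ gU : GL (Fin 3) F, (gU : Matrix (Fin 3) (Fin 3) F) = G :=
    ⟨Matrix.GeneralLinearGroup.mkOfDetNeZero G (by rw [hGd]; exact one_ne_zero), rfl⟩
  have hgSL : gU ∈ Cfsg.Geo.specialLinear (Fin 3) F :=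
    (Cfsg.Agent.Lib.Helper99.mem_specialLinear_iff gU).mpr (by rw [hgU]; exact hGd)
  refine ⟨gU⁻¹, inv_mem hgSL, ?_⟩
  rw [inv_inv]
  apply e27_smul_mem R n _ t hn
  rw [Units.val_mul, Units.val_mul, hxM, Matrix.mul_smul, hgU, hGM, Matrix.smul_mul, ← hgU,
    Matrix.mul_assoc, Units.mul_inv, Matrix.mul_one]

/-- The commutant of the standard generators consists of scalars. -/
theorem e27_commutant (hchar : (3 : F) ≠ 0) (μ : F) (hμ : μ ^ 2 + μ + 1 = 0) (P : GL (Fin 3) F)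
    (a b y : Matrix (Fin 3) (Fin 3) F)
    (ha : a * (P : Matrix (Fin 3) (Fin 3) F)
      = (P : Matrix (Fin 3) (Fin 3) F) * Matrix.diagonal ![1, μ, μ ^ 2])
    (hb : b * (P : Matrix (Fin 3) (Fin 3) F) = (P : Matrix (Fin 3) (Fin 3) F) * e27Pm F)
    (hya : y * a = a * y) (hyb : y * b = b * y) :
    ∃ c : F, y = c • (1 : Matrix (Fin 3) (Fin 3) F) := by
  have hμ3 : μ ^ 3 = 1 := by linear_combination (μ - 1) * hμ
  have hμ1 : μ - 1 ≠ 0 := by
    intro h
    have h' : μ = 1 := sub_eq_zero.mp h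
    rw [h'] at hμ
    apply hchar
    linear_combination hμ
  have hμ0 : μ ≠ 0 := by
    intro h
    rw [h] at hμ3
    simp at hμ3
  obtain ⟨Z, hZ⟩ : ∃ Z : Matrix (Fin 3) (Fin 3) F,
      Z = ((P⁻¹ : GL (Fin 3) F) : Matrix (Fin 3) (Fin 3) F) * y * (P : Matrix (Fin 3) (Fin 3) F) :=
    ⟨_, rfl⟩
  have hconj : ∀ (g D : Matrix (Fin 3) (Fin 3) F),
      g * (P : Matrix (Fin 3) (Fin 3) F) = (P : Matrix (Fin 3) (Fin 3) F) * D → y * g = g * y →
      Z * D = D * Z := by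
    intro g D hg hyg
    have hg' : ((P⁻¹ : GL (Fin 3) F) : Matrix (Fin 3) (Fin 3) F) * g
        = D * ((P⁻¹ : GL (Fin 3) F) : Matrix (Fin 3) (Fin 3) F) := by
      calc ((P⁻¹ : GL (Fin 3) F) : Matrix (Fin 3) (Fin 3) F) * g
          = ((P⁻¹ : GL (Fin 3) F) : Matrix (Fin 3) (Fin 3) F) * g
            * ((P : Matrix (Fin 3) (Fin 3) F) * ((P⁻¹ : GL (Fin 3) F) : Matrix (Fin 3) (Fin 3) F)) := by
            rw [Units.mul_inv, Matrix.mul_one]
        _ = ((P⁻¹ : GL (Fin 3) F) : Matrix (Fin 3) (Fin 3) F) * (g * (P : Matrix (Fin 3) (Fin 3) F))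
            * ((P⁻¹ : GL (Fin 3) F) : Matrix (Fin 3) (Fin 3) F) := by
            simp only [Matrix.mul_assoc]
        _ = D * ((P⁻¹ : GL (Fin 3) F) : Matrix (Fin 3) (Fin 3) F) := by
            rw [hg, ← Matrix.mul_assoc, Units.inv_mul, Matrix.one_mul]
    calc Z * D = ((P⁻¹ : GL (Fin 3) F) : Matrix (Fin 3) (Fin 3) F) * y
          * ((P : Matrix (Fin 3) (Fin 3) F) * D) := by
          rw [hZ]
          simp only [Matrix.mul_assoc]
      _ = ((P⁻¹ : GL (Fin 3) F) : Matrix (Fin 3) (Fin 3) F) * (y * g)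
          * (P : Matrix (Fin 3) (Fin 3) F) := by
          rw [← hg]
          simp only [Matrix.mul_assoc]
      _ = (((P⁻¹ : GL (Fin 3) F) : Matrix (Fin 3) (Fin 3) F) * g) * y
          * (P : Matrix (Fin 3) (Fin 3) F) := by
          rw [hyg]
          simp only [Matrix.mul_assoc]
      _ = D * Z := by
          rw [hg', hZ]
          simp only [Matrix.mul_assoc]
  have hZD := hconj a _ ha hya
  have hZP := hconj b _ hb hyb
  have hent : ∀ i j, Z i j * (![1, μ, μ ^ 2] : Fin 3 → F) j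
      = (![1, μ, μ ^ 2] : Fin 3 → F) i * Z i j := by
    intro i j
    have h := congrFun (congrFun hZD i) j
    rwa [Matrix.mul_diagonal, Matrix.diagonal_mul] at h
  have h01 : Z 0 1 * μ = 1 * Z 0 1 := hent 0 1
  have h02 : Z 0 2 * μ ^ 2 = 1 * Z 0 2 := hent 0 2
  have h10 : Z 1 0 * 1 = μ * Z 1 0 := hent 1 0
  have h12 : Z 1 2 * μ ^ 2 = μ * Z 1 2 := hent 1 2
  have h20 : Z 2 0 * 1 = μ ^ 2 * Z 2 0 := hent 2 0
  have h21 : Z 2 1 * μ = μ ^ 2 * Z 2 1 := hent 2 1
  have hμp : μ + 1 ≠ 0 := by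
    intro h
    apply hμ0
    have h1 : μ ^ 2 = 0 := by linear_combination hμ - h
    exact pow_eq_zero_iff (two_ne_zero) |>.mp h1
  have z01 : Z 0 1 = 0 := by
    have h : Z 0 1 * (μ - 1) = 0 := by linear_combination h01
    exact (mul_eq_zero.mp h).resolve_right hμ1
  have z02 : Z 0 2 = 0 := by
    have h : Z 0 2 * ((μ - 1) * (μ + 1)) = 0 := by linear_combination h02
    exact (mul_eq_zero.mp h).resolve_right (mul_ne_zero hμ1 hμp)
  have z10 : Z 1 0 = 0 := by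
    have h : Z 1 0 * (μ - 1) = 0 := by linear_combination -h10
    exact (mul_eq_zero.mp h).resolve_right hμ1
  have z12 : Z 1 2 = 0 := by
    have h : Z 1 2 * (μ * (μ - 1)) = 0 := by linear_combination h12
    exact (mul_eq_zero.mp h).resolve_right (mul_ne_zero hμ0 hμ1)
  have z20 : Z 2 0 = 0 := by
    have h : Z 2 0 * ((μ - 1) * (μ + 1)) = 0 := by linear_combination -h20
    exact (mul_eq_zero.mp h).resolve_right (mul_ne_zero hμ1 hμp)
  have z21 : Z 2 1 = 0 := by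
    have h : Z 2 1 * (μ * (μ - 1)) = 0 := by linear_combination -h21
    exact (mul_eq_zero.mp h).resolve_right (mul_ne_zero hμ0 hμ1)
  have p10 : Z 1 1 = Z 0 0 := by
    have h := congrFun (congrFun hZP 1) 0
    simpa [e27Pm, Matrix.mul_apply, Fin.sum_univ_three] using h
  have p21 : Z 2 2 = Z 1 1 := by
    have h := congrFun (congrFun hZP 2) 1
    simpa [e27Pm, Matrix.mul_apply, Fin.sum_univ_three] using h
  have hZs : Z = Z 0 0 • (1 : Matrix (Fin 3) (Fin 3) F) := by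
    ext i j
    fin_cases i <;> fin_cases j <;> simp [z01, z02, z10, z12, z20, z21, p10, p21]
  obtain ⟨c, hc⟩ : ∃ c : F, c = Z 0 0 := ⟨_, rfl⟩
  rw [← hc] at hZs
  refine ⟨c, ?_⟩
  have hy : y = (P : Matrix (Fin 3) (Fin 3) F) * Z
      * ((P⁻¹ : GL (Fin 3) F) : Matrix (Fin 3) (Fin 3) F) := by
    rw [hZ]
    simp only [← Matrix.mul_assoc]
    rw [Units.mul_inv, Matrix.one_mul, Matrix.mul_assoc, Units.mul_inv, Matrix.mul_one]
  rw [hy, hZs, Matrix.mul_smul, Matrix.mul_one, Matrix.smul_mul, Units.mul_inv]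

theorem e27_diag_cube (d : Fin 3 → F) (h : ∀ i, d i ^ 3 = 1) :
    (Matrix.diagonal d) ^ 3 = (1 : Matrix (Fin 3) (Fin 3) F) := by
  rw [Matrix.diagonal_pow, ← Matrix.diagonal_one]
  congr 1
  funext i
  exact h i

theorem e27J_charpoly : (e27J F).charpoly = (X - C (1 : F)) * (X - C (-1 : F)) ^ 2 := by
  rw [Matrix.charpoly, Matrix.det_fin_three]
  simp [e27J, Matrix.charmatrix_apply]
  ring

end E27Main

end Cfsg.Agent.Lib.Helper98
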