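import Mathlib
import Cfsg.Prelude.Def_GeometricClasses
import Cfsg.Agent.Lib.Helper99.Norm
import Cfsg.Agent.Lib.Helper99.Mat2
import Cfsg.Agent.Lib.Helper47.InvSL
import Cfsg.Agent.Lib.Helper47.SemiConjMat
import Cfsg.Agent.Lib.Helper6.PSLCard
import Cfsg.Agent.Lib.Helper98.E27E

/-!
# The normaliser of `3^{1+2}` in `SL_3(p)`: model elements, index, main lemmas
-/

set_option autoImplicit false

namespace Cfsg.Agent.Lib.Helper98

open Matrix Polynomial

section E27Models

variable {F : Type*} [Field F]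

/-- Semisimple elements of the normaliser with prescribed characteristic polynomials. -/
theorem e27_models (h2 : (2 : F) ≠ 0) (hchar : (3 : F) ≠ 0) (μ : F) (hμ : μ ^ 2 + μ + 1 = 0)
    (R : Subgroup (GL (Fin 3) F)) [Finite R] (P a b : GL (Fin 3) F) (ha : a ∈ R) (hb : b ∈ R)
    (hcl : R = Subgroup.closure {a, b})
    (haP : (a : Matrix (Fin 3) (Fin 3) F) * (P : Matrix (Fin 3) (Fin 3) F)
      = (P : Matrix (Fin 3) (Fin 3) F) * Matrix.diagonal ![1, μ, μ ^ 2])
    (hbP : (b : Matrix (Fin 3) (Fin 3) F) * (P : Matrix (Fin 3) (Fin 3) F)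
      = (P : Matrix (Fin 3) (Fin 3) F) * e27Pm F) :
    (∃ n ∈ Cfsg.Geo.subgroupNormalizer R,
      Module.End.IsSemisimple (toLin' (n : Matrix (Fin 3) (Fin 3) F)) ∧
      (n : Matrix (Fin 3) (Fin 3) F).charpoly = (X - C (1 : F)) * (X - C (-1 : F)) ^ 2) ∧
    (∃ n ∈ Cfsg.Geo.subgroupNormalizer R,
      Module.End.IsSemisimple (toLin' (n : Matrix (Fin 3) (Fin 3) F)) ∧
      (n : Matrix (Fin 3) (Fin 3) F).charpoly = (X - C (1 : F)) * (X - C μ) * (X - C (μ ^ 2))) ∧
    (∀ s ν : F, s ^ 3 = 1 → (ν = μ ∨ ν = μ ^ 2) → ∃ n ∈ Cfsg.Geo.subgroupNormalizer R,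
      Module.End.IsSemisimple (toLin' (n : Matrix (Fin 3) (Fin 3) F)) ∧
      (n : Matrix (Fin 3) (Fin 3) F).charpoly = (X - C s) * (X - C s) * (X - C (s * ν))) := by
  have hμ3 : μ ^ 3 = 1 := by linear_combination (μ - 1) * hμ
  have hμ6 : (μ ^ 2) ^ 3 = 1 := by rw [← pow_mul, mul_comm, pow_mul, hμ3, one_pow]
  obtain ⟨dU, hdU⟩ : ∃ dU : GL (Fin 3) F, dU = P⁻¹ * a * P := ⟨_, rfl⟩
  obtain ⟨pU, hpU⟩ : ∃ pU : GL (Fin 3) F, pU = P⁻¹ * b * P := ⟨_, rfl⟩
  have hdval : (dU : Matrix (Fin 3) (Fin 3) F) = Matrix.diagonal ![1, μ, μ ^ 2] := by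
    rw [hdU, Units.val_mul, Units.val_mul, Matrix.mul_assoc, haP, ← Matrix.mul_assoc,
      Units.inv_mul, Matrix.one_mul]
  have hpval : (pU : Matrix (Fin 3) (Fin 3) F) = e27Pm F := by
    rw [hpU, Units.val_mul, Units.val_mul, Matrix.mul_assoc, hbP, ← Matrix.mul_assoc,
      Units.inv_mul, Matrix.one_mul]
  have haR : P * dU * P⁻¹ = a := by
    rw [hdU]
    group
  have hbR : P * pU * P⁻¹ = b := by
    rw [hpU]
    group
  have hd3 : dU ^ 3 = 1 := by
    apply Units.ext
    rw [Units.val_pow_eq_pow_val, hdval, Units.val_one]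
    apply e27_diag_cube
    intro i
    fin_cases i
    · exact one_pow 3
    · exact hμ3
    · exact hμ6
  refine ⟨?_, ?_, ?_⟩
  · obtain ⟨jU, hjU⟩ : ∃ jU : GL (Fin 3) F, (jU : Matrix (Fin 3) (Fin 3) F) = e27J F :=
      ⟨⟨e27J F, e27J F, e27J_sq, e27J_sq⟩, rfl⟩
    refine ⟨P * jU * P⁻¹, ?_, ?_, ?_⟩
    · apply e27_model_mem R a b P jU (dU * dU) (pU * pU) hcl
      · have h1 : P * (dU * dU) * P⁻¹ = a * a := by
          rw [← haR]
          group
        rw [h1]
        exact mul_mem ha ha
      · have h1 : P * (pU * pU) * P⁻¹ = b * b := by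
          rw [← hbR]
          group
        rw [h1]
        exact mul_mem hb hb
      · rw [← hdU]
        apply Units.ext
        rw [Units.val_mul, Units.val_mul, Units.val_mul, hjU, hdval]
        exact e27J_D μ hμ
      · rw [← hpU]
        apply Units.ext
        rw [Units.val_mul, Units.val_mul, Units.val_mul, hjU, hpval]
        exact e27J_P
    · apply Cfsg.Agent.Lib.Helper47.isSemisimple_toLin'_of_pow_eq_one _ 2 (by exact_mod_cast h2)
      rw [← Units.val_pow_eq_pow_val, conj_pow]
      have h1 : jU ^ 2 = 1 := by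
        apply Units.ext
        rw [Units.val_pow_eq_pow_val, hjU, pow_two, e27J_sq]
        rfl
      rw [h1, mul_one, mul_inv_cancel]
      rfl
    · rw [Units.val_mul, Units.val_mul, Matrix.coe_units_inv, Matrix.charpoly_units_conj, hjU]
      exact e27J_charpoly
  · refine ⟨a, Subgroup.le_normalizer ha, ?_, ?_⟩
    · apply Cfsg.Agent.Lib.Helper47.isSemisimple_toLin'_of_pow_eq_one _ 3
        (by exact_mod_cast hchar)
      rw [← haR, ← Units.val_pow_eq_pow_val, conj_pow, hd3, mul_one, mul_inv_cancel]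
      rfl
    · rw [← haR, Units.val_mul, Units.val_mul, Matrix.coe_units_inv, Matrix.charpoly_units_conj, hdval,
        Matrix.charpoly_diagonal, Fin.prod_univ_three]
      rfl
  · intro s ν hs hν
    have hs0 : s ≠ 0 := by
      intro h
      rw [h] at hs
      simp at hs
    have hν3 : ν ^ 3 = 1 := by
      rcases hν with rfl | rfl
      · exact hμ3
      · exact hμ6
    have hν0 : ν ≠ 0 := by
      intro h
      rw [h] at hν3
      simp at hν3
    obtain ⟨mU, hmU⟩ : ∃ mU : GL (Fin 3) F,
        (mU : Matrix (Fin 3) (Fin 3) F) = Matrix.diagonal ![s, s, s * ν] :=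
      ⟨Matrix.GeneralLinearGroup.mkOfDetNeZero (Matrix.diagonal ![s, s, s * ν]) (by
        rw [Matrix.det_diagonal, Fin.prod_univ_three]
        simp [hs0, hν0]), rfl⟩
    have hm3 : mU ^ 3 = 1 := by
      apply Units.ext
      rw [Units.val_pow_eq_pow_val, hmU, Units.val_one]
      apply e27_diag_cube
      intro i
      fin_cases i
      · exact hs
      · exact hs
      · show (s * ν) ^ 3 = 1
        rw [mul_pow, hs, hν3, one_mul]
    refine ⟨P * mU * P⁻¹, ?_, ?_, ?_⟩
    · rcases hν with rfl | rfl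
      · apply e27_model_mem R a b P mU dU (pU * dU) hcl
        · rw [haR]
          exact ha
        · have h1 : P * (pU * dU) * P⁻¹ = b * a := by
            rw [← haR, ← hbR]
            group
          rw [h1]
          exact mul_mem hb ha
        · rw [← hdU]
          apply Units.ext
          rw [Units.val_mul, Units.val_mul, hmU, hdval]
          exact e27M_D ν s ν
        · rw [← hpU]
          apply Units.ext
          rw [Units.val_mul, Units.val_mul, Units.val_mul, hmU, hpval, hdval]
          exact e27M_P1 ν s hμ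
      · apply e27_model_mem R a b P mU dU (pU * (dU * dU)) hcl
        · rw [haR]
          exact ha
        · have h1 : P * (pU * (dU * dU)) * P⁻¹ = b * (a * a) := by
            rw [← haR, ← hbR]
            group
          rw [h1]
          exact mul_mem hb (mul_mem ha ha)
        · rw [← hdU]
          apply Units.ext
          rw [Units.val_mul, Units.val_mul, hmU, hdval]
          exact e27M_D μ s (μ ^ 2)
        · rw [← hpU]
          apply Units.ext
          rw [Units.val_mul, Units.val_mul, Units.val_mul, Units.val_mul, hmU, hpval, hdval]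
          exact e27M_P2 μ s hμ
    · apply Cfsg.Agent.Lib.Helper47.isSemisimple_toLin'_of_pow_eq_one _ 3
        (by exact_mod_cast hchar)
      rw [← Units.val_pow_eq_pow_val, conj_pow, hm3, mul_one, mul_inv_cancel]
      rfl
    · rw [Units.val_mul, Units.val_mul, Matrix.coe_units_inv, Matrix.charpoly_units_conj, hmU,
        Matrix.charpoly_diagonal, Fin.prod_univ_three]
      rfl

end E27Models

end Cfsg.Agent.Lib.Helper98
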