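import Mathlib
import Cfsg.Prelude.Def_GeometricClasses
import Cfsg.Agent.Lib.Helper99.Norm
import Cfsg.Agent.Lib.Helper99.Mat2
import Cfsg.Agent.Lib.Helper47.InvSL
import Cfsg.Agent.Lib.Helper47.SemiConjMat
import Cfsg.Agent.Lib.Helper6.PSLCard
import Cfsg.Agent.Lib.Helper98.E27F

/-!
# The normaliser of `3^{1+2}` in `SL_3(p)`: field lemmas, index, main lemmas
-/

set_option autoImplicit false

namespace Cfsg.Agent.Lib.Helper98

open Matrix Polynomial

section E27Field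

variable {F : Type*} [Field F] [Fintype F]

theorem e27_omega (hF : Fintype.card F % 3 = 1) : ∃ ω : F, ω ^ 2 + ω + 1 = 0 := by
  have hcardU : 3 ∣ Nat.card Fˣ := by
    rw [Nat.card_units, Nat.card_eq_fintype_card]
    omega
  obtain ⟨ωu, hωu⟩ := exists_prime_orderOf_dvd_card' 3 hcardU
  obtain ⟨ω, hωdef⟩ : ∃ ω : F, ω = (ωu : F) := ⟨_, rfl⟩
  have hω3 : ω ^ 3 = 1 := by
    rw [hωdef, ← Units.val_pow_eq_pow_val, ← hωu, pow_orderOf_eq_one]
    rfl
  have hω1 : ω ≠ 1 := by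
    intro h1
    have h2 : ωu = 1 := Units.ext (by rw [← hωdef, h1]; rfl)
    rw [h2, orderOf_one] at hωu
    omega
  refine ⟨ω, ?_⟩
  have h1 : (ω - 1) * (ω ^ 2 + ω + 1) = 0 := by linear_combination hω3
  rcases mul_eq_zero.mp h1 with h2 | h2
  · exact absurd (sub_eq_zero.mp h2) hω1
  · exact h2

theorem e27_cube_root (hF : Fintype.card F % 9 = 1) (z : F) (hz : z ^ 3 = 1) :
    ∃ t : F, t ^ 3 = z := by
  have hz0 : z ≠ 0 := by
    rintro rfl
    simp at hz
  obtain ⟨γ, hγ⟩ := IsCyclic.exists_generator (α := Fˣ)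
  have hord : orderOf γ = Fintype.card F - 1 := by
    rw [orderOf_eq_card_of_forall_mem_zpowers hγ, Nat.card_units, Nat.card_eq_fintype_card]
  obtain ⟨k, hk⟩ := Subgroup.mem_zpowers_iff.mp (hγ (Units.mk0 z hz0))
  have h1 : γ ^ (k * 3) = 1 := by
    rw [_root_.zpow_mul, hk]
    apply Units.ext
    have h3 : ((Units.mk0 z hz0 ^ (3 : ℤ) : Fˣ) : F) = z ^ 3 := by
      rw [show ((3 : ℤ)) = ((3 : ℕ) : ℤ) by norm_num, zpow_natCast, Units.val_pow_eq_pow_val,
        Units.val_mk0]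
    rw [h3, hz]
    rfl
  have h2 : ((orderOf γ : ℕ) : ℤ) ∣ k * 3 := orderOf_dvd_iff_zpow_eq_one.mpr h1
  obtain ⟨m, hm⟩ : ∃ m : ℕ, Fintype.card F - 1 = 9 * m := ⟨(Fintype.card F - 1) / 9, by omega⟩
  rw [hord, hm] at h2
  obtain ⟨j, hj⟩ := h2
  have hk3 : k = (m : ℤ) * j * 3 := by
    push_cast at hj
    linarith
  refine ⟨((γ ^ ((m : ℤ) * j) : Fˣ) : F), ?_⟩
  have h4 : (γ ^ ((m : ℤ) * j)) ^ (3 : ℕ) = Units.mk0 z hz0 := by
    rw [← hk, hk3, ← zpow_natCast, ← _root_.zpow_mul]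
    rfl
  have h5 := congrArg Units.val h4
  rw [Units.val_pow_eq_pow_val, Units.val_mk0] at h5
  exact h5

theorem e27_card_sl : Nat.card ↥(Cfsg.Geo.specialLinear (Fin 3) F)
    = Nat.card (Matrix.SpecialLinearGroup (Fin 3) F) := by
  apply Nat.card_congr
  exact
    { toFun := fun g => ⟨((g : GL (Fin 3) F) : Matrix (Fin 3) (Fin 3) F),
        (Cfsg.Agent.Lib.Helper99.mem_specialLinear_iff _).mp g.2⟩
      invFun := fun x => ⟨Matrix.SpecialLinearGroup.toGL x,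
        (Cfsg.Agent.Lib.Helper99.mem_specialLinear_iff _).mpr x.2⟩
      left_inv := fun g => Subtype.ext (Units.ext rfl)
      right_inv := fun x => Subtype.ext rfl }

/-- For `q ≡ 4, 7 (mod 9)` a subgroup of `SL_3(q)` containing a subgroup of order `27` has index
prime to three. -/
theorem e27_index (hF3 : Fintype.card F % 3 = 1) (hF9 : Fintype.card F % 9 ≠ 1)
    (R : Subgroup (GL (Fin 3) F)) (hR : Nat.card R = 27)
    (hRSL : R ≤ Cfsg.Geo.specialLinear (Fin 3) F)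
    (hΩ : 3 ∣ (Cfsg.Geo.subgroupNormalizer R).relIndex (Cfsg.Geo.specialLinear (Fin 3) F)) :
    False := by
  classical
  obtain ⟨K, hKdef⟩ : ∃ K : Subgroup (GL (Fin 3) F), K = Cfsg.Geo.specialLinear (Fin 3) F :=
    ⟨_, rfl⟩
  rw [← hKdef] at hΩ hRSL
  obtain ⟨H, hHdef⟩ : ∃ H : Subgroup K, H = (Cfsg.Geo.subgroupNormalizer R).subgroupOf K :=
    ⟨_, rfl⟩
  have hΩ' : 3 ∣ H.index := by
    rw [hHdef]
    exact hΩ
  have hmul := Subgroup.card_mul_index H
  have hRH : R.subgroupOf K ≤ H := by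
    intro g hg
    rw [hHdef]
    rw [Subgroup.mem_subgroupOf] at hg ⊢
    exact Subgroup.le_normalizer hg
  have hcardR : Nat.card (R.subgroupOf K) = 27 := by
    rw [Nat.card_congr (Subgroup.subgroupOfEquivOfLe hRSL).toEquiv, hR]
  have h27 : 27 ∣ Nat.card H := by
    rw [← hcardR]
    exact Subgroup.card_dvd_of_le hRH
  have h81 : 27 * 3 ∣ Nat.card K := by
    rw [← hmul]
    exact Nat.mul_dvd_mul h27 hΩ'
  have hKcard : Nat.card K = Nat.card (Matrix.SpecialLinearGroup (Fin 3) F) := by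
    rw [hKdef]
    exact e27_card_sl
  have hcard := Cfsg.Agent.Lib.Helper6.card_sl (F := F) rfl 3 (by norm_num)
  rw [Fin.prod_univ_three] at hcard
  simp only [Fin.val_zero, Fin.val_one, Fin.val_two, pow_zero, pow_one] at hcard
  obtain ⟨k, hk⟩ : ∃ k, Fintype.card F = 3 * k + 1 := ⟨Fintype.card F / 3, by omega⟩
  have hk3 : k % 3 ≠ 0 := by omega
  have hkpos : 0 < k := by omega
  rw [hk] at hcard
  have e1 : (3 * k + 1) ^ 3 - 1 = 9 * k * (3 * k ^ 2 + 3 * k + 1) :=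
    Nat.sub_eq_of_eq_add (by ring)
  have e2 : (3 * k + 1) ^ 3 - (3 * k + 1) = (3 * k + 1) * (3 * k) * (3 * k + 2) :=
    Nat.sub_eq_of_eq_add (by ring)
  have e3 : (3 * k + 1) ^ 3 - (3 * k + 1) ^ 2 = (3 * k + 1) ^ 2 * (3 * k) :=
    Nat.sub_eq_of_eq_add (by ring)
  have e0 : 3 * k + 1 - 1 = 3 * k := by omega
  rw [e0, e1, e2, e3, ← hKcard] at hcard
  have hK : Nat.card K
      = 27 * (k ^ 2 * (3 * k ^ 2 + 3 * k + 1) * (3 * k + 1) ^ 3 * (3 * k + 2)) := by
    have h3k : 0 < 3 * k := by omega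
    apply Nat.eq_of_mul_eq_mul_left h3k
    rw [hcard]
    ring
  rw [hK] at h81
  have h3 : 3 ∣ k ^ 2 * (3 * k ^ 2 + 3 * k + 1) * (3 * k + 1) ^ 3 * (3 * k + 2) :=
    Nat.dvd_of_mul_dvd_mul_left (by norm_num) h81
  rcases (Nat.Prime.dvd_mul Nat.prime_three).mp h3 with h | h
  · rcases (Nat.Prime.dvd_mul Nat.prime_three).mp h with h | h
    · rcases (Nat.Prime.dvd_mul Nat.prime_three).mp h with h | h
      · have h' := Nat.prime_three.dvd_of_dvd_pow h
        omega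
      · have e : 3 * k ^ 2 + 3 * k + 1 = 3 * (k ^ 2 + k) + 1 := by ring
        rw [e] at h
        omega
    · have h' := Nat.prime_three.dvd_of_dvd_pow h
      omega
  · omega

end E27Field

section E27Final

variable {F : Type*} [Field F]

theorem e27_le_sl (μ : F) (hμ : μ ^ 2 + μ + 1 = 0) (R : Subgroup (GL (Fin 3) F))
    (P a b : GL (Fin 3) F) (hcl : R = Subgroup.closure {a, b})
    (haP : (a : Matrix (Fin 3) (Fin 3) F) * (P : Matrix (Fin 3) (Fin 3) F)
      = (P : Matrix (Fin 3) (Fin 3) F) * Matrix.diagonal ![1, μ, μ ^ 2])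
    (hbP : (b : Matrix (Fin 3) (Fin 3) F) * (P : Matrix (Fin 3) (Fin 3) F)
      = (P : Matrix (Fin 3) (Fin 3) F) * e27Pm F) :
    R ≤ Cfsg.Geo.specialLinear (Fin 3) F := by
  have hμ3 : μ ^ 3 = 1 := by linear_combination (μ - 1) * hμ
  have hP0 : (P : Matrix (Fin 3) (Fin 3) F).det ≠ 0 :=
    ((Matrix.isUnit_iff_isUnit_det _).mp P.isUnit).ne_zero
  have hD : (Matrix.diagonal ![1, μ, μ ^ 2] : Matrix (Fin 3) (Fin 3) F).det = 1 := by
    rw [Matrix.det_diagonal, Fin.prod_univ_three]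
    show 1 * μ * μ ^ 2 = 1
    linear_combination hμ3
  have hPm : (e27Pm F).det = 1 := by
    rw [e27Pm, Matrix.det_fin_three]
    simp
  rw [hcl, Subgroup.closure_le]
  intro s hs
  rw [SetLike.mem_coe, Cfsg.Agent.Lib.Helper99.mem_specialLinear_iff]
  rcases hs with rfl | hs
  · have h := congrArg Matrix.det haP
    rw [Matrix.det_mul, Matrix.det_mul, hD, mul_one] at h
    exact mul_right_cancel₀ hP0 (by rw [h, one_mul])
  · rw [Set.mem_singleton_iff] at hs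
    rw [hs]
    have h := congrArg Matrix.det hbP
    rw [Matrix.det_mul, Matrix.det_mul, hPm, mul_one] at h
    exact mul_right_cancel₀ hP0 (by rw [h, one_mul])

/-- An element of prime order `r ≥ 5` normalising `R` is scalar. -/
theorem e27_large (hchar : (3 : F) ≠ 0) (μ : F) (hμ : μ ^ 2 + μ + 1 = 0)
    (R : Subgroup (GL (Fin 3) F)) (hR : Nat.card R = 27) (P a b c : GL (Fin 3) F) (ha : a ∈ R)
    (hb : b ∈ R) (hc : c ∈ R)
    (haP : (a : Matrix (Fin 3) (Fin 3) F) * (P : Matrix (Fin 3) (Fin 3) F)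
      = (P : Matrix (Fin 3) (Fin 3) F) * Matrix.diagonal ![1, μ, μ ^ 2])
    (hbP : (b : Matrix (Fin 3) (Fin 3) F) * (P : Matrix (Fin 3) (Fin 3) F)
      = (P : Matrix (Fin 3) (Fin 3) F) * e27Pm F)
    (hcμ : (c : Matrix (Fin 3) (Fin 3) F) = μ • (1 : Matrix (Fin 3) (Fin 3) F))
    (r : ℕ) [Fact r.Prime] (hr5 : 5 ≤ r) (y : GL (Fin 3) F)
    (hyN : y ∈ Cfsg.Geo.subgroupNormalizer R) (hyr : y ^ r = 1) :
    ∃ z : F, (y : Matrix (Fin 3) (Fin 3) F) = z • (1 : Matrix (Fin 3) (Fin 3) F) := by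
  have hrp : r.Prime := Fact.out
  haveI : Finite R := Nat.finite_of_card_ne_zero (by rw [hR]; norm_num)
  have hμ1 : μ ≠ 1 := by
    intro h
    rw [h] at hμ
    apply hchar
    linear_combination hμ
  have hmod := Cfsg.Agent.Lib.Helper99.card_modEq_card_centralizer R y hyN r hyr
  rw [hR] at hmod
  obtain ⟨Cc, hCc⟩ : ∃ Cc : Subgroup (GL (Fin 3) F), Cc = R ⊓ Subgroup.centralizer {y} :=
    ⟨_, rfl⟩
  rw [← hCc] at hmod
  have hCle : Cc ≤ R := by
    rw [hCc]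
    exact inf_le_left
  have hCdvd : Nat.card Cc ∣ 27 := by
    rw [← hR]
    exact Subgroup.card_dvd_of_le hCle
  have hcC : c ∈ Cc := by
    rw [hCc]
    refine ⟨hc, ?_⟩
    show c ∈ Subgroup.centralizer {y}
    rw [Subgroup.mem_centralizer_iff]
    intro h hh
    rw [Set.mem_singleton_iff] at hh
    rw [hh]
    apply Units.ext
    rw [Units.val_mul, Units.val_mul, hcμ, Matrix.mul_smul, Matrix.smul_mul, Matrix.mul_one,
      Matrix.one_mul]
  have hc1 : c ≠ 1 := by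
    intro h
    rw [h] at hcμ
    have h1 := congrFun (congrFun hcμ 0) 0
    simp at h1
    exact hμ1 h1.symm
  have hC1 : Nat.card Cc ≠ 1 := by
    intro h
    have hbot := Subgroup.eq_bot_of_card_eq Cc h
    rw [hbot] at hcC
    exact hc1 (Subgroup.mem_bot.mp hcC)
  obtain ⟨m, hm, hCm⟩ := (Nat.dvd_prime_pow Nat.prime_three).mp
    (show Nat.card Cc ∣ 3 ^ 3 from hCdvd)
  have hle : Nat.card Cc ≤ 27 := Nat.le_of_dvd (by norm_num) hCdvd
  have hd := (Nat.modEq_iff_dvd' hle).mp hmod.symm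
  have hCR : Cc = R := by
    interval_cases m
    · exact absurd hCm hC1
    · exfalso
      rw [hCm] at hd
      have hd' : r ∣ 2 ^ 3 * 3 := by
        norm_num at hd ⊢
        exact hd
      rcases (Nat.Prime.dvd_mul hrp).mp hd' with h | h
      · have h' := (Nat.prime_dvd_prime_iff_eq hrp Nat.prime_two).mp (hrp.dvd_of_dvd_pow h)
        omega
      · have h' := (Nat.prime_dvd_prime_iff_eq hrp Nat.prime_three).mp h
        omega
    · exfalso
      rw [hCm] at hd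
      have hd' : r ∣ 2 * 3 ^ 2 := by
        norm_num at hd ⊢
        exact hd
      rcases (Nat.Prime.dvd_mul hrp).mp hd' with h | h
      · have h' := (Nat.prime_dvd_prime_iff_eq hrp Nat.prime_two).mp h
        omega
      · have h' := (Nat.prime_dvd_prime_iff_eq hrp Nat.prime_three).mp (hrp.dvd_of_dvd_pow h)
        omega
    · apply Subgroup.eq_of_le_of_card_ge hCle
      rw [hR, hCm]
      norm_num
  have hRc : R ≤ Subgroup.centralizer {y} := by
    rw [← hCR, hCc]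
    exact inf_le_right
  have hya : (y : Matrix (Fin 3) (Fin 3) F) * (a : Matrix (Fin 3) (Fin 3) F)
      = (a : Matrix (Fin 3) (Fin 3) F) * (y : Matrix (Fin 3) (Fin 3) F) := by
    have h1 := Subgroup.mem_centralizer_iff.mp (hRc ha) y rfl
    have h' := congrArg (fun u : GL (Fin 3) F => (u : Matrix (Fin 3) (Fin 3) F)) h1
    simpa only [Units.val_mul] using h'
  have hyb : (y : Matrix (Fin 3) (Fin 3) F) * (b : Matrix (Fin 3) (Fin 3) F)
      = (b : Matrix (Fin 3) (Fin 3) F) * (y : Matrix (Fin 3) (Fin 3) F) := by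
    have h1 := Subgroup.mem_centralizer_iff.mp (hRc hb) y rfl
    have h' := congrArg (fun u : GL (Fin 3) F => (u : Matrix (Fin 3) (Fin 3) F)) h1
    simpa only [Units.val_mul] using h'
  exact e27_commutant hchar μ hμ P _ _ _ haP hbP hya hyb

/-- Involutions modulo scalars are conjugate into the normaliser. -/
theorem e27_main_two [Finite F] (h2 : (2 : F) ≠ 0) (hchar : (3 : F) ≠ 0) (μ : F)
    (hμ : μ ^ 2 + μ + 1 = 0) (R : Subgroup (GL (Fin 3) F)) [Finite R] (P a b : GL (Fin 3) F)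
    (ha : a ∈ R) (hb : b ∈ R) (hcl : R = Subgroup.closure {a, b})
    (haP : (a : Matrix (Fin 3) (Fin 3) F) * (P : Matrix (Fin 3) (Fin 3) F)
      = (P : Matrix (Fin 3) (Fin 3) F) * Matrix.diagonal ![1, μ, μ ^ 2])
    (hbP : (b : Matrix (Fin 3) (Fin 3) F) * (P : Matrix (Fin 3) (Fin 3) F)
      = (P : Matrix (Fin 3) (Fin 3) F) * e27Pm F)
    (x : GL (Fin 3) F) (hx : x ∈ Cfsg.Geo.specialLinear (Fin 3) F) (z : F)
    (hz : ((x ^ 2 : GL (Fin 3) F) : Matrix (Fin 3) (Fin 3) F)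
      = z • (1 : Matrix (Fin 3) (Fin 3) F))
    (hns : ∀ c : F, (x : Matrix (Fin 3) (Fin 3) F) ≠ c • (1 : Matrix (Fin 3) (Fin 3) F)) :
    ∃ g ∈ Cfsg.Geo.specialLinear (Fin 3) F, g⁻¹ * x * g ∈ Cfsg.Geo.subgroupNormalizer R := by
  have hXd : (x : Matrix (Fin 3) (Fin 3) F).det = 1 :=
    (Cfsg.Agent.Lib.Helper99.mem_specialLinear_iff x).mp hx
  have hXX : (x : Matrix (Fin 3) (Fin 3) F) * (x : Matrix (Fin 3) (Fin 3) F)
      = z • (1 : Matrix (Fin 3) (Fin 3) F) := by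
    rw [← hz, Units.val_pow_eq_pow_val, pow_two]
  have hz3 : z ^ 3 = 1 := by
    have h := congrArg Matrix.det hXX
    rw [Matrix.det_mul, hXd, Matrix.det_smul, Matrix.det_one, Fintype.card_fin, mul_one,
      mul_one] at h
    exact h.symm
  obtain ⟨n, hnN, hnss, hnc⟩ := (e27_models h2 hchar μ hμ R P a b ha hb hcl haP hbP).1
  obtain ⟨M, hMdef⟩ : ∃ M : Matrix (Fin 3) (Fin 3) F, M = z • (x : Matrix (Fin 3) (Fin 3) F) :=
    ⟨_, rfl⟩
  have hMM : M * M = 1 := by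
    rw [hMdef, Matrix.smul_mul, Matrix.mul_smul, hXX, smul_smul, smul_smul]
    have h1 : z * z * z = 1 := by linear_combination hz3
    rw [h1, one_smul]
  have hMd : M.det = 1 := by
    rw [hMdef, Matrix.det_smul, hXd, Fintype.card_fin, hz3, mul_one]
  have hxM : (x : Matrix (Fin 3) (Fin 3) F) = z ^ 2 • M := by
    rw [hMdef, smul_smul]
    have h1 : z ^ 2 * z = 1 := by linear_combination hz3
    rw [h1, one_smul]
  have hMns : ∀ c : F, M ≠ c • (1 : Matrix (Fin 3) (Fin 3) F) := by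
    intro c hc
    apply hns (z ^ 2 * c)
    rw [hxM, hc, smul_smul]
  obtain ⟨hMs, hMc⟩ := e27_inv_class h2 M hMM hMns hMd
  exact e27_conj_into R x n (z ^ 2) M hxM hMs hnN hnss (by rw [hMc, hnc])

/-- For `q ≡ 1 (mod 9)`, elements of order three modulo scalars are conjugate into the
normaliser. -/
theorem e27_main_three [Fintype F] (hF9 : Fintype.card F % 9 = 1) (h2 : (2 : F) ≠ 0)
    (hchar : (3 : F) ≠ 0) (μ : F)
    (hμ : μ ^ 2 + μ + 1 = 0) (R : Subgroup (GL (Fin 3) F)) [Finite R] (P a b : GL (Fin 3) F)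
    (ha : a ∈ R) (hb : b ∈ R) (hcl : R = Subgroup.closure {a, b})
    (haP : (a : Matrix (Fin 3) (Fin 3) F) * (P : Matrix (Fin 3) (Fin 3) F)
      = (P : Matrix (Fin 3) (Fin 3) F) * Matrix.diagonal ![1, μ, μ ^ 2])
    (hbP : (b : Matrix (Fin 3) (Fin 3) F) * (P : Matrix (Fin 3) (Fin 3) F)
      = (P : Matrix (Fin 3) (Fin 3) F) * e27Pm F)
    (x : GL (Fin 3) F) (hx : x ∈ Cfsg.Geo.specialLinear (Fin 3) F) (z : F)
    (hz : ((x ^ 3 : GL (Fin 3) F) : Matrix (Fin 3) (Fin 3) F)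
      = z • (1 : Matrix (Fin 3) (Fin 3) F))
    (hns : ∀ c : F, (x : Matrix (Fin 3) (Fin 3) F) ≠ c • (1 : Matrix (Fin 3) (Fin 3) F)) :
    ∃ g ∈ Cfsg.Geo.specialLinear (Fin 3) F, g⁻¹ * x * g ∈ Cfsg.Geo.subgroupNormalizer R := by
  have hXd : (x : Matrix (Fin 3) (Fin 3) F).det = 1 :=
    (Cfsg.Agent.Lib.Helper99.mem_specialLinear_iff x).mp hx
  have hX3 : (x : Matrix (Fin 3) (Fin 3) F) * (x : Matrix (Fin 3) (Fin 3) F)
      * (x : Matrix (Fin 3) (Fin 3) F) = z • (1 : Matrix (Fin 3) (Fin 3) F) := by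
    rw [← hz, Units.val_pow_eq_pow_val, pow_three']
  have hz3 : z ^ 3 = 1 := by
    have h := congrArg Matrix.det hX3
    rw [Matrix.det_mul, Matrix.det_mul, hXd, Matrix.det_smul, Matrix.det_one, Fintype.card_fin,
      mul_one, mul_one, mul_one] at h
    exact h.symm
  obtain ⟨t, ht⟩ := e27_cube_root hF9 z hz3
  have ht0 : t ≠ 0 := by
    intro h
    rw [h] at ht
    rw [← ht] at hz3
    simp at hz3
  obtain ⟨M, hMdef⟩ : ∃ M : Matrix (Fin 3) (Fin 3) F,
      M = t⁻¹ • (x : Matrix (Fin 3) (Fin 3) F) := ⟨_, rfl⟩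
  have hM3 : M * M * M = 1 := by
    rw [hMdef]
    simp only [Matrix.smul_mul, Matrix.mul_smul, smul_smul]
    rw [hX3, smul_smul]
    have h1 : t⁻¹ * (t⁻¹ * t⁻¹) * z = 1 := by
      rw [← ht]
      field_simp
    rw [h1, one_smul]
  have hxM : (x : Matrix (Fin 3) (Fin 3) F) = t • M := by
    rw [hMdef, smul_smul, mul_inv_cancel₀ ht0, one_smul]
  have hMns : ∀ c : F, M ≠ c • (1 : Matrix (Fin 3) (Fin 3) F) := by
    intro c hc
    apply hns (t * c)
    rw [hxM, hc, smul_smul]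
  obtain ⟨hMs, hcase⟩ := e27_ord3_class hchar μ hμ M hM3 hMns
  obtain ⟨-, hmod2, hmod3⟩ := e27_models h2 hchar μ hμ R P a b ha hb hcl haP hbP
  rcases hcase with hc | ⟨s, ν, hs, hν, hc⟩
  · obtain ⟨n, hnN, hnss, hnc⟩ := hmod2
    exact e27_conj_into R x n t M hxM hMs hnN hnss (by rw [hc, hnc])
  · obtain ⟨n, hnN, hnss, hnc⟩ := hmod3 s ν hs hν
    exact e27_conj_into R x n t M hxM hMs hnN hnss (by rw [hc, hnc])

end E27Final

end Cfsg.Agent.Lib.Helper98
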