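import Mathlib
import Cfsg.Prelude.Def_GeometricClasses
import Cfsg.Prelude.Def_LieClassical
import Cfsg.Agent.Lib.Helper47.SU3Inv
import Cfsg.Agent.Lib.Helper98.E27G

/-!
# The normaliser of `3^{1+2}` in `SU_3(p)`, `p ≡ 2 (mod 3)`
-/

set_option autoImplicit false

namespace Cfsg.Agent.Lib.Helper98

open Matrix Polynomial Cfsg.Agent.Lib.Helper47

section E27U

variable {F : Type*} [Field F]

theorem e27u_sT_smul (σ : F →+* F) (c : F) (M : Matrix (Fin 3) (Fin 3) F) :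
    sT σ (c • M) = σ c • sT σ M := by
  apply Matrix.ext
  intro i j
  simp [sT]

/-- A normalising element whose determinant has norm one is unitary (Schur's lemma). -/
theorem e27u_model_unitary {σ : F →+* F} (hσ : ∀ x, σ (σ x) = x) (p : ℕ) (hp3 : p % 3 = 2)
    (hσq : ∀ x, σ x = x ^ p) (hchar : (3 : F) ≠ 0) (μ : F) (hμ : μ ^ 2 + μ + 1 = 0)
    (R : Subgroup (GL (Fin 3) F)) (P a b : GL (Fin 3) F) (ha : a ∈ R) (hb : b ∈ R)
    (haP : (a : Matrix (Fin 3) (Fin 3) F) * (P : Matrix (Fin 3) (Fin 3) F)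
      = (P : Matrix (Fin 3) (Fin 3) F) * Matrix.diagonal ![1, μ, μ ^ 2])
    (hbP : (b : Matrix (Fin 3) (Fin 3) F) * (P : Matrix (Fin 3) (Fin 3) F)
      = (P : Matrix (Fin 3) (Fin 3) F) * e27Pm F)
    (hRU : ∀ g ∈ R, sT σ (g : Matrix (Fin 3) (Fin 3) F) * (g : Matrix (Fin 3) (Fin 3) F) = 1)
    (n : GL (Fin 3) F) (hn : n ∈ Cfsg.Geo.subgroupNormalizer R)
    (hdet : σ (n : Matrix (Fin 3) (Fin 3) F).det * (n : Matrix (Fin 3) (Fin 3) F).det = 1) :
    sT σ (n : Matrix (Fin 3) (Fin 3) F) * (n : Matrix (Fin 3) (Fin 3) F) = 1 := by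
  unfold Cfsg.Geo.subgroupNormalizer at hn
  rw [Subgroup.mem_set_normalizer_iff] at hn
  obtain ⟨S, hS⟩ : ∃ S : Matrix (Fin 3) (Fin 3) F,
      S = sT σ (n : Matrix (Fin 3) (Fin 3) F) * (n : Matrix (Fin 3) (Fin 3) F) := ⟨_, rfl⟩
  have hcomm : ∀ g ∈ R, S * (g : Matrix (Fin 3) (Fin 3) F) = (g : Matrix (Fin 3) (Fin 3) F) * S := by
    intro g hg
    have hg' : n * g * n⁻¹ ∈ R := (hn g).mp hg
    have hgu := hRU g hg
    have hgu' := hRU _ hg'
    obtain ⟨g', hg'def⟩ : ∃ g' : GL (Fin 3) F, g' = n * g * n⁻¹ := ⟨_, rfl⟩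
    rw [← hg'def] at hgu'
    have hrel : (g' : Matrix (Fin 3) (Fin 3) F) * (n : Matrix (Fin 3) (Fin 3) F)
        = (n : Matrix (Fin 3) (Fin 3) F) * (g : Matrix (Fin 3) (Fin 3) F) := by
      rw [← Units.val_mul, ← Units.val_mul, hg'def]
      congr 1
      group
    have h1 : sT σ (g : Matrix (Fin 3) (Fin 3) F) * S * (g : Matrix (Fin 3) (Fin 3) F) = S := by
      calc sT σ (g : Matrix (Fin 3) (Fin 3) F) * S * (g : Matrix (Fin 3) (Fin 3) F)
          = sT σ ((n : Matrix (Fin 3) (Fin 3) F) * (g : Matrix (Fin 3) (Fin 3) F))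
            * ((n : Matrix (Fin 3) (Fin 3) F) * (g : Matrix (Fin 3) (Fin 3) F)) := by
            rw [hS, sT_mul]
            simp only [Matrix.mul_assoc]
        _ = sT σ ((g' : Matrix (Fin 3) (Fin 3) F) * (n : Matrix (Fin 3) (Fin 3) F))
            * ((g' : Matrix (Fin 3) (Fin 3) F) * (n : Matrix (Fin 3) (Fin 3) F)) := by rw [hrel]
        _ = sT σ (n : Matrix (Fin 3) (Fin 3) F)
            * (sT σ (g' : Matrix (Fin 3) (Fin 3) F) * (g' : Matrix (Fin 3) (Fin 3) F))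
            * (n : Matrix (Fin 3) (Fin 3) F) := by
            rw [sT_mul]
            simp only [Matrix.mul_assoc]
        _ = S := by rw [hgu', Matrix.mul_one, hS]
    have hgu2 : (g : Matrix (Fin 3) (Fin 3) F) * sT σ (g : Matrix (Fin 3) (Fin 3) F) = 1 :=
      mul_eq_one_comm.mp hgu
    calc S * (g : Matrix (Fin 3) (Fin 3) F)
        = ((g : Matrix (Fin 3) (Fin 3) F) * sT σ (g : Matrix (Fin 3) (Fin 3) F)) * S
          * (g : Matrix (Fin 3) (Fin 3) F) := by rw [hgu2, Matrix.one_mul]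
      _ = (g : Matrix (Fin 3) (Fin 3) F)
          * (sT σ (g : Matrix (Fin 3) (Fin 3) F) * S * (g : Matrix (Fin 3) (Fin 3) F)) := by
          simp only [Matrix.mul_assoc]
      _ = (g : Matrix (Fin 3) (Fin 3) F) * S := by rw [h1]
  obtain ⟨lam, hlam⟩ := e27_commutant hchar μ hμ P _ _ S haP hbP (hcomm a ha) (hcomm b hb)
  have hSs : sT σ S = S := by rw [hS, sT_mul, sT_sT hσ]
  have hfix : σ lam = lam := by
    rw [hlam, e27u_sT_smul, sT_one] at hSs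
    have h1 := congrFun (congrFun hSs 0) 0
    simpa using h1
  have hl3 : lam ^ 3 = 1 := by
    have h1 := congrArg Matrix.det hS
    rw [hlam, Matrix.det_smul, Matrix.det_one, Fintype.card_fin, mul_one, Matrix.det_mul, det_sT,
      hdet] at h1
    exact h1
  have hl0 : lam ≠ 0 := by
    intro h
    rw [h] at hl3
    simp at hl3
  have hlp : lam ^ p = lam := by
    rw [← hσq]
    exact hfix
  obtain ⟨k, hk⟩ : ∃ k, p = 3 * k + 2 := ⟨p / 3, by omega⟩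
  have hl1 : lam = 1 := by
    rw [hk, pow_add, pow_mul, hl3, one_pow, one_mul] at hlp
    have h1 : lam * (lam - 1) = 0 := by linear_combination hlp
    rcases mul_eq_zero.mp h1 with h | h
    · exact absurd h hl0
    · exact sub_eq_zero.mp h
  rw [← hS, hlam, hl1, one_smul]

/-- Unitary version of `e27_conj_into`. -/
theorem e27u_conj_into [Fintype F] {σ : F →+* F} (hσ : ∀ x, σ (σ x) = x) (hne : ∃ c, σ c ≠ c)
    (p : ℕ) (hp3 : p % 3 = 2) (hσq : ∀ x, σ x = x ^ p) (hchar : (3 : F) ≠ 0) (μ : F)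
    (hμ : μ ^ 2 + μ + 1 = 0) (R : Subgroup (GL (Fin 3) F)) (P a b : GL (Fin 3) F) (ha : a ∈ R)
    (hb : b ∈ R)
    (haP : (a : Matrix (Fin 3) (Fin 3) F) * (P : Matrix (Fin 3) (Fin 3) F)
      = (P : Matrix (Fin 3) (Fin 3) F) * Matrix.diagonal ![1, μ, μ ^ 2])
    (hbP : (b : Matrix (Fin 3) (Fin 3) F) * (P : Matrix (Fin 3) (Fin 3) F)
      = (P : Matrix (Fin 3) (Fin 3) F) * e27Pm F)
    (hRU : R ≤ Cfsg.GU 3 F p) (x n : GL (Fin 3) F) (t : F) (M : Matrix (Fin 3) (Fin 3) F)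
    (hxM : (x : Matrix (Fin 3) (Fin 3) F) = t • M) (hMu : sT σ M * M = 1)
    (hMs : Module.End.IsSemisimple (toLin' M)) (hn : n ∈ Cfsg.Geo.subgroupNormalizer R)
    (hns : Module.End.IsSemisimple (toLin' (n : Matrix (Fin 3) (Fin 3) F)))
    (hc : M.charpoly = (n : Matrix (Fin 3) (Fin 3) F).charpoly) :
    ∃ g ∈ Cfsg.GU 3 F p ⊓ Cfsg.Geo.specialLinear (Fin 3) F,
      g⁻¹ * x * g ∈ Cfsg.Geo.subgroupNormalizer R := by
  have hdetM : σ M.det * M.det = 1 := by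
    have h1 := congrArg Matrix.det hMu
    rwa [Matrix.det_mul, det_sT, Matrix.det_one] at h1
  have hdetn : (n : Matrix (Fin 3) (Fin 3) F).det = M.det := by
    rw [Matrix.det_eq_sign_charpoly_coeff, Matrix.det_eq_sign_charpoly_coeff M, hc]
  have hnu : sT σ (n : Matrix (Fin 3) (Fin 3) F) * (n : Matrix (Fin 3) (Fin 3) F) = 1 :=
    e27u_model_unitary hσ p hp3 hσq hchar μ hμ R P a b ha hb haP hbP
      (fun g hg => (mem_GU_iff_sT hσq hσ g).mp (hRU hg)) n hn (by rw [hdetn]; exact hdetM)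
  obtain ⟨G, hGd, hGu, hGM⟩ := exists_unitary_conj_det_one σ hσ hne 3 M
    (n : Matrix (Fin 3) (Fin 3) F) (fun u v => unitary_of_sT_mul_self hσ hMu u v)
    (fun u v => unitary_of_sT_mul_self hσ hnu u v) hMs hns hc
  obtain ⟨gU, hgU⟩ : ∃ gU : GL (Fin 3) F, (gU : Matrix (Fin 3) (Fin 3) F) = G :=
    ⟨Matrix.GeneralLinearGroup.mkOfDetNeZero G (by rw [hGd]; exact one_ne_zero), rfl⟩
  have hgSL : gU ∈ Cfsg.Geo.specialLinear (Fin 3) F :=
    (Cfsg.Agent.Lib.Helper99.mem_specialLinear_iff gU).mpr (by rw [hgU]; exact hGd)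
  have hgGU : gU ∈ Cfsg.GU 3 F p :=
    (mem_GU_iff_sT hσq hσ gU).mpr (by rw [hgU]; exact sT_mul_self_of_unitary hσ hGu)
  refine ⟨gU⁻¹, inv_mem (Subgroup.mem_inf.mpr ⟨hgGU, hgSL⟩), ?_⟩
  rw [inv_inv]
  apply e27_smul_mem R n _ t hn
  rw [Units.val_mul, Units.val_mul, hxM, Matrix.mul_smul, hgU, hGM, Matrix.smul_mul, ← hgU,
    Matrix.mul_assoc, Units.mul_inv, Matrix.mul_one]

theorem e27u_cube_root [Fintype F] (p : ℕ) (hF : Fintype.card F = p ^ 2) (hp9 : p % 9 = 8)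
    (z : F) (hz : z ^ 3 = 1) : ∃ t : F, t ^ 3 = z ∧ t ^ (p + 1) = 1 := by
  have hz0 : z ≠ 0 := by
    rintro rfl
    simp at hz
  obtain ⟨c, rfl⟩ : ∃ c, p = c + 1 := ⟨p - 1, by omega⟩
  obtain ⟨γ, hγ⟩ := IsCyclic.exists_generator (α := Fˣ)
  have hcc : (c + 1) ^ 2 - 1 = c * (c + 1 + 1) := Nat.sub_eq_of_eq_add (by ring)
  have hord : orderOf γ = c * (c + 1 + 1) := by
    rw [orderOf_eq_card_of_forall_mem_zpowers hγ, Nat.card_units, Nat.card_eq_fintype_card, hF,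
      hcc]
  obtain ⟨k, hk⟩ := Subgroup.mem_zpowers_iff.mp (hγ (Units.mk0 z hz0))
  have h1 : γ ^ (k * 3) = 1 := by
    rw [_root_.zpow_mul, hk]
    apply Units.ext
    have h3 : ((Units.mk0 z hz0 ^ (3 : ℤ) : Fˣ) : F) = z ^ 3 := by
      rw [show ((3 : ℤ)) = ((3 : ℕ) : ℤ) by norm_num, zpow_natCast, Units.val_pow_eq_pow_val,
        Units.val_mk0]
    rw [h3, hz]
    rfl
  have h2 : ((orderOf γ : ℕ) : ℤ) ∣ k * 3 := orderOf_dvd_iff_zpow_eq_one.mpr h1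
  obtain ⟨m, hm⟩ : ∃ m : ℕ, c + 1 + 1 = 9 * m := ⟨(c + 1 + 1) / 9, by omega⟩
  rw [hord, hm] at h2
  obtain ⟨j, hj⟩ := h2
  have hk3 : k = (c : ℤ) * m * j * 3 := by
    push_cast at hj
    linarith
  refine ⟨((γ ^ ((c : ℤ) * m * j) : Fˣ) : F), ?_, ?_⟩
  · have h4 : (γ ^ ((c : ℤ) * m * j)) ^ (3 : ℕ) = Units.mk0 z hz0 := by
      rw [← hk, hk3, ← zpow_natCast, ← _root_.zpow_mul]
      rfl
    have h5 := congrArg Units.val h4
    rw [Units.val_pow_eq_pow_val, Units.val_mk0] at h5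
    exact h5
  · have h4 : (γ ^ ((c : ℤ) * m * j)) ^ (c + 1 + 1) = 1 := by
      rw [← zpow_natCast, ← _root_.zpow_mul]
      have h6 : (c : ℤ) * m * j * ((c + 1 + 1 : ℕ) : ℤ) = ((c * (c + 1 + 1) : ℕ) : ℤ) * (m * j) := by
        push_cast
        ring
      rw [h6, _root_.zpow_mul, zpow_natCast, ← hord, pow_orderOf_eq_one, _root_.one_zpow]
    have h5 := congrArg Units.val h4
    rw [Units.val_pow_eq_pow_val, Units.val_one] at h5
    exact h5

theorem e27_sl_card_not81 [Fintype F] (hF3 : Fintype.card F % 3 = 1)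
    (hF9 : Fintype.card F % 9 ≠ 1) :
    ¬ 27 * 3 ∣ Nat.card ↥(Cfsg.Geo.specialLinear (Fin 3) F) := by
  classical
  intro h81
  have hKcard := e27_card_sl (F := F)
  have hcard := Cfsg.Agent.Lib.Helper6.card_sl (F := F) rfl 3 (by norm_num)
  rw [Fin.prod_univ_three] at hcard
  simp only [Fin.val_zero, Fin.val_one, Fin.val_two, pow_zero, pow_one] at hcard
  obtain ⟨k, hk⟩ : ∃ k, Fintype.card F = 3 * k + 1 := ⟨Fintype.card F / 3, by omega⟩
  have hk3 : k % 3 ≠ 0 := by omega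
  have hkpos : 0 < k := by omega
  rw [hk] at hcard
  have e1 : (3 * k + 1) ^ 3 - 1 = 9 * k * (3 * k ^ 2 + 3 * k + 1) :=
    Nat.sub_eq_of_eq_add (by ring)
  have e2 : (3 * k + 1) ^ 3 - (3 * k + 1) = (3 * k + 1) * (3 * k) * (3 * k + 2) :=
    Nat.sub_eq_of_eq_add (by ring)
  have e3 : (3 * k + 1) ^ 3 - (3 * k + 1) ^ 2 = (3 * k + 1) ^ 2 * (3 * k) :=
    Nat.sub_eq_of_eq_add (by ring)
  have e0 : 3 * k + 1 - 1 = 3 * k := by omega
  rw [e0, e1, e2, e3, ← hKcard] at hcard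
  have hK : Nat.card ↥(Cfsg.Geo.specialLinear (Fin 3) F)
      = 27 * (k ^ 2 * (3 * k ^ 2 + 3 * k + 1) * (3 * k + 1) ^ 3 * (3 * k + 2)) := by
    have h3k : 0 < 3 * k := by omega
    apply Nat.eq_of_mul_eq_mul_left h3k
    rw [hcard]
    ring
  rw [hK] at h81
  have h3 : 3 ∣ k ^ 2 * (3 * k ^ 2 + 3 * k + 1) * (3 * k + 1) ^ 3 * (3 * k + 2) :=
    Nat.dvd_of_mul_dvd_mul_left (by norm_num) h81
  rcases (Nat.Prime.dvd_mul Nat.prime_three).mp h3 with h | h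
  · rcases (Nat.Prime.dvd_mul Nat.prime_three).mp h with h | h
    · rcases (Nat.Prime.dvd_mul Nat.prime_three).mp h with h | h
      · have h' := Nat.prime_three.dvd_of_dvd_pow h
        omega
      · have e : 3 * k ^ 2 + 3 * k + 1 = 3 * (k ^ 2 + k) + 1 := by ring
        rw [e] at h
        omega
    · have h' := Nat.prime_three.dvd_of_dvd_pow h
      omega
  · omega

/-- For `q ≡ 4, 7 (mod 9)`, inside any subgroup `K ≤ SL_3(q)` containing `R` of order `27` the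
normaliser of `R` has index prime to three. -/
theorem e27_index_le [Fintype F] (hF3 : Fintype.card F % 3 = 1) (hF9 : Fintype.card F % 9 ≠ 1)
    (R : Subgroup (GL (Fin 3) F)) (hR : Nat.card R = 27) (K : Subgroup (GL (Fin 3) F))
    (hK : K ≤ Cfsg.Geo.specialLinear (Fin 3) F) (hRK : R ≤ K)
    (hΩ : 3 ∣ (Cfsg.Geo.subgroupNormalizer R).relIndex K) : False := by
  classical
  obtain ⟨H, hHdef⟩ : ∃ H : Subgroup K, H = (Cfsg.Geo.subgroupNormalizer R).subgroupOf K :=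
    ⟨_, rfl⟩
  have hΩ' : 3 ∣ H.index := by
    rw [hHdef]
    exact hΩ
  have hmul := Subgroup.card_mul_index H
  have hRH : R.subgroupOf K ≤ H := by
    intro g hg
    rw [hHdef]
    rw [Subgroup.mem_subgroupOf] at hg ⊢
    exact Subgroup.le_normalizer hg
  have hcardR : Nat.card (R.subgroupOf K) = 27 := by
    rw [Nat.card_congr (Subgroup.subgroupOfEquivOfLe hRK).toEquiv, hR]
  have h27 : 27 ∣ Nat.card H := by
    rw [← hcardR]
    exact Subgroup.card_dvd_of_le hRH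
  have h81 : 27 * 3 ∣ Nat.card K := by
    rw [← hmul]
    exact Nat.mul_dvd_mul h27 hΩ'
  exact e27_sl_card_not81 hF3 hF9 (h81.trans (Subgroup.card_dvd_of_le hK))

/-- Involutions modulo scalars of `SU_3` are conjugate into the normaliser. -/
theorem e27u_main_two [Fintype F] {σ : F →+* F} (hσ : ∀ x, σ (σ x) = x) (hne : ∃ c, σ c ≠ c)
    (p : ℕ) (hp3 : p % 3 = 2) (hσq : ∀ x, σ x = x ^ p) (h2 : (2 : F) ≠ 0) (hchar : (3 : F) ≠ 0)
    (μ : F) (hμ : μ ^ 2 + μ + 1 = 0) (R : Subgroup (GL (Fin 3) F)) [Finite R]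
    (P a b : GL (Fin 3) F) (ha : a ∈ R) (hb : b ∈ R) (hcl : R = Subgroup.closure {a, b})
    (haP : (a : Matrix (Fin 3) (Fin 3) F) * (P : Matrix (Fin 3) (Fin 3) F)
      = (P : Matrix (Fin 3) (Fin 3) F) * Matrix.diagonal ![1, μ, μ ^ 2])
    (hbP : (b : Matrix (Fin 3) (Fin 3) F) * (P : Matrix (Fin 3) (Fin 3) F)
      = (P : Matrix (Fin 3) (Fin 3) F) * e27Pm F)
    (hRU : R ≤ Cfsg.GU 3 F p)
    (x : GL (Fin 3) F) (hx : x ∈ Cfsg.GU 3 F p ⊓ Cfsg.Geo.specialLinear (Fin 3) F) (z : F)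
    (hz : ((x ^ 2 : GL (Fin 3) F) : Matrix (Fin 3) (Fin 3) F)
      = z • (1 : Matrix (Fin 3) (Fin 3) F))
    (hns : ∀ c : F, (x : Matrix (Fin 3) (Fin 3) F) ≠ c • (1 : Matrix (Fin 3) (Fin 3) F)) :
    ∃ g ∈ Cfsg.GU 3 F p ⊓ Cfsg.Geo.specialLinear (Fin 3) F,
      g⁻¹ * x * g ∈ Cfsg.Geo.subgroupNormalizer R := by
  obtain ⟨hxU, hxS⟩ := Subgroup.mem_inf.mp hx
  have hxu : sT σ (x : Matrix (Fin 3) (Fin 3) F) * (x : Matrix (Fin 3) (Fin 3) F) = 1 :=
    (mem_GU_iff_sT hσq hσ x).mp hxU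
  have hXd : (x : Matrix (Fin 3) (Fin 3) F).det = 1 :=
    (Cfsg.Agent.Lib.Helper99.mem_specialLinear_iff x).mp hxS
  have hXX : (x : Matrix (Fin 3) (Fin 3) F) * (x : Matrix (Fin 3) (Fin 3) F)
      = z • (1 : Matrix (Fin 3) (Fin 3) F) := by
    rw [← hz, Units.val_pow_eq_pow_val, pow_two]
  have hz3 : z ^ 3 = 1 := by
    have h := congrArg Matrix.det hXX
    rw [Matrix.det_mul, hXd, Matrix.det_smul, Matrix.det_one, Fintype.card_fin, mul_one,
      mul_one] at h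
    exact h.symm
  have hzn : σ z * z = 1 := by
    have h1 : sT σ ((x : Matrix (Fin 3) (Fin 3) F) * (x : Matrix (Fin 3) (Fin 3) F))
        * ((x : Matrix (Fin 3) (Fin 3) F) * (x : Matrix (Fin 3) (Fin 3) F)) = 1 := by
      rw [sT_mul, Matrix.mul_assoc, ← Matrix.mul_assoc (sT σ (x : Matrix (Fin 3) (Fin 3) F))
        (x : Matrix (Fin 3) (Fin 3) F) (x : Matrix (Fin 3) (Fin 3) F), hxu, Matrix.one_mul, hxu]
    rw [hXX, e27u_sT_smul, sT_one, Matrix.smul_mul, Matrix.mul_smul, Matrix.one_mul, smul_smul]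
      at h1
    have h3 := congrFun (congrFun h1 0) 0
    simpa using h3
  obtain ⟨n, hnN, hnss, hnc⟩ := (e27_models h2 hchar μ hμ R P a b ha hb hcl haP hbP).1
  obtain ⟨M, hMdef⟩ : ∃ M : Matrix (Fin 3) (Fin 3) F, M = z • (x : Matrix (Fin 3) (Fin 3) F) :=
    ⟨_, rfl⟩
  have hMM : M * M = 1 := by
    rw [hMdef, Matrix.smul_mul, Matrix.mul_smul, hXX, smul_smul, smul_smul]
    have h1 : z * z * z = 1 := by linear_combination hz3
    rw [h1, one_smul]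
  have hMd : M.det = 1 := by
    rw [hMdef, Matrix.det_smul, hXd, Fintype.card_fin, hz3, mul_one]
  have hMu : sT σ M * M = 1 := by
    rw [hMdef, e27u_sT_smul, Matrix.smul_mul, Matrix.mul_smul, smul_smul, hxu, hzn, one_smul]
  have hxM : (x : Matrix (Fin 3) (Fin 3) F) = z ^ 2 • M := by
    rw [hMdef, smul_smul]
    have h1 : z ^ 2 * z = 1 := by linear_combination hz3
    rw [h1, one_smul]
  have hMns : ∀ c : F, M ≠ c • (1 : Matrix (Fin 3) (Fin 3) F) := by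
    intro c hc
    apply hns (z ^ 2 * c)
    rw [hxM, hc, smul_smul]
  obtain ⟨hMs, hMc⟩ := e27_inv_class h2 M hMM hMns hMd
  exact e27u_conj_into hσ hne p hp3 hσq hchar μ hμ R P a b ha hb haP hbP hRU x n (z ^ 2) M hxM
    hMu hMs hnN hnss (by rw [hMc, hnc])

/-- For `p ≡ 8 (mod 9)`, elements of order three modulo scalars of `SU_3(p)` are conjugate into
the normaliser. -/
theorem e27u_main_three [Fintype F] {σ : F →+* F} (hσ : ∀ x, σ (σ x) = x)
    (hne : ∃ c, σ c ≠ c) (p : ℕ) (hF : Fintype.card F = p ^ 2) (hp9 : p % 9 = 8)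
    (hσq : ∀ x, σ x = x ^ p) (h2 : (2 : F) ≠ 0) (hchar : (3 : F) ≠ 0)
    (μ : F) (hμ : μ ^ 2 + μ + 1 = 0) (R : Subgroup (GL (Fin 3) F)) [Finite R]
    (P a b : GL (Fin 3) F) (ha : a ∈ R) (hb : b ∈ R) (hcl : R = Subgroup.closure {a, b})
    (haP : (a : Matrix (Fin 3) (Fin 3) F) * (P : Matrix (Fin 3) (Fin 3) F)
      = (P : Matrix (Fin 3) (Fin 3) F) * Matrix.diagonal ![1, μ, μ ^ 2])
    (hbP : (b : Matrix (Fin 3) (Fin 3) F) * (P : Matrix (Fin 3) (Fin 3) F)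
      = (P : Matrix (Fin 3) (Fin 3) F) * e27Pm F)
    (hRU : R ≤ Cfsg.GU 3 F p)
    (x : GL (Fin 3) F) (hx : x ∈ Cfsg.GU 3 F p ⊓ Cfsg.Geo.specialLinear (Fin 3) F) (z : F)
    (hz : ((x ^ 3 : GL (Fin 3) F) : Matrix (Fin 3) (Fin 3) F)
      = z • (1 : Matrix (Fin 3) (Fin 3) F))
    (hns : ∀ c : F, (x : Matrix (Fin 3) (Fin 3) F) ≠ c • (1 : Matrix (Fin 3) (Fin 3) F)) :
    ∃ g ∈ Cfsg.GU 3 F p ⊓ Cfsg.Geo.specialLinear (Fin 3) F,
      g⁻¹ * x * g ∈ Cfsg.Geo.subgroupNormalizer R := by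
  have hp3 : p % 3 = 2 := by omega
  obtain ⟨hxU, hxS⟩ := Subgroup.mem_inf.mp hx
  have hxu : sT σ (x : Matrix (Fin 3) (Fin 3) F) * (x : Matrix (Fin 3) (Fin 3) F) = 1 :=
    (mem_GU_iff_sT hσq hσ x).mp hxU
  have hXd : (x : Matrix (Fin 3) (Fin 3) F).det = 1 :=
    (Cfsg.Agent.Lib.Helper99.mem_specialLinear_iff x).mp hxS
  have hX3 : (x : Matrix (Fin 3) (Fin 3) F) * (x : Matrix (Fin 3) (Fin 3) F)
      * (x : Matrix (Fin 3) (Fin 3) F) = z • (1 : Matrix (Fin 3) (Fin 3) F) := by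
    rw [← hz, Units.val_pow_eq_pow_val, pow_three']
  have hz3 : z ^ 3 = 1 := by
    have h := congrArg Matrix.det hX3
    rw [Matrix.det_mul, Matrix.det_mul, hXd, Matrix.det_smul, Matrix.det_one, Fintype.card_fin,
      mul_one, mul_one, mul_one] at h
    exact h.symm
  obtain ⟨t, ht, htn⟩ := e27u_cube_root p hF hp9 z hz3
  have ht0 : t ≠ 0 := by
    intro h
    rw [h] at ht
    rw [← ht] at hz3
    simp at hz3
  have htσ : σ t * t = 1 := by
    rw [hσq, ← pow_succ]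
    exact htn
  obtain ⟨M, hMdef⟩ : ∃ M : Matrix (Fin 3) (Fin 3) F,
      M = t⁻¹ • (x : Matrix (Fin 3) (Fin 3) F) := ⟨_, rfl⟩
  have hM3 : M * M * M = 1 := by
    rw [hMdef]
    simp only [Matrix.smul_mul, Matrix.mul_smul, smul_smul]
    rw [hX3, smul_smul]
    have h1 : t⁻¹ * (t⁻¹ * t⁻¹) * z = 1 := by
      rw [← ht]
      field_simp
    rw [h1, one_smul]
  have hMu : sT σ M * M = 1 := by
    rw [hMdef, e27u_sT_smul, Matrix.smul_mul, Matrix.mul_smul, smul_smul, hxu, map_inv₀,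
      ← mul_inv, htσ, inv_one, one_smul]
  have hxM : (x : Matrix (Fin 3) (Fin 3) F) = t • M := by
    rw [hMdef, smul_smul, mul_inv_cancel₀ ht0, one_smul]
  have hMns : ∀ c : F, M ≠ c • (1 : Matrix (Fin 3) (Fin 3) F) := by
    intro c hc
    apply hns (t * c)
    rw [hxM, hc, smul_smul]
  obtain ⟨hMs, hcase⟩ := e27_ord3_class hchar μ hμ M hM3 hMns
  obtain ⟨-, hmod2, hmod3⟩ := e27_models h2 hchar μ hμ R P a b ha hb hcl haP hbP
  rcases hcase with hc | ⟨s, ν, hs, hν, hc⟩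
  · obtain ⟨n, hnN, hnss, hnc⟩ := hmod2
    exact e27u_conj_into hσ hne p hp3 hσq hchar μ hμ R P a b ha hb haP hbP hRU x n t M hxM hMu
      hMs hnN hnss (by rw [hc, hnc])
  · obtain ⟨n, hnN, hnss, hnc⟩ := hmod3 s ν hs hν
    exact e27u_conj_into hσ hne p hp3 hσq hchar μ hμ R P a b ha hb haP hbP hRU x n t M hxM hMu
      hMs hnN hnss (by rw [hc, hnc])

end E27U

end Cfsg.Agent.Lib.Helper98
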