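import Cfsg.Agent.Lib.Helper98.Singer3
import Cfsg.Agent.Lib.Helper97.KAlg1
import Cfsg.Agent.Lib.Helper47.InvSL

/-!
# Involutions of `PSL_n(q)` and extension-field subgroups of degree two (helper98, for S5969)
-/

set_option autoImplicit false

namespace Cfsg.Agent.Lib.Helper98

open Matrix Module Cfsg.Agent.Lib.Helper97

section Ext2A

variable {F : Type*} [Field F] {n : ℕ} {K : Subalgebra F (Matrix (Fin n) (Fin n) F)}

/-- A field subalgebra of degree at least two contains a non-scalar element. -/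
theorem ext2_exists_nonscalar {r : ℕ} (hK : Cfsg.Geo.IsFieldSubalgebra r K) (hr : 2 ≤ r) :
    ∃ a ∈ K, ∀ c : F, a ≠ c • (1 : Matrix (Fin n) (Fin n) F) := by
  by_contra hcon
  push Not at hcon
  have h1 : finrank F ↥K ≤ 1 := by
    apply finrank_le_one (1 : ↥K)
    intro w
    obtain ⟨c, hc⟩ := hcon w.1 w.2
    refine ⟨c, Subtype.ext ?_⟩
    rw [Subalgebra.coe_smul, OneMemClass.coe_one, hc]
  rw [hK.finrank_eq] at h1
  omega

/-- In dimension at least three, two linear conditions have a common non-zero solution. -/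
theorem ext2_exists_ker (hn : 3 ≤ n) (φ : Fin n → F) (a : Matrix (Fin n) (Fin n) F) :
    ∃ w : Fin n → F, w ≠ 0 ∧ φ ⬝ᵥ w = 0 ∧ φ ⬝ᵥ (a *ᵥ w) = 0 := by
  obtain ⟨f1, hf1⟩ : ∃ f1 : (Fin n → F) →ₗ[F] F, ∀ w, f1 w = φ ⬝ᵥ w :=
    ⟨{ toFun := fun w => φ ⬝ᵥ w
       map_add' := fun v w => dotProduct_add φ v w
       map_smul' := fun c w => by
        rw [dotProduct_smul, RingHom.id_apply] }, fun w => rfl⟩
  have hker : LinearMap.ker (f1.prod (f1.comp a.mulVecLin)) ≠ ⊥ := by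
    apply LinearMap.ker_ne_bot_of_finrank_lt
    rw [Module.finrank_prod, Module.finrank_self, Module.finrank_fin_fun]
    omega
  obtain ⟨w, hw, hw0⟩ := (Submodule.ne_bot_iff _).mp hker
  have hw' : (f1 w, f1 (a *ᵥ w)) = (0 : F × F) := LinearMap.mem_ker.mp hw
  refine ⟨w, hw0, ?_, ?_⟩
  · rw [← hf1]
    exact (Prod.mk.inj hw').1
  · rw [← hf1]
    exact (Prod.mk.inj hw').2

/-- No element of the normaliser of a field subalgebra of degree at least two, in dimension at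
least three, is a scalar plus a matrix of rank one. -/
theorem ext2_core {r : ℕ} (hK : Cfsg.Geo.IsFieldSubalgebra r K) (hr : 2 ≤ r) (hn : 3 ≤ n)
    (y : GL (Fin n) F) (hy : y ∈ Cfsg.Geo.subalgebraNormalizer K) (μ : F) (u φ : Fin n → F)
    (hu : u ≠ 0) (hφ : φ ≠ 0)
    (hyμ : y.1 = μ • (1 : Matrix (Fin n) (Fin n) F) + vecMulVec u φ) : False := by
  have hyy : y⁻¹.1 * y.1 = 1 := by rw [← Units.val_mul, inv_mul_cancel, Units.val_one]
  have hyv : ∀ v : Fin n → F, y.1 *ᵥ v = μ • v + (φ ⬝ᵥ v) • u := by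
    intro v
    rw [hyμ, Matrix.add_mulVec, Matrix.smul_mulVec, Matrix.one_mulVec, Matrix.vecMulVec_mulVec,
      op_smul_eq_smul]
  have hμ : μ ≠ 0 := by
    intro h0
    obtain ⟨w, hw0, hw1, -⟩ := ext2_exists_ker hn φ 1
    apply hw0
    have h1 : y.1 *ᵥ w = 0 := by rw [hyv, h0, zero_smul, hw1, zero_smul, add_zero]
    calc w = (y⁻¹.1 * y.1) *ᵥ w := by rw [hyy, Matrix.one_mulVec]
      _ = 0 := by rw [← Matrix.mulVec_mulVec, h1, Matrix.mulVec_zero]
  have hcomm : ∀ a ∈ K, y.1 * a = a * y.1 := by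
    intro a ha
    have ha' : y.1 * a * y⁻¹.1 ∈ K := (hy a).mp ha
    have h1 : y.1 * a = (y.1 * a * y⁻¹.1) * y.1 := by
      rw [Matrix.mul_assoc (y.1 * a), hyy, Matrix.mul_one]
    obtain ⟨w, hw0, hw1, hw2⟩ := ext2_exists_ker hn φ a
    have h2 : (a - y.1 * a * y⁻¹.1) *ᵥ w = 0 := by
      have h3 : y.1 *ᵥ (a *ᵥ w) = (y.1 * a * y⁻¹.1) *ᵥ (y.1 *ᵥ w) := by
        rw [Matrix.mulVec_mulVec, Matrix.mulVec_mulVec, ← h1]
      rw [hyv, hyv, hw1, hw2, zero_smul, add_zero, add_zero, Matrix.mulVec_smul] at h3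
      rw [Matrix.sub_mulVec, smul_right_injective _ hμ h3, sub_self]
    have h5 := sub_eq_zero.mp (fs_eq_zero hK (K.sub_mem ha ha') hw0 h2)
    calc y.1 * a = (y.1 * a * y⁻¹.1) * y.1 := h1
      _ = a * y.1 := by rw [← h5]
  obtain ⟨a, ha, hans⟩ := ext2_exists_nonscalar hK hr
  obtain ⟨i, hi⟩ : ∃ i, φ i ≠ 0 := by
    by_contra h
    push Not at h
    exact hφ (funext h)
  have hNa : vecMulVec u φ * a = a * vecMulVec u φ := by
    have h1 := hcomm a ha
    rw [hyμ, add_mul, mul_add, Matrix.smul_mul, Matrix.mul_smul, Matrix.one_mul,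
      Matrix.mul_one] at h1
    exact add_left_cancel h1
  have h3 : φ ⬝ᵥ ((φ i)⁻¹ • Pi.single i (1 : F)) = 1 := by
    rw [dotProduct_smul, dotProduct_single, mul_one, smul_eq_mul, inv_mul_cancel₀ hi]
  have h2 : (vecMulVec u φ * a) *ᵥ ((φ i)⁻¹ • Pi.single i (1 : F))
      = (a * vecMulVec u φ) *ᵥ ((φ i)⁻¹ • Pi.single i (1 : F)) := by rw [hNa]
  rw [← Matrix.mulVec_mulVec, ← Matrix.mulVec_mulVec, Matrix.vecMulVec_mulVec,
    Matrix.vecMulVec_mulVec, op_smul_eq_smul, op_smul_eq_smul, h3, one_smul] at h2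
  have h4 : (a - (φ ⬝ᵥ (a *ᵥ ((φ i)⁻¹ • Pi.single i (1 : F)))) •
      (1 : Matrix (Fin n) (Fin n) F)) *ᵥ u = 0 := by
    rw [Matrix.sub_mulVec, Matrix.smul_mulVec, Matrix.one_mulVec, ← h2, sub_self]
  have h5 := fs_eq_zero hK (K.sub_mem ha (K.smul_mem K.one_mem _)) hu h4
  exact hans _ (sub_eq_zero.mp h5)

/-- An element of `SL_n` that is a scalar plus a matrix of rank one is not conjugate into the
normaliser of a field subalgebra of degree at least two (`n ≥ 3`). -/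
theorem ext2_not_conj {r : ℕ} (hK : Cfsg.Geo.IsFieldSubalgebra r K) (hr : 2 ≤ r) (hn : 3 ≤ n)
    (x : Matrix.SpecialLinearGroup (Fin n) F) (μ : F) (u φ : Fin n → F) (hu : u ≠ 0) (hφ : φ ≠ 0)
    (hx : x.1 = μ • (1 : Matrix (Fin n) (Fin n) F) + vecMulVec u φ)
    (P : Matrix.SpecialLinearGroup (Fin n) F)
    (hP : P⁻¹ * x * P ∈ (Cfsg.Geo.subalgebraNormalizer K).comap
      (Matrix.SpecialLinearGroup.toGL :
        Matrix.SpecialLinearGroup (Fin n) F →* GL (Fin n) F)) : False := by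
  rw [Subgroup.mem_comap] at hP
  have hPiP : (P⁻¹).1 * P.1 = 1 := by
    rw [← Matrix.SpecialLinearGroup.coe_mul, inv_mul_cancel]
    rfl
  have hPPi : P.1 * (P⁻¹).1 = 1 := by
    rw [← Matrix.SpecialLinearGroup.coe_mul, mul_inv_cancel]
    rfl
  refine ext2_core hK hr hn _ hP μ ((P⁻¹).1 *ᵥ u) (φ ᵥ* P.1) ?_ ?_ ?_
  · intro h0
    apply hu
    calc u = (P.1 * (P⁻¹).1) *ᵥ u := by rw [hPPi, Matrix.one_mulVec]
      _ = 0 := by rw [← Matrix.mulVec_mulVec, h0, Matrix.mulVec_zero]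
  · intro h0
    apply hφ
    calc φ = φ ᵥ* (P.1 * (P⁻¹).1) := by rw [hPPi, Matrix.vecMul_one]
      _ = 0 := by rw [← Matrix.vecMul_vecMul, h0, Matrix.zero_vecMul]
  · show (P⁻¹).1 * x.1 * P.1 = _
    rw [hx, Matrix.mul_add, Matrix.add_mul, Matrix.mul_smul, Matrix.mul_one, Matrix.smul_mul,
      hPiP, Matrix.mul_vecMulVec, Matrix.vecMulVec_mul]

end Ext2A

section Ext2B

variable {F : Type*} [Field F] [Fintype F] {n : ℕ}

/-- In characteristic two, a transvection: a derangement candidate with square one. -/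
theorem ext2_der_even (hn : 2 ≤ n) (h2 : (2 : F) = 0) :
    ∃ x : Matrix.SpecialLinearGroup (Fin n) F, x.1 * x.1 = 1 ∧
      (∀ z : F, x.1 ≠ z • (1 : Matrix (Fin n) (Fin n) F)) ∧
      ∃ u φ : Fin n → F, u ≠ 0 ∧ φ ≠ 0 ∧
        x.1 = (1 : F) • (1 : Matrix (Fin n) (Fin n) F) + vecMulVec u φ := by
  classical
  obtain ⟨i0, hi0⟩ : ∃ i0 : Fin n, i0 = ⟨0, by omega⟩ := ⟨_, rfl⟩
  obtain ⟨i1, hi1⟩ : ∃ i1 : Fin n, i1 = ⟨1, by omega⟩ := ⟨_, rfl⟩
  have h01 : i0 ≠ i1 := by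
    rw [hi0, hi1]
    intro h
    exact absurd (congrArg Fin.val h) (by norm_num)
  obtain ⟨u, hu⟩ : ∃ u : Fin n → F, u = Pi.single i0 1 := ⟨_, rfl⟩
  obtain ⟨φ, hφ⟩ : ∃ φ : Fin n → F, φ = Pi.single i1 1 := ⟨_, rfl⟩
  have hφu : φ ⬝ᵥ u = 0 := by
    rw [hu, hφ, dotProduct_single, mul_one, Pi.single_apply, if_neg h01]
  have hEE : vecMulVec u φ * vecMulVec u φ = 0 := by
    rw [Matrix.vecMulVec_mul_vecMulVec, hφu, zero_smul, Matrix.vecMulVec_zero]
  have hdet : (1 + vecMulVec u φ).det = 1 := det_one_add_sq_zero _ hEE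
  refine ⟨⟨1 + vecMulVec u φ, hdet⟩, ?_, ?_, u, φ, ?_, ?_, ?_⟩
  · show (1 + vecMulVec u φ) * (1 + vecMulVec u φ) = 1
    have h3 : vecMulVec u φ + vecMulVec u φ = 0 := by
      rw [← two_smul F (vecMulVec u φ), h2, zero_smul]
    rw [mul_add, add_mul, add_mul, one_mul, mul_one, one_mul, hEE, add_zero, add_assoc, h3,
      add_zero]
  · intro z hz
    have hz' : 1 + vecMulVec u φ = z • (1 : Matrix (Fin n) (Fin n) F) := hz
    have h3 := congrFun (congrFun hz' i0) i1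
    rw [Matrix.add_apply, Matrix.one_apply_ne h01, Matrix.vecMulVec_apply, Matrix.smul_apply,
      Matrix.one_apply_ne h01, hu, hφ, Pi.single_eq_same, Pi.single_eq_same] at h3
    simp at h3
  · rw [hu]
    intro h
    have h3 := congrFun h i0
    simp at h3
  · rw [hφ]
    intro h
    have h3 := congrFun h i1
    simp at h3
  · show 1 + vecMulVec u φ = _
    rw [one_smul]

/-- In odd characteristic, if `c ^ n = -1`, the element `c • diag(-1, 1, …, 1)` of `SL_n`. -/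
theorem ext2_der_odd (hn : 2 ≤ n) (h2 : (2 : F) ≠ 0) (c : F) (hc : c ^ n = -1) :
    ∃ x : Matrix.SpecialLinearGroup (Fin n) F,
      x.1 * x.1 = (c ^ 2) • (1 : Matrix (Fin n) (Fin n) F) ∧
      (∀ z : F, x.1 ≠ z • (1 : Matrix (Fin n) (Fin n) F)) ∧
      ∃ u φ : Fin n → F, u ≠ 0 ∧ φ ≠ 0 ∧
        x.1 = c • (1 : Matrix (Fin n) (Fin n) F) + vecMulVec u φ := by
  classical
  have hc0 : c ≠ 0 := by
    rintro rfl
    rw [zero_pow (by omega)] at hc
    exact absurd hc.symm (neg_ne_zero.mpr one_ne_zero)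
  obtain ⟨i0, hi0⟩ : ∃ i0 : Fin n, i0 = ⟨0, by omega⟩ := ⟨_, rfl⟩
  obtain ⟨i1, hi1⟩ : ∃ i1 : Fin n, i1 = ⟨1, by omega⟩ := ⟨_, rfl⟩
  have h01 : i0 ≠ i1 := by
    rw [hi0, hi1]
    intro h
    exact absurd (congrArg Fin.val h) (by norm_num)
  obtain ⟨u, hu⟩ : ∃ u : Fin n → F, u = (-2 : F) • Pi.single i0 1 := ⟨_, rfl⟩
  obtain ⟨φ, hφ⟩ : ∃ φ : Fin n → F, φ = Pi.single i0 1 := ⟨_, rfl⟩
  have hφu : φ ⬝ᵥ u = -2 := by
    rw [hu, hφ, dotProduct_smul, dotProduct_single, mul_one, Pi.single_eq_same, smul_eq_mul,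
      mul_one]
  have hEE : vecMulVec u φ * vecMulVec u φ = (-2 : F) • vecMulVec u φ := by
    rw [Matrix.vecMulVec_mul_vecMulVec, hφu, Matrix.vecMulVec_smul]
  have hRR : (1 + vecMulVec u φ) * (1 + vecMulVec u φ) = 1 := by
    rw [mul_add, add_mul, add_mul, one_mul, mul_one, one_mul, hEE]
    module
  have hdet : (c • (1 + vecMulVec u φ)).det = 1 := by
    rw [Matrix.det_smul, Fintype.card_fin, Matrix.vecMulVec_eq Unit,
      Matrix.det_one_add_replicateCol_mul_replicateRow, hφu, hc]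
    ring
  refine ⟨⟨c • (1 + vecMulVec u φ), hdet⟩, ?_, ?_, c • u, φ, ?_, ?_, ?_⟩
  · show (c • (1 + vecMulVec u φ)) * (c • (1 + vecMulVec u φ)) = _
    rw [Matrix.smul_mul, Matrix.mul_smul, hRR, smul_smul, pow_two]
  · intro z hz
    have hz' : c • (1 + vecMulVec u φ) = z • (1 : Matrix (Fin n) (Fin n) F) := hz
    have h3 := congrFun (congrFun hz' i0) i0
    have h4 := congrFun (congrFun hz' i1) i1
    rw [Matrix.smul_apply, Matrix.add_apply, Matrix.one_apply_eq, Matrix.vecMulVec_apply,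
      Matrix.smul_apply, Matrix.one_apply_eq, hu, hφ] at h3
    simp only [Pi.smul_apply, Pi.single_eq_same] at h3
    rw [Matrix.smul_apply, Matrix.add_apply, Matrix.one_apply_eq, Matrix.vecMulVec_apply,
      Matrix.smul_apply, Matrix.one_apply_eq, hφ, Pi.single_apply, if_neg h01.symm, mul_zero,
      add_zero] at h4
    simp only [smul_eq_mul, mul_one] at h3 h4
    have h5 : (2 : F) * c = 0 := by linear_combination h4 - h3
    rcases mul_eq_zero.mp h5 with h6 | h6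
    · exact h2 h6
    · exact hc0 h6
  · rw [hu]
    intro h
    have h3 := congrFun h i0
    simp only [Pi.smul_apply, Pi.single_eq_same, smul_eq_mul, mul_one, Pi.zero_apply] at h3
    rcases mul_eq_zero.mp h3 with h6 | h6
    · exact hc0 h6
    · exact h2 (neg_eq_zero.mp h6)
  · rw [hφ]
    intro h
    have h3 := congrFun h i0
    simp at h3
  · show c • (1 + vecMulVec u φ) = _
    rw [smul_add, Matrix.smul_vecMulVec]

end Ext2B

section Ext2C

variable {F : Type*} [Field F] [Fintype F] {n : ℕ} {K : Subalgebra F (Matrix (Fin n) (Fin n) F)}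

/-- A field subalgebra of degree two over a field of odd order contains a square root of every
non-zero scalar. -/
theorem ext2_sqrt [Nonempty (Fin n)] (hK : Cfsg.Geo.IsFieldSubalgebra 2 K)
    (hodd : Odd (Fintype.card F)) (z : F) (hz : z ≠ 0) :
    ∃ ζ ∈ K, ζ * ζ = z • (1 : Matrix (Fin n) (Fin n) F) := by
  obtain ⟨b, hb0, hgen, hbN, hbe⟩ := fs_exists_gen hK
  have hq1 : 1 < Fintype.card F := Fintype.one_lt_card
  have hk0 : algebraMap F ↥K z ≠ 0 := by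
    intro h0
    have h1 := congrArg Subtype.val h0
    rw [Subalgebra.coe_algebraMap, Algebra.algebraMap_eq_smul_one] at h1
    have h2 := congrFun (congrFun h1 (Classical.arbitrary _)) (Classical.arbitrary _)
    rw [Matrix.smul_apply, Matrix.one_apply_eq, smul_eq_mul, mul_one] at h2
    exact hz h2
  obtain ⟨i, hi⟩ := hgen _ hk0
  have hpow : (algebraMap F ↥K z) ^ (Fintype.card F - 1) = 1 := by
    rw [← map_pow, FiniteField.pow_card_sub_one_eq_one z hz, map_one]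
  rw [hi, ← pow_mul] at hpow
  obtain ⟨N, hN⟩ : ∃ N : ℕ, N = Fintype.card F ^ 2 - 1 := ⟨_, rfl⟩
  obtain ⟨t, ht⟩ : ∃ t, Fintype.card F = t + 1 := ⟨Fintype.card F - 1, by omega⟩
  have hNfac : N = (Fintype.card F + 1) * (Fintype.card F - 1) := by
    rw [hN, ht, show (t + 1) ^ 2 = (t + 1 + 1) * t + 1 by ring, Nat.add_sub_cancel,
      Nat.add_sub_cancel]
  have hNpos : 0 < N := by
    rw [hNfac]
    exact Nat.mul_pos (by omega) (by omega)
  rw [← hN] at hbN hbe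
  have hmod : b ^ ((i * (Fintype.card F - 1)) % N) = 1 := by
    have h1 := Nat.div_add_mod (i * (Fintype.card F - 1)) N
    rw [← h1, pow_add, pow_mul, hbN, one_pow, one_mul] at hpow
    exact hpow
  have hdvd : N ∣ i * (Fintype.card F - 1) := by
    by_contra hnd
    have h1 : 0 < (i * (Fintype.card F - 1)) % N :=
      Nat.pos_of_ne_zero (fun h => hnd (Nat.dvd_of_mod_eq_zero h))
    exact hbe _ h1 (Nat.mod_lt _ hNpos) hmod
  rw [hNfac] at hdvd
  have hdvd2 : Fintype.card F + 1 ∣ i := Nat.dvd_of_mul_dvd_mul_right (by omega) hdvd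
  have h2i : 2 ∣ i := by
    obtain ⟨s, hs⟩ := hodd
    exact Dvd.dvd.trans ⟨s + 1, by omega⟩ hdvd2
  obtain ⟨j, hj⟩ := h2i
  refine ⟨(b ^ j).1, (b ^ j).2, ?_⟩
  have h3 : b ^ j * b ^ j = algebraMap F ↥K z := by rw [hi, ← pow_add, hj, two_mul]
  have h4 := congrArg Subtype.val h3
  rw [Subalgebra.coe_mul, Subalgebra.coe_algebraMap, Algebra.algebraMap_eq_smul_one] at h4
  exact h4

/-- Two matrices with the same non-square scalar square are conjugate. -/
theorem ext2_conj_nonsq (M N : Matrix (Fin n) (Fin n) F) (z : F) (hz : ∀ c : F, c ^ 2 ≠ z)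
    (hM : M * M = z • (1 : Matrix (Fin n) (Fin n) F))
    (hN : N * N = z • (1 : Matrix (Fin n) (Fin n) F)) :
    ∃ P : Matrix (Fin n) (Fin n) F, IsUnit P.det ∧ P * M = N * P := by
  have hz0 : z ≠ 0 := fun h => hz 0 (by rw [h]; ring)
  rcases Cfsg.Agent.Lib.Helper47.inv_classes M z hz0 hM with
    ⟨-, hsM, hM' | ⟨-, m, hm, hcM⟩⟩ | ⟨-, c, hc, -⟩
  · obtain ⟨c, -, -, hc, -⟩ := hM'
    exact absurd hc.symm (hz c)
  · rcases Cfsg.Agent.Lib.Helper47.inv_classes N z hz0 hN with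
      ⟨-, hsN, hN' | ⟨-, m', hm', hcN⟩⟩ | ⟨-, c, hc, -⟩
    · obtain ⟨c, -, -, hc, -⟩ := hN'
      exact absurd hc.symm (hz c)
    · have hmm : m = m' := by omega
      subst hmm
      exact Cfsg.Agent.Lib.Helper47.exists_conj_matrix M N hsM hsN (by rw [hcM, hcN])
    · exact absurd hc.symm (hz c)
  · exact absurd hc.symm (hz c)

omit [Fintype F] in
/-- A matrix with non-zero scalar square is invertible. -/
theorem ext2_gl_of_sq (ζ : Matrix (Fin n) (Fin n) F) (z : F) (hz : z ≠ 0)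
    (hζ : ζ * ζ = z • (1 : Matrix (Fin n) (Fin n) F)) : ∃ s : GL (Fin n) F, s.1 = ζ :=
  ⟨⟨ζ, z⁻¹ • ζ, by rw [Matrix.mul_smul, hζ, smul_smul, inv_mul_cancel₀ hz, one_smul], by
    rw [Matrix.smul_mul, hζ, smul_smul, inv_mul_cancel₀ hz, one_smul]⟩, rfl⟩

omit [Fintype F] in
/-- From a matrix intertwiner to a conjugating element of `GL`. -/
theorem ext2_wrap (x : Matrix.SpecialLinearGroup (Fin n) F) (P : Matrix (Fin n) (Fin n) F)
    (hP : IsUnit P.det) (s : GL (Fin n) F) (hPx : P * x.1 = s.1 * P)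
    (H : Subgroup (GL (Fin n) F)) (hs : s ∈ H) :
    ∃ A : GL (Fin n) F, A * Matrix.SpecialLinearGroup.toGL x * A⁻¹ ∈ H := by
  obtain ⟨A, hA⟩ := (Matrix.isUnit_iff_isUnit_det P).mpr hP
  refine ⟨A, ?_⟩
  have h1 : A * Matrix.SpecialLinearGroup.toGL x * A⁻¹ = s := by
    rw [mul_inv_eq_iff_eq_mul]
    apply Units.ext
    show A.1 * x.1 = s.1 * A.1
    rw [hA]
    exact hPx
  rw [h1]
  exact hs

/-- Elements of `SL_n` with non-square scalar square are `GL`-conjugate into the field subalgebra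
itself. -/
theorem ext2_conj_into_nonsq [Nonempty (Fin n)] (hK : Cfsg.Geo.IsFieldSubalgebra 2 K)
    (hodd : Odd (Fintype.card F)) (x : Matrix.SpecialLinearGroup (Fin n) F) (z : F)
    (hz : ∀ c : F, c ^ 2 ≠ z) (hxz : x.1 * x.1 = z • (1 : Matrix (Fin n) (Fin n) F)) :
    ∃ A : GL (Fin n) F, A * Matrix.SpecialLinearGroup.toGL x * A⁻¹ ∈
      Cfsg.Geo.subalgebraNormalizer K := by
  have hz0 : z ≠ 0 := fun h => hz 0 (by rw [h]; ring)
  obtain ⟨ζ, hζK, hζ⟩ := ext2_sqrt hK hodd z hz0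
  obtain ⟨P, hP, hPx⟩ := ext2_conj_nonsq x.1 ζ z hz hxz hζ
  obtain ⟨s, hs⟩ := ext2_gl_of_sq ζ z hz0 hζ
  exact ext2_wrap x P hP s (by rw [hs]; exact hPx) _
    (mem_normalizer_of_comm (fun k hk => by rw [hs]; exact hK.comm ζ hζK k hk))

omit [Fintype F] in
/-- A non-scalar endomorphism of `F^2` has a cyclic vector. -/
theorem ext2_cyclic (X : (Fin 2 → F) →ₗ[F] (Fin 2 → F)) (hX : ∀ c : F, X ≠ c • 1) :
    ∃ (v : Fin 2 → F) (b : Basis (Fin 2) F (Fin 2 → F)), ∀ j : Fin 2, b j = (X ^ (j : ℕ)) v := by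
  have hv : ∃ v : Fin 2 → F, ∀ a : F, X v ≠ a • v := by
    by_contra hcon
    push Not at hcon
    obtain ⟨a0, ha0⟩ := hcon (Pi.single 0 1)
    obtain ⟨a1, ha1⟩ := hcon (Pi.single 1 1)
    obtain ⟨a2, ha2⟩ := hcon (Pi.single 0 1 + Pi.single 1 1)
    rw [map_add, ha0, ha1, smul_add] at ha2
    have h0 := congrFun ha2 0
    have h1 := congrFun ha2 1
    simp at h0 h1
    apply hX a2
    apply (Pi.basisFun F (Fin 2)).ext
    intro i
    fin_cases i
    · show X (Pi.basisFun F (Fin 2) 0) = (a2 • (1 : (Fin 2 → F) →ₗ[F] (Fin 2 → F)))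
        (Pi.basisFun F (Fin 2) 0)
      rw [Pi.basisFun_apply, ha0, h0]
      rfl
    · show X (Pi.basisFun F (Fin 2) 1) = (a2 • (1 : (Fin 2 → F) →ₗ[F] (Fin 2 → F)))
        (Pi.basisFun F (Fin 2) 1)
      rw [Pi.basisFun_apply, ha1, h1]
      rfl
  obtain ⟨v, hv⟩ := hv
  have hLI : LinearIndependent F ![v, X v] := by
    rw [linearIndependent_fin2]
    refine ⟨fun h0 => hv 0 ?_, fun a ha => ?_⟩
    · have h0' : X v = 0 := h0
      rw [h0', zero_smul]
    · have ha' : a • X v = v := ha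
      by_cases ha0 : a = 0
      · have hv0 : v = 0 := by rw [← ha', ha0, zero_smul]
        apply hv 0
        rw [hv0, map_zero, zero_smul]
      · apply hv a⁻¹
        calc X v = a⁻¹ • (a • X v) := by rw [smul_smul, inv_mul_cancel₀ ha0, one_smul]
          _ = a⁻¹ • v := by rw [ha']
  refine ⟨v, basisOfLinearIndependentOfCardEqFinrank hLI (by simp), ?_⟩
  intro j
  rw [coe_basisOfLinearIndependentOfCardEqFinrank]
  fin_cases j
  · simp
  · simp

/-- In dimension two, elements of `SL_2` with square scalar square are `GL`-conjugate into the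
normaliser of a quadratic field subalgebra. -/
theorem ext2_conj_into_two (K : Subalgebra F (Matrix (Fin 2) (Fin 2) F))
    (hK : Cfsg.Geo.IsFieldSubalgebra 2 K) (x : Matrix.SpecialLinearGroup (Fin 2) F) (c : F)
    (hc : c ≠ 0) (hxz : x.1 * x.1 = (c ^ 2) • (1 : Matrix (Fin 2) (Fin 2) F))
    (hns : ∀ z : F, x.1 ≠ z • (1 : Matrix (Fin 2) (Fin 2) F)) :
    ∃ A : GL (Fin 2) F, A * Matrix.SpecialLinearGroup.toGL x * A⁻¹ ∈
      Cfsg.Geo.subalgebraNormalizer K := by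
  classical
  obtain ⟨y, hyN, hyn, hyns⟩ := singer_frob hK (le_refl 2)
  obtain ⟨x', hx'⟩ : ∃ x' : Matrix (Fin 2) (Fin 2) F, x' = c⁻¹ • x.1 := ⟨_, rfl⟩
  have hxx' : x.1 = c • x' := by rw [hx', smul_smul, mul_inv_cancel₀ hc, one_smul]
  have hx'n : x' ^ 2 = 1 := by
    rw [hx', smul_pow, pow_two x.1, hxz, smul_smul, inv_pow, inv_mul_cancel₀ (pow_ne_zero 2 hc),
      one_smul]
  obtain ⟨X, hXdef⟩ : ∃ X : (Fin 2 → F) →ₗ[F] (Fin 2 → F), X = Matrix.toLin' x' := ⟨_, rfl⟩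
  have hXa : ∀ w, X w = x' *ᵥ w := fun w => by rw [hXdef, Matrix.toLin'_apply]
  have hX : X ^ 2 = 1 := by
    rw [hXdef, ← Matrix.toLin'_pow, hx'n, Matrix.toLin'_one]
    rfl
  have hXns : ∀ a : F, X ≠ a • 1 := by
    intro a ha
    apply hns (c * a)
    rw [hxx', ← smul_smul]
    congr 1
    apply Matrix.toLin'.injective
    rw [← hXdef, ha, map_smul, Matrix.toLin'_one]
    rfl
  obtain ⟨Y, hYdef⟩ : ∃ Y : (Fin 2 → F) →ₗ[F] (Fin 2 → F), Y = Matrix.toLin' y.1 := ⟨_, rfl⟩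
  have hYa : ∀ w, Y w = y.1 *ᵥ w := fun w => by rw [hYdef, Matrix.toLin'_apply]
  have hY : Y ^ 2 = 1 := by
    rw [hYdef, ← Matrix.toLin'_pow, hyn, Matrix.toLin'_one]
    rfl
  have hYns : ∀ a : F, Y ≠ a • 1 := by
    intro a ha
    apply hyns a
    apply Matrix.toLin'.injective
    rw [← hYdef, ha, map_smul, Matrix.toLin'_one]
    rfl
  obtain ⟨v, b, hb⟩ := ext2_cyclic X hXns
  obtain ⟨v', b', hb'⟩ := ext2_cyclic Y hYns
  obtain ⟨g, hg⟩ := singer_conj 2 (by norm_num) X Y hX hY v v' b b' hb hb'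
  obtain ⟨G, hGdef⟩ : ∃ G : Matrix (Fin 2) (Fin 2) F, G = LinearMap.toMatrix' g.toLinearMap :=
    ⟨_, rfl⟩
  obtain ⟨Gi, hGidef⟩ : ∃ Gi : Matrix (Fin 2) (Fin 2) F,
      Gi = LinearMap.toMatrix' g.symm.toLinearMap := ⟨_, rfl⟩
  have hGa : ∀ w, G *ᵥ w = g w := fun w => by
    rw [hGdef, LinearMap.toMatrix'_mulVec]
    rfl
  have hGia : ∀ w, Gi *ᵥ w = g.symm w := fun w => by
    rw [hGidef, LinearMap.toMatrix'_mulVec]
    rfl
  have hGGi : G * Gi = 1 := by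
    apply Matrix.mulVec_injective
    funext w
    rw [← Matrix.mulVec_mulVec, hGia, hGa, LinearEquiv.apply_symm_apply, Matrix.one_mulVec]
  have hGx : G * x' = y.1 * G := by
    apply Matrix.mulVec_injective
    funext w
    rw [← Matrix.mulVec_mulVec, ← Matrix.mulVec_mulVec, hGa, hGa, ← hXa, hg, hYa]
  obtain ⟨s, hs⟩ : ∃ s : GL (Fin 2) F, s.1 = c • (1 : Matrix (Fin 2) (Fin 2) F) :=
    ⟨⟨c • 1, c⁻¹ • 1, by
      rw [Matrix.smul_mul, Matrix.one_mul, smul_smul, mul_inv_cancel₀ hc, one_smul], by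
      rw [Matrix.smul_mul, Matrix.one_mul, smul_smul, inv_mul_cancel₀ hc, one_smul]⟩, rfl⟩
  refine ext2_wrap x G (Matrix.isUnit_det_of_right_inverse hGGi) (s * y) ?_ _
    ((Cfsg.Geo.subalgebraNormalizer K).mul_mem (singer_scalar_mem K s c hs) hyN)
  show G * x.1 = s.1 * y.1 * G
  rw [hs, hxx', Matrix.mul_smul, hGx, Matrix.smul_mul, Matrix.one_mul, Matrix.smul_mul]

end Ext2C

section Ext2D

open Polynomial

variable {F : Type*} [Field F] [Fintype F] {n : ℕ} {K : Subalgebra F (Matrix (Fin n) (Fin n) F)}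

/-- The model pair: a diagonal matrix with eigenvalues `c`, `-c` of even multiplicities and a
matrix commuting with it whose square is the scalar `z₀`. -/
theorem ext2_model (a' b' : ℕ) (hn : 2 * (a' + b') = n) (c z₀ : F) :
    ∃ D J : Matrix (Fin n) (Fin n) F, D * D = (c ^ 2) • (1 : Matrix (Fin n) (Fin n) F) ∧
      J * J = z₀ • (1 : Matrix (Fin n) (Fin n) F) ∧ J * D = D * J ∧
      D.charpoly = (X - C c) ^ (2 * a') * (X - C (-c)) ^ (2 * b') := by
  classical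
  have hcard : Fintype.card (Fin 2 × (Fin a' ⊕ Fin b')) = n := by
    rw [Fintype.card_prod, Fintype.card_sum, Fintype.card_fin, Fintype.card_fin, Fintype.card_fin]
    exact hn
  obtain ⟨e⟩ : Nonempty (Fin 2 × (Fin a' ⊕ Fin b') ≃ Fin n) := ⟨Fintype.equivFinOfCardEq hcard⟩
  obtain ⟨d, hd⟩ : ∃ d : Fin a' ⊕ Fin b' → F, d = Sum.elim (fun _ => c) (fun _ => -c) :=
    ⟨_, rfl⟩
  obtain ⟨D₀, hD₀⟩ : ∃ D₀ : Matrix (Fin 2 × (Fin a' ⊕ Fin b')) (Fin 2 × (Fin a' ⊕ Fin b')) F,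
      D₀ = Matrix.diagonal (fun p => d p.2) := ⟨_, rfl⟩
  obtain ⟨Z, hZ⟩ : ∃ Z : Matrix (Fin 2) (Fin 2) F, Z = !![0, z₀; 1, 0] := ⟨_, rfl⟩
  obtain ⟨J₀, hJ₀⟩ : ∃ J₀ : Matrix (Fin 2 × (Fin a' ⊕ Fin b')) (Fin 2 × (Fin a' ⊕ Fin b')) F,
      J₀ = Matrix.blockDiagonal (fun _ : Fin a' ⊕ Fin b' => Z) := ⟨_, rfl⟩
  have hdd : ∀ l : Fin a' ⊕ Fin b', d l * d l = c ^ 2 := by
    intro l
    rw [hd]
    rcases l with l | l
    · simp only [Sum.elim_inl]
      ring
    · simp only [Sum.elim_inr]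
      ring
  have hDD₀ : D₀ * D₀ = (c ^ 2) • (1 : Matrix _ _ F) := by
    rw [hD₀, Matrix.diagonal_mul_diagonal, Matrix.smul_one_eq_diagonal]
    congr 1
    funext p
    exact hdd p.2
  have hZZ : Z * Z = z₀ • (1 : Matrix (Fin 2) (Fin 2) F) := by
    rw [hZ]
    ext i j
    fin_cases i <;> fin_cases j <;> simp [Matrix.mul_apply, Fin.sum_univ_two]
  have hJJ₀ : J₀ * J₀ = z₀ • (1 : Matrix _ _ F) := by
    rw [hJ₀, ← Matrix.blockDiagonal_mul]
    have h1 : (fun _ : Fin a' ⊕ Fin b' => Z * Z)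
        = z₀ • (1 : Fin a' ⊕ Fin b' → Matrix (Fin 2) (Fin 2) F) := by
      funext l
      rw [hZZ]
      rfl
    rw [h1, Matrix.blockDiagonal_smul, Matrix.blockDiagonal_one]
  have hJD₀ : J₀ * D₀ = D₀ * J₀ := by
    rw [hD₀, hJ₀]
    ext p p'
    rw [Matrix.mul_diagonal, Matrix.diagonal_mul, Matrix.blockDiagonal_apply]
    by_cases h : p.2 = p'.2
    · rw [if_pos h, h, mul_comm]
    · rw [if_neg h, zero_mul, mul_zero]
  have hsub : ∀ t : F, ((t • (1 : Matrix (Fin 2 × (Fin a' ⊕ Fin b'))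
      (Fin 2 × (Fin a' ⊕ Fin b')) F)).submatrix e.symm e.symm)
      = t • (1 : Matrix (Fin n) (Fin n) F) := by
    intro t
    ext i j
    simp [Matrix.one_apply]
  refine ⟨Matrix.reindex e e D₀, Matrix.reindex e e J₀, ?_, ?_, ?_, ?_⟩
  · rw [Matrix.reindex_apply, Matrix.submatrix_mul_equiv, hDD₀, hsub]
  · rw [Matrix.reindex_apply, Matrix.submatrix_mul_equiv, hJJ₀, hsub]
  · rw [Matrix.reindex_apply, Matrix.reindex_apply, Matrix.submatrix_mul_equiv,
      Matrix.submatrix_mul_equiv, hJD₀]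
  · rw [Matrix.charpoly_reindex, hD₀, Matrix.charpoly_diagonal, Fintype.prod_prod_type,
      Fin.prod_univ_two, Fintype.prod_sum_type, hd]
    simp only [Sum.elim_inl, Sum.elim_inr, Finset.prod_const, Finset.card_univ, Fintype.card_fin]
    ring

/-- Parity of the multiplicities of the eigenvalues of an element of `SL_n` with scalar square,
when `-1` is not an `n`-th power. -/
theorem ext2_parity {q : ℕ} (hq : Fintype.card F = q) (h2 : (2 : F) ≠ 0) (hn : Even n)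
    (hv : padicValNat 2 (q - 1) ≤ padicValNat 2 n) (x : Matrix.SpecialLinearGroup (Fin n) F)
    (c : F) (a b : ℕ) (hab : a + b = n)
    (hcp : x.1.charpoly = (X - C c) ^ a * (X - C (-c)) ^ b) : Even a ∧ Even b := by
  have h1 := Matrix.det_eq_sign_charpoly_coeff x.1
  rw [x.2, Fintype.card_fin, hn.neg_one_pow, one_mul, hcp, Polynomial.coeff_zero_eq_eval_zero,
    Polynomial.eval_mul, Polynomial.eval_pow, Polynomial.eval_pow, Polynomial.eval_sub,
    Polynomial.eval_sub, Polynomial.eval_X, Polynomial.eval_C, Polynomial.eval_C] at h1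
  rcases Nat.even_or_odd a with ha | ha
  · refine ⟨ha, ?_⟩
    obtain ⟨k, hk⟩ := hn
    obtain ⟨a', ha'⟩ := ha
    exact ⟨k - a', by omega⟩
  · exfalso
    apply Cfsg.Agent.Lib.Helper47.no_pow_eq_neg_one hq h2 hv c
    have h3 : (0 - c) ^ a = -(c ^ a) := by rw [zero_sub, Odd.neg_pow ha]
    rw [h3, zero_sub, neg_neg, neg_mul, ← pow_add, hab] at h1
    linear_combination h1

/-- Over a finite field, `q` is odd exactly when `2 ≠ 0`. -/
theorem ext2_odd_iff (p : ℕ) [Fact p.Prime] [CharP F p] :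
    Odd (Fintype.card F) ↔ (2 : F) ≠ 0 := by
  obtain ⟨f, hpP, hcard⟩ := FiniteField.card F p
  constructor
  · intro hodd h2
    have h3 : p ∣ 2 := (CharP.cast_eq_zero_iff F p 2).mp (by exact_mod_cast h2)
    have hp2 : p = 2 := (Nat.prime_dvd_prime_iff_eq hpP Nat.prime_two).mp h3
    rw [hcard, hp2] at hodd
    exact absurd hodd (by
      rw [Nat.not_odd_iff_even]
      exact Nat.even_pow.mpr ⟨even_two, f.ne_zero⟩)
  · intro h2
    rw [hcard]
    apply Odd.pow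
    apply hpP.odd_of_ne_two
    rintro rfl
    exact h2 (by exact_mod_cast CharP.cast_eq_zero F 2)

/-- Elements of `SL_n` with square scalar square and eigenvalues of even multiplicities are
`GL`-conjugate into the centraliser of a quadratic field subalgebra. -/
theorem ext2_conj_into_sq [Nonempty (Fin n)] (hK : Cfsg.Geo.IsFieldSubalgebra 2 K)
    (hodd : Odd (Fintype.card F)) (h2 : (2 : F) ≠ 0)
    (x : Matrix.SpecialLinearGroup (Fin n) F) (c : F) (hc : c ≠ 0) (a b : ℕ) (hab : a + b = n)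
    (ha : Even a) (hb : Even b) (hs : Module.End.IsSemisimple (Matrix.toLin' x.1))
    (hcp : x.1.charpoly = (X - C c) ^ a * (X - C (-c)) ^ b) :
    ∃ A : GL (Fin n) F, A * Matrix.SpecialLinearGroup.toGL x * A⁻¹ ∈
      Cfsg.Geo.subalgebraNormalizer K := by
  classical
  obtain ⟨a', ha'⟩ := ha
  obtain ⟨b', hb'⟩ := hb
  have hchar : ringChar F ≠ 2 := by
    intro h
    have h3 := FiniteField.even_card_iff_char_two.mp h
    obtain ⟨s, hs'⟩ := hodd
    omega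
  obtain ⟨z₀, hz₀⟩ := FiniteField.exists_nonsquare hchar
  have hz₀' : ∀ s : F, s ^ 2 ≠ z₀ := fun s h => hz₀ ⟨s, by rw [← h, pow_two]⟩
  have hz₀0 : z₀ ≠ 0 := fun h => hz₀' 0 (by rw [h]; ring)
  obtain ⟨D, J, hDD, hJJ, hJD, hDcp⟩ := ext2_model (n := n) a' b' (by omega) c z₀
  have hsD : Module.End.IsSemisimple (Matrix.toLin' D) := by
    rcases Cfsg.Agent.Lib.Helper47.inv_classes D (c ^ 2) (pow_ne_zero 2 hc) hDD with
      ⟨-, hsD, -⟩ | ⟨h2', -⟩
    · exact hsD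
    · exact absurd h2' h2
  obtain ⟨P₁, hP₁, hP₁x⟩ := Cfsg.Agent.Lib.Helper47.exists_conj_matrix x.1 D hs hsD (by
    rw [hcp, hDcp, ha', hb', two_mul, two_mul])
  obtain ⟨ζ, hζK, hζ⟩ := ext2_sqrt hK hodd z₀ hz₀0
  obtain ⟨P₂, hP₂, hP₂J⟩ := ext2_conj_nonsq J ζ z₀ hz₀' hJJ hζ
  obtain ⟨u₂, hu₂⟩ := (Matrix.isUnit_iff_isUnit_det P₂).mpr hP₂
  obtain ⟨uD, huD⟩ := ext2_gl_of_sq D (c ^ 2) (pow_ne_zero 2 hc) hDD
  have hinv1 : u₂⁻¹.1 * P₂ = 1 := by
    rw [← hu₂, ← Units.val_mul, inv_mul_cancel, Units.val_one]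
  have hinv2 : P₂ * u₂⁻¹.1 = 1 := by
    rw [← hu₂, ← Units.val_mul, mul_inv_cancel, Units.val_one]
  have hsval : (u₂ * uD * u₂⁻¹).1 = P₂ * D * u₂⁻¹.1 := by
    rw [Units.val_mul, Units.val_mul, hu₂, huD]
  refine ext2_wrap x (P₂ * P₁) (by rw [Matrix.det_mul]; exact hP₂.mul hP₁) (u₂ * uD * u₂⁻¹) ?_ _ ?_
  · rw [hsval]
    calc P₂ * P₁ * x.1 = P₂ * (D * P₁) := by rw [Matrix.mul_assoc, hP₁x]
      _ = P₂ * D * (u₂⁻¹.1 * P₂) * P₁ := by rw [hinv1, Matrix.mul_one, Matrix.mul_assoc]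
      _ = P₂ * D * u₂⁻¹.1 * (P₂ * P₁) := by simp only [Matrix.mul_assoc]
  · apply mem_normalizer_of_comm
    intro k hk
    rw [hsval]
    have hζeq : ζ = P₂ * J * u₂⁻¹.1 := by rw [hP₂J, Matrix.mul_assoc, hinv2, Matrix.mul_one]
    have hsζ : (P₂ * D * u₂⁻¹.1) * ζ = ζ * (P₂ * D * u₂⁻¹.1) := by
      rw [hζeq]
      calc P₂ * D * u₂⁻¹.1 * (P₂ * J * u₂⁻¹.1)
          = P₂ * D * (u₂⁻¹.1 * P₂) * J * u₂⁻¹.1 := by simp only [Matrix.mul_assoc]
        _ = P₂ * (D * J) * u₂⁻¹.1 := by rw [hinv1, Matrix.mul_one, Matrix.mul_assoc P₂ D J]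
        _ = P₂ * (J * D) * u₂⁻¹.1 := by rw [hJD]
        _ = P₂ * J * (u₂⁻¹.1 * P₂) * D * u₂⁻¹.1 := by
          rw [hinv1, Matrix.mul_one, Matrix.mul_assoc P₂ J D]
        _ = P₂ * J * u₂⁻¹.1 * (P₂ * D * u₂⁻¹.1) := by simp only [Matrix.mul_assoc]
    have hω : ∀ t : F, (⟨ζ, hζK⟩ : ↥K) ≠ t • (1 : ↥K) := by
      intro t ht
      have h3 : ζ = t • (1 : Matrix (Fin n) (Fin n) F) := by
        have h4 := congrArg Subtype.val ht
        rw [Subalgebra.coe_smul, OneMemClass.coe_one] at h4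
        exact h4
      rw [h3, Matrix.smul_mul, Matrix.mul_smul, Matrix.one_mul, smul_smul] at hζ
      have h5 := congrFun (congrFun hζ (Classical.arbitrary _)) (Classical.arbitrary _)
      rw [Matrix.smul_apply, Matrix.smul_apply, Matrix.one_apply_eq, smul_eq_mul, smul_eq_mul,
        mul_one, mul_one] at h5
      exact hz₀' t (by rw [pow_two]; exact h5)
    obtain ⟨α, β, hαβ⟩ := fs_two_decomp hK ⟨ζ, hζK⟩ hω ⟨k, hk⟩
    have hk' : k = α • (1 : Matrix (Fin n) (Fin n) F) + β • ζ := by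
      have h4 := congrArg Subtype.val hαβ
      rw [Subalgebra.coe_add, Subalgebra.coe_smul, Subalgebra.coe_smul, OneMemClass.coe_one] at h4
      exact h4
    rw [hk', mul_add, add_mul, Matrix.mul_smul, Matrix.smul_mul, Matrix.mul_one, Matrix.one_mul,
      Matrix.mul_smul, Matrix.smul_mul, hsζ]

end Ext2D

end Cfsg.Agent.Lib.Helper98
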