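import Mathlib
import Cfsg.Prelude.Def_GeometricClasses
import Cfsg.Prelude.Def_ClassicalGeometry
import Cfsg.Agent.Lib.Helper98.F75Defs
import Cfsg.Agent.Lib.Helper29.F75FROB
import Cfsg.Agent.Lib.Helper29.F75IMND
import Cfsg.Agent.Lib.Helper29.F75SYMPND
import Cfsg.Agent.Lib.Helper33.F75BL
import Cfsg.Agent.Lib.Helper37.F75CP4
import Cfsg.Agent.Lib.Helper37.F75FIXF
import Cfsg.Agent.Lib.Helper47.F75YINV
import Cfsg.Agent.Lib.Helper56.F75SEMI
import Cfsg.Agent.Lib.Helper58.F75KEVEN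
import Cfsg.Agent.Lib.Helper58.F75KINV
import Cfsg.Agent.Lib.Helper60.F75SPCARD
import Cfsg.Agent.Lib.Helper64.F75AUT0
import Cfsg.Agent.Lib.Helper64.F75AUT1
import Cfsg.Agent.Lib.Helper76.F75LDATA
import Cfsg.Agent.Lib.Helper78.F75CENTDVD
import Cfsg.Agent.Lib.Helper8.F75RKCP
import Cfsg.Agent.Lib.Helper81.F75ARITH
import Cfsg.Agent.Lib.Helper81.F75DELTALE
import Cfsg.Agent.Lib.Helper87.F75NORMMEM
import Cfsg.Agent.Lib.Helper29.F75YNEG
import Cfsg.Agent.Lib.Helper98.TD2Main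
import Cfsg.Agent.Lib.Helper52.U84RELIDX

/-!
S5975: assembly of the pieces F75-*.
-/

set_option autoImplicit false

universe u

namespace Cfsg.Agent.Lib.Helper98.F75

open Matrix Polynomial

/-- conjugation does not change the rank of `x - μ`. -/
theorem rank_conj {F : Type*} [Field F] {ι : Type*} [Fintype ι] [DecidableEq ι] (x g : GL ι F)
    (μ : F) :
    (((g⁻¹ * x * g : GL ι F) : Matrix ι ι F) - μ • (1 : Matrix ι ι F)).rank =
    ((x : Matrix ι ι F) - μ • (1 : Matrix ι ι F)).rank := by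
  have h : ((g⁻¹ * x * g : GL ι F) : Matrix ι ι F) - μ • (1 : Matrix ι ι F) =
      ((g⁻¹ : GL ι F) : Matrix ι ι F) * ((x : Matrix ι ι F) - μ • (1 : Matrix ι ι F)) *
        (g : Matrix ι ι F) := by
    have hgi : ((g⁻¹ : GL ι F) : Matrix ι ι F) * (g : Matrix ι ι F) = 1 := by
      rw [← Units.val_mul, inv_mul_cancel, Units.val_one]
    rw [Units.val_mul, Units.val_mul, Matrix.mul_sub, Matrix.sub_mul, Matrix.mul_smul,
      Matrix.smul_mul, Matrix.mul_one, hgi]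
  have hg : IsUnit (g : Matrix ι ι F).det := (Matrix.isUnit_iff_isUnit_det _).mp g.isUnit
  have hg' : IsUnit ((g⁻¹ : GL ι F) : Matrix ι ι F).det :=
    (Matrix.isUnit_iff_isUnit_det _).mp (g⁻¹).isUnit
  rw [h, Matrix.rank_mul_eq_left_of_isUnit_det _ _ hg, Matrix.rank_mul_eq_right_of_isUnit_det _ _ hg']

/-- powers of conjugates. -/
theorem conj_pow_eq_one {G : Type*} [Group G] (x g : G) (k : ℕ) (h : x ^ k = 1) :
    (g⁻¹ * x * g) ^ k = 1 := by
  have h1 : g⁻¹ * x * g = MulAut.conj g⁻¹ x := by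
    rw [MulAut.conj_apply, inv_inv]
  rw [h1, ← map_pow, h, map_one]

/-- a matrix of rank zero is zero. -/
theorem eq_zero_of_rank_eq_zero {F : Type*} [Field F] {ι : Type*} [Fintype ι] [DecidableEq ι]
    (A : Matrix ι ι F) (h : A.rank = 0) : A = 0 := by
  unfold Matrix.rank at h
  rw [Submodule.finrank_eq_zero, LinearMap.range_eq_bot] at h
  ext i j
  have h1 := congrFun (LinearMap.congr_fun h (Pi.single j 1)) i
  simpa [Matrix.mulVecLin_apply, Matrix.mulVec_single_one] using h1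

/-- group elements from symplectic matrices. -/
theorem exists_gl_of_symplectic {F : Type*} [Field F] {d : ℕ}
    (M : Matrix (Fin d ⊕ Fin d) (Fin d ⊕ Fin d) F) (hM : M ∈ Matrix.symplecticGroup (Fin d) F) :
    ∃ x : GL (Fin d ⊕ Fin d) F, x ∈ Cfsg.spGL d F ∧
      (x : Matrix (Fin d ⊕ Fin d) (Fin d ⊕ Fin d) F) = M := by
  have hdet : M.det ≠ 0 := by
    rw [SymplecticGroup.det_eq_one hM]
    exact one_ne_zero
  refine ⟨Matrix.GeneralLinearGroup.mkOfDetNeZero M hdet, ?_, rfl⟩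
  rw [Cfsg.Agent.Lib.Helper98.TD2.mem_spGL_iff_symplectic]
  exact hM

section core

variable {F : Type*} [Field F] {d : ℕ} {L : Type*} [Field L] [Algebra F L]

/-- the range of `y - 1` is invariant when `y` commutes with `ρ`. -/
theorem range_invariant (ρ : L →ₐ[F] Matrix (Fin d ⊕ Fin d) (Fin d ⊕ Fin d) F)
    (y : Matrix (Fin d ⊕ Fin d) (Fin d ⊕ Fin d) F) (hcomm : ∀ c : L, y * ρ c = ρ c * y) :
    ∀ c : L, ∀ w ∈ LinearMap.range (y - 1).mulVecLin, ρ c *ᵥ w ∈ LinearMap.range (y - 1).mulVecLin := by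
  rintro c w ⟨v, rfl⟩
  refine ⟨ρ c *ᵥ v, ?_⟩
  simp only [Matrix.mulVecLin_apply]
  rw [Matrix.mulVec_mulVec, Matrix.mulVec_mulVec]
  congr 1
  rw [Matrix.sub_mul, Matrix.mul_sub, hcomm c, Matrix.one_mul, Matrix.mul_one]

/-- linear case: `[L : F]` divides `rank (y - 1)`. -/
theorem dvd_rank_of_comm (ρ : L →ₐ[F] Matrix (Fin d ⊕ Fin d) (Fin d ⊕ Fin d) F)
    (y : Matrix (Fin d ⊕ Fin d) (Fin d ⊕ Fin d) F) (hcomm : ∀ c : L, y * ρ c = ρ c * y) :
    Module.finrank F L ∣ (y - 1).rank :=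
  finrank_dvd_of_invariant ρ (LinearMap.range (y - 1).mulVecLin) (range_invariant ρ y hcomm)

/-- linear symplectic semisimple case: `2 [L : F]` divides `rank (y - 1)`. -/
theorem two_mul_dvd_rank_of_comm (ρ : L →ₐ[F] Matrix (Fin d ⊕ Fin d) (Fin d ⊕ Fin d) F)
    (hself : ∀ (c : L) (u v : Fin d ⊕ Fin d → F),
      Cfsg.sympForm d F (ρ c *ᵥ u) v = Cfsg.sympForm d F u (ρ c *ᵥ v))
    (halt : ∀ (c : L) (v : Fin d ⊕ Fin d → F), Cfsg.sympForm d F (ρ c *ᵥ v) v = 0)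
    (y : Matrix (Fin d ⊕ Fin d) (Fin d ⊕ Fin d) F) (hy : y ∈ Matrix.symplecticGroup (Fin d) F)
    (hcomm : ∀ c : L, y * ρ c = ρ c * y) (r : ℕ) (hr : (r : F) ≠ 0) (hyr : y ^ r = 1) :
    2 * Module.finrank F L ∣ (y - 1).rank := by
  refine two_mul_dvd_finrank_of_nondeg ρ hself halt
    (fun U hU => finrank_dvd_of_invariant ρ U hU)
    (LinearMap.range (y - 1).mulVecLin) (range_invariant ρ y hcomm) ?_
  rintro w ⟨v, rfl⟩ hw
  simp only [Matrix.mulVecLin_apply] at hw ⊢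
  exact range_sub_one_nondeg y hy r hr hyr v (fun u => hw _ ⟨u, rfl⟩)

end core

/-- an element of the normaliser of prime order is linear, or semilinear with few fixed points. -/
theorem linear_or_semilinear {F : Type*} [Field F] [Fintype F] {d : ℕ} (hd : 1 ≤ d) {L : Type*}
    [Field L] [Fintype L] [Algebra F L] {k : ℕ} (hk : k.Prime) (hL : Module.finrank F L = k)
    (K : Subalgebra F (Matrix (Fin d ⊕ Fin d) (Fin d ⊕ Fin d) F))
    (ρ : L →ₐ[F] Matrix (Fin d ⊕ Fin d) (Fin d ⊕ Fin d) F)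
    (hρ : ∀ a : Matrix (Fin d ⊕ Fin d) (Fin d ⊕ Fin d) F, a ∈ K ↔ ∃ c : L, ρ c = a)
    (y : GL (Fin d ⊕ Fin d) F) (hy : y ∈ Cfsg.Geo.subalgebraNormalizer K) (r : ℕ) (hr : r.Prime)
    (hyr : (y : Matrix (Fin d ⊕ Fin d) (Fin d ⊕ Fin d) F) ^ r = 1) :
    (∀ c : L, (y : Matrix (Fin d ⊕ Fin d) (Fin d ⊕ Fin d) F) * ρ c =
      ρ c * (y : Matrix (Fin d ⊕ Fin d) (Fin d ⊕ Fin d) F)) ∨
    (r = k ∧ k * (2 * d - ((y : Matrix (Fin d ⊕ Fin d) (Fin d ⊕ Fin d) F) - 1).rank) ≤ 2 * d) := by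
  haveI : Nonempty (Fin d ⊕ Fin d) := ⟨Sum.inl ⟨0, hd⟩⟩
  obtain ⟨τ, hτ⟩ := exists_aut_of_normalizer K ρ hρ y hy
  by_cases h : ∀ c, τ c = c
  · left
    intro c
    rw [hτ c, h c]
  · right
    rw [not_forall] at h
    obtain ⟨c₀, hc₀⟩ := h
    have hrk : r = k := by
      by_contra hne
      exact hc₀ (aut_eq_one_of_pow ρ hk hL τ _ hτ r hr hne hyr c₀)
    refine ⟨hrk, ?_⟩
    have hfix : ∀ c : L, τ c = c → ∃ a : F, c = algebraMap F L a := fun c hc =>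
      fixed_of_aut_ne_one (by rw [hL]; exact hk) τ c₀ hc₀ c hc
    have hb := fix_bound_of_semilinear ρ τ hfix
      (y : Matrix (Fin d ⊕ Fin d) (Fin d ⊕ Fin d) F) hτ 1 one_ne_zero
    rw [hL, one_smul, Fintype.card_sum, Fintype.card_fin, ← two_mul] at hb
    exact hb

/-- the forward direction. -/
theorem fwd {F : Type u} [Field F] [Fintype F] {p : ℕ} [Fact p.Prime] [CharP F p] {q : ℕ}
    (hq : Fintype.card F = q) (d : ℕ) (hd : 2 ≤ d) (k : ℕ) (hk : k.Prime)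
    (K : Subalgebra F (Matrix (Fin d ⊕ Fin d) (Fin d ⊕ Fin d) F))
    (hK : Cfsg.Geo.IsFieldSubalgebra k K)
    (hKf : Cfsg.Geo.IsSelfAdjointFor (Cfsg.sympForm d F) K)
    (hKalt : ∀ a ∈ K, ∀ v : Fin d ⊕ Fin d → F, Cfsg.sympForm d F (a *ᵥ v) v = 0)
    (r : ℕ) (hr : r.Prime)
    (hΩ : r ∣ (Cfsg.Geo.subalgebraNormalizer K).relIndex (Cfsg.spGL d F))
    (hR : ¬ (r = 2 ∧ d = 2 ∧ k = 2 ∧ Odd q))
    (hall : ∀ x ∈ Cfsg.spGL d F,
      (∃ z : F, ((x ^ r : GL (Fin d ⊕ Fin d) F) : Matrix (Fin d ⊕ Fin d) (Fin d ⊕ Fin d) F) =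
        z • (1 : Matrix (Fin d ⊕ Fin d) (Fin d ⊕ Fin d) F)) →
      (∀ z : F, (x : Matrix (Fin d ⊕ Fin d) (Fin d ⊕ Fin d) F) ≠
        z • (1 : Matrix (Fin d ⊕ Fin d) (Fin d ⊕ Fin d) F)) →
      ∃ g ∈ Cfsg.spGL d F, g⁻¹ * x * g ∈ Cfsg.Geo.subalgebraNormalizer K) : False := by
  classical
  have hp : p.Prime := Fact.out
  obtain ⟨L, _, _, _, ρ, hρ, hL⟩ := exists_field_model hk K hK
  have hself : ∀ (c : L) (u v : Fin d ⊕ Fin d → F),
      Cfsg.sympForm d F (ρ c *ᵥ u) v = Cfsg.sympForm d F u (ρ c *ᵥ v) :=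
    fun c u v => hKf (ρ c) ((hρ _).mpr ⟨c, rfl⟩) u v
  have halt : ∀ (c : L) (v : Fin d ⊕ Fin d → F), Cfsg.sympForm d F (ρ c *ᵥ v) v = 0 :=
    fun c v => hKalt (ρ c) ((hρ _).mpr ⟨c, rfl⟩) v
  have hd1 : 1 ≤ d := by omega
  have hk2 : 2 ≤ k := hk.two_le
  -- `k ∣ d`
  have hkd : k ∣ d := by
    have h := two_mul_dvd_finrank_of_nondeg ρ hself halt
      (fun U hU => finrank_dvd_of_invariant ρ U hU) ⊤ (fun c w _ => Submodule.mem_top)
      (fun w _ hw => sympForm_nondeg d w (fun u => hw u Submodule.mem_top))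
    rw [hL, finrank_top, Module.finrank_fintype_fun_eq_card, Fintype.card_sum, Fintype.card_fin,
      ← two_mul] at h
    exact (Nat.mul_dvd_mul_iff_left (by norm_num)).mp h
  obtain ⟨e, hde⟩ := hkd
  have hkd' : k ≤ d := by
    rcases Nat.eq_zero_or_pos e with he | he
    · rw [he] at hde
      omega
    · rw [hde]
      exact Nat.le_mul_of_pos_right k he
  obtain ⟨m, -, hqm⟩ := FiniteField.card F p
  rw [hq] at hqm
  -- the general non-conjugacy criterion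
  have key : ∀ (x : GL (Fin d ⊕ Fin d) F), x ∈ Cfsg.spGL d F →
      (x : Matrix (Fin d ⊕ Fin d) (Fin d ⊕ Fin d) F) ^ r = 1 →
      (∀ z : F, (x : Matrix (Fin d ⊕ Fin d) (Fin d ⊕ Fin d) F) ≠
        z • (1 : Matrix (Fin d ⊕ Fin d) (Fin d ⊕ Fin d) F)) →
      (∀ y : Matrix (Fin d ⊕ Fin d) (Fin d ⊕ Fin d) F, y ∈ Matrix.symplecticGroup (Fin d) F →
        (∀ c : L, y * ρ c = ρ c * y) → y ^ r = 1 →
        (y - 1).rank = ((x : Matrix (Fin d ⊕ Fin d) (Fin d ⊕ Fin d) F) - 1).rank → False) →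
      (r = k → k * (2 * d - ((x : Matrix (Fin d ⊕ Fin d) (Fin d ⊕ Fin d) F) - 1).rank) ≤ 2 * d →
        False) → False := by
    intro x hx hxr hns hlin hsemi
    obtain ⟨g, hg, hgN⟩ := hall x hx ⟨1, by rw [Units.val_pow_eq_pow_val, hxr, one_smul]⟩ hns
    have hyS : g⁻¹ * x * g ∈ Cfsg.spGL d F := mul_mem (mul_mem (inv_mem hg) hx) hg
    have hyr : ((g⁻¹ * x * g : GL (Fin d ⊕ Fin d) F) :
        Matrix (Fin d ⊕ Fin d) (Fin d ⊕ Fin d) F) ^ r = 1 := by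
      have h1 : x ^ r = 1 := Units.ext (by rw [Units.val_pow_eq_pow_val, hxr, Units.val_one])
      rw [← Units.val_pow_eq_pow_val, conj_pow_eq_one x g r h1, Units.val_one]
    have hrank : (((g⁻¹ * x * g : GL (Fin d ⊕ Fin d) F) :
        Matrix (Fin d ⊕ Fin d) (Fin d ⊕ Fin d) F) - 1).rank =
        ((x : Matrix (Fin d ⊕ Fin d) (Fin d ⊕ Fin d) F) - 1).rank := by
      have h1 := rank_conj x g 1
      rwa [one_smul] at h1
    rcases linear_or_semilinear hd1 hk hL K ρ hρ _ hgN r hr hyr with hlin' | ⟨hrk, hb⟩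
    · exact hlin _ ((Cfsg.Agent.Lib.Helper98.TD2.mem_spGL_iff_symplectic _).mp hyS) hlin' hyr hrank
    · rw [hrank] at hb
      exact hsemi hrk hb
  rcases eq_or_ne r p with hrp | hrp
  · -- a transvection
    obtain ⟨M, hMsp, hpow, hrank, hMns⟩ :=
      Cfsg.Agent.Lib.Helper98.TD2.exists_sp_transv (F := F) p d hd1
    obtain ⟨x, hxS, hxM⟩ := exists_gl_of_symplectic M hMsp
    have hrk1 : ((x : Matrix (Fin d ⊕ Fin d) (Fin d ⊕ Fin d) F) - 1).rank = 1 := by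
      rw [hxM]
      have h0 : (M - 1).rank ≠ 0 := by
        intro h0
        have h1 := eq_zero_of_rank_eq_zero _ h0
        exact hMns 1 (by rw [one_smul]; exact sub_eq_zero.mp h1)
      omega
    refine key x hxS (by rw [hxM, hrp, hpow]) (fun z hz => hMns z (by rw [← hxM, hz])) ?_ ?_
    · intro y _ hcomm _ hrk
      have h1 := dvd_rank_of_comm ρ y hcomm
      rw [hL, hrk, hrk1] at h1
      exact hk.one_lt.ne' (Nat.dvd_one.mp h1)
    · intro _ hb
      rw [hrk1] at hb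
      have h1 : 2 * (2 * d - 1) ≤ k * (2 * d - 1) := Nat.mul_le_mul_right _ hk2
      omega
  · have hrF : (r : F) ≠ 0 := by
      rw [Ne, CharP.cast_eq_zero_iff F p r]
      intro hdvd
      exact hrp ((Nat.prime_dvd_prime_iff_eq hp hr).mp hdvd).symm
    rcases eq_or_ne r 2 with hr2 | hr2
    · -- an involution with a two-dimensional `-1`-eigenspace
      have h2F : (2 : F) ≠ 0 := by
        have h := hrF
        rw [hr2] at h
        exact_mod_cast h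
      obtain ⟨M, hMsp, hpow, hrank, hMns⟩ :=
        Cfsg.Agent.Lib.Helper98.TD2.exists_sp_diag_neg h2F d hd
      obtain ⟨x, hxS, hxM⟩ := exists_gl_of_symplectic M hMsp
      have hrk0 : ((x : Matrix (Fin d ⊕ Fin d) (Fin d ⊕ Fin d) F) - 1).rank ≠ 0 := by
        rw [hxM]
        intro h0
        have h1 := eq_zero_of_rank_eq_zero _ h0
        exact hMns 1 (by rw [one_smul]; exact sub_eq_zero.mp h1)
      have hrk2 : ((x : Matrix (Fin d ⊕ Fin d) (Fin d ⊕ Fin d) F) - 1).rank ≤ 2 := by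
        rw [hxM]
        exact hrank
      refine key x hxS (by rw [hxM, hr2, hpow]) (fun z hz => hMns z (by rw [← hxM, hz])) ?_ ?_
      · intro y hy hcomm hyr hrk
        have h1 := two_mul_dvd_rank_of_comm ρ hself halt y hy hcomm r hrF hyr
        rw [hL, hrk] at h1
        have h3 := Nat.le_of_dvd (by omega) h1
        omega
      · intro hrk hb
        have hk2' : k = 2 := by omega
        rw [hk2'] at hb
        have hd2 : d = 2 := by omega
        apply hR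
        refine ⟨hr2, hd2, hk2', ?_⟩
        rw [hqm]
        have hp2 : p ≠ 2 := fun h => hrp (by rw [hr2, h])
        exact (hp.odd_of_ne_two hp2).pow
    · -- odd `r ≠ p`
      have hrq : ¬ r ∣ q := by
        intro h
        rw [hqm] at h
        exact hrp ((Nat.prime_dvd_prime_iff_eq hr hp).mp (hr.dvd_of_dvd_pow h))
      have hq1 : 1 < q := hq ▸ Fintype.one_lt_card
      obtain ⟨φ, hφ⟩ : ∃ φ : L →ₗ[F] F, φ ≠ 0 := by
        by_contra hcon
        rw [not_exists] at hcon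
        have h1 : (1 : L) = 0 := by
          rw [← Module.forall_dual_apply_eq_zero_iff F]
          intro ψ
          have h2 : ψ = 0 := by
            by_contra h3
            exact hcon ψ h3
          rw [h2]
          rfl
        exact one_ne_zero h1
      obtain ⟨B, hB⟩ := exists_L_form ρ hself halt φ hφ
      have hcent := cent_card_dvd hq hde hL K ρ hρ φ hφ B hB
      obtain ⟨a, ha⟩ : ∃ a : ℕ, a = (q ^ k) ^ (e ^ 2) *
          ∏ j ∈ Finset.range e, ((q ^ k) ^ (2 * (j + 1)) - 1) := ⟨_, rfl⟩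
      rw [← ha] at hcent
      have ha0 : 0 < a := Nat.pos_of_dvd_of_pos hcent Nat.card_pos
      obtain ⟨c, hc⟩ : a ∣ Nat.card ↥(Cfsg.spGL d F) :=
        hcent.trans (Subgroup.card_dvd_of_le inf_le_right)
      have hrel := Cfsg.Agent.Lib.Helper98.U84.relIndex_dvd_of_card
        (Cfsg.Geo.subalgebraNormalizer K) (Cfsg.spGL d F) ⊤ a c ha0 hcent hc
      rw [inf_top_eq] at hrel
      have hrc : r ∣ c := hΩ.trans hrel
      obtain ⟨hδd, hδk⟩ := index_arith hq1 hk hde hr hrq c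
        (by rw [← card_spGL hq d, hc, ha]) hrc
      -- the minimal element
      obtain ⟨g₀, hg₀⟩ := Cfsg.Agent.Lib.Helper98.TD2.exists_isCycFactor (F := F) r hr
      obtain ⟨s, hs, hdual, hsep, hs1, hsdeg1, hsdeg⟩ :=
        Cfsg.Agent.Lib.Helper98.TD2.exists_cyc_multiset hq hr hr2 hrp g₀ hg₀
      have hsδ : s.prod.natDegree = delta q r := hsdeg
      obtain ⟨M, hMsp, hMr, hMcp⟩ :=
        Cfsg.Agent.Lib.Helper98.TD2.exists_sp_cyc (p := p) hr hr2 hrp d s hs hdual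
          (by rw [hsδ]; exact hδd)
      have hMrank : (M - 1).rank = delta q r := by
        rw [rank_sub_one_of_charpoly M r hrF hMr _ s.prod hs1 hMcp, hsδ]
      obtain ⟨x, hxS, hxM⟩ := exists_gl_of_symplectic M hMsp
      have hns : ∀ z : F, (x : Matrix (Fin d ⊕ Fin d) (Fin d ⊕ Fin d) F) ≠
          z • (1 : Matrix (Fin d ⊕ Fin d) (Fin d ⊕ Fin d) F) := by
        intro z hz
        have hzz := Cfsg.Agent.Lib.Helper98.TD2.sp_scalar_sq hd1 x hxS z hz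
        have hzr : z ^ r = 1 := by
          have h1 := hMr
          rw [← hxM, hz, _root_.smul_pow, one_pow] at h1
          have h2 := congrFun (congrFun h1 (Sum.inl ⟨0, by omega⟩)) (Sum.inl ⟨0, by omega⟩)
          simpa using h2
        have hz1 : z = 1 := by
          obtain ⟨t, ht⟩ := hr.odd_of_ne_two hr2
          rw [ht, pow_succ, pow_mul, pow_two, hzz, one_pow, one_mul] at hzr
          exact hzr
        rw [hz1, one_smul] at hz
        rw [← hxM, hz, sub_self, Matrix.rank_zero] at hMrank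
        omega
      refine key x hxS (by rw [hxM, hMr]) hns ?_ ?_
      · intro y hy hcomm hyr hrk
        have h1 := two_mul_dvd_rank_of_comm ρ hself halt y hy hcomm r hrF hyr
        rw [hL, hrk, hxM, hMrank] at h1
        exact hδk h1
      · intro hrk hb
        rw [hxM, hMrank] at hb
        have hδle := delta_le hr hr2 hrq
        have h1 : d + 1 ≤ 2 * d - delta q r := by omega
        have h2 : 2 * (d + 1) ≤ k * (2 * d - delta q r) := Nat.mul_le_mul hk2 h1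
        omega

/-- the converse direction. -/
theorem bwd {F : Type u} [Field F] [Fintype F] {p : ℕ} [Fact p.Prime] [CharP F p] {q : ℕ}
    (hq : Fintype.card F = q) (hodd : Odd q)
    (K : Subalgebra F (Matrix (Fin 2 ⊕ Fin 2) (Fin 2 ⊕ Fin 2) F))
    (hK : Cfsg.Geo.IsFieldSubalgebra 2 K)
    (hKf : Cfsg.Geo.IsSelfAdjointFor (Cfsg.sympForm 2 F) K)
    (hKalt : ∀ a ∈ K, ∀ v : Fin 2 ⊕ Fin 2 → F, Cfsg.sympForm 2 F (a *ᵥ v) v = 0)
    (x : GL (Fin 2 ⊕ Fin 2) F) (hx : x ∈ Cfsg.spGL 2 F) (z : F)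
    (hz : ((x ^ 2 : GL (Fin 2 ⊕ Fin 2) F) : Matrix (Fin 2 ⊕ Fin 2) (Fin 2 ⊕ Fin 2) F) =
      z • (1 : Matrix (Fin 2 ⊕ Fin 2) (Fin 2 ⊕ Fin 2) F))
    (hns : ∀ z : F, (x : Matrix (Fin 2 ⊕ Fin 2) (Fin 2 ⊕ Fin 2) F) ≠
      z • (1 : Matrix (Fin 2 ⊕ Fin 2) (Fin 2 ⊕ Fin 2) F)) :
    ∃ g ∈ Cfsg.spGL 2 F, g⁻¹ * x * g ∈ Cfsg.Geo.subalgebraNormalizer K := by
  classical
  have hp : p.Prime := Fact.out
  have hqF : ((q : ℕ) : F) = 0 := by
    rw [← hq]
    exact Nat.cast_card_eq_zero F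
  have h2F : (2 : F) ≠ 0 := by
    intro h2
    obtain ⟨t, ht⟩ := hodd
    rw [ht] at hqF
    push_cast at hqF
    rw [h2, zero_mul, zero_add] at hqF
    exact one_ne_zero hqF
  have hp2 : p ≠ 2 := by
    rintro rfl
    apply h2F
    have := CharP.cast_eq_zero F 2
    exact_mod_cast this
  obtain ⟨L, _, _, _, ρ, hρ, hL⟩ := exists_field_model Nat.prime_two K hK
  have hself : ∀ (c : L) (u v : Fin 2 ⊕ Fin 2 → F),
      Cfsg.sympForm 2 F (ρ c *ᵥ u) v = Cfsg.sympForm 2 F u (ρ c *ᵥ v) :=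
    fun c u v => hKf (ρ c) ((hρ _).mpr ⟨c, rfl⟩) u v
  have halt : ∀ (c : L) (v : Fin 2 ⊕ Fin 2 → F), Cfsg.sympForm 2 F (ρ c *ᵥ v) v = 0 :=
    fun c v => hKalt (ρ c) ((hρ _).mpr ⟨c, rfl⟩) v
  obtain ⟨hsurj, ⟨c₁, hc₁⟩, φ, hφ, hφσ⟩ := frob_facts hq hL
  obtain ⟨B, hB⟩ := exists_L_form ρ hself halt φ hφ
  have hzz : z * z = 1 :=
    Cfsg.Agent.Lib.Helper98.TD2.sp_scalar_sq (by norm_num) (x ^ 2) (pow_mem hx 2) z hz
  have hxx : (x : Matrix (Fin 2 ⊕ Fin 2) (Fin 2 ⊕ Fin 2) F) *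
      (x : Matrix (Fin 2 ⊕ Fin 2) (Fin 2 ⊕ Fin 2) F) =
      z • (1 : Matrix (Fin 2 ⊕ Fin 2) (Fin 2 ⊕ Fin 2) F) := by
    rw [← hz, Units.val_pow_eq_pow_val, pow_two]
  have hxsp := (Cfsg.Agent.Lib.Helper98.TD2.mem_spGL_iff_symplectic x).mp hx
  have hρinj : Function.Injective ρ := ρ.toRingHom.injective
  rcases mul_self_eq_one_iff.mp hzz with hz1 | hz1
  · -- `x ^ 2 = 1`
    rw [hz1, one_smul] at hxx
    obtain ⟨y, hyS, hyρ, hyy⟩ := exists_semilinear_invol hq hL ρ φ hφ hφσ B hB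
    have hyN : y ∈ Cfsg.Geo.subalgebraNormalizer K :=
      mem_normalizer_of_semilinear K ρ hρ (fun c => c ^ q) hsurj y hyρ
    have hyns : ∀ z : F, (y : Matrix (Fin 2 ⊕ Fin 2) (Fin 2 ⊕ Fin 2) F) ≠
        z • (1 : Matrix (Fin 2 ⊕ Fin 2) (Fin 2 ⊕ Fin 2) F) := by
      intro w hw
      have hw0 : w ≠ 0 := by
        rintro rfl
        rw [hw, zero_smul, Matrix.zero_mul] at hyy
        have h2 := congrFun (congrFun hyy (Sum.inl 0)) (Sum.inl 0)
        simp at h2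
      have h1 := hyρ c₁
      rw [hw, Matrix.smul_mul, Matrix.one_mul, Matrix.mul_smul, Matrix.mul_one] at h1
      have h3 : ρ c₁ = ρ (c₁ ^ q) := by
        have h4 := congrArg (fun A => w⁻¹ • A) h1
        simpa [smul_smul, inv_mul_cancel₀ hw0] using h4
      exact hc₁ (hρinj h3).symm
    have hysp := (Cfsg.Agent.Lib.Helper98.TD2.mem_spGL_iff_symplectic y).mp hyS
    have hcx := charpoly_invol_four h2F _ hxsp hxx hns
    have hcy := charpoly_invol_four h2F _ hysp hyy hyns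
    have hx2 : x ^ 2 = 1 := Units.ext (by rw [Units.val_pow_eq_pow_val, pow_two, hxx, Units.val_one])
    have hy2 : y ^ 2 = 1 := Units.ext (by rw [Units.val_pow_eq_pow_val, pow_two, hyy, Units.val_one])
    have hcop : (2 : ℕ).Coprime p :=
      (Nat.coprime_primes Nat.prime_two hp).mpr (Ne.symm hp2)
    obtain ⟨g, hg, hgx⟩ := Cfsg.Agent.Lib.Helper98.TD2.sp_conj_of_charpoly p x y hx hyS 2 hcop
      hx2 hy2 (hcx.trans hcy.symm)
    exact ⟨g, hg, by rw [hgx]; exact hyN⟩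
  · -- `x ^ 2 = -1`
    rw [hz1, neg_smul, one_smul] at hxx
    obtain ⟨y, hyS, hyρ, hyy⟩ := exists_neg_sq hL ρ φ hφ B hB
    have hyN : y ∈ Cfsg.Geo.subalgebraNormalizer K :=
      mem_normalizer_of_semilinear K ρ hρ id Function.surjective_id y hyρ
    have hysp := (Cfsg.Agent.Lib.Helper98.TD2.mem_spGL_iff_symplectic y).mp hyS
    have hcx := Cfsg.Agent.Lib.Helper98.TD2.charpoly_of_sq_neg_one h2F _ hxsp hxx
    have hcy := Cfsg.Agent.Lib.Helper98.TD2.charpoly_of_sq_neg_one h2F _ hysp hyy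
    have h4 : ∀ w : GL (Fin 2 ⊕ Fin 2) F,
        (w : Matrix (Fin 2 ⊕ Fin 2) (Fin 2 ⊕ Fin 2) F) *
          (w : Matrix (Fin 2 ⊕ Fin 2) (Fin 2 ⊕ Fin 2) F) = -1 → w ^ 4 = 1 := by
      intro w hw
      apply Units.ext
      have h5 : (w : Matrix (Fin 2 ⊕ Fin 2) (Fin 2 ⊕ Fin 2) F) ^ 4 =
          ((w : Matrix (Fin 2 ⊕ Fin 2) (Fin 2 ⊕ Fin 2) F) *
            (w : Matrix (Fin 2 ⊕ Fin 2) (Fin 2 ⊕ Fin 2) F)) *
          ((w : Matrix (Fin 2 ⊕ Fin 2) (Fin 2 ⊕ Fin 2) F) *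
            (w : Matrix (Fin 2 ⊕ Fin 2) (Fin 2 ⊕ Fin 2) F)) := by
        rw [show (4 : ℕ) = 2 + 2 from rfl, pow_add, pow_two]
      rw [Units.val_pow_eq_pow_val, h5, hw, neg_mul_neg, Matrix.one_mul, Units.val_one]
    have hcop : (4 : ℕ).Coprime p := by
      have h1 : (2 : ℕ).Coprime p := (Nat.coprime_primes Nat.prime_two hp).mpr (Ne.symm hp2)
      exact Nat.Coprime.pow_left 2 h1
    obtain ⟨g, hg, hgx⟩ := Cfsg.Agent.Lib.Helper98.TD2.sp_conj_of_charpoly p x y hx hyS 4 hcop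
      (h4 x hxx) (h4 y hyy) (hcx.trans hcy.symm)
    exact ⟨g, hg, by rw [hgx]; exact hyN⟩

end Cfsg.Agent.Lib.Helper98.F75
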