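import Cfsg.Agent.Lib.Helper98.H74Of

/-!
# Project H74: the criterion for odd primes `r ≠ p` in terms of the arithmetic model
(generic in the types `ε` of the space and `τ` of the subspaces)
-/

set_option autoImplicit false

namespace Cfsg.Agent.Lib.Helper98.H74

open Cfsg.Agent.Lib.Helper47 Cfsg.Agent.Lib.Helper98.T73 Module Polynomial

universe u

variable {F : Type u} [Field F] [Fintype F] {V : Type u} [AddCommGroup V] [Module F V]
  [FiniteDimensional F V] {Q : V → F} {B : V → V → F}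

theorem sgn_mul_self (i j : ℕ) : sgn i j * sgn i j = 1 := by
  unfold sgn
  split_ifs
  · rw [← mul_pow]
    norm_num
  · norm_num

theorem sgn_zero (i : ℕ) : sgn i 0 = 1 := by
  unfold sgn
  split_ifs <;> simp

theorem sgn_cases (i j : ℕ) : sgn i j = 1 ∨ sgn i j = -1 := by
  unfold sgn
  split_ifs
  · rcases Nat.even_or_odd j with h | h
    · left; exact h.neg_one_pow
    · right; exact h.neg_one_pow
  · left; rfl

theorem subtyp_unique {W : Submodule F V} {k k' : ℕ} {τ τ' : ℤ} (h : SubTyp Q B W k τ)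
    (h' : SubTyp Q B W k' τ') : k = k' ∧ τ = τ' := by
  have hk : k = k' := by
    have h1 := h.2.1
    have h2 := h'.2.1
    omega
  subst hk
  exact ⟨rfl, h.2.2.unique h'.2.2⟩

/-- Fix direction. -/
theorem hfix (hf : QFacts F) (hQ : IsQuad Q B) (hnd : Nondeg B) (d : ℕ) (hd : 1 ≤ d)
    (hdim : finrank F V = 2 * d) (ε : ℤ) (hε : ε = 1 ∨ ε = -1) (htyp : IsTyp Q (d - 1) ε)
    (p : ℕ) [Fact p.Prime] [CharP F p] (r : ℕ) (hr : r.Prime) (hr2 : r ≠ 2) (hrp : r ≠ p)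
    (g : Module.End F V) (hgQ : QI Q g) (hg : g ^ r = 1) (hg1 : g ≠ 1) (τ : ℤ)
    (hτ : τ = 1 ∨ τ = -1) (k : ℕ) :
    ∃ A : ℕ, Valid ε (orderOf ((Fintype.card F : ℕ) : ZMod r)) d A ∧
      ∀ j w : ℕ, MC ε τ (orderOf ((Fintype.card F : ℕ) : ZMod r)) d A (2 * k + 2) j w →
        ∃ W : Submodule F V, SubTyp Q B W k τ ∧ W.map g ≤ W := by
  obtain ⟨hi1, -⟩ := ord_facts (F := F) p r hr hrp
  obtain ⟨A, hA, hR, hC, hRnd, hCR, hCtyp⟩ :=
    g_struct hf hQ hnd d hd hdim ε hε htyp p r hr hr2 hrp g hgQ hg hg1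
  refine ⟨A, hA, ?_⟩
  set i := orderOf ((Fintype.card F : ℕ) : ZMod r) with hi
  rintro j w ⟨hjA, hjo, hm, hw, hw0, hwtop⟩
  obtain ⟨hA1, hA2, hA3, hA4⟩ := hA
  -- parity
  have hiAe : Even (i * A) := by
    rcases Nat.even_or_odd i with h | h
    · exact h.mul_right A
    · exact (hA3 h).mul_left i
  have hije : Even (i * j) := by
    rcases Nat.even_or_odd i with h | h
    · exact h.mul_right j
    · exact (hjo h).mul_left i
  obtain ⟨a, ha⟩ := hiAe
  obtain ⟨b, hb⟩ := hije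
  -- the part in the range
  obtain ⟨W₁, hW₁R, hW₁g, hW₁nd, hW₁fin⟩ :=
    rnd_exists hQ hnd p r hr hr2 hrp g hgQ hg j (by rw [hR]; exact Nat.mul_le_mul_left i hjA) hjo
  obtain ⟨j', hj', -, hW₁typ⟩ := rnd_typ hf hQ hnd p r hr hr2 hrp g hgQ hg W₁ hW₁R hW₁g hW₁nd
  have hjj : j = j' := by
    have h1 : i * j = i * j' := by rw [← hj', hW₁fin]
    exact Nat.eq_of_mul_eq_mul_left (by omega) h1
  subst hjj
  -- invariance of subspaces of the kernel
  have hCinv : ∀ W : Submodule F V, W ≤ LinearMap.ker (g - 1) → W.map g ≤ W := by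
    rintro W hW y ⟨x, hx, rfl⟩
    have h1 := hW hx
    rw [LinearMap.mem_ker, LinearMap.sub_apply, Module.End.one_apply, sub_eq_zero] at h1
    rw [h1]
    exact hx
  by_cases hw0' : w = 0
  · -- W = W₁
    have h1 : i * j = 2 * k + 2 := by omega
    have h2 := hW₁typ k h1
    rw [hw0 hw0'] at h2
    exact ⟨W₁, h2, hW₁g⟩
  have hwpos : 0 < w := Nat.pos_of_ne_zero hw0'
  -- the fixed space is typed
  obtain ⟨e, he⟩ : ∃ e, 2 * d - i * A = 2 * e + 2 := ⟨(2 * d - i * A) / 2 - 1, by omega⟩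
  have hCt := hCtyp e he
  by_cases hj0 : j = 0
  · subst hj0
    have hk : k < e ∨ (k = e ∧ τ = ε * sgn i A) := by
      by_cases hke : k = e
      · right
        refine ⟨hke, ?_⟩
        have := hwtop hwpos (by omega)
        rw [sgn_zero, mul_one] at this
        exact this
      · left; omega
    obtain ⟨W, hWC, hW⟩ := subtyp_sub hf hQ _ e _ hCt k τ hτ hk
    exact ⟨W, hW, hCinv W hWC⟩
  · -- both parts
    obtain ⟨k₁, hk₁⟩ : ∃ k₁, i * j = 2 * k₁ + 2 := by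
      have : 0 < i * j := Nat.mul_pos (by omega) (Nat.pos_of_ne_zero hj0)
      exact ⟨(i * j) / 2 - 1, by omega⟩
    obtain ⟨k₂, hk₂⟩ : ∃ k₂, w = 2 * k₂ + 2 := ⟨w / 2 - 1, by omega⟩
    have hW₁t := hW₁typ k₁ hk₁
    have hτ' : τ * sgn i j = 1 ∨ τ * sgn i j = -1 := by
      rcases hτ with h | h <;> rcases sgn_cases i j with h' | h' <;> rw [h, h'] <;> norm_num
    have hk : k₂ < e ∨ (k₂ = e ∧ τ * sgn i j = ε * sgn i A) := by
      by_cases hke : k₂ = e
      · right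
        exact ⟨hke, hwtop hwpos (by omega)⟩
      · left; omega
    obtain ⟨W₂, hW₂C, hW₂⟩ := subtyp_sub hf hQ _ e _ hCt k₂ (τ * sgn i j) hτ' hk
    have horth : ∀ x ∈ W₂, ∀ y ∈ W₁, B x y = 0 := fun x hx y hy => hCR x (hW₂C hx) y (hW₁R hy)
    have hsum := subtyp_sup hf hQ W₂ W₁ horth k₂ k₁ (τ * sgn i j) (sgn i j) hW₂ hW₁t
    have hkk : k₂ + k₁ + 1 = k := by omega
    rw [hkk, mul_assoc, sgn_mul_self, mul_one] at hsum
    refine ⟨W₂ ⊔ W₁, hsum, ?_⟩
    rw [Submodule.map_sup]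
    exact sup_le_sup (hCinv W₂ hW₂C) hW₁g

/-- Derangement direction. -/
theorem hex (hf : QFacts F) (hQ : IsQuad Q B) (hnd : Nondeg B) (d : ℕ) (hd : 1 ≤ d)
    (hdim : finrank F V = 2 * d) (ε : ℤ) (hε : ε = 1 ∨ ε = -1) (htyp : IsTyp Q (d - 1) ε)
    (p : ℕ) [Fact p.Prime] [CharP F p] (r : ℕ) (hr : r.Prime) (hr2 : r ≠ 2) (hrp : r ≠ p)
    (A : ℕ) (hA : Valid ε (orderOf ((Fintype.card F : ℕ) : ZMod r)) d A) (τ : ℤ) (k : ℕ) :
    ∃ g : Module.End F V, QI Q g ∧ g ^ r = 1 ∧ g ≠ 1 ∧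
      ∀ W : Submodule F V, SubTyp Q B W k τ → W.map g ≤ W →
        ∃ j w : ℕ, MC ε τ (orderOf ((Fintype.card F : ℕ) : ZMod r)) d A (2 * k + 2) j w := by
  obtain ⟨hi1, -⟩ := ord_facts (F := F) p r hr hrp
  obtain ⟨g, hgQ, hg, hg1, hker, -, -⟩ := lex hf hQ hnd d hd hdim ε hε htyp p r hr hr2 hrp A hA
  refine ⟨g, hgQ, hg, hg1, ?_⟩
  obtain ⟨A', hA', hR, hC, hRnd, hCR, hCtyp⟩ :=
    g_struct hf hQ hnd d hd hdim ε hε htyp p r hr hr2 hrp g hgQ hg hg1
  set i := orderOf ((Fintype.card F : ℕ) : ZMod r) with hi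
  have hAA : A = A' := by
    have h1 := hA.2.1
    have h2 := hA'.2.1
    have h3 : i * A = i * A' := by omega
    exact Nat.eq_of_mul_eq_mul_left (by omega) h3
  subst hAA
  obtain ⟨hA1, hA2, hA3, hA4⟩ := hA
  intro W hW hWg
  obtain ⟨hWCnd, hWRnd, hWeq, hWRinv, hWdim⟩ := inv_split hQ hnd p r hr hrp g hgQ hg W hWg hW.1
  obtain ⟨j, hj, hjo, hWRtyp⟩ := rnd_typ hf hQ hnd p r hr hr2 hrp g hgQ hg
    (W ⊓ LinearMap.range (g - 1)) inf_le_right hWRinv hWRnd
  rw [← hi] at hj hjo hWRtyp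
  have hWfin := hW.2.1
  have hle1 : finrank F ↥(W ⊓ LinearMap.range (g - 1)) ≤ finrank F (LinearMap.range (g - 1)) :=
    Submodule.finrank_mono inf_le_right
  have hle2 : finrank F ↥(W ⊓ LinearMap.ker (g - 1)) ≤ finrank F (LinearMap.ker (g - 1)) :=
    Submodule.finrank_mono inf_le_right
  have hjA : j ≤ A := by
    rw [hj, hR] at hle1
    exact Nat.le_of_mul_le_mul_left hle1 (by omega)
  refine ⟨j, finrank F ↥(W ⊓ LinearMap.ker (g - 1)), hjA, hjo, by omega, by omega, ?_, ?_⟩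
  · intro hw0
    have h1 : W ⊓ LinearMap.ker (g - 1) = ⊥ := Submodule.finrank_eq_zero.mp hw0
    have h2 : W ⊓ LinearMap.range (g - 1) = W := by
      rw [h1, bot_sup_eq] at hWeq
      exact hWeq.symm
    have h3 := hWRtyp k (by omega)
    rw [h2] at h3
    exact (subtyp_unique h3 hW).2
  · intro hwpos hwtop
    have h1 : W ⊓ LinearMap.ker (g - 1) = LinearMap.ker (g - 1) :=
      Submodule.eq_of_le_of_finrank_eq inf_le_right (by omega)
    obtain ⟨e, he⟩ : ∃ e, 2 * d - i * A = 2 * e + 2 := by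
      have hiAe : Even (i * A) := by
        rcases Nat.even_or_odd i with h | h
        · exact h.mul_right A
        · exact (hA3 h).mul_left i
      obtain ⟨a, ha⟩ := hiAe
      exact ⟨(2 * d - i * A) / 2 - 1, by omega⟩
    have hCt := hCtyp e he
    by_cases hj0 : j = 0
    · subst hj0
      have h2 : W ⊓ LinearMap.range (g - 1) = ⊥ := by
        apply Submodule.finrank_eq_zero.mp
        rw [hj, mul_zero]
      have h3 : W = LinearMap.ker (g - 1) := by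
        rw [h1, h2, sup_bot_eq] at hWeq
        exact hWeq
      rw [h3] at hW
      rw [sgn_zero, mul_one]
      exact (subtyp_unique hW hCt).2
    · obtain ⟨k₁, hk₁⟩ : ∃ k₁, i * j = 2 * k₁ + 2 := by
        have hije : Even (i * j) := by
          rcases Nat.even_or_odd i with h | h
          · exact h.mul_right j
          · exact (hjo h).mul_left i
        obtain ⟨b, hb⟩ := hije
        have : 0 < i * j := Nat.mul_pos (by omega) (Nat.pos_of_ne_zero hj0)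
        exact ⟨(i * j) / 2 - 1, by omega⟩
      have hWRt := hWRtyp k₁ hk₁
      have horth : ∀ x ∈ LinearMap.ker (g - 1), ∀ y ∈ W ⊓ LinearMap.range (g - 1), B x y = 0 :=
        fun x hx y hy => hCR x hx y hy.2
      have hsum := subtyp_sup hf hQ _ _ horth e k₁ _ _ hCt hWRt
      have h3 : LinearMap.ker (g - 1) ⊔ W ⊓ LinearMap.range (g - 1) = W := by
        rw [h1] at hWeq
        exact hWeq.symm
      rw [h3] at hsum
      have h4 := (subtyp_unique hW hsum).2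
      rw [h4, mul_assoc, sgn_mul_self, mul_one]

/-- The criterion in terms of the arithmetic model. -/
theorem odd_iff_typ (hf : QFacts F) (hQ : IsQuad Q B) (hnd : Nondeg B) (d : ℕ) (hd : 1 ≤ d)
    (hdim : finrank F V = 2 * d) (ε : ℤ) (hε : ε = 1 ∨ ε = -1) (htyp : IsTyp Q (d - 1) ε)
    (p : ℕ) [Fact p.Prime] [CharP F p] (r : ℕ) (hr : r.Prime) (hr2 : r ≠ 2) (hrp : r ≠ p)
    (τ : ℤ) (hτ : τ = 1 ∨ τ = -1) (k : ℕ) :
    (∀ g : Module.End F V, QI Q g → g ^ r = 1 → g ≠ 1 →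
      ∃ W : Submodule F V, SubTyp Q B W k τ ∧ W.map g ≤ W) ↔
    ModelH ε τ (orderOf ((Fintype.card F : ℕ) : ZMod r)) d (2 * k + 2) := by
  constructor
  · intro hall A hA
    obtain ⟨g, hgQ, hg, hg1, hW⟩ := hex hf hQ hnd d hd hdim ε hε htyp p r hr hr2 hrp A hA τ k
    obtain ⟨W, hWt, hWg⟩ := hall g hgQ hg hg1
    exact hW W hWt hWg
  · intro hM g hgQ hg hg1
    obtain ⟨A, hA, hfixA⟩ :=
      hfix hf hQ hnd d hd hdim ε hε htyp p r hr hr2 hrp g hgQ hg hg1 τ hτ k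
    obtain ⟨j, w, hMC⟩ := hM A hA
    exact hfixA j w hMC

end Cfsg.Agent.Lib.Helper98.H74
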