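import Cfsg.Agent.Lib.Helper98.H74Defs
import Cfsg.Agent.Lib.Helper11.H74TYR
import Cfsg.Agent.Lib.Helper14.H74AREVF
import Cfsg.Agent.Lib.Helper19.H74BLKE
import Cfsg.Agent.Lib.Helper24.H74SUM
import Cfsg.Agent.Lib.Helper28.H74TOP
import Cfsg.Agent.Lib.Helper40.H74COMPL
import Cfsg.Agent.Lib.Helper46.H74TRANS
import Cfsg.Agent.Lib.Helper57.H74DEC
import Cfsg.Agent.Lib.Helper61.H74GSTRUCT
import Cfsg.Agent.Lib.Helper67.H74EXC
import Cfsg.Agent.Lib.Helper77.H74HYPTYP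
import Cfsg.Agent.Lib.Helper89.H74GLUEG
import Cfsg.Agent.Lib.Helper9.H74BLKO
import Cfsg.Agent.Lib.Helper92.H74ARODD
import Cfsg.Agent.Lib.Helper93.H74FIXC
import Cfsg.Agent.Lib.Helper99.H74AREVB
import Cfsg.Agent.Lib.Helper33.H74EXR
import Cfsg.Agent.Lib.Helper60.H74C4of
import Cfsg.Agent.Lib.Helper47.H74K4bSum
import Cfsg.Agent.Lib.Helper94.H74C2F
import Cfsg.Agent.Lib.Helper21.H74CNTG
import Cfsg.Agent.Lib.Helper8.H74LCNT

/-!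
# Project H74: glue of the pieces delivered with their siblings as hypotheses
-/

set_option autoImplicit false

namespace Cfsg.Agent.Lib.Helper98.H74

open Cfsg.Agent.Lib.Helper47 Cfsg.Agent.Lib.Helper98.T73 Module Polynomial

universe u

variable {F : Type u} [Field F] [Fintype F] {V : Type u} [AddCommGroup V] [Module F V]
  [FiniteDimensional F V] {Q : V → F} {B : V → V → F}

/-- EXR -/
theorem rnd_exists (hQ : IsQuad Q B) (hnd : Nondeg B) (p : ℕ) [Fact p.Prime] [CharP F p]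
    (r : ℕ) (hr : r.Prime) (hr2 : r ≠ 2) (hrp : r ≠ p) (g : Module.End F V) (hgQ : QI Q g)
    (hg : g ^ r = 1) (j : ℕ)
    (hj : orderOf ((Fintype.card F : ℕ) : ZMod r) * j ≤ finrank F (LinearMap.range (g - 1)))
    (hjo : Odd (orderOf ((Fintype.card F : ℕ) : ZMod r)) → Even j) :
    ∃ W₁ : Submodule F V, W₁ ≤ LinearMap.range (g - 1) ∧ W₁.map g ≤ W₁ ∧
      Nondeg (resForm B W₁) ∧
      finrank F W₁ = orderOf ((Fintype.card F : ℕ) : ZMod r) * j :=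
  rnd_exists_of hQ hnd p r hr hrp g hgQ hg
    (fun hev W hWR hWg hWnd hW0 => blk_even hQ hnd p r hr hr2 hrp g hgQ hg hev W hWR hWg hWnd hW0)
    (fun hodd W hWR hWg hWnd hW0 => blk_odd hQ hnd p r hr hr2 hrp g hgQ hg hodd W hWR hWg hWnd hW0)
    j hj hjo

/-- CNTG -/
theorem exists_qi_of_dvd_card_typ (hf : QFacts F) (hQ : IsQuad Q B) (hnd : Nondeg B) (d : ℕ)
    (hdim : finrank F V = 2 * d) (ε : ℤ) (htyp : IsTyp Q (d - 1) ε) (k : ℕ) (τ : ℤ)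
    (hne : ∃ W : Submodule F V, SubTyp Q B W k τ) (r : ℕ) (hr : r.Prime)
    (hdvd : r ∣ Nat.card {W : Submodule F V // SubTyp Q B W k τ}) :
    ∃ g : Module.End F V, QI Q g ∧ g ^ r = 1 ∧ g ≠ 1 :=
  exists_qi_of_dvd_card_typ_of hQ k τ
    (fun W W' hW hW' => typed_trans hf hQ hnd d hdim ε htyp k τ W W' hW hW') hne r hr hdvd

/-- C4 -/
theorem cpx_fix_four (hf : QFacts F) (h2 : (2 : F) ≠ 0) (hns : ¬ IsSquare (-1 : F))
    (hQ : IsQuad Q B) (hnd : Nondeg B) (d : ℕ) (hdim : finrank F V = 2 * d) (p : ℕ)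
    [Fact p.Prime] [CharP F p] (g : Module.End F V) (hgQ : QI Q g) (hg : g * g = -1) (k : ℕ)
    (hk : 2 * k + 2 < d) (hk4 : Odd k) :
    ∃ W : Submodule F V, SubTyp Q B W k 1 ∧ W.map g ≤ W :=
  cpx_fix_four_of
    (fun X Y hXY k₁ k₂ ε₁ ε₂ hX hY => subtyp_sup hf hQ X Y hXY k₁ k₂ ε₁ ε₂ hX hY)
    hf h2 hns hQ hnd d hdim g hgQ hg k hk hk4

/-- K4 -/
theorem k4 (hf : QFacts F) [CharP F 2] (hQ : IsQuad Q B) (hnd : Nondeg B) (n : ℕ) (hn : 1 ≤ n)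
    (hdim : finrank F V = 2 * n + 2) (htyp : IsTyp Q n 1) (g : Module.End F V) (hgQ : QI Q g)
    (hg : g * g = 1) : ∃ H : Submodule F V, H.map g ≤ H ∧ SubTyp Q B H 1 1 :=
  k4_of_sum hf hQ hnd n hn hdim htyp g hgQ hg
    (fun X Y hXY k₁ k₂ ε₁ ε₂ hX hY => subtyp_sup hf hQ X Y hXY k₁ k₂ ε₁ ε₂ hX hY)

/-- C2F -/
theorem char2_fix (hf : QFacts F) [CharP F 2] (hQ : IsQuad Q B) (hnd : Nondeg B) (d : ℕ)
    (hdim : finrank F V = 2 * d) (htyp : IsTyp Q (d - 1) 1) (g : Module.End F V) (hgQ : QI Q g)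
    (hg : g * g = 1) (k : ℕ) (hk : 2 * k + 2 < d) (hcond : Odd d ∨ Odd k) :
    ∃ W : Submodule F V, SubTyp Q B W k 1 ∧ W.map g ≤ W :=
  char2_fix_of
    (fun V' _ _ _ Q' B' hQ' hnd' n hn hdim' htyp' g' hgQ' hg' =>
      k4 hf hQ' hnd' n hn hdim' htyp' g' hgQ' hg')
    (fun X Y hXY k₁ k₂ ε₁ ε₂ hX hY => subtyp_sup hf hQ X Y hXY k₁ k₂ ε₁ ε₂ hX hY)
    d (fun X k τ hX hk => subtyp_compl hf hQ hnd d hdim 1 htyp X k τ hX hk)
    hQ hnd hdim htyp g hgQ hg k hk hcond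

set_option maxHeartbeats 2000000 in
/-- LCNT -/
theorem lcnt_typ (hf : QFacts F) (hQ : IsQuad Q B) (hnd : Nondeg B) (d : ℕ) (hd : 2 ≤ d)
    (hdim : finrank F V = 2 * d) (ε : ℤ) (hε : ε = 1 ∨ ε = -1) (htyp : IsTyp Q (d - 1) ε)
    (p : ℕ) [Fact p.Prime] [CharP F p] (r : ℕ) (hr : r.Prime) (hr2 : r ≠ 2) (hrp : r ≠ p)
    (k : ℕ) (τ : ℤ) (hτ : τ = 1 ∨ τ = -1) (hk : k + 2 ≤ d)
    (hsmall : 2 * k + 2 < (if Even (orderOf ((Fintype.card F : ℕ) : ZMod r))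
          then orderOf ((Fintype.card F : ℕ) : ZMod r)
          else 2 * orderOf ((Fintype.card F : ℕ) : ZMod r)))
    (hrΩ : r ∣ Nat.card {W : Submodule F V // SubTyp Q B W k τ})
    (hall : ∀ g : Module.End F V, QI Q g → g ^ r = 1 → g ≠ 1 →
      ∃ W : Submodule F V, SubTyp Q B W k τ ∧ W.map g ≤ W) : False :=
  lcnt_typ_of (@subtyp_sub F _ _) (@subtyp_le F _ _) (@exists_qi_of_dvd_card_typ F _ _)
    (@card_typ_modEq_fixed F _ _) (@g_struct F _ _) (@glue_iso F _ _) hf hQ hnd d hd hdim ε hε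
    htyp p r hr hr2 hrp k τ hτ hk hsmall hrΩ hall

end Cfsg.Agent.Lib.Helper98.H74
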