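import Cfsg.Agent.Lib.Helper98.H74Defs

/-!
# Project H74, batch 2 (S5990): definitions
-/

set_option autoImplicit false

namespace Cfsg.Agent.Lib.Helper98.H74

open Cfsg.Agent.Lib.Helper47 Cfsg.Agent.Lib.Helper98.T73 Module Polynomial

universe u

variable {F : Type u} [Field F] {ι : Type} [Fintype ι]

/-- The elliptic `m`-spaces of the statements S5990 / S5988. -/
def EllM (Q : (ι → F) → F) (m : ℕ) (W : Submodule F (ι → F)) : Prop :=
  Module.finrank F ↥W = m ∧ Cfsg.Geo.IsNondegenerateOn (QuadraticMap.polar Q) W ∧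
    ¬ Cfsg.Geo.IsPlusTypeOn Q W

/-- The arithmetic condition of S5990 for odd `r ≠ p` (with `c = i` for `i` even, `c = 2i` for
`i` odd). -/
def Cond90 (i d m : ℕ) : Prop :=
  if Even i then
    (((2 * d) % i = 0 ∧ (Even ((2 * d) / i) ∨ (m % i = 0 ∧ Odd (m / i)))) ∨
      (0 < (2 * d) % i ∧ i ≤ m ∧ ((0 < m % i ∧ m % i < (2 * d) % i) ∨ (m % i = 0 ∧ Odd (m / i)) ∨
        (m % i = (2 * d) % i ∧ Even ((2 * d + m - 2 * ((2 * d) % i)) / i)))))
  else ((2 * d) % (2 * i) = 0 ∨ (2 * i ≤ m ∧ 0 < m % (2 * i) ∧ m % (2 * i) ≤ (2 * d) % (2 * i)))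

end Cfsg.Agent.Lib.Helper98.H74
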