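import Cfsg.Agent.Lib.Helper98.H74Gen
import Cfsg.Agent.Lib.Helper98.H90Defs
import Cfsg.Agent.Lib.Helper37.H90AR90OF
import Cfsg.Agent.Lib.Helper51.H90AR90OB
import Cfsg.Agent.Lib.Helper76.H90AR90EF
import Cfsg.Agent.Lib.Helper85.H90AR90EB

/-!
# Project H74, batch 2: the criterion of S5990 for odd primes `r ≠ p` (assembly)
-/

set_option autoImplicit false

namespace Cfsg.Agent.Lib.Helper98.H74

open Cfsg.Agent.Lib.Helper47 Cfsg.Agent.Lib.Helper98.T73 Module Polynomial

universe u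

variable {F : Type u} [Field F] [Fintype F] {V : Type u} [AddCommGroup V] [Module F V]
  [FiniteDimensional F V] {Q : V → F} {B : V → V → F}

/-- The criterion of S5990 for odd `r ≠ p`, in terms of isometries. -/
theorem odd_iff90 (hf : QFacts F) (hQ : IsQuad Q B) (hnd : Nondeg B) (d : ℕ) (hd : 4 ≤ d)
    (hdim : finrank F V = 2 * d) (htyp : IsTyp Q (d - 1) (-1))
    (p : ℕ) [Fact p.Prime] [CharP F p] (r : ℕ) (hr : r.Prime) (hr2 : r ≠ 2) (hrp : r ≠ p)
    (k : ℕ) (hk : k + 2 ≤ d)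
    (hrΩ : r ∣ Nat.card {W : Submodule F V // SubTyp Q B W k (-1)}) :
    (∀ g : Module.End F V, QI Q g → g ^ r = 1 → g ≠ 1 →
      ∃ W : Submodule F V, SubTyp Q B W k (-1) ∧ W.map g ≤ W) ↔
    Cond90 (orderOf ((Fintype.card F : ℕ) : ZMod r)) d (2 * k + 2) := by
  obtain ⟨hi1, -⟩ := ord_facts (F := F) p r hr hrp
  have hme : Even (2 * k + 2) := ⟨k + 1, by ring⟩
  rw [odd_iff_typ hf hQ hnd d (by omega) hdim (-1) (Or.inr rfl) htyp p r hr hr2 hrp (-1)
    (Or.inr rfl) k]
  constructor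
  · intro hM
    by_cases hsmall : 2 * k + 2 < (if Even (orderOf ((Fintype.card F : ℕ) : ZMod r))
          then orderOf ((Fintype.card F : ℕ) : ZMod r)
          else 2 * orderOf ((Fintype.card F : ℕ) : ZMod r))
    · exfalso
      exact lcnt_typ hf hQ hnd d (by omega) hdim (-1) (Or.inr rfl) htyp p r hr hr2 hrp k (-1)
        (Or.inr rfl) hk hsmall hrΩ
        ((odd_iff_typ hf hQ hnd d (by omega) hdim (-1) (Or.inr rfl) htyp p r hr hr2 hrp (-1)
          (Or.inr rfl) k).mpr hM)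
    · by_cases hev : Even (orderOf ((Fintype.card F : ℕ) : ZMod r))
      · rw [if_pos hev, not_lt] at hsmall
        exact ar90_even_fwd _ d _ hi1 hev hd (by omega) hme (by omega) hsmall hM
      · rw [if_neg hev, not_lt] at hsmall
        exact ar90_odd_fwd _ d _ hi1 hev hd (by omega) hme (by omega) hsmall hM
  · intro hC
    by_cases hev : Even (orderOf ((Fintype.card F : ℕ) : ZMod r))
    · exact ar90_even_bwd _ d _ hi1 hev hd (by omega) hme (by omega) hC
    · exact ar90_odd_bwd _ d _ hi1 hev hd (by omega) hme (by omega) hC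

end Cfsg.Agent.Lib.Helper98.H74
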