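import Mathlib

/-!
Kernel-dimension invariants of a nilpotent operator (Jordan type without Jordan normal form).

* `kerRk N U k = dim (U ⊓ ker N^k)`, `topRk N U k = dim (ker N ⊓ N^k U)` ("number of Jordan blocks of
  size `> k`" of `N` on an invariant subspace `U`).
* `kerRk_succ`, `topRk_succ_le`, `topRk_top_eq_add` (additivity over an invariant decomposition).
* `exists_nilpotent_model`: a nilpotent operator on `Fin n → F` with prescribed block sizes `b`.
* `exists_sub_multiset`: an invariant direct summand of an operator with block sizes `b` has block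
  sizes forming a sub-multiset of `b`.
-/

set_option autoImplicit false

namespace Cfsg.Agent.Lib.Helper98

open Module

section General

variable {F V : Type*} [Field F] [AddCommGroup V] [Module F V] [FiniteDimensional F V]

/-- `dim (U ⊓ ker N^k)`. -/
noncomputable def kerRk (N : Module.End F V) (U : Submodule F V) (k : ℕ) : ℕ :=
  finrank F ↥(U ⊓ LinearMap.ker (N ^ k))

/-- `dim (ker N ⊓ N^k U)`. -/
noncomputable def topRk (N : Module.End F V) (U : Submodule F V) (k : ℕ) : ℕ :=
  finrank F ↥(LinearMap.ker N ⊓ U.map (N ^ k))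

theorem kerRk_succ (N : Module.End F V) (U : Submodule F V) (k : ℕ) :
    kerRk N U (k + 1) = kerRk N U k + topRk N U k := by
  unfold kerRk topRk
  set A : Submodule F V := U ⊓ LinearMap.ker (N ^ (k + 1)) with hA
  have h1 := LinearMap.finrank_range_add_finrank_ker ((N ^ k).domRestrict A)
  have hr : LinearMap.range ((N ^ k).domRestrict A) = LinearMap.ker N ⊓ U.map (N ^ k) := by
    rw [LinearMap.range_domRestrict]
    apply le_antisymm
    · rintro _ ⟨u, hu, rfl⟩
      refine ⟨?_, u, hu.1, rfl⟩
      have h2 : (N ^ (k + 1)) u = 0 := hu.2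
      rw [pow_succ'] at h2
      exact h2
    · rintro v ⟨hv, u, hu, rfl⟩
      refine ⟨u, ⟨hu, ?_⟩, rfl⟩
      have h2 : N ((N ^ k) u) = 0 := hv
      show (N ^ (k + 1)) u = 0
      rw [pow_succ']
      exact h2
  have hk : finrank F ↥(LinearMap.ker ((N ^ k).domRestrict A)) =
      finrank F ↥(U ⊓ LinearMap.ker (N ^ k)) := by
    have h3 : LinearMap.ker ((N ^ k).domRestrict A) =
        Submodule.comap A.subtype (LinearMap.ker (N ^ k)) := by
      ext x
      simp [LinearMap.domRestrict]
    rw [h3, ← Submodule.finrank_map_subtype_eq, Submodule.map_comap_subtype]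
    have h4 : A ⊓ LinearMap.ker (N ^ k) = U ⊓ LinearMap.ker (N ^ k) := by
      rw [hA, inf_assoc]
      congr 1
      apply inf_eq_right.mpr
      intro x hx
      rw [LinearMap.mem_ker] at hx ⊢
      rw [pow_succ', Module.End.mul_apply, hx, map_zero]
    rw [h4]
  rw [hr, hk] at h1
  omega

theorem map_pow_le (N : Module.End F V) (U : Submodule F V) (hU : U.map N ≤ U) (k : ℕ) :
    U.map (N ^ k) ≤ U := by
  induction k with
  | zero => rw [pow_zero, Module.End.one_eq_id, Submodule.map_id]
  | succ k ih =>
    rw [pow_succ, Module.End.mul_eq_comp, Submodule.map_comp]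
    exact (Submodule.map_mono hU).trans ih

theorem topRk_succ_le (N : Module.End F V) (U : Submodule F V) (hU : U.map N ≤ U) (k : ℕ) :
    topRk N U (k + 1) ≤ topRk N U k := by
  unfold topRk
  apply Submodule.finrank_mono
  apply inf_le_inf_left
  rw [pow_succ, Module.End.mul_eq_comp, Submodule.map_comp]
  exact Submodule.map_mono hU

theorem topRk_top_eq_add (N : Module.End F V) (U W : Submodule F V) (hU : U.map N ≤ U)
    (hW : W.map N ≤ W) (hd : Disjoint U W) (hs : U ⊔ W = ⊤) (k : ℕ) :
    topRk N ⊤ k = topRk N U k + topRk N W k := by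
  unfold topRk
  have hUk : U.map (N ^ k) ≤ U := map_pow_le N U hU k
  have hWk : W.map (N ^ k) ≤ W := map_pow_le N W hW k
  have h1 : LinearMap.ker N ⊓ (⊤ : Submodule F V).map (N ^ k) =
      (LinearMap.ker N ⊓ U.map (N ^ k)) ⊔ (LinearMap.ker N ⊓ W.map (N ^ k)) := by
    rw [← hs, Submodule.map_sup]
    apply le_antisymm
    · rintro v ⟨hv, hv2⟩
      obtain ⟨x, hx, y, hy, rfl⟩ := Submodule.mem_sup.mp hv2
      have hNx : N x ∈ U := hU (Submodule.mem_map_of_mem (hUk hx))
      have hNy : N y ∈ W := hW (Submodule.mem_map_of_mem (hWk hy))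
      have hsum : N x + N y = 0 := by
        rw [← map_add]
        exact hv
      have hNx0 : N x = 0 := by
        have h5 : N x ∈ U ⊓ W := by
          refine ⟨hNx, ?_⟩
          rw [eq_neg_of_add_eq_zero_left hsum]
          exact W.neg_mem hNy
        rw [hd.eq_bot] at h5
        simpa using h5
      have hNy0 : N y = 0 := by
        rw [hNx0, zero_add] at hsum
        exact hsum
      exact Submodule.add_mem_sup ⟨hNx0, hx⟩ ⟨hNy0, hy⟩
    · exact sup_le (inf_le_inf_left _ le_sup_left) (inf_le_inf_left _ le_sup_right)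
  have h2 := Submodule.finrank_sup_add_finrank_inf_eq (LinearMap.ker N ⊓ U.map (N ^ k))
    (LinearMap.ker N ⊓ W.map (N ^ k))
  have h3 : (LinearMap.ker N ⊓ U.map (N ^ k)) ⊓ (LinearMap.ker N ⊓ W.map (N ^ k)) = ⊥ := by
    rw [eq_bot_iff, ← hd.eq_bot]
    exact inf_le_inf (inf_le_right.trans hUk) (inf_le_right.trans hWk)
  rw [h1, ← h2, h3]
  simp

theorem kerRk_zero (N : Module.End F V) (U : Submodule F V) : kerRk N U 0 = 0 := by
  unfold kerRk
  rw [pow_zero, Module.End.one_eq_id, LinearMap.ker_id, inf_bot_eq]
  simp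

theorem kerRk_of_pow_eq_zero (N : Module.End F V) (U : Submodule F V) (m : ℕ) (h : N ^ m = 0) :
    kerRk N U m = finrank F U := by
  unfold kerRk
  rw [h, LinearMap.ker_zero, inf_top_eq]

theorem sum_topRk (N : Module.End F V) (U : Submodule F V) (m : ℕ) :
    ∑ j ∈ Finset.range m, topRk N U j = kerRk N U m := by
  induction m with
  | zero => simp [kerRk_zero]
  | succ m ih => rw [Finset.sum_range_succ, ih, kerRk_succ]

theorem topRk_of_pow_eq_zero (N : Module.End F V) (U : Submodule F V) (m : ℕ) (h : N ^ m = 0) :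
    topRk N U m = 0 := by
  unfold topRk
  rw [h, Submodule.map_zero, inf_bot_eq]
  simp

theorem abel_sum (d : ℕ → ℕ) (hd : ∀ j, d (j + 1) ≤ d j) (P : ℕ) :
    ∑ m ∈ Finset.range P, (d m - d (m + 1)) * (m + 1) + P * d P = ∑ j ∈ Finset.range P, d j := by
  induction P with
  | zero => simp
  | succ P ih =>
    rw [Finset.sum_range_succ, Finset.sum_range_succ, ← ih]
    obtain ⟨c, hc⟩ := Nat.exists_eq_add_of_le (hd P)
    rw [hc, Nat.add_sub_cancel_left]
    ring

/-- An invariant direct summand `U` of an operator whose "block sizes" are `b` has block sizes forming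
a sub-multiset of `b`, with sum `dim U`. -/
theorem exists_sub_multiset {s : ℕ} (b : Fin s → ℕ) (N : Module.End F V) (P : ℕ) (hNP : N ^ P = 0)
    (U W : Submodule F V) (hU : U.map N ≤ U) (hW : W.map N ≤ W) (hd : Disjoint U W)
    (hs : U ⊔ W = ⊤)
    (hb : ∀ j, topRk N ⊤ j = (Finset.univ.filter (fun i => j < b i)).card) :
    ∃ ν : Multiset ℕ, ν ≤ Finset.univ.val.map b ∧ ν.sum = finrank F U := by
  classical
  set d : ℕ → ℕ := topRk N U with hd_def
  refine ⟨∑ m ∈ Finset.range P, Multiset.replicate (d m - d (m + 1)) (m + 1), ?_, ?_⟩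
  · rw [Multiset.le_iff_count]
    intro k
    rw [Multiset.count_sum', Multiset.count_map]
    simp only [Multiset.count_replicate]
    rcases Nat.eq_zero_or_pos k with rfl | hk
    · simp
    · obtain ⟨k', rfl⟩ : ∃ k', k = k' + 1 := ⟨k - 1, by omega⟩
      simp only [add_left_inj]
      rw [Finset.sum_ite_eq']
      split_ifs with hk'
      · have e1 := topRk_top_eq_add N U W hU hW hd hs k'
        have e2 := topRk_top_eq_add N U W hU hW hd hs (k' + 1)
        have e3 := topRk_succ_le N W hW k'
        rw [hb] at e1 e2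
        have e4 : (Finset.univ.filter (fun i => k' < b i)).card =
            (Finset.univ.filter (fun i => k' + 1 < b i)).card +
              (Finset.univ.filter (fun i => k' + 1 = b i)).card := by
          rw [Finset.card_filter, Finset.card_filter, Finset.card_filter, ← Finset.sum_add_distrib]
          apply Finset.sum_congr rfl
          intro i _
          split_ifs <;> omega
        have e5 : (Multiset.filter (fun a => k' + 1 = b a) Finset.univ.val).card =
            (Finset.univ.filter (fun i => k' + 1 = b i)).card := rfl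
        rw [e5]
        change topRk N U k' - topRk N U (k' + 1) ≤ _
        omega
      · exact Nat.zero_le _
  · rw [Multiset.sum_sum]
    simp only [Multiset.sum_replicate, smul_eq_mul]
    have h1 := abel_sum d (fun j => topRk_succ_le N U hU j) P
    rw [show d P = 0 from topRk_of_pow_eq_zero N U P hNP, mul_zero, add_zero] at h1
    rw [h1, sum_topRk, kerRk_of_pow_eq_zero N U P hNP]

end General

section Model

variable {F : Type*} [Field F]

/-- Functions vanishing outside a finite set `S` form a space of dimension `S.card`. -/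
theorem finrank_supported {ι : Type*} [Fintype ι] [DecidableEq ι] (S : Finset ι)
    (X : Submodule F (ι → F)) (hX : ∀ v, v ∈ X ↔ ∀ y, y ∉ S → v y = 0) :
    finrank F X = S.card := by
  have e : X ≃ₗ[F] (S → F) :=
    { toFun := fun v y => v.1 y.1
      map_add' := fun v w => rfl
      map_smul' := fun c v => rfl
      invFun := fun w => ⟨fun y => if h : y ∈ S then w ⟨y, h⟩ else 0,
        (hX _).mpr (fun y hy => dif_neg hy)⟩
      left_inv := fun v => by
        apply Subtype.ext
        funext y
        by_cases h : y ∈ S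
        · simp [h]
        · simp [h, (hX v.1).mp v.2 y h]
      right_inv := fun w => by
        funext y
        simp [y.2] }
  rw [e.finrank_eq, Module.finrank_fintype_fun_eq_card, Fintype.card_coe]

variable {s : ℕ} (b : Fin s → ℕ)

/-- The shift operator on functions on the disjoint union of the `Fin (b i)` (a sum of nilpotent
Jordan blocks of sizes `b i`). -/
def jshift : Module.End F ((Σ i : Fin s, Fin (b i)) → F) where
  toFun v := fun y => if h : y.2.val + 1 < b y.1 then v ⟨y.1, ⟨y.2.val + 1, h⟩⟩ else 0
  map_add' v w := by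
    funext y
    simp only [Pi.add_apply]
    split_ifs <;> simp
  map_smul' c v := by
    funext y
    simp only [Pi.smul_apply, RingHom.id_apply, smul_eq_mul]
    split_ifs <;> simp

theorem jshift_apply (v : (Σ i : Fin s, Fin (b i)) → F) (y : Σ i : Fin s, Fin (b i)) :
    (jshift (F := F) b) v y = if h : y.2.val + 1 < b y.1 then v ⟨y.1, ⟨y.2.val + 1, h⟩⟩ else 0 :=
  rfl

theorem jshift_pow_apply (k : ℕ) (v : (Σ i : Fin s, Fin (b i)) → F)
    (y : Σ i : Fin s, Fin (b i)) :
    ((jshift (F := F) b) ^ k) v y =
      if h : y.2.val + k < b y.1 then v ⟨y.1, ⟨y.2.val + k, h⟩⟩ else 0 := by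
  induction k generalizing v with
  | zero =>
    rcases y with ⟨i, c, hc⟩
    simp [hc]
  | succ k ih =>
    rw [pow_succ, Module.End.mul_apply, ih]
    by_cases h1 : y.2.val + k < b y.1
    · rw [dif_pos h1, jshift_apply]
      by_cases h2 : y.2.val + (k + 1) < b y.1
      · rw [dif_pos h2, dif_pos (by simpa [add_assoc] using h2)]
        rfl
      · rw [dif_neg h2, dif_neg (by simpa [add_assoc] using h2)]
    · rw [dif_neg h1, dif_neg (by omega)]

theorem jshift_pow_eq_zero (P : ℕ) (hbP : ∀ i, b i ≤ P) : (jshift (F := F) b) ^ P = 0 := by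
  apply LinearMap.ext
  intro v
  funext y
  rw [jshift_pow_apply, dif_neg (by have := hbP y.1; omega)]
  rfl

theorem mem_ker_jshift_pow (k : ℕ) (v : (Σ i : Fin s, Fin (b i)) → F) :
    v ∈ LinearMap.ker ((jshift (F := F) b) ^ k) ↔
      ∀ y : (Σ i : Fin s, Fin (b i)), k ≤ y.2.val → v y = 0 := by
  rw [LinearMap.mem_ker]
  constructor
  · intro h y hy
    rcases y with ⟨i, c, hc⟩
    have h1 := congrFun h ⟨i, ⟨c - k, by omega⟩⟩
    rw [jshift_pow_apply] at h1
    simp only at hy
    have h2 : c - k + k < b i := by omega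
    rw [dif_pos h2] at h1
    have h3 : (⟨i, ⟨c - k + k, h2⟩⟩ : Σ i : Fin s, Fin (b i)) = ⟨i, ⟨c, hc⟩⟩ := by
      congr 2
      omega
    rw [h3] at h1
    exact h1
  · intro h
    funext y
    rw [jshift_pow_apply]
    by_cases h1 : y.2.val + k < b y.1
    · rw [dif_pos h1]
      exact h _ (by simp)
    · rw [dif_neg h1]
      rfl

theorem kerRk_jshift (k : ℕ) :
    kerRk (jshift (F := F) b) ⊤ k =
      (Finset.univ.filter (fun y : (Σ i : Fin s, Fin (b i)) => y.2.val < k)).card := by
  classical
  unfold kerRk
  rw [top_inf_eq]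
  apply finrank_supported
  intro v
  rw [mem_ker_jshift_pow]
  constructor
  · intro h y hy
    apply h
    simpa using hy
  · intro h y hy
    apply h
    simpa using hy

theorem topRk_jshift (j : ℕ) :
    topRk (jshift (F := F) b) ⊤ j = (Finset.univ.filter (fun i => j < b i)).card := by
  classical
  have h1 := kerRk_succ (jshift (F := F) b) ⊤ j
  rw [kerRk_jshift, kerRk_jshift] at h1
  have h2 : (Finset.univ.filter (fun y : (Σ i : Fin s, Fin (b i)) => y.2.val < j + 1)).card =
      (Finset.univ.filter (fun y : (Σ i : Fin s, Fin (b i)) => y.2.val < j)).card +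
        (Finset.univ.filter (fun y : (Σ i : Fin s, Fin (b i)) => y.2.val = j)).card := by
    rw [Finset.card_filter, Finset.card_filter, Finset.card_filter, ← Finset.sum_add_distrib]
    apply Finset.sum_congr rfl
    intro y _
    split_ifs <;> omega
  have h3 : (Finset.univ.filter (fun y : (Σ i : Fin s, Fin (b i)) => y.2.val = j)).card =
      (Finset.univ.filter (fun i => j < b i)).card := by
    apply Finset.card_bij (fun y _ => y.1)
    · intro y hy
      simp only [Finset.mem_filter, Finset.mem_univ, true_and] at hy ⊢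
      have := y.2.isLt
      omega
    · intro y hy y' hy' hyy
      simp only [Finset.mem_filter, Finset.mem_univ, true_and] at hy hy'
      rcases y with ⟨i, c, hc⟩
      rcases y' with ⟨i', c', hc'⟩
      simp only at hyy hy hy'
      subst hyy
      subst hy
      subst hy'
      rfl
    · intro i hi
      simp only [Finset.mem_filter, Finset.mem_univ, true_and] at hi
      exact ⟨⟨i, ⟨j, hi⟩⟩, by simp, rfl⟩
  omega

/-- A nilpotent operator on `Fin n → F` with prescribed block sizes. -/
theorem exists_nilpotent_model (F : Type*) [Field F] {s n P : ℕ} (b : Fin s → ℕ)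
    (hbP : ∀ i, b i ≤ P) (hn : ∑ i, b i = n) :
    ∃ N : Module.End F (Fin n → F), N ^ P = 0 ∧
      ∀ j, topRk N ⊤ j = (Finset.univ.filter (fun i => j < b i)).card := by
  classical
  have hcard : Fintype.card (Σ i : Fin s, Fin (b i)) = n := by
    rw [Fintype.card_sigma]
    simpa using hn
  let e : (Σ i : Fin s, Fin (b i)) ≃ Fin n := Fintype.equivFinOfCardEq hcard
  let ψ : ((Σ i : Fin s, Fin (b i)) → F) ≃ₗ[F] (Fin n → F) := LinearEquiv.funCongrLeft F F e.symm
  have hpow : ∀ k, (ψ.conj (jshift (F := F) b)) ^ k = ψ.conj ((jshift (F := F) b) ^ k) := by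
    intro k
    induction k with
    | zero =>
      rw [pow_zero, pow_zero]
      apply LinearMap.ext
      intro v
      simp [LinearEquiv.conj_apply]
    | succ k ih =>
      rw [pow_succ, pow_succ, ih]
      apply LinearMap.ext
      intro v
      simp [LinearEquiv.conj_apply]
  have hker : ∀ k, kerRk (ψ.conj (jshift (F := F) b)) ⊤ k = kerRk (jshift (F := F) b) ⊤ k := by
    intro k
    unfold kerRk
    rw [top_inf_eq, top_inf_eq, hpow]
    have h1 : LinearMap.ker (ψ.conj ((jshift (F := F) b) ^ k)) =
        Submodule.map (ψ : ((Σ i : Fin s, Fin (b i)) → F) →ₗ[F] (Fin n → F))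
          (LinearMap.ker ((jshift (F := F) b) ^ k)) := by
      ext v
      rw [Submodule.mem_map_equiv, LinearMap.mem_ker, LinearMap.mem_ker, LinearEquiv.conj_apply]
      simp
    rw [h1, LinearEquiv.finrank_map_eq]
  refine ⟨ψ.conj (jshift (F := F) b), ?_, ?_⟩
  · rw [hpow, jshift_pow_eq_zero b P hbP, map_zero]
  · intro j
    have h1 := kerRk_succ (ψ.conj (jshift (F := F) b)) ⊤ j
    have h2 := kerRk_succ (jshift (F := F) b) ⊤ j
    rw [hker, hker] at h1
    rw [← topRk_jshift (F := F) b j]
    omega

end Model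

end Cfsg.Agent.Lib.Helper98
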