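import Mathlib
import Cfsg.Agent.Lib.Helper44.Dickson
import Cfsg.Agent.Lib.Helper47.ClassicalEmb
import Cfsg.Agent.S0289
import Cfsg.Agent.S0832

/-!
# Non-singular points of the hyperbolic quadratic form

Helper library (helper98): the number of non-singular points of `quadFormPlus`, fixed
non-singular points of isometries in characteristic two, and a Singer-type matrix of prime
order without fixed vectors.
-/

set_option autoImplicit false
set_option linter.unusedSectionVars false
set_option linter.unusedSimpArgs false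

namespace Cfsg.Agent.Lib.Helper98

open Cfsg Module Matrix QuadraticMap Cfsg.Agent.Lib.Helper51

/-- A matrix of prime order `r` dividing `q ^ d - 1` none of whose powers... more precisely:
an invertible `d × d` matrix `A` with `A ^ r = 1` and `A - 1` invertible. -/
theorem exists_matrix_no_fixed {F : Type*} [Field F] [Fintype F] (p : ℕ) [Fact p.Prime]
    [CharP F p] (d : ℕ) (hd : d ≠ 0) (r : ℕ) [Fact r.Prime] (hr : r ∣ Fintype.card F ^ d - 1) :
    ∃ A : GL (Fin d) F, A ^ r = 1 ∧ IsUnit ((A : Matrix (Fin d) (Fin d) F) - 1) := by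
  classical
  haveI : NeZero d := ⟨hd⟩
  let K := FiniteField.Extension F p d
  have hfr : Module.finrank F K = d := FiniteField.finrank_extension F p d
  have hcard : Nat.card K = Fintype.card F ^ d := by
    rw [FiniteField.natCard_extension, Nat.card_eq_fintype_card]
  let b : Module.Basis (Fin d) F K := Module.finBasisOfFinrankEq F K hfr
  haveI : Fintype K := Fintype.ofFinite K
  have hcu : Nat.card Kˣ = Fintype.card F ^ d - 1 := by rw [Nat.card_units, hcard]
  obtain ⟨θ, hθ⟩ := exists_prime_orderOf_dvd_card' (G := Kˣ) r (by rw [hcu]; exact hr)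
  have hθ1 : θ ≠ 1 := by
    rintro rfl
    rw [orderOf_one] at hθ
    exact (Fact.out : r.Prime).one_lt.ne hθ
  refine ⟨Units.map ((Algebra.leftMulMatrix b : K →ₐ[F] Matrix (Fin d) (Fin d) F) :
    K →* Matrix (Fin d) (Fin d) F) θ, ?_, ?_⟩
  · rw [← map_pow, ← hθ, pow_orderOf_eq_one, map_one]
  · have h1 : ((θ : K) - 1) ≠ 0 := by
      intro h
      apply hθ1
      apply Units.ext
      rw [Units.val_one]
      exact sub_eq_zero.mp h
    have h3 : IsUnit ((θ : K) - 1) := isUnit_iff_ne_zero.mpr h1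
    have h4 := h3.map (Algebra.leftMulMatrix b : K →ₐ[F] Matrix (Fin d) (Fin d) F)
    rw [map_sub, map_one] at h4
    exact h4

section

variable {ι : Type} [Fintype ι] [DecidableEq ι] {F : Type*} [Field F]

/-- In characteristic two a scalar `c` with `c * c = 1` is `1`. -/
theorem eq_one_of_mul_self_two (h2 : (2 : F) = 0) (c : F) (hc : c * c = 1) : c = 1 := by
  have h1 : (c - 1) * (c - 1) = 0 := by linear_combination hc - c * h2 + h2
  exact sub_eq_zero.mp (mul_self_eq_zero.mp h1)

/-- In characteristic two an isometry fixing a non-singular point fixes its non-singular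
vectors. -/
theorem fixed_vector_of_fixed_point (h2 : (2 : F) = 0) (Q : QuadraticForm F (ι → F))
    (M : Matrix ι ι F) (hM : ∀ v, Q (M *ᵥ v) = Q v) (W : Submodule F (ι → F))
    (hW : finrank F W = 1) (v : ι → F) (hv : v ∈ W) (hQv : Q v ≠ 0)
    (hmap : W.map (Matrix.toLin' M) ≤ W) : M *ᵥ v = v := by
  have hv0 : v ≠ 0 := by
    rintro rfl
    exact hQv (map_zero Q)
  have hMv : M *ᵥ v ∈ W := hmap ⟨v, hv, by rw [Matrix.toLin'_apply]⟩
  have h1 := (finrank_eq_one_iff_of_nonzero' (⟨v, hv⟩ : W)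
    (fun h => hv0 (congrArg Subtype.val h))).mp hW ⟨M *ᵥ v, hMv⟩
  obtain ⟨c, hc⟩ := h1
  have hc' : c • v = M *ᵥ v := congrArg Subtype.val hc
  have h3 := hM v
  rw [← hc', QuadraticMap.map_smul, smul_eq_mul] at h3
  have h4 : c * c = 1 := by
    have h5 : (c * c - 1) * Q v = 0 := by linear_combination h3
    rcases mul_eq_zero.mp h5 with h | h
    · exact sub_eq_zero.mp h
    · exact absurd h hQv
  rw [← hc', eq_one_of_mul_self_two h2 c h4, one_smul]

/-- In characteristic two a scalar isometry of a form with a non-singular vector is `1`. -/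
theorem scalar_isometry_eq_one (h2 : (2 : F) = 0) (Q : QuadraticForm F (ι → F))
    (v₀ : ι → F) (hv₀ : Q v₀ ≠ 0) (M : Matrix ι ι F) (hM : ∀ v, Q (M *ᵥ v) = Q v) (z : F)
    (hz : M = z • (1 : Matrix ι ι F)) : z = 1 := by
  have h3 := hM v₀
  rw [hz, Matrix.smul_mulVec, Matrix.one_mulVec, QuadraticMap.map_smul, smul_eq_mul] at h3
  have h5 : (z * z - 1) * Q v₀ = 0 := by linear_combination h3
  rcases mul_eq_zero.mp h5 with h | h
  · exact eq_one_of_mul_self_two h2 z (sub_eq_zero.mp h)
  · exact absurd h hv₀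

end

section plus

variable {F : Type*} [Field F]

/-- The hyperbolic form has a non-singular vector. -/
theorem exists_nonsingular_plus (d : ℕ) (hd : 1 ≤ d) :
    ∃ v : Fin d ⊕ Fin d → F, Cfsg.quadFormPlus d F v = 1 := by
  classical
  obtain ⟨i0⟩ : Nonempty (Fin d) := ⟨⟨0, by omega⟩⟩
  refine ⟨Sum.elim (fun i => if i = i0 then 1 else 0) (fun i => if i = i0 then 1 else 0), ?_⟩
  unfold Cfsg.quadFormPlus
  have h1 : ∀ i : Fin d, (Sum.elim (fun i => if i = i0 then (1 : F) else 0)
      (fun i => if i = i0 then (1 : F) else 0) : Fin d ⊕ Fin d → F) (Sum.inl i) *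
      (Sum.elim (fun i => if i = i0 then (1 : F) else 0)
      (fun i => if i = i0 then (1 : F) else 0) : Fin d ⊕ Fin d → F) (Sum.inr i)
      = if i = i0 then 1 else 0 := by
    intro i
    by_cases h : i = i0 <;> simp [h]
  rw [Finset.sum_congr rfl (fun i _ => h1 i)]
  simp

/-- A totally singular subspace of the hyperbolic form in dimension `2d` has dimension at most
`d`. -/
theorem finrank_le_of_ts_plus (d : ℕ) (W : Submodule F (Fin d ⊕ Fin d → F))
    (hW : ∀ w ∈ W, Cfsg.quadFormPlus d F w = 0) : finrank F W ≤ d := by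
  have h1 := Submodule.finrank_mono (Cfsg.Agent.S0832.ts_le_orth W hW)
  rw [LinearMap.BilinForm.finrank_orthogonal Cfsg.Agent.S0832.B_nondeg,
    Cfsg.Agent.S0832.finrank_V] at h1
  have h3 : finrank F W ≤ finrank F (Fin d ⊕ Fin d → F) := Submodule.finrank_le W
  rw [Cfsg.Agent.S0832.finrank_V] at h3
  omega

/-- The arithmetic behind the number of non-singular points. -/
theorem ns_arith (q d N : ℕ) (hq : 2 ≤ q) (hd : 1 ≤ d)
    (h : N * (q - 1) + (q ^ (2 * d - 1) + q ^ d - q ^ (d - 1)) = q ^ (2 * d)) :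
    N = q ^ (d - 1) * (q ^ d - 1) := by
  obtain ⟨s, rfl⟩ : ∃ s, q = s + 1 := ⟨q - 1, by omega⟩
  obtain ⟨e, rfl⟩ : ∃ e, d = e + 1 := ⟨d - 1, by omega⟩
  have hs : 0 < s := by omega
  obtain ⟨b, hb⟩ : ∃ b, (s + 1) ^ e = b + 1 :=
    ⟨(s + 1) ^ e - 1, by have := Nat.one_le_pow e (s + 1) (by omega); omega⟩
  have e1 : (s + 1) ^ (2 * (e + 1) - 1) = (b + 1) * (b + 1) * (s + 1) := by
    rw [show 2 * (e + 1) - 1 = e + e + 1 by omega, pow_succ, pow_add, hb]
  have e2 : (s + 1) ^ (e + 1) = (b + 1) * (s + 1) := by rw [pow_succ, hb]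
  have e3 : (s + 1) ^ (2 * (e + 1)) = (b + 1) * (b + 1) * (s + 1) * (s + 1) := by
    rw [show 2 * (e + 1) = e + e + 1 + 1 by omega, pow_succ, pow_succ, pow_add, hb]
  simp only [Nat.add_sub_cancel] at h ⊢
  rw [e1, e2, e3, hb] at h
  rw [hb, e2]
  have e4 : (b + 1) * (b + 1) * (s + 1) + (b + 1) * (s + 1) - (b + 1)
      = (b + 1) * (b + 1) * (s + 1) + (b + 1) * s := by
    rw [Nat.sub_eq_iff_eq_add (by nlinarith)]
    ring
  have e5 : (b + 1) * (s + 1) - 1 = b * s + b + s := by
    rw [Nat.sub_eq_iff_eq_add (by nlinarith)]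
    ring
  rw [e4] at h
  rw [e5]
  apply Nat.eq_of_mul_eq_mul_right hs
  have id1 : (b + 1) * (b * s + b + s) * s + ((b + 1) * (b + 1) * (s + 1) + (b + 1) * s)
      = (b + 1) * (b + 1) * (s + 1) * (s + 1) := by ring
  exact Nat.add_right_cancel (h.trans id1.symm)

variable [Fintype F]

/-- The number of non-singular points of the hyperbolic form in dimension `2d` over the field
with `q` elements is `q ^ (d - 1) * (q ^ d - 1)`. -/
theorem card_nonsingular_points_plus {q : ℕ} (hq : Fintype.card F = q) (d : ℕ) (hd : 1 ≤ d) :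
    Nat.card {W : Submodule F (Fin d ⊕ Fin d → F) //
      Module.finrank F ↥W = 1 ∧ ∃ v ∈ W, Cfsg.quadFormPlus d F v ≠ 0}
      = q ^ (d - 1) * (q ^ d - 1) := by
  classical
  have hq2 : 2 ≤ q := by rw [← hq]; exact Fintype.one_lt_card
  have hQs : ∀ (c : F) (v : Fin d ⊕ Fin d → F),
      Cfsg.quadFormPlus d F (c • v) = c * c * Cfsg.quadFormPlus d F v := by
    intro c v
    unfold Cfsg.quadFormPlus
    rw [Finset.mul_sum]
    refine Finset.sum_congr rfl fun i _ => ?_
    simp only [Pi.smul_apply, smul_eq_mul]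
    ring
  have hQ0 : Cfsg.quadFormPlus d F (0 : Fin d ⊕ Fin d → F) = 0 := by
    unfold Cfsg.quadFormPlus
    simp
  apply ns_arith q d _ hq2 hd
  -- the map from non-singular vectors to non-singular points
  have hne : ∀ v : {v : Fin d ⊕ Fin d → F // Cfsg.quadFormPlus d F v ≠ 0}, v.1 ≠ 0 := by
    rintro ⟨v, hv⟩ rfl
    exact hv hQ0
  let f : {v : Fin d ⊕ Fin d → F // Cfsg.quadFormPlus d F v ≠ 0} →
      {W : Submodule F (Fin d ⊕ Fin d → F) //
        Module.finrank F ↥W = 1 ∧ ∃ v ∈ W, Cfsg.quadFormPlus d F v ≠ 0} :=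
    fun v => ⟨Submodule.span F {v.1}, finrank_span_singleton (hne v),
      v.1, Submodule.mem_span_singleton_self _, v.2⟩
  have hfib : ∀ W, Nat.card {a // f a = W} = q - 1 := by
    rintro ⟨W, hfr, v₀, hv₀W, hQv₀⟩
    have hv₀0 : v₀ ≠ 0 := hne ⟨v₀, hQv₀⟩
    have hWspan : Submodule.span F {v₀} = W := by
      apply Submodule.eq_of_le_of_finrank_eq
      · rw [Submodule.span_singleton_le_iff_mem]
        exact hv₀W
      · rw [finrank_span_singleton hv₀0, hfr]
    have hcu : Nat.card Fˣ = q - 1 := by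
      rw [Nat.card_units, Nat.card_eq_fintype_card, hq]
    rw [← hcu]
    symm
    apply Nat.card_congr
    refine Equiv.ofBijective (fun c : Fˣ => ⟨⟨(c : F) • v₀, by
      rw [hQs]
      exact mul_ne_zero (mul_ne_zero c.ne_zero c.ne_zero) hQv₀⟩, by
      apply Subtype.ext
      show Submodule.span F {(c : F) • v₀} = W
      rw [← hWspan]
      exact Submodule.span_singleton_smul_eq c.isUnit v₀⟩) ⟨?_, ?_⟩
    · intro c c' hcc
      have h1 : (c : F) • v₀ = (c' : F) • v₀ := congrArg (fun a => a.1.1) hcc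
      have h3 : ((c : F) - (c' : F)) • v₀ = 0 := by rw [sub_smul, h1, sub_self]
      rcases smul_eq_zero.mp h3 with h | h
      · exact Units.ext (sub_eq_zero.mp h)
      · exact absurd h hv₀0
    · rintro ⟨⟨v, hv⟩, ha⟩
      have h1 : Submodule.span F {v} = W := congrArg Subtype.val ha
      have h3 : v ∈ Submodule.span F {v₀} := by
        rw [hWspan, ← h1]
        exact Submodule.mem_span_singleton_self v
      obtain ⟨c, rfl⟩ := Submodule.mem_span_singleton.mp h3
      have hc0 : c ≠ 0 := by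
        rintro rfl
        rw [zero_smul] at hv
        exact hv hQ0
      exact ⟨Units.mk0 c hc0, rfl⟩
  have hcard : Nat.card {v : Fin d ⊕ Fin d → F // Cfsg.quadFormPlus d F v ≠ 0}
      = Nat.card {W : Submodule F (Fin d ⊕ Fin d → F) //
        Module.finrank F ↥W = 1 ∧ ∃ v ∈ W, Cfsg.quadFormPlus d F v ≠ 0} * (q - 1) := by
    haveI : Fintype {W : Submodule F (Fin d ⊕ Fin d → F) //
        Module.finrank F ↥W = 1 ∧ ∃ v ∈ W, Cfsg.quadFormPlus d F v ≠ 0} := Fintype.ofFinite _
    rw [← Nat.card_congr (Equiv.sigmaFiberEquiv f), Nat.card_sigma]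
    simp only [hfib, Finset.sum_const, Finset.card_univ, smul_eq_mul, Nat.card_eq_fintype_card]
  rw [← hcard, ← Cfsg.Agent.S0289.result hq d hd]
  have htot : Nat.card (Fin d ⊕ Fin d → F) = q ^ (2 * d) := by
    rw [Nat.card_eq_fintype_card, Fintype.card_fun, Fintype.card_sum, Fintype.card_fin, hq,
      two_mul]
  rw [← htot, Nat.card_eq_fintype_card, Nat.card_eq_fintype_card, Nat.card_eq_fintype_card]
  have h5 := Fintype.card_subtype_compl (fun v : Fin d ⊕ Fin d → F => Cfsg.quadFormPlus d F v = 0)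
  have h6 := Fintype.card_subtype_le (fun v : Fin d ⊕ Fin d → F => Cfsg.quadFormPlus d F v = 0)
  have h7 : Fintype.card {v : Fin d ⊕ Fin d → F // Cfsg.quadFormPlus d F v ≠ 0}
      = Fintype.card {v : Fin d ⊕ Fin d → F // ¬ Cfsg.quadFormPlus d F v = 0} :=
    Fintype.card_congr (Equiv.refl _)
  omega

end plus

end Cfsg.Agent.Lib.Helper98
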