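import Cfsg.Agent.Lib.Helper98.O72Defs
import Cfsg.Agent.Lib.Helper58.SpGlue

/-!
Project O72 (S5972): symmetric-form twins of lemmas of `SpGlue.lean`.
-/

set_option autoImplicit false
set_option linter.unusedSectionVars false
set_option linter.unusedVariables false

namespace Cfsg.Agent.Lib.Helper98.O72

open Module Polynomial Cfsg.Agent.Lib.Helper96.Sp Cfsg.Agent.Lib.Helper96.BG

variable {F : Type*} [Field F] [Fintype F] {V : Type*} [AddCommGroup V] [Module F V]
  [FiniteDimensional F V] {B : LinearMap.BilinForm F V}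

theorem exists_glue {F : Type*} [Field F] {V : Type*} [AddCommGroup V] [Module F V]
    [FiniteDimensional F V] {B : LinearMap.BilinForm F V} (hS : B.IsSymm) (hchar2 : (2 : F) ≠ 0)
    {Q : Submodule F V} (hQ : ND B Q) (g : Module.End F V) (hg : Isom B g) (hgQ : Q.map g ≤ Q)
    (r : ℕ) (hgr : g ^ r = 1) :
    ∃ y : Module.End F V, Isom B y ∧ y ^ r = 1 ∧ (∀ u ∈ Q, y u = g u) ∧
      (∀ u ∈ B.orthogonal Q, y u = u) := by
  have h := nd_isCompl hS hchar2 hQ
  set y : Module.End F V :=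
    LinearMap.ofIsCompl h (g.domRestrict Q) (B.orthogonal Q).subtype with hy
  have yQ : ∀ u ∈ Q, y u = g u := fun u hu => by
    have := LinearMap.ofIsCompl_apply_left h (φ := g.domRestrict Q)
      (ψ := (B.orthogonal Q).subtype) ⟨u, hu⟩
    simpa using this
  have yP : ∀ u ∈ B.orthogonal Q, y u = u := fun u hu => by
    have := LinearMap.ofIsCompl_apply_right h (φ := g.domRestrict Q)
      (ψ := (B.orthogonal Q).subtype) ⟨u, hu⟩
    simpa using this
  have hgQ' : ∀ u ∈ Q, g u ∈ Q := fun u hu => hgQ ⟨u, hu, rfl⟩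
  have dec : ∀ x : V, ∃ q ∈ Q, ∃ p ∈ B.orthogonal Q, x = q + p := by
    intro x
    have hx : x ∈ Q ⊔ B.orthogonal Q := by rw [h.sup_eq_top]; exact Submodule.mem_top
    obtain ⟨q, hq, p, hp, rfl⟩ := Submodule.mem_sup.mp hx
    exact ⟨q, hq, p, hp, rfl⟩
  refine ⟨y, ?_, ?_, yQ, yP⟩
  · intro x x'
    obtain ⟨q, hq, p, hp, rfl⟩ := dec x
    obtain ⟨q', hq', p', hp', rfl⟩ := dec x'
    have e1 : y (q + p) = g q + p := by rw [map_add, yQ q hq, yP p hp]
    have e2 : y (q' + p') = g q' + p' := by rw [map_add, yQ q' hq', yP p' hp']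
    rw [e1, e2]
    simp only [map_add, LinearMap.add_apply]
    rw [hg q q', (mem_perp_iff.mp hp') (g q) (hgQ' q hq),
      (mem_perp_iff' hS hchar2).mp hp (g q') (hgQ' q' hq'),
      (mem_perp_iff.mp hp') q hq, (mem_perp_iff' hS hchar2).mp hp q' hq']
  · have pw : ∀ m : ℕ, (∀ q ∈ Q, (y ^ m) q = (g ^ m) q ∧ (g ^ m) q ∈ Q) ∧
        ∀ p ∈ B.orthogonal Q, (y ^ m) p = p := by
      intro m
      induction m with
      | zero => exact ⟨fun q hq => ⟨rfl, hq⟩, fun p _ => rfl⟩
      | succ m ih =>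
        refine ⟨fun q hq => ?_, fun p hp => ?_⟩
        · rw [pow_succ', pow_succ', Module.End.mul_apply, Module.End.mul_apply, (ih.1 q hq).1,
            yQ _ (ih.1 q hq).2]
          exact ⟨rfl, hgQ' _ (ih.1 q hq).2⟩
        · rw [pow_succ', Module.End.mul_apply, ih.2 p hp, yP p hp]
    apply LinearMap.ext
    intro x
    obtain ⟨q, hq, p, hp, rfl⟩ := dec x
    rw [map_add, ((pw r).1 q hq).1, (pw r).2 p hp, hgr]
    rfl

end Cfsg.Agent.Lib.Helper98.O72
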