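import Cfsg.Agent.Lib.Helper98.O72Defs
import Cfsg.Agent.Lib.Helper58.SpMax

/-!
Project O72 (S5972): symmetric-form twins of lemmas of `SpMax.lean`.
-/

set_option autoImplicit false
set_option linter.unusedSectionVars false
set_option linter.unusedVariables false

namespace Cfsg.Agent.Lib.Helper98.O72

open Module Polynomial Cfsg.Agent.Lib.Helper96.Sp Cfsg.Agent.Lib.Helper96.BG

variable {F : Type*} [Field F] [Fintype F] {V : Type*} [AddCommGroup V] [Module F V]
  [FiniteDimensional F V] {B : LinearMap.BilinForm F V}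

theorem exists_max {F : Type*} [Field F] {V : Type*} [AddCommGroup V] [Module F V]
    [FiniteDimensional F V] {B : LinearMap.BilinForm F V} (hS : B.IsSymm) (hchar2 : (2 : F) ≠ 0) (hN : ND B ⊤)
    (r c : ℕ) (hc : 1 ≤ c)
    (x₁ : Module.End F V) (P₀ : Submodule F V) (hP₀ : ND B P₀) (hP₀c : finrank F P₀ = c)
    (hx₁ : Isom B x₁) (hx₁r : x₁ ^ r = 1) (hx₁inv : P₀.map x₁ ≤ P₀)
    (hx₁P : ∀ u ∈ B.orthogonal P₀, x₁ u = u) (hx₁fix : ∀ u ∈ P₀, x₁ u = u → u = 0)
    (hker : ∀ y : Module.End F V, Isom B y → y ^ r = 1 → ND B (LinearMap.ker (y - 1)))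
    (hsub : ∀ K : Submodule F V, ND B K → c < finrank F K →
      ∃ Q : Submodule F V, Q ≤ K ∧ ND B Q ∧ finrank F Q = c ∧
        ∃ h : V ≃ₗ[F] V, Isom B (h : V →ₗ[F] V) ∧ P₀.map (h : V →ₗ[F] V) = Q)
    (k : ℕ) (hk : c * k < finrank F V) :
    ∃ y : Module.End F V, Isom B y ∧ y ^ r = 1 ∧
      finrank F (LinearMap.ker (y - 1)) = finrank F V - c * k := by
  induction k with
  | zero =>
    refine ⟨1, fun x y => rfl, one_pow r, ?_⟩
    rw [sub_self, LinearMap.ker_zero, finrank_top, mul_zero, Nat.sub_zero]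
  | succ k ih =>
    have hk' : c * k < finrank F V := lt_of_le_of_lt (Nat.mul_le_mul_left c (Nat.le_succ k)) hk
    obtain ⟨y, hy, hyr, hfin⟩ := ih hk'
    have hK : ND B (LinearMap.ker (y - 1)) := hker y hy hyr
    have hck : c * (k + 1) = c * k + c := by ring
    have hKc : c < finrank F (LinearMap.ker (y - 1)) := by
      rw [hfin]
      rw [hck] at hk
      omega
    obtain ⟨Q, hQK, hQ, hQc, h, hh, hhQ⟩ := hsub _ hK hKc
    have hh' : ∀ a b : V, B (h a) (h b) = B a b := fun a b => hh a b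
    have hsymm : ∀ a b : V, B (h.symm a) (h.symm b) = B a b := by
      intro a b
      have := hh' (h.symm a) (h.symm b)
      rw [LinearEquiv.apply_symm_apply, LinearEquiv.apply_symm_apply] at this
      exact this.symm
    have hQmem : ∀ q : V, q ∈ Q ↔ ∃ w ∈ P₀, h w = q := by
      intro q
      rw [← hhQ, Submodule.mem_map]
      rfl
    set xQ : Module.End F V := (h : V →ₗ[F] V) ∘ₗ x₁ ∘ₗ (h.symm : V →ₗ[F] V) with hxQ
    have xQ_apply : ∀ v, xQ v = h (x₁ (h.symm v)) := fun v => rfl
    have xQ_isom : Isom B xQ := by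
      intro a b
      rw [xQ_apply, xQ_apply, hh', hx₁, hsymm]
    have xQ_pow : ∀ (m : ℕ) (v : V), (xQ ^ m) v = h ((x₁ ^ m) (h.symm v)) := by
      intro m
      induction m with
      | zero =>
        intro v
        rw [pow_zero, pow_zero, Module.End.one_apply, Module.End.one_apply,
          LinearEquiv.apply_symm_apply]
      | succ m ihm =>
        intro v
        rw [pow_succ, Module.End.mul_apply, ihm, xQ_apply, LinearEquiv.symm_apply_apply,
          pow_succ, Module.End.mul_apply]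
    have xQ_r : xQ ^ r = 1 := by
      apply LinearMap.ext
      intro v
      rw [xQ_pow, hx₁r, Module.End.one_apply, Module.End.one_apply,
        LinearEquiv.apply_symm_apply]
    have xQ_perp : ∀ u ∈ B.orthogonal Q, xQ u = u := by
      intro u hu
      have h1 : h.symm u ∈ B.orthogonal P₀ := by
        rw [mem_perp_iff]
        intro w hw
        have h2 : B w (h.symm u) = B (h w) u := by
          rw [← hh' w (h.symm u), LinearEquiv.apply_symm_apply]
        rw [h2]
        exact (mem_perp_iff.mp hu) (h w) ((hQmem _).2 ⟨w, hw, rfl⟩)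
      rw [xQ_apply, hx₁P _ h1, LinearEquiv.apply_symm_apply]
    have xQ_Q : ∀ q ∈ Q, xQ q ∈ Q := by
      intro q hq
      obtain ⟨w, hw, rfl⟩ := (hQmem q).1 hq
      rw [xQ_apply, LinearEquiv.symm_apply_apply]
      exact (hQmem _).2 ⟨x₁ w, hx₁inv ⟨w, hw, rfl⟩, rfl⟩
    have xQ_fix : ∀ q ∈ Q, xQ q = q → q = 0 := by
      intro q hq hfix
      obtain ⟨w, hw, rfl⟩ := (hQmem q).1 hq
      rw [xQ_apply, LinearEquiv.symm_apply_apply] at hfix
      have h1 : x₁ w = w := h.injective hfix
      rw [hx₁fix w hw h1, map_zero]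
    have y_K : ∀ v, v ∈ LinearMap.ker (y - 1) ↔ y v = v := by
      intro v
      rw [LinearMap.mem_ker, LinearMap.sub_apply, Module.End.one_apply, sub_eq_zero]
    have y_Q : ∀ q ∈ Q, y q = q := fun q hq => (y_K q).1 (hQK hq)
    have y_perp : ∀ p ∈ B.orthogonal Q, y p ∈ B.orthogonal Q := by
      intro p hp
      have h1 : Q.map y ≤ Q := by
        rintro _ ⟨q, hq, rfl⟩
        rw [y_Q q hq]; exact hq
      exact perp_invariant hN hy h1 ⟨p, hp, rfl⟩
    have hcompl := nd_isCompl hS hchar2 hQ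
    have dec : ∀ x : V, ∃ q ∈ Q, ∃ p ∈ B.orthogonal Q, x = q + p := by
      intro x
      have hx : x ∈ Q ⊔ B.orthogonal Q := by rw [hcompl.sup_eq_top]; exact Submodule.mem_top
      obtain ⟨q, hq, p, hp, rfl⟩ := Submodule.mem_sup.mp hx
      exact ⟨q, hq, p, hp, rfl⟩
    have key : ∀ q ∈ Q, ∀ p ∈ B.orthogonal Q, y (xQ (q + p)) = xQ q + y p := by
      intro q hq p hp
      rw [map_add, map_add, y_Q _ (xQ_Q q hq), xQ_perp p hp]
    have hcomm : Commute y xQ := by
      apply LinearMap.ext
      intro v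
      obtain ⟨q, hq, p, hp, rfl⟩ := dec v
      rw [Module.End.mul_apply, Module.End.mul_apply, key q hq p hp, map_add, map_add, y_Q q hq,
        xQ_perp _ (y_perp p hp)]
    refine ⟨y * xQ, ?_, ?_, ?_⟩
    · intro a b
      rw [Module.End.mul_apply, Module.End.mul_apply, hy, xQ_isom]
    · rw [hcomm.mul_pow, hyr, xQ_r, one_mul]
    · have hker_eq : LinearMap.ker (y * xQ - 1) = LinearMap.ker (y - 1) ⊓ B.orthogonal Q := by
        ext v
        rw [LinearMap.mem_ker, LinearMap.sub_apply, Module.End.one_apply, sub_eq_zero,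
          Module.End.mul_apply, Submodule.mem_inf, y_K]
        constructor
        · intro hv
          obtain ⟨q, hq, p, hp, rfl⟩ := dec v
          rw [key q hq p hp] at hv
          have h1 : xQ q - q = p - y p := by
            rw [sub_eq_sub_iff_add_eq_add, hv, add_comm]
          have h2 : xQ q - q ∈ Q ⊓ B.orthogonal Q :=
            ⟨Q.sub_mem (xQ_Q q hq) hq, by rw [h1]; exact Submodule.sub_mem _ hp (y_perp p hp)⟩
          rw [nd_inf_perp hS hchar2 hQ, Submodule.mem_bot, sub_eq_zero] at h2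
          have hq0 : q = 0 := xQ_fix q hq h2
          rw [hq0, map_zero, zero_add, zero_add] at hv
          rw [hq0, zero_add]
          exact ⟨hv, hp⟩
        · rintro ⟨hv1, hv2⟩
          rw [xQ_perp v hv2, hv1]
      rw [hker_eq]
      have h3 := (nd_rel hS hchar2 hQ hK hQK).2.2
      rw [hQc, hfin] at h3
      rw [hck] at hk ⊢
      omega

end Cfsg.Agent.Lib.Helper98.O72
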