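import Cfsg.Agent.Lib.Helper61.O72COPY
import Cfsg.Agent.Lib.Helper98.O72Block
import Cfsg.Agent.Lib.Helper98.O72Glue
import Cfsg.Agent.Lib.Helper98.O72Max
import Cfsg.Agent.Lib.Helper96.SpElem

/-!
Project O72 (S5972): symmetric-form twins of lemmas of `SpElem.lean`.
-/

set_option autoImplicit false
set_option linter.unusedSectionVars false
set_option linter.unusedVariables false

namespace Cfsg.Agent.Lib.Helper98.O72

open Module Polynomial Cfsg.Agent.Lib.Helper96.Sp Cfsg.Agent.Lib.Helper96.BG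

variable {F : Type*} [Field F] [Fintype F] {V : Type*} [AddCommGroup V] [Module F V]
  [FiniteDimensional F V] {B : LinearMap.BilinForm F V}

theorem exists_one_block (hS : B.IsSymm) (hchar2 : (2 : F) ≠ 0) (hN : ND B ⊤) (r : ℕ) [Fact r.Prime] (hr2 : r ≠ 2)
    (hrq : ¬ r ∣ Fintype.card F) (hr0 : (r : F) ≠ 0) (g : Module.End F V) (hg : Isom B g)
    (hgr : g ^ r = 1) (hg1 : g ≠ 1) :
    ∃ (x₁ : Module.End F V) (P₀ : Submodule F V), ND B P₀ ∧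
      finrank F P₀ = blk (Fintype.card F) r ∧ Isom B x₁ ∧ x₁ ^ r = 1 ∧ P₀.map x₁ ≤ P₀ ∧
      (∀ u ∈ B.orthogonal P₀, x₁ u = u) ∧ (∀ u ∈ P₀, x₁ u = u → u = 0) := by
  obtain ⟨hi, -, -, hdisj, hRinv, -, -, -, -⟩ := pow_one_setup g r hrq hr0 hgr
  have hR0 : LinearMap.range (g - 1) ≠ ⊥ := by
    intro h
    apply hg1
    have h1 : g - 1 = 0 := LinearMap.range_eq_bot.mp h
    exact sub_eq_zero.mp h1
  obtain ⟨P₀, hP₀R, hP₀inv, hP₀nd, hP₀c⟩ := exists_block hS hchar2 hN g hg r hr2 hrq hr0 hgr _ hRinv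
    (nd_range hS hchar2 hN g hg r hrq hr0 hgr) le_rfl hR0
  obtain ⟨y, hy, hyr, hyP, hyperp⟩ :=
    exists_glue hS hchar2 hP₀nd g hg hP₀inv r hgr
  refine ⟨y, P₀, hP₀nd, hP₀c, hy, hyr, ?_, hyperp, ?_⟩
  · rintro _ ⟨u, hu, rfl⟩
    rw [hyP u hu]
    exact hP₀inv ⟨u, hu, rfl⟩
  · intro u hu hfix
    rw [hyP u hu] at hfix
    have h1 : u ∈ LinearMap.ker (g - 1) ⊓ LinearMap.range (g - 1) :=
      ⟨LinearMap.mem_ker.mpr (by rw [LinearMap.sub_apply, hfix]; exact sub_self u), hP₀R hu⟩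
    rw [hdisj] at h1
    exact (Submodule.mem_bot F).mp h1

theorem range_le_block (hS : B.IsSymm) (hchar2 : (2 : F) ≠ 0) {P₀ : Submodule F V} (hP₀ : ND B P₀) (x₁ : Module.End F V)
    (hx₁inv : P₀.map x₁ ≤ P₀) (hx₁P : ∀ u ∈ B.orthogonal P₀, x₁ u = u) :
    LinearMap.range (x₁ - 1) ≤ P₀ := by
  rintro _ ⟨v, rfl⟩
  have h1 : v ∈ P₀ ⊔ B.orthogonal P₀ := by
    rw [(nd_isCompl hS hchar2 hP₀).sup_eq_top]
    exact Submodule.mem_top
  obtain ⟨q, hq, p, hp, rfl⟩ := Submodule.mem_sup.mp h1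
  have h2 : (x₁ - 1) (q + p) = x₁ q - q := by
    rw [LinearMap.sub_apply, map_add, hx₁P p hp]
    show x₁ q + p - (q + p) = x₁ q - q
    abel
  rw [h2]
  exact P₀.sub_mem (hx₁inv ⟨q, hq, rfl⟩) hq

theorem exists_max_elt (hS : B.IsSymm) (hchar2 : (2 : F) ≠ 0) (hN : ND B ⊤) (r : ℕ) [Fact r.Prime] (hr2 : r ≠ 2)
    (hrq : ¬ r ∣ Fintype.card F) (hr0 : (r : F) ≠ 0) (g : Module.End F V) (hg : Isom B g)
    (hgr : g ^ r = 1) (hg1 : g ≠ 1) (hVodd : Odd (finrank F V)) :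
    ∃ y : Module.End F V, Isom B y ∧ y ^ r = 1 ∧
      finrank F (LinearMap.ker (y - 1)) = finrank F V % blk (Fintype.card F) r := by
  obtain ⟨hi, -, -, -, -, -, -, -, -⟩ := pow_one_setup g r hrq hr0 hgr
  obtain ⟨x₁, P₀, hP₀nd, hP₀c, hx₁, hx₁r, hx₁inv, hx₁P, hx₁fix⟩ :=
    exists_one_block hS hchar2 hN r hr2 hrq hr0 g hg hgr hg1
  obtain ⟨c', hc'⟩ := blk_even (Fintype.card F) r
  obtain ⟨y, hy, hyr, hyk⟩ := exists_max hS hchar2 hN r
    (blk (Fintype.card F) r) (blk_pos _ _ hi) x₁ P₀ hP₀nd hP₀c hx₁ hx₁r hx₁inv hx₁P hx₁fix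
    (fun y hy hyr => nd_ker hS hchar2 hN y hy r hrq hr0 hyr)
    (fun K hK hlt => by
      obtain ⟨Q, hQK, hQ, hQfin, h, hh, hhQ⟩ :=
        exists_copy hS hchar2 hN hP₀nd hK (by rw [hP₀c]; exact hlt)
      exact ⟨Q, hQK, hQ, by rw [hQfin, hP₀c], h, hh, hhQ⟩)
    (finrank F V / blk (Fintype.card F) r) (by
      have h1 := Nat.div_add_mod (finrank F V) (blk (Fintype.card F) r)
      have h2 : finrank F V % blk (Fintype.card F) r ≠ 0 := by
        intro h0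
        exact hVodd.not_two_dvd_nat (Nat.dvd_trans (blk_even (Fintype.card F) r).two_dvd
          (Nat.dvd_of_mod_eq_zero h0))
      omega)
  refine ⟨y, hy, hyr, ?_⟩
  rw [hyk]
  have := Nat.div_add_mod (finrank F V) (blk (Fintype.card F) r)
  omega

end Cfsg.Agent.Lib.Helper98.O72
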