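import Cfsg.Agent.Lib.Helper98.O72Block
import Cfsg.Agent.Lib.Helper98.O72TI
import Cfsg.Agent.Lib.Helper96.SpTIBound

/-!
Project O72 (S5972): symmetric-form twins of lemmas of `SpTIBound.lean`.
-/

set_option autoImplicit false
set_option linter.unusedSectionVars false
set_option linter.unusedVariables false

namespace Cfsg.Agent.Lib.Helper98.O72

open Module Polynomial Cfsg.Agent.Lib.Helper96.Sp Cfsg.Agent.Lib.Helper96.BG

variable {F : Type*} [Field F] [Fintype F] {V : Type*} [AddCommGroup V] [Module F V]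
  [FiniteDimensional F V] {B : LinearMap.BilinForm F V}

theorem nd_finset_sup (hS : B.IsSymm) (hchar2 : (2 : F) ≠ 0) {ι : Type*} [DecidableEq ι] (P : ι → Submodule F V)
    (S : Finset ι) (hnd : ∀ s ∈ S, ND B (P s))
    (horth : ∀ s ∈ S, ∀ s' ∈ S, s ≠ s' → Orth B (P s) (P s')) :
    ND B (⨆ s ∈ S, P s) ∧ finrank F ↥(⨆ s ∈ S, P s) = ∑ s ∈ S, finrank F (P s) := by
  induction S using Finset.induction_on with
  | empty =>
    have e : (⨆ s ∈ (∅ : Finset ι), P s) = ⊥ := by simp
    rw [e, Finset.sum_empty]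
    exact ⟨nd_bot, finrank_bot F V⟩
  | insert a S ha ih =>
    rw [Finset.iSup_insert, Finset.sum_insert ha]
    obtain ⟨h1, h2⟩ := ih (fun s hs => hnd s (Finset.mem_insert_of_mem hs))
      (fun s hs s' hs' => horth s (Finset.mem_insert_of_mem hs) s' (Finset.mem_insert_of_mem hs'))
    have horth' : Orth B (P a) (⨆ s ∈ S, P s) := by
      apply orth_iSup_right
      intro s
      apply orth_iSup_right
      intro hs
      exact horth a (Finset.mem_insert_self a S) s (Finset.mem_insert_of_mem hs)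
        (by rintro rfl; exact ha hs)
    obtain ⟨h3, h4⟩ := nd_sup hS hchar2 (hnd a (Finset.mem_insert_self a S)) h1 horth'
    exact ⟨h3, by rw [h4, h2]⟩

theorem ti_bound_of_types {F : Type*} [Field F] [Fintype F] {V : Type*} [AddCommGroup V]
    [Module F V] [FiniteDimensional F V] {B : LinearMap.BilinForm F V} (hS : B.IsSymm) (hchar2 : (2 : F) ≠ 0)
    (hN : ND B ⊤) (T : Module.End F V) (hT : Isom B T) (r : ℕ) [Fact r.Prime] (hr2 : r ≠ 2)
    (hrq : ¬ r ∣ Fintype.card F) (hr0 : (r : F) ≠ 0) (hTr : T ^ r = 1) {A t : ℕ}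
    (P : Fin A → Submodule F V) (f : Fin t → Polynomial F) (τ : Fin A → Fin t)
    (hP : ∀ s, ND B (P s) ∧ (P s).map T ≤ P s ∧ P s ≤ LinearMap.range (T - 1) ∧
      finrank F (P s) = orderOf ((Fintype.card F : ℕ) : ZMod r) ∧ Kills T (f (τ s)) (P s))
    (horth : ∀ s s', s ≠ s' → Orth B (P s) (P s'))
    (hf : ∀ a b, a ≠ b → IsCoprime (f a) (f b)) (a₀ : Fin t)
    (hτ : ∀ s s', τ s = τ s' → τ s ≠ a₀ → s = s')
    (W : Submodule F V) (hW : W.map T ≤ W) (hWti : Orth B W W) (hWP : W ≤ ⨆ s, P s) :
    2 * finrank F W ≤ orderOf ((Fintype.card F : ℕ) : ZMod r) *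
      (Finset.univ.filter (fun s => τ s = a₀)).card := by
  classical
  obtain ⟨hi1, -⟩ := pow_one_setup T r hrq hr0 hTr
  have hWle : W ≤ ⨆ s ∈ Finset.univ.filter (fun s => τ s = a₀), P s := by
    have hE : ∀ s₀ : Fin A, τ s₀ ≠ a₀ → ∃ E : Module.End F V, (∀ v ∈ P s₀, E v = v) ∧
        (∀ s, s ≠ s₀ → ∀ v ∈ P s, E v = 0) ∧ (∀ w ∈ W, E w = 0) := by
      intro s₀ hs₀
      have hco : IsCoprime (∏ a ∈ Finset.univ.erase (τ s₀), f a) (f (τ s₀)) :=
        IsCoprime.prod_left (fun a ha => hf a (τ s₀) (Finset.ne_of_mem_erase ha))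
      obtain ⟨a, b, hab⟩ := hco
      have hEv : ∀ v ∈ P s₀, aeval T (a * ∏ a ∈ Finset.univ.erase (τ s₀), f a) v = v := by
        intro v hv
        have h1 := congrArg (fun p => aeval T p v) hab
        simp only [map_add, map_mul, map_one, LinearMap.add_apply, Module.End.mul_apply,
          Module.End.one_apply] at h1
        rw [(hP s₀).2.2.2.2 v hv, map_zero, add_zero] at h1
        rw [map_mul, Module.End.mul_apply]
        exact h1
      have hE0 : ∀ s, s ≠ s₀ → ∀ v ∈ P s,
          aeval T (a * ∏ a ∈ Finset.univ.erase (τ s₀), f a) v = 0 := by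
        intro s hs v hv
        have hne : τ s ≠ τ s₀ := fun h => hs (hτ s s₀ h (h ▸ hs₀))
        obtain ⟨h, hh⟩ : f (τ s) ∣ ∏ a ∈ Finset.univ.erase (τ s₀), f a :=
          Finset.dvd_prod_of_mem f (Finset.mem_erase.mpr ⟨hne, Finset.mem_univ _⟩)
        have e : a * ∏ a ∈ Finset.univ.erase (τ s₀), f a = (a * h) * f (τ s) := by
          rw [hh]
          ring
        rw [e, map_mul, Module.End.mul_apply, (hP s).2.2.2.2 v hv, map_zero]
      refine ⟨aeval T (a * ∏ a ∈ Finset.univ.erase (τ s₀), f a), hEv, hE0, ?_⟩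
      intro w hw
      have h1 : aeval T (a * ∏ a ∈ Finset.univ.erase (τ s₀), f a) w ∈ W :=
        Cfsg.Agent.Lib.Helper4.SpHalf.aeval_mem_of_map_le T W hW _ w hw
      have h2 : aeval T (a * ∏ a ∈ Finset.univ.erase (τ s₀), f a) w ∈ P s₀ := by
        refine Submodule.iSup_induction (p := P)
          (motive := fun v => aeval T (a * ∏ a ∈ Finset.univ.erase (τ s₀), f a) v ∈ P s₀)
          (hWP hw) ?_ ?_ ?_
        · intro s v hv
          by_cases hs : s = s₀
          · subst hs
            rw [hEv v hv]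
            exact hv
          · rw [hE0 s hs v hv]
            exact (P s₀).zero_mem
        · rw [map_zero]
          exact (P s₀).zero_mem
        · intro x y hx hy
          rw [map_add]
          exact (P s₀).add_mem hx hy
      have hinf : W ⊓ P s₀ = ⊥ := by
        have hinv : (W ⊓ P s₀).map T ≤ W ⊓ P s₀ :=
          le_trans (Submodule.map_inf_le T) (inf_le_inf hW (hP s₀).2.1)
        rcases inv_eq_bot_or T r hrq hr0 hTr (P s₀) (hP s₀).2.2.1 (hP s₀).2.2.2.1 _ inf_le_right
          hinv with h | h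
        · exact h
        · exfalso
          have hle : P s₀ ≤ W := inf_eq_right.mp h
          have hbot : P s₀ = ⊥ := by
            rw [eq_bot_iff]
            intro u hu
            rw [Submodule.mem_bot]
            exact (hP s₀).1 u hu (fun v hv => hWti u (hle hu) v (hle hv))
          have := (hP s₀).2.2.2.1
          rw [hbot, finrank_bot] at this
          omega
      have h3 : aeval T (a * ∏ a ∈ Finset.univ.erase (τ s₀), f a) w ∈ W ⊓ P s₀ := ⟨h1, h2⟩
      rw [hinf] at h3
      exact (Submodule.mem_bot F).mp h3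
    choose! E hE1 hE2 hE3 using hE
    intro w hw
    have key : ∀ v ∈ ⨆ s, P s,
        v - ∑ s₀ ∈ Finset.univ.filter (fun s => τ s ≠ a₀), E s₀ v ∈
          ⨆ s ∈ Finset.univ.filter (fun s => τ s = a₀), P s := by
      intro v hv
      refine Submodule.iSup_induction (p := P)
        (motive := fun v => v - ∑ s₀ ∈ Finset.univ.filter (fun s => τ s ≠ a₀), E s₀ v ∈
          ⨆ s ∈ Finset.univ.filter (fun s => τ s = a₀), P s) hv ?_ ?_ ?_
      · intro s v hv
        by_cases hs : τ s = a₀
        · have h0 : ∑ s₀ ∈ Finset.univ.filter (fun s => τ s ≠ a₀), E s₀ v = 0 := by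
            apply Finset.sum_eq_zero
            intro s₀ hs₀
            have hs₀' := (Finset.mem_filter.mp hs₀).2
            exact hE2 s₀ hs₀' s (by rintro rfl; exact hs₀' hs) v hv
          rw [h0, sub_zero]
          exact Submodule.mem_iSup_of_mem s (Submodule.mem_iSup_of_mem
            (Finset.mem_filter.mpr ⟨Finset.mem_univ _, hs⟩) hv)
        · have h0 : ∑ s₀ ∈ Finset.univ.filter (fun s => τ s ≠ a₀), E s₀ v = v := by
            rw [Finset.sum_eq_single s]
            · exact hE1 s hs v hv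
            · intro s₀ hs₀ hne
              exact hE2 s₀ (Finset.mem_filter.mp hs₀).2 s (Ne.symm hne) v hv
            · intro h
              exact (h (Finset.mem_filter.mpr ⟨Finset.mem_univ s, hs⟩)).elim
          rw [h0, sub_self]
          exact Submodule.zero_mem _
      · simp only [map_zero, Finset.sum_const_zero, sub_zero]
        exact Submodule.zero_mem _
      · intro x y hx hy
        have e : x + y - ∑ s₀ ∈ Finset.univ.filter (fun s => τ s ≠ a₀), E s₀ (x + y) =
            (x - ∑ s₀ ∈ Finset.univ.filter (fun s => τ s ≠ a₀), E s₀ x) +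
            (y - ∑ s₀ ∈ Finset.univ.filter (fun s => τ s ≠ a₀), E s₀ y) := by
          simp only [map_add, Finset.sum_add_distrib]
          abel
        rw [e]
        exact Submodule.add_mem _ hx hy
    have h1 := key w (hWP hw)
    have h2 : ∑ s₀ ∈ Finset.univ.filter (fun s => τ s ≠ a₀), E s₀ w = 0 :=
      Finset.sum_eq_zero (fun s₀ hs₀ => hE3 s₀ (Finset.mem_filter.mp hs₀).2 w hw)
    rwa [h2, sub_zero] at h1
  obtain ⟨hnd, hdim⟩ := nd_finset_sup hS hchar2 P (Finset.univ.filter (fun s => τ s = a₀))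
    (fun s _ => (hP s).1) (fun s _ s' _ hne => horth s s' hne)
  have h1 := ti_le_half hS hchar2 hN hnd hWle hWti
  rw [hdim, Finset.sum_congr rfl (fun s _ => (hP s).2.2.2.1), Finset.sum_const, smul_eq_mul] at h1
  rw [mul_comm (orderOf ((Fintype.card F : ℕ) : ZMod r))]
  exact h1

end Cfsg.Agent.Lib.Helper98.O72
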