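import Cfsg.Agent.Lib.Helper98.O72Pow
import Cfsg.Agent.Lib.Helper98.O72Elem
import Cfsg.Agent.Lib.Helper98.O72FixCnt
import Cfsg.Agent.Lib.Helper98.O72BadElt
import Cfsg.Agent.Lib.Helper98.O72TIBound
import Cfsg.Agent.Lib.Helper98.O72CountTI
import Cfsg.Agent.Lib.Helper30.O72WITT
import Cfsg.Agent.Lib.Helper77.SpTypes
import Cfsg.Agent.Lib.Helper96.BGLin
import Cfsg.Agent.Lib.Helper96.BGSemi
import Cfsg.Agent.Lib.Helper96.SpKap

/-!
Project O72 (S5972): the odd-prime part, abstractly.  For a nondegenerate symmetric form in odd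
dimension `2d+1` over a finite field of odd characteristic `p` and an odd prime `r ≠ p` dividing
the number of totally isotropic `m`-spaces: every isometry of order `r` fixes a totally
isotropic `m`-space iff the Burness-Giudici numerical conditions hold.
(Symmetric twin of the odd part of `Cfsg.Agent.S5955`.)
-/

set_option autoImplicit false
set_option linter.unusedSectionVars false
set_option linter.unusedVariables false

namespace Cfsg.Agent.Lib.Helper98.O72

open Module Polynomial Cfsg.Agent.Lib.Helper96.Sp Cfsg.Agent.Lib.Helper96.BG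

variable {F : Type*} [Field F] [Fintype F] {V : Type*} [AddCommGroup V] [Module F V]
  [FiniteDimensional F V] {B : LinearMap.BilinForm F V}

theorem pow_fix' (T : Module.End F V) (u : V) (h : T u = u) (k : ℕ) : (T ^ k) u = u := by
  induction k with
  | zero => rfl
  | succ k ih => rw [pow_succ, Module.End.mul_apply, h, ih]

theorem isom_pow'' (T : Module.End F V) (hT : Isom B T) (k : ℕ) : Isom B (T ^ k) := by
  induction k with
  | zero => intro u v; rfl
  | succ k ih =>
    intro u v
    rw [pow_succ]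
    exact (ih (T u) (T v)).trans (hT u v)

theorem range_inv' (T : Module.End F V) :
    (LinearMap.range (T - 1)).map T ≤ LinearMap.range (T - 1) := by
  rintro _ ⟨_, ⟨w, rfl⟩, rfl⟩
  refine ⟨T w, ?_⟩
  simp only [LinearMap.sub_apply, Module.End.one_apply, map_sub]

/-- the number of indices of a clipped enumeration hitting the last value -/
theorem card_clip_le' (A t : ℕ) (ht : 1 ≤ t) (τ : Fin A → Fin t)
    (hτ : ∀ s, (τ s : ℕ) = min (s : ℕ) (t - 1)) (a₀ : Fin t) (ha₀ : (a₀ : ℕ) = t - 1) :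
    (Finset.univ.filter (fun s => τ s = a₀)).card ≤ A - (t - 1) := by
  have h1 : (Finset.univ.filter (fun s => τ s = a₀)).card ≤ (Finset.range (A - (t - 1))).card := by
    apply Finset.card_le_card_of_injOn (fun s : Fin A => (s : ℕ) - (t - 1))
    · intro s hs
      have hs' : τ s = a₀ := (Finset.mem_filter.mp (Finset.mem_coe.mp hs)).2
      have h2 : min (s : ℕ) (t - 1) = t - 1 := by rw [← hτ s, hs', ha₀]
      have h3 : t - 1 ≤ (s : ℕ) := by
        rw [← h2]; exact min_le_left _ _
      have := s.2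
      simp only [Finset.coe_range, Set.mem_Iio]
      omega
    · intro s hs s' hs' heq
      have hsm : τ s = a₀ := (Finset.mem_filter.mp (Finset.mem_coe.mp hs)).2
      have hsm' : τ s' = a₀ := (Finset.mem_filter.mp (Finset.mem_coe.mp hs')).2
      have h2 : min (s : ℕ) (t - 1) = t - 1 := by rw [← hτ s, hsm, ha₀]
      have h2' : min (s' : ℕ) (t - 1) = t - 1 := by rw [← hτ s', hsm', ha₀]
      have h3 : t - 1 ≤ (s : ℕ) := by rw [← h2]; exact min_le_left _ _
      have h3' : t - 1 ≤ (s' : ℕ) := by rw [← h2']; exact min_le_left _ _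
      apply Fin.ext
      have heq' : (s : ℕ) - (t - 1) = (s' : ℕ) - (t - 1) := heq
      omega
  rwa [Finset.card_range] at h1

/-- The odd-prime part of S5972, abstractly. -/
theorem odd_iff {p : ℕ} [Fact p.Prime] [CharP F p] (hS : B.IsSymm) (hchar2 : (2 : F) ≠ 0)
    (hN : ND B ⊤) (d m : ℕ) (hfinV : finrank F V = 2 * d + 1) (hm : 1 ≤ m) (hmd : m ≤ d)
    (r : ℕ) [Fact r.Prime] (hr2 : r ≠ 2) (hrp : r ≠ p)
    (hrΩ' : r ∣ Nat.card {W : Submodule F V // finrank F W = m ∧ Orth B W W}) :
    (∀ T : Module.End F V, Isom B T → T ^ r = 1 → T ≠ 1 →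
        ∃ W : Submodule F V, finrank F ↥W = m ∧ Orth B W W ∧ W.map T ≤ W) ↔
      (orderOf ((Fintype.card F : ℕ) : ZMod r) ≤ m ∧
        2 * (m % orderOf ((Fintype.card F : ℕ) : ZMod r)) ≤ (2 * d + 1) % blk (Fintype.card F) r ∧
        (Odd (orderOf ((Fintype.card F : ℕ) : ZMod r)) ∨
          (r - 1) / orderOf ((Fintype.card F : ℕ) : ZMod r) +
            2 * (m / orderOf ((Fintype.card F : ℕ) : ZMod r)) ≤
            (2 * d + 1) / orderOf ((Fintype.card F : ℕ) : ZMod r))) := by
  classical
  have hr : r.Prime := Fact.out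
  have hodd : Odd r := hr.odd_of_ne_two hr2
  obtain ⟨hrq, hr0, hi1⟩ := facts (F := F) p r hrp
  have hc1 := blk_pos (Fintype.card F) r hi1
  have hVodd : Odd (finrank F V) := ⟨d, hfinV⟩
  constructor
  · intro hL'
    -- an isometry of order r
    obtain ⟨W₀, -, hW₀ti, hW₀fin⟩ := exists_ti_sub hS hchar2 hN ⊤ hN m (by rw [finrank_top, hfinV]; omega)
    obtain ⟨g, hg, hgr, hg1⟩ := exists_isom_of_dvd_card_ti
      hS hchar2 hN m W₀ ⟨hW₀fin, hW₀ti⟩
      (fun W W' h h' hf => witt_ti hS hchar2 hN W W' h h' hf) r hrΩ'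
    obtain ⟨y, hy, hyr, hyk⟩ := exists_max_elt hS hchar2 hN r hr2 hrq hr0 g hg hgr hg1 hVodd
    rw [hfinV] at hyk
    have hcn : blk (Fintype.card F) r ≤ (2 * d + 1) := by
      have h1 := sp_dvd hS hchar2 hN g hg r hr2 hrq hr0 hgr ⊤ le_top hN
      rw [top_inf_eq, finrank_top, hfinV] at h1
      have h2 : finrank F (LinearMap.ker (g - 1)) < finrank F V := by
        apply Submodule.finrank_lt
        intro h
        apply hg1
        refine LinearMap.ext fun x => ?_
        have h6 : x ∈ LinearMap.ker (g - 1) := by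
          rw [h]
          trivial
        rw [LinearMap.mem_ker, LinearMap.sub_apply, sub_eq_zero] at h6
        exact h6
      rw [hfinV] at h2
      have h3 := Nat.le_of_dvd (by omega) h1
      omega
    have hmod : ((2 * d + 1)) % blk (Fintype.card F) r < blk (Fintype.card F) r :=
      Nat.mod_lt _ (by omega)
    have hy1 : y ≠ 1 := by
      intro h
      rw [h, sub_self, LinearMap.ker_zero, finrank_top, hfinV] at hyk
      omega
    -- splitting of an invariant totally isotropic subspace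
    have hsplit : ∀ x : Module.End F V, Isom (B) x → x ^ r = 1 →
        ∀ W : Submodule F V, finrank F W = m → Orth (B) W W →
        W.map x ≤ W →
        finrank F ↥(W ⊓ LinearMap.ker (x - 1)) + finrank F ↥(W ⊓ LinearMap.range (x - 1)) = m ∧
        2 * finrank F ↥(W ⊓ LinearMap.ker (x - 1)) ≤ finrank F (LinearMap.ker (x - 1)) ∧
        orderOf ((Fintype.card F : ℕ) : ZMod r) ∣ finrank F ↥(W ⊓ LinearMap.range (x - 1)) ∧
        (W ⊓ LinearMap.range (x - 1)).map x ≤ W ⊓ LinearMap.range (x - 1) := by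
      intro x hx hxr W hW1 hW2 hW3
      have hs1 := inv_split x r hr0 hxr W hW3
      have hdisj : (W ⊓ LinearMap.ker (x - 1)) ⊓ (W ⊓ LinearMap.range (x - 1)) = ⊥ := by
        rw [eq_bot_iff]
        rintro v ⟨hv1, hv2⟩
        have : v ∈ LinearMap.ker (x - 1) ⊓ LinearMap.range (x - 1) := ⟨hv1.2, hv2.2⟩
        rw [ker_inf_range x r hr0 hxr] at this
        exact this
      have hs2 := Submodule.finrank_sup_add_finrank_inf_eq (W ⊓ LinearMap.ker (x - 1))
        (W ⊓ LinearMap.range (x - 1))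
      rw [hs1, hdisj, finrank_bot, hW1] at hs2
      have hinvR : (W ⊓ LinearMap.range (x - 1)).map x ≤ W ⊓ LinearMap.range (x - 1) :=
        le_trans (Submodule.map_inf_le x) (inf_le_inf hW3 (range_inv' x))
      refine ⟨by omega, ?_, ?_, hinvR⟩
      · exact ti_le_half hS hchar2 hN (nd_ker hS hchar2 hN x hx r hrq hr0 hxr) inf_le_right
          (orth_mono hW2 inf_le_left inf_le_left)
      · have h5 := orderOf_dvd_sub x r hrq hxr (W ⊓ LinearMap.range (x - 1)) hinvR
        have h6 : W ⊓ LinearMap.range (x - 1) ⊓ LinearMap.ker (x - 1) = ⊥ := by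
          rw [eq_bot_iff]
          rintro v ⟨hv1, hv2⟩
          have : v ∈ LinearMap.ker (x - 1) ⊓ LinearMap.range (x - 1) := ⟨hv2, hv1.2⟩
          rw [ker_inf_range x r hr0 hxr] at this
          exact this
        rw [h6, finrank_bot, Nat.sub_zero] at h5
        exact h5
    obtain ⟨W, h1, h2, h3⟩ := hL' y hy hyr hy1
    obtain ⟨hs1, hs2, ⟨β, hβ⟩, hs4⟩ := hsplit y hy hyr W h1 h2 h3
    rw [hyk] at hs2
    have hkodd : ((2 * d + 1) % blk (Fintype.card F) r) % 2 = 1 := by
      obtain ⟨c', hc'⟩ := blk_even (Fintype.card F) r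
      rw [Nat.mod_mod_of_dvd _ ⟨c', by rw [hc']; ring⟩]
      omega
    -- (a) i ≤ m
    have him : orderOf ((Fintype.card F : ℕ) : ZMod r) ≤ m := by
      by_contra hlt
      push Not at hlt
      have hWR : W ⊓ LinearMap.range (y - 1) = ⊥ := by
        by_contra hne
        obtain ⟨U, hU1, -, hU3⟩ := exists_inv_dim y r hrq hr0 hyr _ hs4 inf_le_right hne
        have := Submodule.finrank_mono hU1
        omega
      rw [hWR, finrank_bot] at hs1
      have hKnd := nd_ker hS hchar2 hN y hy r hrq hr0 hyr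
      refine not_dvd_card_ti_of_lt hS hchar2 hN r hr2 hrq hr0 y hy hyr
        m hlt (by rw [hyk]; omega) (by rw [hyk]; exact hmod) ?_ hrΩ'
      rintro ⟨W₁, hW₁⟩ hdiv
      have hS' : ((B).restrict (LinearMap.ker (y - 1))).IsSymm :=
        restrict_isSymm hS hchar2 _
      have hN' : ND ((B).restrict (LinearMap.ker (y - 1))) ⊤ := by
        intro u _ h
        exact Subtype.ext (hKnd u.1 u.2 (fun v hv => h ⟨v, hv⟩ Submodule.mem_top))
      exact exists_isom_of_dvd_card_ti
        hS' hchar2 hN' m W₁ hW₁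
        (fun W W' h h' hf => witt_ti hS' hchar2 hN' W W' h h' hf) r hdiv
    -- (b)
    have hb : 2 * (m % orderOf ((Fintype.card F : ℕ) : ZMod r)) ≤
        ((2 * d + 1)) % blk (Fintype.card F) r := by
      have h5 : m % orderOf ((Fintype.card F : ℕ) : ZMod r) ≤
          finrank F ↥(W ⊓ LinearMap.ker (y - 1)) := by
        rw [← hs1, hβ, Nat.add_mul_mod_self_left]
        exact Nat.mod_le _ _
      omega
    refine ⟨him, hb, ?_⟩
    -- (c)
    by_cases heven : Even (orderOf ((Fintype.card F : ℕ) : ZMod r))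
    swap
    · exact Or.inl (Nat.not_even_iff_odd.mp heven)
    right
    by_contra hneg
    push Not at hneg
    have hblk : blk (Fintype.card F) r = orderOf ((Fintype.card F : ℕ) : ZMod r) := by
      unfold blk
      rw [if_pos heven]
    obtain ⟨x₁, P₀, hP₀nd, hP₀fin, hx₁, hx₁r, hx₁inv, hx₁P, hx₁fix⟩ :=
      exists_one_block hS hchar2 hN r hr2 hrq hr0 g hg hgr hg1
    rw [hblk] at hP₀fin hcn hb hmod
    obtain ⟨e, f, hef, hfco⟩ := Cfsg.Agent.Lib.Helper77.SpTypes.exists_types r hrq hr0 x₁ P₀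
      hx₁r hx₁inv hP₀fin hx₁fix
    have hile : orderOf ((Fintype.card F : ℕ) : ZMod r) ≤ r - 1 := by
      rw [← hblk]
      exact blk_le (Fintype.card F) r hr2 hrq
    generalize hidef : orderOf ((Fintype.card F : ℕ) : ZMod r) = i at *
    have ht1 : 1 ≤ (r - 1) / i := Nat.div_pos hile (by omega)
    generalize htdef : (r - 1) / i = t at *
    have hn1 : 1 ≤ ((2 * d + 1)) / i := Nat.div_pos hcn (by omega)
    have hnk := Nat.div_add_mod ((2 * d + 1)) i
    have hkk : ((2 * d + 1)) % i < i := Nat.mod_lt _ (by omega)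
    generalize hndef : ((2 * d + 1)) / i = n' at *
    -- the number of blocks
    obtain ⟨A, hA1, hAn, hAcases⟩ : ∃ A : ℕ, 1 ≤ A ∧ A ≤ n' ∧
        ((n' < t ∧ A = n') ∨ (t ≤ n' ∧ (n' - t) % 2 = 0 ∧ A = n') ∨
          (t ≤ n' ∧ (n' - t) % 2 = 1 ∧ A + 1 = n')) := by
      by_cases h1 : n' < t
      · exact ⟨n', hn1, le_rfl, Or.inl ⟨h1, rfl⟩⟩
      · by_cases h2 : (n' - t) % 2 = 0
        · exact ⟨n', hn1, le_rfl, Or.inr (Or.inl ⟨by omega, h2, rfl⟩)⟩
        · exact ⟨n' - 1, by omega, by omega, Or.inr (Or.inr ⟨by omega, by omega, by omega⟩)⟩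
    have hAc : i * A < finrank F V := by
      rw [hfinV]
      have := Nat.mul_le_mul_left i hAn
      obtain ⟨e', he'⟩ : Even (i * A) := heven.mul_right A
      omega
    obtain ⟨x, P, hx, hxr, hP, hPorth, hxrange, hxker⟩ :=
      exists_typed_elt hS hchar2 hN r i hi1 P₀ hP₀nd hP₀fin
        (fun a => x₁ ^ e a) f (fun a => ⟨isom_pow'' x₁ hx₁ (e a), by
          rw [← pow_mul, mul_comm, pow_mul, hx₁r, one_pow], by
          rintro _ ⟨u, hu, rfl⟩
          exact Cfsg.Agent.Lib.Helper96.Sp.pow_mem_of_map_le x₁ P₀ hx₁inv (e a) hu,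
          fun u hu => pow_fix' x₁ u (hx₁P u hu) (e a), (hef a).2.2.2.2, (hef a).2.2.2.1⟩)
        A hAc (fun s => ⟨min (s : ℕ) (t - 1), by omega⟩)
    rw [hfinV] at hxker
    have hx1 : x ≠ 1 := by
      intro h
      rw [h, sub_self, LinearMap.ker_zero, finrank_top, hfinV] at hxker
      have : i * 1 ≤ i * A := Nat.mul_le_mul_left i hA1
      omega
    obtain ⟨W', h1', h2', h3'⟩ := hL' x hx hxr hx1
    obtain ⟨hs1', hs2', ⟨β', hβ'⟩, hs4'⟩ := hsplit x hx hxr W' h1' h2' h3'
    rw [hxker] at hs2'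
    have hbound := ti_bound_of_types hS hchar2 hN x hx r hr2 hrq hr0
      hxr P f (fun s => ⟨min (s : ℕ) (t - 1), by omega⟩)
      (fun s => ⟨(hP s).1, (hP s).2.1, (hP s).2.2.2.2, by rw [hidef]; exact (hP s).2.2.1,
        (hP s).2.2.2.1⟩) hPorth hfco ⟨t - 1, by omega⟩
      (by
        intro s s' hss hne
        have h5 : min (s : ℕ) (t - 1) = min (s' : ℕ) (t - 1) := by
          have := congrArg Fin.val hss
          exact this
        have h6 : min (s : ℕ) (t - 1) ≠ t - 1 := by
          intro h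
          apply hne
          exact Fin.ext h
        apply Fin.ext
        rcases le_total (s : ℕ) (t - 1) with h | h
        · rw [min_eq_left h] at h5 h6
          rcases le_total (s' : ℕ) (t - 1) with h' | h'
          · rw [min_eq_left h'] at h5
            exact h5
          · rw [min_eq_right h'] at h5
            exact absurd h5 h6
        · rw [min_eq_right h] at h6
          exact absurd rfl h6)
      (W' ⊓ LinearMap.range (x - 1)) hs4' (orth_mono h2' inf_le_left inf_le_left)
      (le_trans inf_le_right hxrange)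
    rw [hidef] at hbound
    have hcard := card_clip_le' A t ht1 (fun s => ⟨min (s : ℕ) (t - 1), by omega⟩)
      (fun s => rfl) ⟨t - 1, by omega⟩ rfl
    have hβa : 2 * β' ≤ A - (t - 1) := by
      have h5 : i * (2 * β') ≤ i * (A - (t - 1)) := by
        have h6 := Nat.mul_le_mul_left i hcard
        have e1 : i * (2 * β') = 2 * (i * β') := by ring
        rw [e1, ← hβ']
        exact le_trans hbound h6
      exact Nat.le_of_mul_le_mul_left h5 (by omega)
    have hdm := Nat.div_add_mod m i
    have hmm : m % i < i := Nat.mod_lt _ (by omega)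
    -- i (β' + 1) ≤ i (m / i) when β' + 1 ≤ m / i
    have hfin : ∀ (hβm : β' + 1 ≤ m / i), i ≤ finrank F ↥(W' ⊓ LinearMap.ker (x - 1)) := by
      intro hβm
      have h5 := Nat.mul_le_mul_left i hβm
      have e1 : i * (β' + 1) = i * β' + i := by ring
      rw [e1] at h5
      omega
    rcases hAcases with ⟨hc1', rfl⟩ | ⟨hc1', hc2', rfl⟩ | ⟨hc1', hc2', hc3'⟩
    · -- n' < t
      have hβ0 : β' = 0 := by omega
      rw [hβ0, mul_zero] at hβ'
      omega
    · have hβm : β' + 1 ≤ m / i := by omega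
      have := hfin hβm
      omega
    · have hβm : β' + 1 ≤ m / i := by omega
      have := hfin hβm
      have e2 : i * n' = i * A + i := by rw [← hc3']; ring
      omega
  · rintro ⟨-, hk, hcond⟩ T hT hTr hT1
    obtain ⟨W, h2, h3, h4⟩ := exists_ti_inv_of_pow hS hchar2 hN T hT r hr2 hrq hr0 hTr hi1 d m
      hfinV hmd hk hcond
    exact ⟨W, h4, h3, h2⟩

end Cfsg.Agent.Lib.Helper98.O72
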