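import Cfsg.Agent.Lib.Helper97.KLin
import Cfsg.Agent.Lib.Helper98.AltDer

/-!
# The normaliser of a field subalgebra of full degree (Singer normaliser)

Helper library (helper98, for S5970).  `K` is a field subalgebra of `Matrix (Fin n) (Fin n) F` of
degree `n` (so `F^n` is a `K`-line).  We show that the non-scalar elements of the normaliser of `K`
have eigenspaces of dimension at most one (for `n` prime), construct the Frobenius element of the
normaliser, and show that an element of order `n` with `ord_n(q) = n - 1` is cyclic.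
-/

set_option autoImplicit false

namespace Cfsg.Agent.Lib.Helper98

open Matrix Module Cfsg.Agent.Lib.Helper97

section SingerA

variable {F : Type*} [Field F] {n : ℕ} {K : Subalgebra F (Matrix (Fin n) (Fin n) F)}

theorem singer_exists_ne (hn : 0 < n) : ∃ u : Fin n → F, u ≠ 0 := by
  refine ⟨Pi.single ⟨0, hn⟩ 1, fun h => ?_⟩
  have h1 := congrFun h ⟨0, hn⟩
  simp at h1

/-- If the degree equals the dimension, `F^n` is a `K`-line. -/
theorem singer_span (hK : Cfsg.Geo.IsFieldSubalgebra n K) (u : Fin n → F) (hu : u ≠ 0)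
    (v : Fin n → F) : ∃ k : ↥K, k.1 *ᵥ u = v := by
  have hinj : Function.Injective (actLin K u) := by
    rw [← LinearMap.ker_eq_bot, LinearMap.ker_eq_bot']
    intro k hk
    have hk' : k.1 *ᵥ u = 0 := hk
    exact Subtype.ext (fs_eq_zero hK k.2 hu hk')
  have hfin : finrank F ↥K = finrank F (Fin n → F) := by
    rw [hK.finrank_eq, Module.finrank_fin_fun]
  obtain ⟨k, hk⟩ := (LinearMap.injective_iff_surjective_of_finrank_eq_finrank hfin).mp hinj v
  exact ⟨k, hk⟩

/-- The centraliser of `K` in the matrix algebra is `K`. -/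
theorem singer_centralizer (hK : Cfsg.Geo.IsFieldSubalgebra n K) (hn : 0 < n)
    (y : Matrix (Fin n) (Fin n) F) (hy : ∀ k ∈ K, y * k = k * y) : y ∈ K := by
  obtain ⟨u, hu⟩ := singer_exists_ne (F := F) hn
  obtain ⟨k₀, hk₀⟩ := singer_span hK u hu (y *ᵥ u)
  have h1 : y = k₀.1 := by
    apply Matrix.mulVec_injective
    funext v
    obtain ⟨k, rfl⟩ := singer_span hK u hu v
    rw [Matrix.mulVec_mulVec, hy k.1 k.2, ← Matrix.mulVec_mulVec, ← hk₀, Matrix.mulVec_mulVec,
      Matrix.mulVec_mulVec, hK.comm k.1 k.2 k₀.1 k₀.2]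
  rw [h1]
  exact k₀.2

/-- A non-scalar element of the normaliser of `K` (of prime degree `n`) has eigenspaces of
dimension at most one. -/
theorem singer_eigen (hK : Cfsg.Geo.IsFieldSubalgebra n K) (hn : n.Prime) (g : GL (Fin n) F)
    (hg : g ∈ Cfsg.Geo.subalgebraNormalizer K)
    (hns : ∀ c : F, g.1 ≠ c • (1 : Matrix (Fin n) (Fin n) F))
    (μ : F) (u u' : Fin n → F) (hu : u ≠ 0) (h1 : g.1 *ᵥ u = μ • u) (h2 : g.1 *ᵥ u' = μ • u') :
    ∃ c : F, u' = c • u := by
  have hnpos : 0 < n := hn.pos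
  haveI : Nonempty (Fin n) := ⟨⟨0, hnpos⟩⟩
  haveI : IsDomain ↥K := (fs_isField hK).isDomain
  have hgi : g⁻¹.1 * g.1 = 1 := by rw [← Units.val_mul, inv_mul_cancel, Units.val_one]
  have hμ : μ ≠ 0 := by
    intro h0
    rw [h0, zero_smul] at h1
    apply hu
    calc u = (g⁻¹.1 * g.1) *ᵥ u := by rw [hgi, Matrix.one_mulVec]
      _ = 0 := by rw [← Matrix.mulVec_mulVec, h1, Matrix.mulVec_zero]
  let S : Subalgebra F ↥K :=
    { carrier := {k | g.1 * k.1 = k.1 * g.1}
      mul_mem' := fun {a b} ha hb => by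
        have ha' : g.1 * a.1 = a.1 * g.1 := ha
        have hb' : g.1 * b.1 = b.1 * g.1 := hb
        show g.1 * (a.1 * b.1) = a.1 * b.1 * g.1
        rw [← mul_assoc, ha', mul_assoc, hb', mul_assoc]
      add_mem' := fun {a b} ha hb => by
        have ha' : g.1 * a.1 = a.1 * g.1 := ha
        have hb' : g.1 * b.1 = b.1 * g.1 := hb
        show g.1 * (a.1 + b.1) = (a.1 + b.1) * g.1
        rw [mul_add, add_mul, ha', hb']
      algebraMap_mem' := fun c => by
        show g.1 * algebraMap F (Matrix (Fin n) (Fin n) F) c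
          = algebraMap F (Matrix (Fin n) (Fin n) F) c * g.1
        exact (Algebra.commutes c g.1).symm }
  have hSmem : ∀ k : ↥K, k ∈ S ↔ g.1 * k.1 = k.1 * g.1 := fun k => Iff.rfl
  have hsimple := Subalgebra.isSimpleOrder_of_finrank_prime F ↥K (by rw [hK.finrank_eq]; exact hn)
  rcases hsimple.eq_bot_or_eq_top S with hbot | htop
  · obtain ⟨k, hk⟩ := singer_span hK u hu u'
    have hk' : g.1 * k.1 * g⁻¹.1 ∈ K := (hg k.1).mp k.2
    have e1 : (g.1 * k.1 * g⁻¹.1) *ᵥ (g.1 *ᵥ u) = g.1 *ᵥ (k.1 *ᵥ u) := by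
      rw [Matrix.mulVec_mulVec, Matrix.mul_assoc, hgi, Matrix.mul_one, Matrix.mulVec_mulVec]
    rw [h1, hk, h2, Matrix.mulVec_smul] at e1
    have e2 : (g.1 * k.1 * g⁻¹.1) *ᵥ u = k.1 *ᵥ u := by
      rw [hk]
      exact smul_right_injective _ hμ e1
    have e3 : (g.1 * k.1 * g⁻¹.1 - k.1) *ᵥ u = 0 := by rw [Matrix.sub_mulVec, e2, sub_self]
    have e4 := fs_eq_zero hK (K.sub_mem hk' k.2) hu e3
    have e5 : g.1 * k.1 * g⁻¹.1 = k.1 := sub_eq_zero.mp e4
    have hcomm : g.1 * k.1 = k.1 * g.1 := by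
      calc g.1 * k.1 = g.1 * k.1 * (g⁻¹.1 * g.1) := by rw [hgi, Matrix.mul_one]
        _ = (g.1 * k.1 * g⁻¹.1) * g.1 := by simp only [Matrix.mul_assoc]
        _ = k.1 * g.1 := by rw [e5]
    have hkS : k ∈ S := (hSmem k).mpr hcomm
    rw [hbot] at hkS
    obtain ⟨c, hc⟩ := Algebra.mem_bot.mp hkS
    refine ⟨c, ?_⟩
    rw [← hk, ← hc, Subalgebra.coe_algebraMap, Algebra.algebraMap_eq_smul_one, Matrix.smul_mulVec,
      Matrix.one_mulVec]
  · exfalso
    have hall : ∀ k ∈ K, g.1 * k = k * g.1 := by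
      intro k hk
      have h3 : (⟨k, hk⟩ : ↥K) ∈ S := by
        rw [htop]
        exact Algebra.mem_top
      exact (hSmem _).mp h3
    have hgK := singer_centralizer hK hnpos g.1 hall
    have h3 : (g.1 - μ • (1 : Matrix (Fin n) (Fin n) F)) *ᵥ u = 0 := by
      rw [Matrix.sub_mulVec, h1, Matrix.smul_mulVec, Matrix.one_mulVec, sub_self]
    have h4 := fs_eq_zero hK (K.sub_mem hgK (K.smul_mem K.one_mem μ)) hu h3
    exact hns μ (sub_eq_zero.mp h4)

theorem singer_pow_card {L : Type*} [Field L] [Finite L] (x : L) : x ^ Nat.card L = x := by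
  have : Fintype L := Fintype.ofFinite L
  rw [Nat.card_eq_fintype_card]
  exact FiniteField.pow_card x

theorem singer_exists_pow_ne {L : Type*} [Field L] [Finite L] (q : ℕ) (hq : 1 < q)
    (hcard : q < Nat.card L) : ∃ k : L, k ^ q ≠ k := by
  obtain ⟨g, hg⟩ := IsCyclic.exists_generator (α := Lˣ)
  have hord : orderOf g = Nat.card L - 1 := by
    rw [orderOf_eq_card_of_forall_mem_zpowers hg, Nat.card_units]
  refine ⟨(g : L), fun h => ?_⟩
  have h1 : g ^ (q - 1) = 1 := by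
    apply Units.ext
    rw [Units.val_pow_eq_pow_val, Units.val_one]
    have h2 : (g : L) ^ (q - 1) * g = 1 * g := by
      rw [← pow_succ, Nat.sub_add_cancel hq.le, h, one_mul]
    exact mul_right_cancel₀ g.ne_zero h2
  have h2 := orderOf_dvd_of_pow_eq_one h1
  rw [hord] at h2
  have h3 := Nat.le_of_dvd (by omega) h2
  omega

end SingerA

section SingerFrob

variable {F : Type*} [Field F] [Fintype F] {n : ℕ} {K : Subalgebra F (Matrix (Fin n) (Fin n) F)}

/-- The Frobenius element of the normaliser of `K`: a non-scalar element of order `n`. -/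
theorem singer_frob (hK : Cfsg.Geo.IsFieldSubalgebra n K) (hn : 2 ≤ n) :
    ∃ y : GL (Fin n) F, y ∈ Cfsg.Geo.subalgebraNormalizer K ∧ y.1 ^ n = 1 ∧
      ∀ c : F, y.1 ≠ c • (1 : Matrix (Fin n) (Fin n) F) := by
  have hnpos : 0 < n := by omega
  haveI : Nonempty (Fin n) := ⟨⟨0, hnpos⟩⟩
  obtain ⟨u, hu⟩ := singer_exists_ne (F := F) hnpos
  have hcomm : ∀ a b : ↥K, a * b = b * a := fun a b => Subtype.ext (hK.comm a a.2 b b.2)
  obtain ⟨q, hq⟩ : ∃ q : ℕ, q = Fintype.card F := ⟨_, rfl⟩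
  have hq1 : 1 < q := by rw [hq]; exact Fintype.one_lt_card
  have hpow : ∀ k : ↥K, k ^ (q ^ n) = k := by
    let _ : Field ↥K := (fs_isField hK).toField
    intro k
    have h3 := singer_pow_card (L := ↥K) k
    rw [fs_card hK, ← hq] at h3
    exact h3
  obtain ⟨k₁, hk₁⟩ : ∃ k₁ : ↥K, k₁ ^ q ≠ k₁ := by
    let _ : Field ↥K := (fs_isField hK).toField
    have hcard : q < Nat.card ↥K := by
      rw [fs_card hK, ← hq]
      calc q = q ^ 1 := (pow_one q).symm
        _ < q ^ n := Nat.pow_lt_pow_right hq1 (by omega)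
    exact singer_exists_pow_ne (L := ↥K) q hq1 hcard
  let Fr : ↥K →ₗ[F] ↥K :=
    { toFun := fun k => k ^ q
      map_add' := fun a b => by
        rw [hq]
        exact fs_frob_add hK a b
      map_smul' := fun c k => by
        rw [RingHom.id_apply, Algebra.smul_def, Algebra.smul_def,
          (show Commute (algebraMap F ↥K c) k from hcomm _ _).mul_pow, hq, fs_frob_algebraMap] }
  have hFr : ∀ k : ↥K, Fr k = k ^ q := fun k => rfl
  have hinj : Function.Injective (actLin K u) := by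
    rw [← LinearMap.ker_eq_bot, LinearMap.ker_eq_bot']
    intro k hk
    have hk' : k.1 *ᵥ u = 0 := hk
    exact Subtype.ext (fs_eq_zero hK k.2 hu hk')
  have hsurj : Function.Surjective (actLin K u) := fun v => by
    obtain ⟨k, hk⟩ := singer_span hK u hu v
    exact ⟨k, hk⟩
  let φ : ↥K ≃ₗ[F] (Fin n → F) := LinearEquiv.ofBijective (actLin K u) ⟨hinj, hsurj⟩
  have hφ : ∀ k : ↥K, φ k = k.1 *ᵥ u := fun k => rfl
  obtain ⟨M₀, hM₀⟩ : ∃ M₀ : Matrix (Fin n) (Fin n) F,
      M₀ = LinearMap.toMatrix' (φ.toLinearMap ∘ₗ Fr ∘ₗ φ.symm.toLinearMap) := ⟨_, rfl⟩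
  have hM : ∀ k : ↥K, M₀ *ᵥ (k.1 *ᵥ u) = (k ^ q).1 *ᵥ u := by
    intro k
    rw [hM₀, ← Matrix.toLin'_apply, Matrix.toLin'_toMatrix']
    show φ (Fr (φ.symm (k.1 *ᵥ u))) = _
    rw [← hφ k, LinearEquiv.symm_apply_apply, hFr, hφ]
  have hMj : ∀ (j : ℕ) (k : ↥K), (M₀ ^ j) *ᵥ (k.1 *ᵥ u) = (k ^ (q ^ j)).1 *ᵥ u := by
    intro j
    induction j with
    | zero =>
      intro k
      rw [pow_zero, Matrix.one_mulVec, pow_zero, pow_one]
    | succ j ih =>
      intro k
      rw [pow_succ, ← Matrix.mulVec_mulVec, hM, ih, ← pow_mul, ← pow_succ']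
  have hMn : M₀ ^ n = 1 := by
    apply Matrix.mulVec_injective
    funext v
    obtain ⟨k, rfl⟩ := singer_span hK u hu v
    rw [hMj, hpow, Matrix.one_mulVec]
  have hsl : ∀ (j : ℕ) (k : ↥K), M₀ ^ j * k.1 = (k ^ (q ^ j)).1 * M₀ ^ j := by
    intro j k
    apply Matrix.mulVec_injective
    funext v
    obtain ⟨k₂, rfl⟩ := singer_span hK u hu v
    calc (M₀ ^ j * k.1) *ᵥ (k₂.1 *ᵥ u) = (M₀ ^ j) *ᵥ ((k * k₂).1 *ᵥ u) := by
          rw [← Matrix.mulVec_mulVec, Subalgebra.coe_mul, ← Matrix.mulVec_mulVec]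
      _ = ((k * k₂) ^ (q ^ j)).1 *ᵥ u := hMj j _
      _ = (k ^ (q ^ j)).1 *ᵥ ((k₂ ^ (q ^ j)).1 *ᵥ u) := by
          rw [(show Commute k k₂ from hcomm _ _).mul_pow, Subalgebra.coe_mul,
            ← Matrix.mulVec_mulVec]
      _ = ((k ^ (q ^ j)).1 * M₀ ^ j) *ᵥ (k₂.1 *ᵥ u) := by
          rw [← Matrix.mulVec_mulVec, hMj]
  have hn1 : n - 1 + 1 = n := by omega
  have hMl : M₀ * M₀ ^ (n - 1) = 1 := by rw [← pow_succ', hn1, hMn]
  have hMr : M₀ ^ (n - 1) * M₀ = 1 := by rw [← pow_succ, hn1, hMn]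
  obtain ⟨y, hy, hyi⟩ : ∃ y : GL (Fin n) F, y.1 = M₀ ∧ y⁻¹.1 = M₀ ^ (n - 1) :=
    ⟨⟨M₀, M₀ ^ (n - 1), hMl, hMr⟩, rfl, rfl⟩
  refine ⟨y, ?_, ?_, ?_⟩
  · intro k
    rw [hy, hyi]
    constructor
    · intro hk
      have h3 := hsl 1 ⟨k, hk⟩
      rw [pow_one] at h3
      have h4 : M₀ * k * M₀ ^ (n - 1) = ((⟨k, hk⟩ : ↥K) ^ (q ^ 1)).1 := by
        calc M₀ * k * M₀ ^ (n - 1) = ((⟨k, hk⟩ : ↥K) ^ (q ^ 1)).1 * M₀ * M₀ ^ (n - 1) := by
              rw [← h3]
          _ = ((⟨k, hk⟩ : ↥K) ^ (q ^ 1)).1 := by rw [mul_assoc, hMl, mul_one]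
      rw [h4]
      exact Subtype.property _
    · intro hk
      have h3 := hsl (n - 1) ⟨_, hk⟩
      have h4 : k = ((⟨_, hk⟩ : ↥K) ^ (q ^ (n - 1))).1 := by
        calc k = M₀ ^ (n - 1) * (M₀ * k * M₀ ^ (n - 1)) * M₀ := by
              rw [← mul_assoc, ← mul_assoc, hMr, one_mul, mul_assoc, hMr, mul_one]
          _ = ((⟨_, hk⟩ : ↥K) ^ (q ^ (n - 1))).1 * M₀ ^ (n - 1) * M₀ := by rw [← h3]
          _ = ((⟨_, hk⟩ : ↥K) ^ (q ^ (n - 1))).1 := by rw [mul_assoc, hMr, mul_one]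
      rw [h4]
      exact Subtype.property _
  · rw [hy]
    exact hMn
  · intro c hc
    rw [hy] at hc
    have hc0 : c ≠ 0 := by
      intro h0
      rw [hc, h0, zero_smul, zero_mul] at hMl
      exact zero_ne_one hMl
    have h3 := hsl 1 k₁
    rw [pow_one, pow_one, hc, Matrix.smul_mul, Matrix.one_mul, Matrix.mul_smul, Matrix.mul_one] at h3
    have h4 : k₁.1 = (k₁ ^ q).1 := smul_right_injective _ hc0 h3
    exact hk₁ (Subtype.ext h4).symm

end SingerFrob

section SingerB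

variable {F : Type*} [Field F] [Fintype F] {p : ℕ} [Fact p.Prime] [CharP F p]

/-- An element of order `n` on `F^n`, where `q` has order `n - 1` modulo the prime `n`, has a
cyclic vector. -/
theorem singer_cyclic (n : ℕ) [Fact n.Prime] (hn3 : 3 ≤ n) (hnp : n ≠ p)
    (hord : orderOf ((Fintype.card F : ℕ) : ZMod n) = n - 1)
    (X : (Fin n → F) →ₗ[F] (Fin n → F)) (hX : X ^ n = 1) (hX1 : X ≠ 1) :
    ∃ (v : Fin n → F) (b : Basis (Fin n) F (Fin n → F)), ∀ j : Fin n, b j = (X ^ (j : ℕ)) v := by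
  classical
  have hnP : n.Prime := Fact.out
  have hXsub : ∀ a : Fin n → F, (X - 1) a = X a - a := fun a => rfl
  have hUX : ∀ z ∈ LinearMap.range (X - 1), X z ∈ LinearMap.range (X - 1) := by
    rintro _ ⟨a, rfl⟩
    exact ⟨X a, by rw [hXsub, hXsub, map_sub]⟩
  have hdvdU := lagder_dvd_finrank X n hnp hX (LinearMap.range (X - 1)) le_rfl hUX
  rw [hord] at hdvdU
  have hU0 : LinearMap.range (X - 1) ≠ ⊥ := by
    intro h0
    apply hX1
    have h1 : X - 1 = 0 := LinearMap.range_eq_bot.mp h0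
    exact sub_eq_zero.mp h1
  have hUle : finrank F (LinearMap.range (X - 1)) ≤ n := by
    have := Submodule.finrank_le (LinearMap.range (X - 1))
    rwa [Module.finrank_fin_fun] at this
  have hUpos : 0 < finrank F (LinearMap.range (X - 1)) := by
    rw [Nat.pos_iff_ne_zero]
    intro h0
    exact hU0 (Submodule.finrank_eq_zero.mp h0)
  have hUfin : finrank F (LinearMap.range (X - 1)) = n - 1 := by
    obtain ⟨t, ht⟩ := hdvdU
    have ht1 : 1 ≤ t := by
      rcases Nat.eq_zero_or_pos t with h0 | h0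
      · rw [h0, mul_zero] at ht
        omega
      · exact h0
    have ht2 : t < 2 := by
      by_contra h2
      push Not at h2
      have h3 : (n - 1) * 2 ≤ (n - 1) * t := Nat.mul_le_mul_left _ h2
      omega
    have ht3 : t = 1 := by omega
    rw [ht, ht3, mul_one]
  have hrn := LinearMap.finrank_range_add_finrank_ker (X - 1)
  rw [Module.finrank_fin_fun, hUfin] at hrn
  have hWfin : finrank F (LinearMap.ker (X - 1)) = 1 := by omega
  obtain ⟨⟨w, hwW⟩, hw0'⟩ := (finrank_pos_iff_exists_ne_zero (R := F)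
    (M := LinearMap.ker (X - 1))).mp (by omega)
  have hw0 : w ≠ 0 := fun h => hw0' (Subtype.ext h)
  obtain ⟨⟨u, huU⟩, hu0'⟩ := (finrank_pos_iff_exists_ne_zero (R := F)
    (M := LinearMap.range (X - 1))).mp hUpos
  have hu0 : u ≠ 0 := fun h => hu0' (Subtype.ext h)
  have hWU : ∀ z, z ∈ LinearMap.ker (X - 1) → z ∈ LinearMap.range (X - 1) → z = 0 := by
    rintro _ hz ⟨a, rfl⟩
    apply lagder_ker_range X n hnP hnp hX a
    have h1 : (X - 1) ((X - 1) a) = 0 := LinearMap.mem_ker.mp hz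
    rw [hXsub ((X - 1) a)] at h1
    exact sub_eq_zero.mp h1
  obtain ⟨v, hv⟩ : ∃ v, v = w + u := ⟨_, rfl⟩
  obtain ⟨S, hS⟩ : ∃ S : Submodule F (Fin n → F),
      S = Submodule.span F (Set.range fun j : Fin n => (X ^ (j : ℕ)) v) := ⟨_, rfl⟩
  have hgen : ∀ j : Fin n, (X ^ (j : ℕ)) v ∈ S := fun j => by
    rw [hS]
    exact Submodule.subset_span ⟨j, rfl⟩
  have hvS : v ∈ S := by
    have := hgen ⟨0, hnP.pos⟩
    simpa using this
  have hSX : ∀ z ∈ S, X z ∈ S := by
    have h1 : S ≤ S.comap X := by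
      rw [hS]
      apply Submodule.span_le.mpr
      rintro _ ⟨j, rfl⟩
      show X ((X ^ (j : ℕ)) v) ∈ Submodule.span F (Set.range fun j : Fin n => (X ^ (j : ℕ)) v)
      rw [← hS, ← Module.End.mul_apply, ← pow_succ']
      by_cases hj : (j : ℕ) + 1 < n
      · exact hgen ⟨(j : ℕ) + 1, hj⟩
      · have hj' : (j : ℕ) + 1 = n := by have := j.2; omega
        rw [hj', hX]
        exact hvS
    exact fun z hz => h1 hz
  have hwker : X w = w := by
    have h1 : (X - 1) w = 0 := LinearMap.mem_ker.mp hwW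
    rw [hXsub] at h1
    exact sub_eq_zero.mp h1
  have hXv : (X - 1) v = (X - 1) u := by
    rw [hXsub, hXsub, hv, map_add, hwker]
    abel
  have hXv0 : (X - 1) v ≠ 0 := by
    rw [hXv]
    intro h0
    exact hu0 (hWU u (LinearMap.mem_ker.mpr h0) huU)
  have hXvS : (X - 1) v ∈ S := by
    rw [hXsub]
    exact S.sub_mem (hSX v hvS) hvS
  have hT := lagder_dvd_finrank X n hnp hX (S ⊓ LinearMap.range (X - 1)) inf_le_right
    (fun z hz => ⟨hSX z hz.1, hUX z hz.2⟩)
  rw [hord] at hT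
  have hTpos : 0 < finrank F ↥(S ⊓ LinearMap.range (X - 1)) := by
    rw [Nat.pos_iff_ne_zero]
    intro h0
    have h1 : (X - 1) v ∈ S ⊓ LinearMap.range (X - 1) := ⟨hXvS, ⟨v, rfl⟩⟩
    rw [Submodule.finrank_eq_zero.mp h0] at h1
    exact hXv0 ((Submodule.mem_bot F).mp h1)
  have hTU : S ⊓ LinearMap.range (X - 1) = LinearMap.range (X - 1) := by
    apply Submodule.eq_of_le_of_finrank_le inf_le_right
    rw [hUfin]
    exact Nat.le_of_dvd hTpos hT
  have hUS : LinearMap.range (X - 1) ≤ S := by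
    rw [← hTU]
    exact inf_le_left
  have hwS : w ∈ S := by
    have h1 : w = v - u := by rw [hv]; abel
    rw [h1]
    exact S.sub_mem hvS (hUS huU)
  have hinf : LinearMap.range (X - 1) ⊓ Submodule.span F {w} = ⊥ := by
    rw [eq_bot_iff]
    rintro z ⟨hz1, hz2⟩
    obtain ⟨c, rfl⟩ := Submodule.mem_span_singleton.mp hz2
    rw [Submodule.mem_bot]
    exact hWU _ ((LinearMap.ker (X - 1)).smul_mem c hwW) hz1
  have hsup := Submodule.finrank_sup_add_finrank_inf_eq (LinearMap.range (X - 1))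
    (Submodule.span F {w})
  rw [hinf, finrank_bot, add_zero, hUfin, finrank_span_singleton hw0] at hsup
  have hle : LinearMap.range (X - 1) ⊔ Submodule.span F {w} ≤ S :=
    sup_le hUS ((Submodule.span_singleton_le_iff_mem w S).mpr hwS)
  have hStop : S = ⊤ := by
    apply Submodule.eq_top_of_finrank_eq
    have h1 := Submodule.finrank_mono hle
    have h2 := Submodule.finrank_le S
    rw [Module.finrank_fin_fun] at h2 ⊢
    omega
  have hspan : ⊤ ≤ Submodule.span F (Set.range fun j : Fin n => (X ^ (j : ℕ)) v) := by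
    rw [← hS, hStop]
  refine ⟨v, basisOfTopLeSpanOfCardEqFinrank (fun j : Fin n => (X ^ (j : ℕ)) v) hspan
    (by rw [Fintype.card_fin, Module.finrank_fin_fun]), fun j => ?_⟩
  rw [coe_basisOfTopLeSpanOfCardEqFinrank]

omit [Fintype F] [Fact p.Prime] [CharP F p] in
/-- Two endomorphisms of order `n` with cyclic bases are conjugate. -/
theorem singer_conj (n : ℕ) (hn : 0 < n) (X Y : (Fin n → F) →ₗ[F] (Fin n → F))
    (hX : X ^ n = 1) (hY : Y ^ n = 1) (v v' : Fin n → F) (b b' : Basis (Fin n) F (Fin n → F))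
    (hb : ∀ j : Fin n, b j = (X ^ (j : ℕ)) v) (hb' : ∀ j : Fin n, b' j = (Y ^ (j : ℕ)) v') :
    ∃ g : (Fin n → F) ≃ₗ[F] (Fin n → F), ∀ z, g (X z) = Y (g z) := by
  refine ⟨b.equiv b' (Equiv.refl _), ?_⟩
  have h1 : (b.equiv b' (Equiv.refl _)).toLinearMap ∘ₗ X
      = Y ∘ₗ (b.equiv b' (Equiv.refl _)).toLinearMap := by
    apply b.ext
    intro j
    rw [LinearMap.comp_apply, LinearMap.comp_apply]
    show (b.equiv b' (Equiv.refl _)) (X (b j)) = Y ((b.equiv b' (Equiv.refl _)) (b j))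
    rw [Basis.equiv_apply, Equiv.refl_apply, hb' j, ← Module.End.mul_apply, ← pow_succ', hb j,
      ← Module.End.mul_apply, ← pow_succ']
    by_cases hj : (j : ℕ) + 1 < n
    · have h2 := hb ⟨(j : ℕ) + 1, hj⟩
      have h3 := hb' ⟨(j : ℕ) + 1, hj⟩
      simp only at h2 h3
      rw [← h2, ← h3, Basis.equiv_apply, Equiv.refl_apply]
    · have hj' : (j : ℕ) + 1 = n := by have := j.2; omega
      rw [hj', hX, hY]
      have h2 := hb ⟨0, hn⟩
      have h3 := hb' ⟨0, hn⟩
      simp only [pow_zero, Module.End.one_apply] at h2 h3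
      rw [Module.End.one_apply, Module.End.one_apply, ← h2, ← h3, Basis.equiv_apply,
        Equiv.refl_apply]
  intro z
  exact LinearMap.congr_fun h1 z

end SingerB

section SingerC

variable {F : Type*} [Field F] {n : ℕ}

/-- A matrix `x` with `rank (x - 1) ≤ n - 2` fixes two independent vectors. -/
theorem singer_fixed_pair (x : Matrix (Fin n) (Fin n) F) (hrank : (x - 1).rank + 2 ≤ n) :
    ∃ u u' : Fin n → F, u ≠ 0 ∧ x *ᵥ u = u ∧ x *ᵥ u' = u' ∧ ∀ c : F, u' ≠ c • u := by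
  have hrn := LinearMap.finrank_range_add_finrank_ker (x - 1).mulVecLin
  rw [Module.finrank_fin_fun] at hrn
  have hr : (x - 1).rank = finrank F (LinearMap.range (x - 1).mulVecLin) := rfl
  have hker : 2 ≤ finrank F (LinearMap.ker (x - 1).mulVecLin) := by omega
  have hfix : ∀ w : Fin n → F, w ∈ LinearMap.ker (x - 1).mulVecLin → x *ᵥ w = w := by
    intro w hw
    have h1 : (x - 1) *ᵥ w = 0 := LinearMap.mem_ker.mp hw
    rw [Matrix.sub_mulVec, Matrix.one_mulVec] at h1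
    exact sub_eq_zero.mp h1
  obtain ⟨⟨u, huK⟩, hu0'⟩ := (finrank_pos_iff_exists_ne_zero (R := F)
    (M := LinearMap.ker (x - 1).mulVecLin)).mp (by omega)
  have hu0 : u ≠ 0 := fun h => hu0' (Subtype.ext h)
  have hex : ∃ u' ∈ LinearMap.ker (x - 1).mulVecLin, ∀ c : F, u' ≠ c • u := by
    by_contra hcon
    push Not at hcon
    have hle : LinearMap.ker (x - 1).mulVecLin ≤ Submodule.span F {u} := by
      intro w hw
      obtain ⟨c, hc⟩ := hcon w hw
      rw [hc]
      exact Submodule.mem_span_singleton.mpr ⟨c, rfl⟩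
    have h1 := Submodule.finrank_mono hle
    rw [finrank_span_singleton hu0] at h1
    omega
  obtain ⟨u', hu'K, hu'⟩ := hex
  exact ⟨u, u', hu0, hfix u huK, hfix u' hu'K, hu'⟩

/-- A non-identity element of `SL_n` fixing a subspace of dimension at least two is not conjugate
into the normaliser of a field subalgebra of prime degree `n`. -/
theorem singer_not_conj {K : Subalgebra F (Matrix (Fin n) (Fin n) F)}
    (hK : Cfsg.Geo.IsFieldSubalgebra n K) (hn : n.Prime)
    (x : Matrix.SpecialLinearGroup (Fin n) F) (hx1 : x.1 ≠ 1) (hrank : (x.1 - 1).rank + 2 ≤ n)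
    (P : Matrix.SpecialLinearGroup (Fin n) F)
    (hP : P⁻¹ * x * P ∈ (Cfsg.Geo.subalgebraNormalizer K).comap
      (Matrix.SpecialLinearGroup.toGL :
        Matrix.SpecialLinearGroup (Fin n) F →* GL (Fin n) F)) : False := by
  obtain ⟨u, u', hu0, hu, hu', hne⟩ := singer_fixed_pair x.1 hrank
  rw [Subgroup.mem_comap] at hP
  have hPiP : (P⁻¹).1 * P.1 = 1 := by
    rw [← Matrix.SpecialLinearGroup.coe_mul, inv_mul_cancel]
    rfl
  have hPPi : P.1 * (P⁻¹).1 = 1 := by
    rw [← Matrix.SpecialLinearGroup.coe_mul, mul_inv_cancel]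
    rfl
  obtain ⟨y, hy⟩ : ∃ y : GL (Fin n) F, y = Matrix.SpecialLinearGroup.toGL (P⁻¹ * x * P) :=
    ⟨_, rfl⟩
  have hyval : y.1 = (P⁻¹).1 * x.1 * P.1 := by
    rw [hy]
    rfl
  rw [← hy] at hP
  have hfix : ∀ w : Fin n → F, x.1 *ᵥ w = w → y.1 *ᵥ ((P⁻¹).1 *ᵥ w) = (1 : F) • ((P⁻¹).1 *ᵥ w) := by
    intro w hw
    rw [hyval, one_smul, Matrix.mulVec_mulVec, Matrix.mul_assoc, hPPi, Matrix.mul_one,
      ← Matrix.mulVec_mulVec, hw]
  have hback : ∀ w : Fin n → F, P.1 *ᵥ ((P⁻¹).1 *ᵥ w) = w := by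
    intro w
    rw [Matrix.mulVec_mulVec, hPPi, Matrix.one_mulVec]
  have hw0 : (P⁻¹).1 *ᵥ u ≠ 0 := by
    intro h0
    apply hu0
    rw [← hback u, h0, Matrix.mulVec_zero]
  have hns : ∀ c : F, y.1 ≠ c • (1 : Matrix (Fin n) (Fin n) F) := by
    intro c hc
    have h1 := hfix u hu
    rw [hc, Matrix.smul_mulVec, Matrix.one_mulVec] at h1
    have h2 : c = 1 := by
      by_contra hc1
      have h3 : (c - 1) • ((P⁻¹).1 *ᵥ u) = 0 := by rw [sub_smul, h1, sub_self]
      rcases smul_eq_zero.mp h3 with h4 | h4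
      · exact hc1 (sub_eq_zero.mp h4)
      · exact hw0 h4
    rw [h2, one_smul, hyval] at hc
    apply hx1
    calc x.1 = P.1 * ((P⁻¹).1 * x.1 * P.1) * (P⁻¹).1 := by
          rw [← Matrix.mul_assoc, ← Matrix.mul_assoc, hPPi, Matrix.one_mul, Matrix.mul_assoc,
            hPPi, Matrix.mul_one]
      _ = 1 := by rw [hc, Matrix.mul_one, hPPi]
  obtain ⟨c, hc⟩ := singer_eigen hK hn y hP hns 1 _ _ hw0 (hfix u hu) (hfix u' hu')
  apply hne c
  rw [← hback u', hc, Matrix.mulVec_smul, hback]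

end SingerC

section SingerD

variable {F : Type*} [Field F] [Fintype F] {p : ℕ} [Fact p.Prime] [CharP F p]

omit [Fintype F] [Fact p.Prime] [CharP F p] in
/-- Scalars normalise every subalgebra. -/
theorem singer_scalar_mem {n : ℕ} (K : Subalgebra F (Matrix (Fin n) (Fin n) F)) (s : GL (Fin n) F)
    (c : F) (hs : s.1 = c • (1 : Matrix (Fin n) (Fin n) F)) :
    s ∈ Cfsg.Geo.subalgebraNormalizer K := by
  intro k
  have h1 : s.1 * s⁻¹.1 = 1 := by rw [← Units.val_mul, mul_inv_cancel, Units.val_one]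
  have e : s.1 * k * s⁻¹.1 = k := by
    rw [hs, Matrix.smul_mul, Matrix.one_mul] at h1
    rw [hs, Matrix.smul_mul, Matrix.one_mul, Matrix.smul_mul, ← Matrix.mul_smul, h1,
      Matrix.mul_one]
  rw [e]

/-- If `q` has order `n - 1` modulo the prime `n`, every element of `SL_n(q)` of order `n` modulo
scalars is conjugate into the normaliser of any field subalgebra of degree `n`. -/
theorem singer_conj_into (n : ℕ) [Fact n.Prime] (hn3 : 3 ≤ n) (hnp : n ≠ p)
    (hord : orderOf ((Fintype.card F : ℕ) : ZMod n) = n - 1)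
    (K : Subalgebra F (Matrix (Fin n) (Fin n) F)) (hK : Cfsg.Geo.IsFieldSubalgebra n K)
    (x : Matrix.SpecialLinearGroup (Fin n) F) (z : F)
    (hxz : x.1 ^ n = z • (1 : Matrix (Fin n) (Fin n) F))
    (hns : ∀ c : F, x.1 ≠ c • (1 : Matrix (Fin n) (Fin n) F)) :
    ∃ P : Matrix.SpecialLinearGroup (Fin n) F, P⁻¹ * x * P ∈
      (Cfsg.Geo.subalgebraNormalizer K).comap
        (Matrix.SpecialLinearGroup.toGL :
          Matrix.SpecialLinearGroup (Fin n) F →* GL (Fin n) F) := by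
  classical
  have hnP : n.Prime := Fact.out
  have hnpos : 0 < n := hnP.pos
  haveI : Nonempty (Fin n) := ⟨⟨0, hnpos⟩⟩
  have hq1 : 1 ≤ Fintype.card F := Fintype.card_pos
  have hr1 : ¬ n ∣ Fintype.card F - 1 := by
    intro hdvd
    have h1 : ((Fintype.card F - 1 : ℕ) : ZMod n) = 0 := (ZMod.natCast_eq_zero_iff _ _).mpr hdvd
    rw [Nat.cast_sub hq1, Nat.cast_one, sub_eq_zero] at h1
    rw [h1, orderOf_one] at hord
    omega
  have hroot : ∀ δ : F, δ ≠ 0 → ∃ a : F, a ^ n = δ := by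
    intro δ hδ
    have hinj : Function.Injective (powMonoidHom n : Fˣ →* Fˣ) := by
      rw [injective_iff_map_eq_one]
      intro a ha
      apply Units.ext
      apply altder_root_one n hnP hr1
      rw [← Units.val_pow_eq_pow_val]
      exact congrArg Units.val ha
    obtain ⟨a, ha⟩ := (Finite.injective_iff_surjective.mp hinj) (Units.mk0 δ hδ)
    refine ⟨a.1, ?_⟩
    rw [← Units.val_pow_eq_pow_val]
    exact congrArg Units.val ha
  have hz0 : z ≠ 0 := by
    intro h0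
    have h1 := congrArg Matrix.det hxz
    rw [Matrix.det_pow, x.2, one_pow, h0, zero_smul, Matrix.det_zero] at h1
    exact one_ne_zero h1
  obtain ⟨d, hd⟩ := hroot z hz0
  have hd0 : d ≠ 0 := by
    rintro rfl
    rw [zero_pow hnP.ne_zero] at hd
    exact hz0 hd.symm
  obtain ⟨x', hx'⟩ : ∃ x' : Matrix (Fin n) (Fin n) F, x' = d⁻¹ • x.1 := ⟨_, rfl⟩
  have hxx' : x.1 = d • x' := by rw [hx', smul_smul, mul_inv_cancel₀ hd0, one_smul]
  have hx'n : x' ^ n = 1 := by
    rw [hx', smul_pow, hxz, smul_smul, inv_pow, hd, inv_mul_cancel₀ hz0, one_smul]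
  have hx'1 : x' ≠ 1 := by
    intro h1
    exact hns d (by rw [hxx', h1])
  obtain ⟨X, hXdef⟩ : ∃ X : (Fin n → F) →ₗ[F] (Fin n → F), X = Matrix.toLin' x' := ⟨_, rfl⟩
  have hXa : ∀ w, X w = x' *ᵥ w := fun w => by rw [hXdef, Matrix.toLin'_apply]
  have hX : X ^ n = 1 := by
    rw [hXdef, ← Matrix.toLin'_pow, hx'n, Matrix.toLin'_one]
    rfl
  have hX1 : X ≠ 1 := by
    intro h1
    apply hx'1
    apply Matrix.toLin'.injective
    rw [← hXdef, h1, Matrix.toLin'_one]
    rfl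
  obtain ⟨y, hyN, hyn, hyns⟩ := singer_frob hK (by omega)
  obtain ⟨Y, hYdef⟩ : ∃ Y : (Fin n → F) →ₗ[F] (Fin n → F), Y = Matrix.toLin' y.1 := ⟨_, rfl⟩
  have hYa : ∀ w, Y w = y.1 *ᵥ w := fun w => by rw [hYdef, Matrix.toLin'_apply]
  have hY : Y ^ n = 1 := by
    rw [hYdef, ← Matrix.toLin'_pow, hyn, Matrix.toLin'_one]
    rfl
  have hY1 : Y ≠ 1 := by
    intro h1
    apply hyns 1
    rw [one_smul]
    apply Matrix.toLin'.injective
    rw [← hYdef, h1, Matrix.toLin'_one]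
    rfl
  obtain ⟨v, b, hb⟩ := singer_cyclic n hn3 hnp hord X hX hX1
  obtain ⟨v', b', hb'⟩ := singer_cyclic n hn3 hnp hord Y hY hY1
  obtain ⟨g, hg⟩ := singer_conj n hnpos X Y hX hY v v' b b' hb hb'
  obtain ⟨G, hGdef⟩ : ∃ G : Matrix (Fin n) (Fin n) F, G = LinearMap.toMatrix' g.toLinearMap :=
    ⟨_, rfl⟩
  obtain ⟨Gi, hGidef⟩ : ∃ Gi : Matrix (Fin n) (Fin n) F,
      Gi = LinearMap.toMatrix' g.symm.toLinearMap := ⟨_, rfl⟩
  have hGa : ∀ w, G *ᵥ w = g w := fun w => by
    rw [hGdef, LinearMap.toMatrix'_mulVec]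
    rfl
  have hGia : ∀ w, Gi *ᵥ w = g.symm w := fun w => by
    rw [hGidef, LinearMap.toMatrix'_mulVec]
    rfl
  have hGGi : G * Gi = 1 := by
    apply Matrix.mulVec_injective
    funext w
    rw [← Matrix.mulVec_mulVec, hGia, hGa, LinearEquiv.apply_symm_apply, Matrix.one_mulVec]
  have hGx : G * x' = y.1 * G := by
    apply Matrix.mulVec_injective
    funext w
    rw [← Matrix.mulVec_mulVec, ← Matrix.mulVec_mulVec, hGa, hGa, ← hXa, hg, hYa]
  have hdetG : G.det ≠ 0 := by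
    intro h0
    have h1 := congrArg Matrix.det hGGi
    rw [Matrix.det_mul, h0, zero_mul, Matrix.det_one] at h1
    exact zero_ne_one h1
  obtain ⟨a, ha⟩ := hroot (G.det)⁻¹ (inv_ne_zero hdetG)
  obtain ⟨Q, hQ⟩ : ∃ Q : Matrix.SpecialLinearGroup (Fin n) F, Q.1 = a • G :=
    ⟨⟨a • G, by rw [Matrix.det_smul, Fintype.card_fin, ha, inv_mul_cancel₀ hdetG]⟩, rfl⟩
  obtain ⟨s, hs⟩ : ∃ s : GL (Fin n) F, s.1 = d • (1 : Matrix (Fin n) (Fin n) F) :=
    ⟨⟨d • 1, d⁻¹ • 1, by
      rw [Matrix.smul_mul, Matrix.one_mul, smul_smul, mul_inv_cancel₀ hd0, one_smul], by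
      rw [Matrix.smul_mul, Matrix.one_mul, smul_smul, inv_mul_cancel₀ hd0, one_smul]⟩, rfl⟩
  have key : Matrix.SpecialLinearGroup.toGL Q * Matrix.SpecialLinearGroup.toGL x
      = s * y * Matrix.SpecialLinearGroup.toGL Q := by
    apply Units.ext
    show Q.1 * x.1 = s.1 * y.1 * Q.1
    rw [hQ, hs, hxx', Matrix.smul_mul, Matrix.mul_smul, hGx, Matrix.smul_mul, Matrix.one_mul,
      Matrix.smul_mul, Matrix.mul_smul, smul_comm]
  refine ⟨Q⁻¹, ?_⟩
  rw [Subgroup.mem_comap, inv_inv, map_mul, map_mul, map_inv, key, mul_inv_cancel_right]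
  exact (Cfsg.Geo.subalgebraNormalizer K).mul_mem (singer_scalar_mem K s d hs) hyN

/-- If the order of `q` modulo the prime `n ≥ 5` is not `n - 1`, there is an element of order `n`
in `SL_n(q)` fixing a subspace of dimension at least two. -/
theorem singer_exists_der (n : ℕ) [Fact n.Prime] (hn5 : 5 ≤ n) (hnp : n ≠ p)
    (hord : orderOf ((Fintype.card F : ℕ) : ZMod n) ≠ n - 1) :
    ∃ x : Matrix.SpecialLinearGroup (Fin n) F, x.1 ^ n = 1 ∧ x.1 ≠ 1 ∧
      (x.1 - 1).rank + 2 ≤ n := by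
  classical
  have hnP : n.Prime := Fact.out
  have hq1 : 1 ≤ Fintype.card F := Fintype.card_pos
  obtain ⟨i₀, hi₀⟩ : ∃ i₀, i₀ = orderOf ((Fintype.card F : ℕ) : ZMod n) := ⟨_, rfl⟩
  rw [← hi₀] at hord
  have hqn : ((Fintype.card F : ℕ) : ZMod n) ≠ 0 := by
    intro h0
    have h1 : n ∣ Fintype.card F := (ZMod.natCast_eq_zero_iff _ _).mp h0
    obtain ⟨a, -, hcard⟩ := FiniteField.card F p
    rw [hcard] at h1
    have h2 := hnP.dvd_of_dvd_pow h1
    exact hnp ((Nat.prime_dvd_prime_iff_eq hnP (Fact.out : p.Prime)).mp h2)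
  have hdvd1 : i₀ ∣ n - 1 := by
    rw [hi₀]
    exact orderOf_dvd_of_pow_eq_one (ZMod.pow_card_sub_one_eq_one hqn)
  have hi₀pos : 0 < i₀ := Nat.pos_of_dvd_of_pos hdvd1 (by omega)
  have hi₀le : i₀ ≤ n - 2 := by
    have := Nat.le_of_dvd (by omega) hdvd1
    omega
  have hpow : ((Fintype.card F : ℕ) : ZMod n) ^ i₀ = 1 := by
    rw [hi₀]
    exact pow_orderOf_eq_one _
  by_cases h1 : i₀ = 1
  · have h2 : ((Fintype.card F : ℕ) : ZMod n) = 1 := by
      rw [h1, pow_one] at hpow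
      exact hpow
    have hdvd : n ∣ Fintype.card F - 1 := by
      apply (ZMod.natCast_eq_zero_iff _ _).mp
      rw [Nat.cast_sub hq1, Nat.cast_one, h2, sub_self]
    have hcardU : n ∣ Nat.card Fˣ := by
      rw [Nat.card_units, Nat.card_eq_fintype_card]
      exact hdvd
    obtain ⟨ζ, hζ⟩ := exists_prime_orderOf_dvd_card' n hcardU
    have hζn : (ζ : F) ^ n = 1 := by
      rw [← Units.val_pow_eq_pow_val, ← hζ, pow_orderOf_eq_one]
      rfl
    have hζ1 : (ζ : F) ≠ 1 := by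
      intro h3
      have h4 : ζ = 1 := Units.ext h3
      rw [h4, orderOf_one] at hζ
      exact hnP.one_lt.ne hζ
    have hζ0 : (ζ : F) ≠ 0 := ζ.ne_zero
    obtain ⟨m, rfl⟩ : ∃ m, n = m + 1 + 1 + 1 + 1 := ⟨n - 4, by omega⟩
    have hdet : (Matrix.diagonal (altderD m (ζ : F))).det = 1 := by
      rw [Matrix.det_diagonal, Fin.prod_univ_succ, Fin.prod_univ_succ, Fin.prod_univ_succ]
      simp only [altderD, Fin.cons_zero, Fin.cons_succ, Finset.prod_const_one, mul_one]
      field_simp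
    have hpw : ∀ i, altderD m (ζ : F) i ^ (m + 1 + 1 + 1 + 1) = 1 := by
      intro i
      refine Fin.cases ?_ (fun i => ?_) i
      · simp only [altderD, Fin.cons_zero]
        exact hζn
      · refine Fin.cases ?_ (fun i => ?_) i
        · simp only [altderD, Fin.cons_succ, Fin.cons_zero]
          exact hζn
        · refine Fin.cases ?_ (fun i => ?_) i
          · simp only [altderD, Fin.cons_succ, Fin.cons_zero]
            rw [mul_pow, inv_pow, hζn]
            simp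
          · simp only [altderD, Fin.cons_succ]
            exact one_pow _
    have hXr : Matrix.diagonal (altderD m (ζ : F)) ^ (m + 1 + 1 + 1 + 1) = 1 := by
      rw [Matrix.diagonal_pow]
      have h3 : altderD m (ζ : F) ^ (m + 1 + 1 + 1 + 1) = 1 := funext hpw
      rw [h3]
      exact Matrix.diagonal_one
    refine ⟨⟨Matrix.diagonal (altderD m (ζ : F)), hdet⟩, hXr, ?_, ?_⟩
    · intro h3
      have h4 : Matrix.diagonal (altderD m (ζ : F)) = Matrix.diagonal (fun _ => (1 : F)) := by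
        rw [Matrix.diagonal_one]
        exact h3
      have h5 := congrFun (Matrix.diagonal_injective h4) 0
      simp only [altderD, Fin.cons_zero] at h5
      exact hζ1 h5
    · have h3 := altderD_rank m (ζ : F) 1
      rw [one_smul] at h3
      show (Matrix.diagonal (altderD m (ζ : F)) - 1).rank + 2 ≤ m + 1 + 1 + 1 + 1
      rw [h3]
      simp only [if_neg hζ1, if_true, mul_zero, add_zero]
      split_ifs <;> omega
  · have hi₀2 : 2 ≤ i₀ := by omega
    have hr1 : ¬ n ∣ Fintype.card F - 1 := by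
      intro hdvd
      have h2 : ((Fintype.card F - 1 : ℕ) : ZMod n) = 0 := (ZMod.natCast_eq_zero_iff _ _).mpr hdvd
      rw [Nat.cast_sub hq1, Nat.cast_one, sub_eq_zero] at h2
      rw [h2, orderOf_one] at hi₀
      exact h1 hi₀
    have hle : i₀ ≤ n := by omega
    have hdvd : n ∣ Fintype.card F ^ i₀ - 1 := by
      have h4 : ((Fintype.card F ^ i₀ - 1 : ℕ) : ZMod n) = 0 := by
        rw [Nat.cast_sub (Nat.one_le_pow _ _ hq1)]
        push_cast
        rw [hpow, sub_self]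
      exact (ZMod.natCast_eq_zero_iff _ _).mp h4
    have hcard : n ∣ Nat.card (GL (Fin i₀) F) := by
      rw [Matrix.card_GL_field]
      apply dvd_trans _ (Finset.dvd_prod_of_mem _ (Finset.mem_univ (⟨0, hi₀pos⟩ : Fin i₀)))
      simpa using hdvd
    obtain ⟨y, hy⟩ := exists_prime_orderOf_dvd_card' n hcard
    have hyr : y.1 ^ n = 1 := by
      rw [← Units.val_pow_eq_pow_val, ← hy, pow_orderOf_eq_one]
      rfl
    have hy1 : y.1 ≠ 1 := by
      intro h2
      have h3 : y = 1 := Units.ext h2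
      rw [h3, orderOf_one] at hy
      exact hnP.one_lt.ne hy
    have hE := lagderE0_mul (F := F) i₀ n hle
    obtain ⟨X₀, hX₀⟩ : ∃ X₀, X₀ = altderPsi (lagderE0 i₀ n hle F) y.1 := ⟨_, rfl⟩
    have hXr : X₀ ^ n = 1 := by rw [hX₀, altderPsi_pow _ hE, hyr, altderPsi_one]
    have hX1 : X₀ ≠ 1 := by
      intro h2
      rw [hX₀] at h2
      exact hy1 (altderPsi_inj _ hE _ h2)
    have hrank : (X₀ - 1).rank ≤ i₀ := by
      have := altderPsi_rank (lagderE0 i₀ n hle F) y.1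
      rwa [Fintype.card_fin, ← hX₀] at this
    have hdet : X₀.det = 1 := by
      apply altder_root_one n hnP hr1
      rw [← Matrix.det_pow, hXr, Matrix.det_one]
    refine ⟨⟨X₀, hdet⟩, hXr, hX1, ?_⟩
    show (X₀ - 1).rank + 2 ≤ n
    omega

end SingerD

end Cfsg.Agent.Lib.Helper98
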