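import Cfsg.Agent.Lib.Helper98.Singer

/-!
# Elements of order three and the Singer normaliser in `SL_3(q)` (helper98, for S5971)
-/

set_option autoImplicit false

namespace Cfsg.Agent.Lib.Helper98

open Matrix Module Cfsg.Agent.Lib.Helper97

section Singer3A

variable {F : Type*} [Field F] {n : ℕ}

/-- A non-scalar element of `SL_n` with two independent eigenvectors for the same eigenvalue is not
conjugate into the normaliser of a field subalgebra of prime degree `n`. -/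
theorem singer_not_conj' {K : Subalgebra F (Matrix (Fin n) (Fin n) F)}
    (hK : Cfsg.Geo.IsFieldSubalgebra n K) (hn : n.Prime)
    (x : Matrix.SpecialLinearGroup (Fin n) F)
    (hxns : ∀ c : F, x.1 ≠ c • (1 : Matrix (Fin n) (Fin n) F)) (μ : F) (u u' : Fin n → F)
    (hu0 : u ≠ 0) (hu : x.1 *ᵥ u = μ • u) (hu' : x.1 *ᵥ u' = μ • u') (hne : ∀ c : F, u' ≠ c • u)
    (P : Matrix.SpecialLinearGroup (Fin n) F)
    (hP : P⁻¹ * x * P ∈ (Cfsg.Geo.subalgebraNormalizer K).comap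
      (Matrix.SpecialLinearGroup.toGL :
        Matrix.SpecialLinearGroup (Fin n) F →* GL (Fin n) F)) : False := by
  rw [Subgroup.mem_comap] at hP
  have hPiP : (P⁻¹).1 * P.1 = 1 := by
    rw [← Matrix.SpecialLinearGroup.coe_mul, inv_mul_cancel]
    rfl
  have hPPi : P.1 * (P⁻¹).1 = 1 := by
    rw [← Matrix.SpecialLinearGroup.coe_mul, mul_inv_cancel]
    rfl
  obtain ⟨y, hy⟩ : ∃ y : GL (Fin n) F, y = Matrix.SpecialLinearGroup.toGL (P⁻¹ * x * P) :=
    ⟨_, rfl⟩
  have hyval : y.1 = (P⁻¹).1 * x.1 * P.1 := by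
    rw [hy]
    rfl
  rw [← hy] at hP
  have hfix : ∀ w : Fin n → F, x.1 *ᵥ w = μ • w →
      y.1 *ᵥ ((P⁻¹).1 *ᵥ w) = μ • ((P⁻¹).1 *ᵥ w) := by
    intro w hw
    rw [hyval, Matrix.mulVec_mulVec, Matrix.mul_assoc, hPPi, Matrix.mul_one,
      ← Matrix.mulVec_mulVec, hw, Matrix.mulVec_smul]
  have hback : ∀ w : Fin n → F, P.1 *ᵥ ((P⁻¹).1 *ᵥ w) = w := by
    intro w
    rw [Matrix.mulVec_mulVec, hPPi, Matrix.one_mulVec]
  have hw0 : (P⁻¹).1 *ᵥ u ≠ 0 := by
    intro h0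
    apply hu0
    rw [← hback u, h0, Matrix.mulVec_zero]
  have hns : ∀ c : F, y.1 ≠ c • (1 : Matrix (Fin n) (Fin n) F) := by
    intro c hc
    rw [hyval] at hc
    apply hxns c
    calc x.1 = P.1 * ((P⁻¹).1 * x.1 * P.1) * (P⁻¹).1 := by
          rw [← Matrix.mul_assoc, ← Matrix.mul_assoc, hPPi, Matrix.one_mul, Matrix.mul_assoc,
            hPPi, Matrix.mul_one]
      _ = c • 1 := by rw [hc, Matrix.mul_smul, Matrix.mul_one, Matrix.smul_mul, hPPi]
  obtain ⟨c, hc⟩ := singer_eigen hK hn y hP hns μ _ _ hw0 (hfix u hu) (hfix u' hu')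
  apply hne c
  rw [← hback u', hc, Matrix.mulVec_smul, hback]

/-- A matrix of rank at most one is an outer product. -/
theorem singer_rank_one (M : Matrix (Fin n) (Fin n) F) (hM : M.rank ≤ 1) :
    ∃ u φ : Fin n → F, M = vecMulVec u φ := by
  by_cases h0 : ∀ w : Fin n → F, M *ᵥ w = 0
  · refine ⟨0, 0, ?_⟩
    apply Matrix.mulVec_injective
    funext w
    rw [h0 w, Matrix.vecMulVec_mulVec, smul_zero]
  push Not at h0
  obtain ⟨w₀, hw₀⟩ := h0
  obtain ⟨u, hu⟩ : ∃ u, u = M *ᵥ w₀ := ⟨_, rfl⟩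
  rw [← hu] at hw₀
  obtain ⟨i₀, hi₀⟩ : ∃ i₀, u i₀ ≠ 0 := by
    by_contra hcon
    push Not at hcon
    exact hw₀ (funext hcon)
  obtain ⟨l, hl⟩ : ∃ l : Fin n → F, l ⬝ᵥ u = 1 := by
    refine ⟨Pi.single i₀ (u i₀)⁻¹, ?_⟩
    rw [single_dotProduct, inv_mul_cancel₀ hi₀]
  have hrange : ∀ w : Fin n → F, ∃ c : F, M *ᵥ w = c • u := by
    have hr : M.rank = finrank F (LinearMap.range M.mulVecLin) := rfl
    have hle : Submodule.span F {u} ≤ LinearMap.range M.mulVecLin := by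
      rw [Submodule.span_singleton_le_iff_mem]
      exact ⟨w₀, hu.symm⟩
    have heq : Submodule.span F {u} = LinearMap.range M.mulVecLin := by
      apply Submodule.eq_of_le_of_finrank_le hle
      rw [finrank_span_singleton hw₀, ← hr]
      exact hM
    intro w
    have h1 : M *ᵥ w ∈ Submodule.span F {u} := by
      rw [heq]
      exact ⟨w, rfl⟩
    obtain ⟨c, hc⟩ := Submodule.mem_span_singleton.mp h1
    exact ⟨c, hc.symm⟩
  refine ⟨u, l ᵥ* M, ?_⟩
  apply Matrix.mulVec_injective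
  funext w
  obtain ⟨c, hc⟩ := hrange w
  rw [Matrix.vecMulVec_mulVec, op_smul_eq_smul, ← Matrix.dotProduct_mulVec, hc, dotProduct_smul,
    hl, smul_eq_mul, mul_one]

/-- The determinant of a scalar plus an outer product, in dimension three. -/
theorem singer3_det_add (α : F) (hα : α ≠ 0) (u φ : Fin 3 → F) :
    (α • (1 : Matrix (Fin 3) (Fin 3) F) + vecMulVec u φ).det = α ^ 3 + α ^ 2 * (φ ⬝ᵥ u) := by
  have h1 : α • (1 : Matrix (Fin 3) (Fin 3) F) + vecMulVec u φ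
      = α • (1 + vecMulVec (α⁻¹ • u) φ) := by
    rw [smul_add, Matrix.smul_vecMulVec, smul_smul, mul_inv_cancel₀ hα, one_smul]
  rw [h1, Matrix.det_smul, Fintype.card_fin, Matrix.vecMulVec_eq Unit,
    Matrix.det_one_add_replicateCol_mul_replicateRow, dotProduct_smul, smul_eq_mul]
  field_simp

/-- A non-scalar `3 × 3` matrix whose cube is a scalar `z` that is not a cube has determinant
`z`. -/
theorem singer3_det_noncube (x : Matrix (Fin 3) (Fin 3) F) (z : F)
    (hx : x ^ 3 = z • (1 : Matrix (Fin 3) (Fin 3) F))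
    (hns : ∀ c : F, x ≠ c • (1 : Matrix (Fin 3) (Fin 3) F)) (hnc : ∀ a : F, a ^ 3 ≠ z) :
    x.det = z := by
  have hCH := Matrix.aeval_self_charpoly x
  rw [Polynomial.aeval_eq_sum_range, Matrix.charpoly_natDegree_eq_dim, Fintype.card_fin] at hCH
  have hmon : x.charpoly.coeff 3 = 1 := by
    have h1 := (Matrix.charpoly_monic x).coeff_natDegree
    rwa [Matrix.charpoly_natDegree_eq_dim, Fintype.card_fin] at h1
  have hdet := Matrix.det_eq_sign_charpoly_coeff x
  rw [Fintype.card_fin] at hdet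
  obtain ⟨c₀, hc₀⟩ : ∃ c₀, c₀ = x.charpoly.coeff 0 := ⟨_, rfl⟩
  obtain ⟨c₁, hc₁⟩ : ∃ c₁, c₁ = x.charpoly.coeff 1 := ⟨_, rfl⟩
  obtain ⟨c₂, hc₂⟩ : ∃ c₂, c₂ = x.charpoly.coeff 2 := ⟨_, rfl⟩
  rw [← hc₀] at hdet
  simp only [Finset.sum_range_succ, Finset.sum_range_zero, zero_add, pow_zero, pow_one, hmon,
    one_smul, hx, ← hc₀, ← hc₁, ← hc₂] at hCH
  have hxx3 : x * (x * x) = z • (1 : Matrix (Fin 3) (Fin 3) F) := by rw [← pow_three, hx]
  have hone : ∀ c : F, c • (1 : Matrix (Fin 3) (Fin 3) F) = 0 → c = 0 := by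
    intro c hc
    have h1 := congrFun (congrFun hc 0) 0
    simpa using h1
  by_cases h2 : c₂ = 0
  · by_cases h1 : c₁ = 0
    · rw [h2, h1, zero_smul, zero_smul, add_zero, add_zero, ← add_smul] at hCH
      have h3 := hone _ hCH
      rw [hdet]
      linear_combination (-1 : F) * h3
    · exfalso
      rw [h2, zero_smul, add_zero] at hCH
      apply hns (-(c₁⁻¹ * (c₀ + z)))
      have h3 : c₁ • x = -((c₀ + z) • (1 : Matrix (Fin 3) (Fin 3) F)) := by
        rw [eq_neg_iff_add_eq_zero, ← hCH]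
        module
      calc x = c₁⁻¹ • (c₁ • x) := by rw [smul_smul, inv_mul_cancel₀ h1, one_smul]
        _ = -(c₁⁻¹ * (c₀ + z)) • 1 := by rw [h3, smul_neg, smul_smul, neg_smul]
  · exfalso
    obtain ⟨a, ha⟩ : ∃ a : F, a = -(c₂⁻¹ * c₁) := ⟨_, rfl⟩
    obtain ⟨b, hb⟩ : ∃ b : F, b = -(c₂⁻¹ * (c₀ + z)) := ⟨_, rfl⟩
    have hxx : x * x = a • x + b • (1 : Matrix (Fin 3) (Fin 3) F) := by
      have h3 : c₂ • (x * x) = -((c₀ + z) • (1 : Matrix (Fin 3) (Fin 3) F) + c₁ • x) := by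
        rw [eq_neg_iff_add_eq_zero, ← hCH, pow_two]
        module
      calc x * x = c₂⁻¹ • (c₂ • (x * x)) := by rw [smul_smul, inv_mul_cancel₀ h2, one_smul]
        _ = a • x + b • 1 := by
          rw [h3, ha, hb]
          module
    have h4 : a • (a • x + b • (1 : Matrix (Fin 3) (Fin 3) F)) + b • x
        = z • (1 : Matrix (Fin 3) (Fin 3) F) := by
      rw [← hxx3, hxx, Matrix.mul_add, Matrix.mul_smul, Matrix.mul_smul, Matrix.mul_one, hxx]
    have h5 : (a * a + b) • x = (z - a * b) • (1 : Matrix (Fin 3) (Fin 3) F) := by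
      calc (a * a + b) • x
          = (a • (a • x + b • (1 : Matrix (Fin 3) (Fin 3) F)) + b • x)
            - (a * b) • (1 : Matrix (Fin 3) (Fin 3) F) := by module
        _ = (z - a * b) • (1 : Matrix (Fin 3) (Fin 3) F) := by
          rw [h4]
          module
    by_cases h6 : a * a + b = 0
    · rw [h6, zero_smul] at h5
      have h7 := hone _ h5.symm
      apply hnc (-a)
      linear_combination (-a) * h6 - h7
    · apply hns ((a * a + b)⁻¹ * (z - a * b))
      calc x = (a * a + b)⁻¹ • ((a * a + b) • x) := by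
            rw [smul_smul, inv_mul_cancel₀ h6, one_smul]
        _ = ((a * a + b)⁻¹ * (z - a * b)) • 1 := by rw [h5, smul_smul]

end Singer3A

section Singer3B

variable {F : Type*} [Field F]

/-- A `3 × 3` matrix of order three whose eigenspaces have dimension at most one is diagonalisable
with eigenvalues `1, ω, ω²`. -/
theorem singer3_eigenbasis (hchar : (3 : F) ≠ 0) (ω : F) (hω : ω ^ 2 + ω + 1 = 0)
    (X : Matrix (Fin 3) (Fin 3) F) (hX : X ^ 3 = 1)
    (heig : ∀ (μ : F) (u u' : Fin 3 → F), u ≠ 0 → X *ᵥ u = μ • u → X *ᵥ u' = μ • u' →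
      ∃ c : F, u' = c • u) :
    ∃ W : Matrix (Fin 3) (Fin 3) F, IsUnit W.det ∧
      X * W = W * Matrix.diagonal ![1, ω, ω ^ 2] := by
  have hω3 : ω ^ 3 = 1 := by linear_combination (ω - 1) * hω
  have hXXX : X * (X * X) = 1 := by rw [← pow_three, hX]
  -- generators of the eigenspaces
  have hgen : ∀ μ : F, ∃ e : Fin 3 → F, X *ᵥ e = μ • e ∧
      ∀ w : Fin 3 → F, X *ᵥ w = μ • w → ∃ c : F, w = c • e := by
    intro μ
    by_cases h : ∃ e : Fin 3 → F, e ≠ 0 ∧ X *ᵥ e = μ • e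
    · obtain ⟨e, he0, he⟩ := h
      exact ⟨e, he, fun w hw => heig μ e w he0 he hw⟩
    · push Not at h
      refine ⟨0, by rw [Matrix.mulVec_zero, smul_zero], fun w hw => ⟨0, ?_⟩⟩
      rw [zero_smul]
      by_contra hw0
      exact h w hw0 hw
  obtain ⟨e₀, he₀, hg₀⟩ := hgen 1
  obtain ⟨e₁, he₁, hg₁⟩ := hgen ω
  obtain ⟨e₂, he₂, hg₂⟩ := hgen (ω ^ 2)
  -- the three projections
  have hdec : ∀ w : Fin 3 → F, ∃ w₀ w₁ w₂ : Fin 3 → F, w = w₀ + w₁ + w₂ ∧ X *ᵥ w₀ = (1 : F) • w₀ ∧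
      X *ᵥ w₁ = ω • w₁ ∧ X *ᵥ w₂ = ω ^ 2 • w₂ := by
    intro w
    obtain ⟨a, ha⟩ : ∃ a, a = X *ᵥ w := ⟨_, rfl⟩
    obtain ⟨b, hb⟩ : ∃ b, b = X *ᵥ a := ⟨_, rfl⟩
    have hXb : X *ᵥ b = w := by
      rw [hb, ha, Matrix.mulVec_mulVec, Matrix.mulVec_mulVec, Matrix.mul_assoc, hXXX,
        Matrix.one_mulVec]
    refine ⟨(3 : F)⁻¹ • (w + a + b), (3 : F)⁻¹ • (w + ω ^ 2 • a + ω • b),
      (3 : F)⁻¹ • (w + ω • a + ω ^ 2 • b), ?_, ?_, ?_, ?_⟩
    · have h1 : (3 : F)⁻¹ • (w + a + b) + (3 : F)⁻¹ • (w + ω ^ 2 • a + ω • b)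
          + (3 : F)⁻¹ • (w + ω • a + ω ^ 2 • b)
          = ((3 : F)⁻¹ * 3) • w + ((3 : F)⁻¹ * (ω ^ 2 + ω + 1)) • a
            + ((3 : F)⁻¹ * (ω ^ 2 + ω + 1)) • b := by module
      rw [h1, hω, mul_zero, zero_smul, zero_smul, add_zero, add_zero, inv_mul_cancel₀ hchar,
        one_smul]
    · rw [Matrix.mulVec_smul, Matrix.mulVec_add, Matrix.mulVec_add, ← ha, ← hb, hXb, one_smul]
      module
    · rw [Matrix.mulVec_smul, Matrix.mulVec_add, Matrix.mulVec_add, Matrix.mulVec_smul,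
        Matrix.mulVec_smul, ← ha, ← hb, hXb]
      have h1 : (3 : F)⁻¹ • (a + ω ^ 2 • b + ω • w) - ω • (3 : F)⁻¹ • (w + ω ^ 2 • a + ω • b)
          = ((3 : F)⁻¹ * (1 - ω ^ 3)) • a := by module
      rw [hω3, sub_self, mul_zero, zero_smul] at h1
      exact sub_eq_zero.mp h1
    · rw [Matrix.mulVec_smul, Matrix.mulVec_add, Matrix.mulVec_add, Matrix.mulVec_smul,
        Matrix.mulVec_smul, ← ha, ← hb, hXb]
      have h1 : (3 : F)⁻¹ • (a + ω • b + ω ^ 2 • w) - ω ^ 2 • (3 : F)⁻¹ • (w + ω • a + ω ^ 2 • b)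
          = ((3 : F)⁻¹ * (1 - ω ^ 3)) • a + ((3 : F)⁻¹ * ω * (1 - ω ^ 3)) • b := by module
      rw [hω3, sub_self, mul_zero, mul_zero, zero_smul, zero_smul, add_zero] at h1
      exact sub_eq_zero.mp h1
  obtain ⟨W, hWdef⟩ : ∃ W : Matrix (Fin 3) (Fin 3) F, W = Matrix.of fun i j => ![e₀, e₁, e₂] j i :=
    ⟨_, rfl⟩
  have hW : ∀ c : Fin 3 → F, W *ᵥ c = c 0 • e₀ + c 1 • e₁ + c 2 • e₂ := by
    intro c
    ext i
    simp [hWdef, Matrix.mulVec, dotProduct, Fin.sum_univ_three]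
    ring
  have hsurj : Function.Surjective W.mulVec := by
    intro w
    obtain ⟨w₀, w₁, w₂, hw, h0, h1, h2⟩ := hdec w
    obtain ⟨c₀, hc₀⟩ := hg₀ w₀ h0
    obtain ⟨c₁, hc₁⟩ := hg₁ w₁ h1
    obtain ⟨c₂, hc₂⟩ := hg₂ w₂ h2
    refine ⟨![c₀, c₁, c₂], ?_⟩
    show W *ᵥ ![c₀, c₁, c₂] = w
    rw [hW, hw, hc₀, hc₁, hc₂]
    simp
  have hunit : IsUnit W := Matrix.mulVec_surjective_iff_isUnit.mp hsurj
  refine ⟨W, (Matrix.isUnit_iff_isUnit_det W).mp hunit, ?_⟩
  apply Matrix.mulVec_injective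
  funext c
  rw [← Matrix.mulVec_mulVec, ← Matrix.mulVec_mulVec, hW, hW, Matrix.mulVec_add,
    Matrix.mulVec_add, Matrix.mulVec_smul, Matrix.mulVec_smul, Matrix.mulVec_smul, he₀, he₁, he₂]
  simp only [Matrix.mulVec_diagonal]
  simp
  module

end Singer3B

section Singer3C

variable {F : Type*} [Field F] [Fintype F]

/-- For `q ≡ 4, 7 (mod 9)` every element of `SL_3(q)` of order three modulo scalars is conjugate
into the normaliser of a cubic field subalgebra. -/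
theorem singer3_conj_into (p : ℕ) [Fact p.Prime] [CharP F p]
    (hq : Fintype.card F % 9 = 4 ∨ Fintype.card F % 9 = 7)
    (K : Subalgebra F (Matrix (Fin 3) (Fin 3) F)) (hK : Cfsg.Geo.IsFieldSubalgebra 3 K)
    (x : Matrix.SpecialLinearGroup (Fin 3) F) (z : F)
    (hxz : x.1 ^ 3 = z • (1 : Matrix (Fin 3) (Fin 3) F))
    (hns : ∀ c : F, x.1 ≠ c • (1 : Matrix (Fin 3) (Fin 3) F)) :
    ∃ P : Matrix.SpecialLinearGroup (Fin 3) F, P⁻¹ * x * P ∈
      (Cfsg.Geo.subalgebraNormalizer K).comap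
        (Matrix.SpecialLinearGroup.toGL :
          Matrix.SpecialLinearGroup (Fin 3) F →* GL (Fin 3) F) := by
  classical
  have hqpos : 1 ≤ Fintype.card F := Fintype.card_pos
  have h3dvd : 3 ∣ Fintype.card F - 1 := by omega
  have h9 : ¬ 9 ∣ Fintype.card F - 1 := by omega
  have hchar : (3 : F) ≠ 0 := by
    intro h0
    have h1 : ((3 : ℕ) : F) = 0 := by exact_mod_cast h0
    have h2 : p ∣ 3 := (CharP.cast_eq_zero_iff F p 3).mp h1
    obtain ⟨a, -, hcard⟩ := FiniteField.card F p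
    have h3 : p = 3 := (Nat.prime_dvd_prime_iff_eq (Fact.out : p.Prime) Nat.prime_three).mp h2
    rw [h3] at hcard
    have h4 : 3 ∣ Fintype.card F := by
      rw [hcard]
      exact dvd_pow_self 3 a.ne_zero
    omega
  have hcardU : 3 ∣ Nat.card Fˣ := by
    rw [Nat.card_units, Nat.card_eq_fintype_card]
    exact h3dvd
  obtain ⟨ωu, hωu⟩ := exists_prime_orderOf_dvd_card' 3 hcardU
  obtain ⟨ω, hωdef⟩ : ∃ ω : F, ω = (ωu : F) := ⟨_, rfl⟩
  have hω3 : ω ^ 3 = 1 := by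
    rw [hωdef, ← Units.val_pow_eq_pow_val, ← hωu, pow_orderOf_eq_one]
    rfl
  have hω1 : ω ≠ 1 := by
    intro h1
    have h2 : ωu = 1 := Units.ext (by rw [← hωdef, h1]; rfl)
    rw [h2, orderOf_one] at hωu
    omega
  have hω : ω ^ 2 + ω + 1 = 0 := by
    have h1 : (ω - 1) * (ω ^ 2 + ω + 1) = 0 := by linear_combination hω3
    rcases mul_eq_zero.mp h1 with h2 | h2
    · exact absurd (sub_eq_zero.mp h2) hω1
    · exact h2
  have hno9 : ∀ e : F, e ^ 9 = 1 → e ^ 3 = 1 := by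
    intro e he9
    by_contra he3
    have he0 : e ≠ 0 := by
      rintro rfl
      simp at he9
    have h1 : orderOf (Units.mk0 e he0) = 3 ^ (1 + 1) := by
      apply orderOf_eq_prime_pow
      · intro h2
        apply he3
        have h3 := congrArg Units.val h2
        rw [Units.val_pow_eq_pow_val, Units.val_mk0, Units.val_one, pow_one] at h3
        exact h3
      · apply Units.ext
        rw [Units.val_pow_eq_pow_val, Units.val_mk0, Units.val_one]
        exact he9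
    have h2 : 3 ^ (1 + 1) ∣ Nat.card Fˣ := h1 ▸ orderOf_dvd_natCard _
    rw [Nat.card_units, Nat.card_eq_fintype_card] at h2
    exact h9 h2
  have hz0 : z ≠ 0 := by
    intro h0
    have h1 := congrArg Matrix.det hxz
    rw [Matrix.det_pow, x.2, one_pow, h0, zero_smul, Matrix.det_zero] at h1
    exact one_ne_zero h1
  obtain ⟨d, hd⟩ : ∃ d : F, d ^ 3 = z := by
    by_contra hcon
    push Not at hcon
    have h1 := singer3_det_noncube x.1 z hxz hns hcon
    rw [x.2] at h1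
    exact hcon 1 (by rw [one_pow, h1])
  have hd0 : d ≠ 0 := by
    rintro rfl
    rw [zero_pow (by norm_num)] at hd
    exact hz0 hd.symm
  obtain ⟨x', hx'⟩ : ∃ x' : Matrix (Fin 3) (Fin 3) F, x' = d⁻¹ • x.1 := ⟨_, rfl⟩
  have hxx' : x.1 = d • x' := by rw [hx', smul_smul, mul_inv_cancel₀ hd0, one_smul]
  have hx'n : x' ^ 3 = 1 := by
    rw [hx', smul_pow, hxz, smul_smul, inv_pow, hd, inv_mul_cancel₀ hz0, one_smul]
  have hdetx' : x'.det = (d⁻¹) ^ 3 := by
    rw [hx', Matrix.det_smul, Fintype.card_fin, x.2, mul_one]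
  have heig : ∀ (μ : F) (u u' : Fin 3 → F), u ≠ 0 → x' *ᵥ u = μ • u → x' *ᵥ u' = μ • u' →
      ∃ c : F, u' = c • u := by
    intro μ u u' hu0 hu hu'
    by_contra hne
    push Not at hne
    have hpowv : ∀ (β : F) (w : Fin 3 → F), w ≠ 0 → x' *ᵥ w = β • w → β ^ 3 = 1 := by
      intro β w hw0 hw
      have h1 : (x' ^ 3) *ᵥ w = β ^ 3 • w := by
        rw [pow_three, ← Matrix.mulVec_mulVec, ← Matrix.mulVec_mulVec, hw, Matrix.mulVec_smul, hw,
          Matrix.mulVec_smul, Matrix.mulVec_smul, hw, smul_smul, smul_smul]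
        congr 1
        ring
      rw [hx'n, Matrix.one_mulVec] at h1
      have h2 : (β ^ 3 - 1) • w = 0 := by rw [sub_smul, ← h1, one_smul, sub_self]
      rcases smul_eq_zero.mp h2 with h3 | h3
      · exact sub_eq_zero.mp h3
      · exact absurd h3 hw0
    have hμ3 := hpowv μ u hu0 hu
    have hμ0 : μ ≠ 0 := by
      rintro rfl
      simp at hμ3
    obtain ⟨M, hM⟩ : ∃ M, M = x' - μ • (1 : Matrix (Fin 3) (Fin 3) F) := ⟨_, rfl⟩
    have hMu : M *ᵥ u = 0 := by
      rw [hM, Matrix.sub_mulVec, hu, Matrix.smul_mulVec, Matrix.one_mulVec, sub_self]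
    have hMu' : M *ᵥ u' = 0 := by
      rw [hM, Matrix.sub_mulVec, hu', Matrix.smul_mulVec, Matrix.one_mulVec, sub_self]
    have hrank : M.rank ≤ 1 := by
      have hrn := LinearMap.finrank_range_add_finrank_ker M.mulVecLin
      rw [Module.finrank_fin_fun] at hrn
      have hr : M.rank = finrank F (LinearMap.range M.mulVecLin) := rfl
      have hli : LinearIndependent F ![u, u'] := by
        rw [LinearIndependent.pair_iff]
        intro s t hst
        have ht : t = 0 := by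
          by_contra ht
          apply hne (-(t⁻¹ * s))
          have h1 : t • u' = -(s • u) := by
            rw [eq_neg_iff_add_eq_zero, add_comm]
            exact hst
          calc u' = t⁻¹ • (t • u') := by rw [smul_smul, inv_mul_cancel₀ ht, one_smul]
            _ = -(t⁻¹ * s) • u := by rw [h1, smul_neg, smul_smul, neg_smul]
        rw [ht, zero_smul, add_zero] at hst
        rcases smul_eq_zero.mp hst with h | h
        · exact ⟨h, ht⟩
        · exact absurd h hu0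
      have hspan : Submodule.span F (Set.range ![u, u']) ≤ LinearMap.ker M.mulVecLin := by
        rw [Submodule.span_le]
        rintro _ ⟨i, rfl⟩
        fin_cases i
        · exact LinearMap.mem_ker.mpr hMu
        · exact LinearMap.mem_ker.mpr hMu'
      have h2 := Submodule.finrank_mono hspan
      rw [finrank_span_eq_card hli, Fintype.card_fin] at h2
      omega
    obtain ⟨m, φ, hMm⟩ := singer_rank_one M hrank
    have hx'M : x' = μ • (1 : Matrix (Fin 3) (Fin 3) F) + vecMulVec m φ := by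
      rw [← hMm, hM]
      abel
    have hscal : vecMulVec m φ = 0 → False := by
      intro h3
      apply hns (d * μ)
      rw [hxx', hx'M, h3, add_zero, smul_smul]
    have hm0 : m ≠ 0 := by
      rintro rfl
      exact hscal (Matrix.zero_vecMulVec φ)
    have hxm : x' *ᵥ m = (μ + φ ⬝ᵥ m) • m := by
      rw [hx'M, Matrix.add_mulVec, Matrix.smul_mulVec, Matrix.one_mulVec, Matrix.vecMulVec_mulVec,
        op_smul_eq_smul, add_smul]
    have hβ3 := hpowv _ m hm0 hxm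
    have hβμ : φ ⬝ᵥ m ≠ 0 := by
      intro h0
      have hMM : vecMulVec m φ * vecMulVec m φ = 0 := by
        rw [Matrix.vecMulVec_mul_vecMulVec, h0, zero_smul, Matrix.vecMulVec_zero]
      have h1 : x' ^ 3 = (μ ^ 3) • (1 : Matrix (Fin 3) (Fin 3) F)
          + (3 * μ ^ 2) • vecMulVec m φ := by
        rw [hx'M, pow_three]
        simp only [add_mul, mul_add, smul_mul_assoc, mul_smul_comm, one_mul, mul_one, hMM,
          smul_zero, add_zero, smul_add, smul_smul]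
        module
      rw [hx'n, hμ3, one_smul] at h1
      have h2 : (3 * μ ^ 2) • vecMulVec m φ = 0 := by
        have h3 : (1 : Matrix (Fin 3) (Fin 3) F) + (3 * μ ^ 2) • vecMulVec m φ = 1 + 0 := by
          rw [add_zero]
          exact h1.symm
        exact add_left_cancel h3
      rcases smul_eq_zero.mp h2 with h | h
      · exact (mul_ne_zero hchar (pow_ne_zero 2 hμ0)) h
      · exact hscal h
    have hdet1 : x'.det = μ ^ 3 + μ ^ 2 * (φ ⬝ᵥ m) := by rw [hx'M, singer3_det_add μ hμ0]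
    have he9 : (d⁻¹) ^ 9 = 1 := by
      have h1 : (d⁻¹) ^ 9 = ((d⁻¹) ^ 3) ^ 3 := by ring
      have h2 : (μ ^ 3 + μ ^ 2 * (φ ⬝ᵥ m)) ^ 3 = (μ ^ 3) ^ 2 * (μ + φ ⬝ᵥ m) ^ 3 := by ring
      rw [h1, ← hdetx', hdet1, h2, hμ3, hβ3, one_pow, one_mul]
    have he3 := hno9 _ he9
    rw [← hdetx', hdet1, hμ3] at he3
    have h4 : μ ^ 2 * (φ ⬝ᵥ m) = 0 := by linear_combination he3
    rcases mul_eq_zero.mp h4 with h | h
    · exact pow_ne_zero 2 hμ0 h
    · exact hβμ h
  obtain ⟨y, hyN, hyn, hyns⟩ := singer_frob hK (by norm_num)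
  have heigy : ∀ (μ : F) (u u' : Fin 3 → F), u ≠ 0 → y.1 *ᵥ u = μ • u → y.1 *ᵥ u' = μ • u' →
      ∃ c : F, u' = c • u :=
    fun μ u u' hu0 hu hu' => singer_eigen hK Nat.prime_three y hyN hyns μ u u' hu0 hu hu'
  obtain ⟨W, hWu, hW⟩ := singer3_eigenbasis hchar ω hω x' hx'n heig
  obtain ⟨W', hW'u, hW'⟩ := singer3_eigenbasis hchar ω hω y.1 hyn heigy
  have hWd : W.det ≠ 0 := hWu.ne_zero
  have hW'd : W'.det ≠ 0 := hW'u.ne_zero
  obtain ⟨δ, hδ⟩ : ∃ δ : F, δ = W.det * (W'.det)⁻¹ := ⟨_, rfl⟩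
  obtain ⟨Q, hQ⟩ : ∃ Q : Matrix (Fin 3) (Fin 3) F, Q = W' * Matrix.diagonal ![δ, 1, 1] * W⁻¹ :=
    ⟨_, rfl⟩
  have hWi : W⁻¹ * W = 1 := Matrix.nonsing_inv_mul W hWu
  have hWi' : W * W⁻¹ = 1 := Matrix.mul_nonsing_inv W hWu
  have hdiag : Matrix.diagonal ![δ, 1, 1] * Matrix.diagonal ![1, ω, ω ^ 2]
      = Matrix.diagonal ![1, ω, ω ^ 2] * Matrix.diagonal ![δ, 1, 1] := by
    rw [Matrix.diagonal_mul_diagonal, Matrix.diagonal_mul_diagonal]
    congr 1
    funext i
    ring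
  have hQx : Q * x' = y.1 * Q := by
    have h1 : W⁻¹ * x' = Matrix.diagonal ![1, ω, ω ^ 2] * W⁻¹ := by
      calc W⁻¹ * x' = W⁻¹ * (x' * W) * W⁻¹ := by
            rw [Matrix.mul_assoc, Matrix.mul_assoc, hWi', Matrix.mul_one]
        _ = Matrix.diagonal ![1, ω, ω ^ 2] * W⁻¹ := by
            rw [hW, ← Matrix.mul_assoc W⁻¹, hWi, Matrix.one_mul]
    calc Q * x' = W' * Matrix.diagonal ![δ, 1, 1] * (W⁻¹ * x') := by
          rw [hQ, Matrix.mul_assoc]
      _ = W' * (Matrix.diagonal ![δ, 1, 1] * Matrix.diagonal ![1, ω, ω ^ 2]) * W⁻¹ := by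
          rw [h1]
          simp only [Matrix.mul_assoc]
      _ = (W' * Matrix.diagonal ![1, ω, ω ^ 2]) * Matrix.diagonal ![δ, 1, 1] * W⁻¹ := by
          rw [hdiag]
          simp only [Matrix.mul_assoc]
      _ = y.1 * Q := by
          rw [← hW', hQ]
          simp only [Matrix.mul_assoc]
  have hQdet : Q.det = 1 := by
    have h1 : (W⁻¹).det * W.det = 1 := by
      rw [← Matrix.det_mul, hWi, Matrix.det_one]
    have h2 : (W⁻¹).det = (W.det)⁻¹ := eq_inv_of_mul_eq_one_left h1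
    rw [hQ, Matrix.det_mul, Matrix.det_mul, Matrix.det_diagonal, h2, Fin.prod_univ_three]
    simp only [Matrix.cons_val_zero, Matrix.cons_val_one, Matrix.cons_val_two, Matrix.head_cons,
      Matrix.tail_cons, mul_one]
    rw [hδ]
    field_simp
  obtain ⟨Qs, hQs⟩ : ∃ Qs : Matrix.SpecialLinearGroup (Fin 3) F, Qs.1 = Q := ⟨⟨Q, hQdet⟩, rfl⟩
  obtain ⟨s, hs⟩ : ∃ s : GL (Fin 3) F, s.1 = d • (1 : Matrix (Fin 3) (Fin 3) F) :=
    ⟨⟨d • 1, d⁻¹ • 1, by
      rw [Matrix.smul_mul, Matrix.one_mul, smul_smul, mul_inv_cancel₀ hd0, one_smul], by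
      rw [Matrix.smul_mul, Matrix.one_mul, smul_smul, inv_mul_cancel₀ hd0, one_smul]⟩, rfl⟩
  have key : Matrix.SpecialLinearGroup.toGL Qs * Matrix.SpecialLinearGroup.toGL x
      = s * y * Matrix.SpecialLinearGroup.toGL Qs := by
    apply Units.ext
    show Qs.1 * x.1 = s.1 * y.1 * Qs.1
    rw [hQs, hs, hxx', Matrix.mul_smul, hQx, Matrix.smul_mul, Matrix.one_mul, Matrix.smul_mul]
  refine ⟨Qs⁻¹, ?_⟩
  rw [Subgroup.mem_comap, inv_inv, map_mul, map_mul, map_inv, key, mul_inv_cancel_right]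
  exact (Cfsg.Geo.subalgebraNormalizer K).mul_mem (singer_scalar_mem K s d hs) hyN

/-- For `q ≡ 2, 5 (mod 9)` the index of the Singer normaliser in `SL_3(q)` is prime to three. -/
theorem singer3_index (hq : Fintype.card F % 9 = 2 ∨ Fintype.card F % 9 = 5)
    (K : Subalgebra F (Matrix (Fin 3) (Fin 3) F)) (hK : Cfsg.Geo.IsFieldSubalgebra 3 K)
    (hΩ : 3 ∣ ((Cfsg.Geo.subalgebraNormalizer K).comap
      (Matrix.SpecialLinearGroup.toGL :
        Matrix.SpecialLinearGroup (Fin 3) F →* GL (Fin 3) F)).index) : False := by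
  classical
  have hqpos : 1 ≤ Fintype.card F := Fintype.card_pos
  have hr1 : ¬ 3 ∣ Fintype.card F - 1 := by omega
  obtain ⟨y, hyN, hyn, hyns⟩ := singer_frob hK (by norm_num)
  have hdet : y.1.det = 1 := by
    apply altder_root_one 3 Nat.prime_three hr1
    rw [← Matrix.det_pow, hyn, Matrix.det_one]
  obtain ⟨Y, hY⟩ : ∃ Y : Matrix.SpecialLinearGroup (Fin 3) F, Y.1 = y.1 := ⟨⟨y.1, hdet⟩, rfl⟩
  obtain ⟨H, hH⟩ : ∃ H : Subgroup (Matrix.SpecialLinearGroup (Fin 3) F),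
      H = (Cfsg.Geo.subalgebraNormalizer K).comap
        (Matrix.SpecialLinearGroup.toGL :
          Matrix.SpecialLinearGroup (Fin 3) F →* GL (Fin 3) F) := ⟨_, rfl⟩
  rw [← hH] at hΩ
  have hYmem : Y ∈ H := by
    rw [hH, Subgroup.mem_comap]
    have h1 : Matrix.SpecialLinearGroup.toGL Y = y := Units.ext hY
    rw [h1]
    exact hyN
  have hY3 : Y ^ 3 = 1 := by
    apply Subtype.ext
    rw [Matrix.SpecialLinearGroup.coe_pow, hY, hyn]
    rfl
  have hY1 : Y ≠ 1 := by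
    intro h1
    apply hyns 1
    rw [one_smul, ← hY, h1]
    rfl
  have hord : orderOf (⟨Y, hYmem⟩ : H) = 3 :=
    orderOf_eq_prime (Subtype.ext hY3) (fun h => hY1 (congrArg Subtype.val h))
  have h3H : 3 ∣ Nat.card H := by
    have h := orderOf_dvd_natCard (⟨Y, hYmem⟩ : H)
    rw [hord] at h
    exact h
  have hmul := Subgroup.card_mul_index H
  have h9 : 3 * 3 ∣ Nat.card (Matrix.SpecialLinearGroup (Fin 3) F) := by
    rw [← hmul]
    exact Nat.mul_dvd_mul h3H hΩ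
  have hcard := Cfsg.Agent.Lib.Helper6.card_sl (F := F) rfl 3 (by norm_num)
  rw [Fin.prod_univ_three] at hcard
  simp only [Fin.val_zero, Fin.val_one, Fin.val_two, pow_zero, pow_one] at hcard
  have h9' : 9 ∣ (Fintype.card F ^ 3 - 1) * (Fintype.card F ^ 3 - Fintype.card F)
      * (Fintype.card F ^ 3 - Fintype.card F ^ 2) := by
    rw [← hcard]
    exact Dvd.dvd.mul_left h9 _
  have hz := (ZMod.natCast_eq_zero_iff _ 9).mpr h9'
  have hQ1 : 1 ≤ Fintype.card F ^ 3 := Nat.one_le_pow _ _ hqpos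
  have hQ2 : Fintype.card F ≤ Fintype.card F ^ 3 := Nat.le_self_pow (by norm_num) _
  have hQ3 : Fintype.card F ^ 2 ≤ Fintype.card F ^ 3 := Nat.pow_le_pow_right hqpos (by norm_num)
  rw [Nat.cast_mul, Nat.cast_mul, Nat.cast_sub hQ1, Nat.cast_sub hQ2, Nat.cast_sub hQ3] at hz
  push_cast at hz
  have hQ9 : ((Fintype.card F : ℕ) : ZMod 9) = 2 ∨ ((Fintype.card F : ℕ) : ZMod 9) = 5 := by
    have h1 := (ZMod.natCast_mod (Fintype.card F) 9).symm
    rcases hq with h | h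
    · left
      rw [h1, h]
      rfl
    · right
      rw [h1, h]
      rfl
  rcases hQ9 with h | h
  · rw [h] at hz
    revert hz
    decide
  · rw [h] at hz
    revert hz
    decide

/-- For `q ≡ 1 (mod 9)`, an element of `SL_3(q)` of order three modulo scalars with a repeated
eigenvalue. -/
theorem singer3_der_nine (hq : Fintype.card F % 9 = 1) :
    ∃ (x : Matrix.SpecialLinearGroup (Fin 3) F) (z : F),
      x.1 ^ 3 = z • (1 : Matrix (Fin 3) (Fin 3) F) ∧
      (∀ c : F, x.1 ≠ c • (1 : Matrix (Fin 3) (Fin 3) F)) ∧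
      ∃ (μ : F) (u u' : Fin 3 → F), u ≠ 0 ∧ x.1 *ᵥ u = μ • u ∧ x.1 *ᵥ u' = μ • u' ∧
        ∀ c : F, u' ≠ c • u := by
  classical
  have hq2 : 2 ≤ Fintype.card F := Fintype.one_lt_card
  obtain ⟨g, hg⟩ := IsCyclic.exists_generator (α := Fˣ)
  have hord : orderOf g = Fintype.card F - 1 := by
    rw [orderOf_eq_card_of_forall_mem_zpowers hg, Nat.card_units, Nat.card_eq_fintype_card]
  obtain ⟨m, hm⟩ : ∃ m, Fintype.card F - 1 = 9 * m := ⟨(Fintype.card F - 1) / 9, by omega⟩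
  have hm1 : 1 ≤ m := by omega
  obtain ⟨e, hedef⟩ : ∃ e : F, e = ((g ^ m : Fˣ) : F) := ⟨_, rfl⟩
  have he9 : e ^ 9 = 1 := by
    rw [hedef, ← Units.val_pow_eq_pow_val, ← pow_mul, mul_comm, ← hm, ← hord, pow_orderOf_eq_one]
    rfl
  have he3 : e ^ 3 ≠ 1 := by
    intro h3
    have h4 : g ^ (m * 3) = 1 := by
      apply Units.ext
      rw [pow_mul, Units.val_pow_eq_pow_val, ← hedef, h3]
      rfl
    exact pow_ne_one_of_lt_orderOf (by omega) (by rw [hord, hm]; omega) h4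
  have he0 : e ≠ 0 := by
    rintro rfl
    simp at he9
  obtain ⟨D, hD⟩ : ∃ D : Fin 3 → F, D = ![e, e, (e * e)⁻¹] := ⟨_, rfl⟩
  have hD0 : D 0 = e := by rw [hD]; rfl
  have hD1 : D 1 = e := by rw [hD]; rfl
  have hD2 : D 2 = (e * e)⁻¹ := by rw [hD]; rfl
  have hdet : (Matrix.diagonal D).det = 1 := by
    rw [Matrix.det_diagonal, Fin.prod_univ_three, hD0, hD1, hD2]
    field_simp
  have hpw : D ^ 3 = fun _ => e ^ 3 := by
    funext i
    fin_cases i
    · show D 0 ^ 3 = e ^ 3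
      rw [hD0]
    · show D 1 ^ 3 = e ^ 3
      rw [hD1]
    · show D 2 ^ 3 = e ^ 3
      rw [hD2]
      field_simp
      linear_combination -he9
  refine ⟨⟨Matrix.diagonal D, hdet⟩, e ^ 3, ?_, ?_, e, Pi.single 0 1, Pi.single 1 1, ?_, ?_, ?_, ?_⟩
  · show Matrix.diagonal D ^ 3 = e ^ 3 • (1 : Matrix (Fin 3) (Fin 3) F)
    rw [Matrix.diagonal_pow, hpw, Matrix.smul_one_eq_diagonal]
  · intro c hc
    have hc' : Matrix.diagonal D = c • (1 : Matrix (Fin 3) (Fin 3) F) := hc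
    rw [Matrix.smul_one_eq_diagonal] at hc'
    have h1 := Matrix.diagonal_injective hc'
    have h2 := congrFun h1 0
    have h3 := congrFun h1 2
    rw [hD0] at h2
    rw [hD2] at h3
    apply he3
    have h4 : e = (e * e)⁻¹ := h2.trans h3.symm
    field_simp at h4
    linear_combination h4
  · intro h
    have h1 := congrFun h 0
    simp at h1
  · show Matrix.diagonal D *ᵥ Pi.single 0 1 = e • Pi.single 0 1
    rw [Matrix.diagonal_mulVec_single, hD0, mul_one]
    ext i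
    simp [Pi.single_apply]
  · show Matrix.diagonal D *ᵥ Pi.single 1 1 = e • Pi.single 1 1
    rw [Matrix.diagonal_mulVec_single, hD1, mul_one]
    ext i
    simp [Pi.single_apply]
  · intro c h
    have h1 := congrFun h 1
    simp at h1

end Singer3C

section Singer3D

variable {F : Type*} [Field F] [Fintype F] [CharP F 3]

/-- In characteristic three, a transvection of `SL_3`: an element of order three fixing a plane. -/
theorem singer3_der_char3 :
    ∃ x : Matrix.SpecialLinearGroup (Fin 3) F, x.1 ^ 3 = 1 ∧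
      (∀ c : F, x.1 ≠ c • (1 : Matrix (Fin 3) (Fin 3) F)) ∧
      ∃ u u' : Fin 3 → F, u ≠ 0 ∧ x.1 *ᵥ u = (1 : F) • u ∧ x.1 *ᵥ u' = (1 : F) • u' ∧
        ∀ c : F, u' ≠ c • u := by
  classical
  obtain ⟨N, hN⟩ : ∃ N : Matrix (Fin 3) (Fin 3) F, N = Matrix.single 0 1 1 := ⟨_, rfl⟩
  have hNN : N * N = 0 := by
    rw [hN]
    ext i j
    fin_cases i <;> fin_cases j <;>
      simp [Matrix.mul_apply, Fin.sum_univ_three, Matrix.single_apply]
  have hdet : (1 + N).det = 1 := det_one_add_sq_zero N hNN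
  have hcp : CharP (Matrix (Fin 3) (Fin 3) F) 3 := inferInstance
  have hpow : (1 + N) ^ 3 = 1 := by
    rw [add_pow_char_of_commute 3 (Commute.one_left N), one_pow, pow_three, hNN, mul_zero,
      add_zero]
  have hNv : ∀ v : Fin 3 → F, v 1 = 0 → (1 + N) *ᵥ v = (1 : F) • v := by
    intro v hv
    rw [Matrix.add_mulVec, Matrix.one_mulVec, one_smul, hN]
    have h1 : Matrix.single (0 : Fin 3) (1 : Fin 3) (1 : F) *ᵥ v = 0 := by
      ext i
      simp [Matrix.mulVec, dotProduct, Fin.sum_univ_three, Matrix.single_apply, hv]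
    rw [h1, add_zero]
  refine ⟨⟨1 + N, hdet⟩, hpow, ?_, Pi.single 0 1, Pi.single 2 1, ?_, ?_, ?_, ?_⟩
  · intro c hc
    have hc' : 1 + N = c • (1 : Matrix (Fin 3) (Fin 3) F) := hc
    have h1 := congrFun (congrFun hc' 0) 1
    rw [hN] at h1
    simp [Matrix.single_apply] at h1
  · intro h
    have h1 := congrFun h 0
    simp at h1
  · exact hNv _ (by simp)
  · exact hNv _ (by simp)
  · intro c h
    have h1 := congrFun h 2
    simp at h1

end Singer3D

end Cfsg.Agent.Lib.Helper98
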