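import Mathlib
import Cfsg.Agent.Lib.Helper98.SympB
import Cfsg.Agent.Lib.Helper99.Norm

/-!
The standard form of the group `4 ∘ 2^{1+4}` inside `GL_4(F)`: it is conjugate to the group
generated by the scalar `i` and the four "Pauli matrices" `Z1, X1, Z2, X2`.
-/

set_option autoImplicit false

namespace Cfsg.Agent.Lib.Helper98.Symp

open Matrix

section C

variable {F : Type*} [Field F]

/-- `Z ⊗ 1` -/
def Z1m (F : Type*) [Field F] : Matrix (Fin 4) (Fin 4) F :=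
  !![1, 0, 0, 0; 0, -1, 0, 0; 0, 0, 1, 0; 0, 0, 0, -1]
/-- `X ⊗ 1` -/
def X1m (F : Type*) [Field F] : Matrix (Fin 4) (Fin 4) F :=
  !![0, 1, 0, 0; 1, 0, 0, 0; 0, 0, 0, 1; 0, 0, 1, 0]
/-- `1 ⊗ Z` -/
def Z2m (F : Type*) [Field F] : Matrix (Fin 4) (Fin 4) F :=
  !![1, 0, 0, 0; 0, 1, 0, 0; 0, 0, -1, 0; 0, 0, 0, -1]
/-- `1 ⊗ X` -/
def X2m (F : Type*) [Field F] : Matrix (Fin 4) (Fin 4) F :=
  !![0, 0, 1, 0; 0, 0, 0, 1; 1, 0, 0, 0; 0, 1, 0, 0]

theorem Z1m_sq : Z1m F * Z1m F = 1 := by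
  ext a b
  fin_cases a <;> fin_cases b <;> simp [Z1m, Matrix.mul_apply, Fin.sum_univ_four]
theorem X1m_sq : X1m F * X1m F = 1 := by
  ext a b
  fin_cases a <;> fin_cases b <;> simp [X1m, Matrix.mul_apply, Fin.sum_univ_four]
theorem Z2m_sq : Z2m F * Z2m F = 1 := by
  ext a b
  fin_cases a <;> fin_cases b <;> simp [Z2m, Matrix.mul_apply, Fin.sum_univ_four]
theorem X2m_sq : X2m F * X2m F = 1 := by
  ext a b
  fin_cases a <;> fin_cases b <;> simp [X2m, Matrix.mul_apply, Fin.sum_univ_four]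

/-- the Pauli matrices as units -/
def Z1u (F : Type*) [Field F] : GL (Fin 4) F := ⟨Z1m F, Z1m F, Z1m_sq, Z1m_sq⟩
def X1u (F : Type*) [Field F] : GL (Fin 4) F := ⟨X1m F, X1m F, X1m_sq, X1m_sq⟩
def Z2u (F : Type*) [Field F] : GL (Fin 4) F := ⟨Z2m F, Z2m F, Z2m_sq, Z2m_sq⟩
def X2u (F : Type*) [Field F] : GL (Fin 4) F := ⟨X2m F, X2m F, X2m_sq, X2m_sq⟩

/-- the standard group generated by a (scalar) element `c` and the Pauli matrices -/
def stdR (c : GL (Fin 4) F) : Subgroup (GL (Fin 4) F) :=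
  Subgroup.closure {c, Z1u F, X1u F, Z2u F, X2u F}

theorem c_mem_stdR (c : GL (Fin 4) F) : c ∈ stdR c := Subgroup.subset_closure (by simp)
theorem Z1u_mem_stdR (c : GL (Fin 4) F) : Z1u F ∈ stdR c := Subgroup.subset_closure (by simp)
theorem X1u_mem_stdR (c : GL (Fin 4) F) : X1u F ∈ stdR c := Subgroup.subset_closure (by simp)
theorem Z2u_mem_stdR (c : GL (Fin 4) F) : Z2u F ∈ stdR c := Subgroup.subset_closure (by simp)
theorem X2u_mem_stdR (c : GL (Fin 4) F) : X2u F ∈ stdR c := Subgroup.subset_closure (by simp)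

/-- the matrix with prescribed columns -/
def colMat (q : Fin 4 → Fin 4 → F) : Matrix (Fin 4) (Fin 4) F := Matrix.of fun r k => q k r

theorem mul_colMat (A : Matrix (Fin 4) (Fin 4) F) (q : Fin 4 → Fin 4 → F) :
    A * colMat q = colMat (fun k => A *ᵥ q k) := by
  ext r k
  simp [colMat, Matrix.mul_apply, Matrix.mulVec, dotProduct]

theorem colMat_mul_Z1 (q : Fin 4 → Fin 4 → F) :
    colMat q * Z1m F = colMat ![q 0, -q 1, q 2, -q 3] := by
  ext r k
  fin_cases k <;> simp [colMat, Z1m, Matrix.mul_apply, Fin.sum_univ_four]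

theorem colMat_mul_X1 (q : Fin 4 → Fin 4 → F) :
    colMat q * X1m F = colMat ![q 1, q 0, q 3, q 2] := by
  ext r k
  fin_cases k <;> simp [colMat, X1m, Matrix.mul_apply, Fin.sum_univ_four]

theorem colMat_mul_Z2 (q : Fin 4 → Fin 4 → F) :
    colMat q * Z2m F = colMat ![q 0, q 1, -q 2, -q 3] := by
  ext r k
  fin_cases k <;> simp [colMat, Z2m, Matrix.mul_apply, Fin.sum_univ_four]

theorem colMat_mul_X2 (q : Fin 4 → Fin 4 → F) :
    colMat q * X2m F = colMat ![q 2, q 3, q 0, q 1] := by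
  ext r k
  fin_cases k <;> simp [colMat, X2m, Matrix.mul_apply, Fin.sum_univ_four]

/-- a matrix anticommuting with an involution has trace zero -/
theorem trace_zero_of_anti {m : Type*} [Fintype m] [DecidableEq m] (h2 : (2 : F) ≠ 0)
    (A B : Matrix m m F) (hB : B * B = 1) (h : A * B = -(B * A)) : A.trace = 0 := by
  have h1 : A.trace = -A.trace := by
    calc A.trace = (A * (B * B)).trace := by rw [hB, Matrix.mul_one]
      _ = ((A * B) * B).trace := by rw [Matrix.mul_assoc]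
      _ = (-(B * A) * B).trace := by rw [h]
      _ = -((B * A) * B).trace := by rw [Matrix.neg_mul, Matrix.trace_neg]
      _ = -(B * (A * B)).trace := by rw [Matrix.mul_assoc]
      _ = -((A * B) * B).trace := by rw [Matrix.trace_mul_comm]
      _ = -A.trace := by rw [Matrix.mul_assoc, hB, Matrix.mul_one]
  have h3 : (2 : F) * A.trace = 0 := by linear_combination h1
  exact (mul_eq_zero.mp h3).resolve_left h2

/-- the commutant of the Pauli matrices consists of the scalars -/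
theorem commutant_std (h2 : (2 : F) ≠ 0) (M : Matrix (Fin 4) (Fin 4) F)
    (hZ1 : M * Z1m F = Z1m F * M) (hX1 : M * X1m F = X1m F * M) (hZ2 : M * Z2m F = Z2m F * M)
    (hX2 : M * X2m F = X2m F * M) : M = M 0 0 • (1 : Matrix (Fin 4) (Fin 4) F) := by
  have off : ∀ x : F, x = -x → x = 0 := by
    intro x hx
    have h3 : (2 : F) * x = 0 := by linear_combination hx
    exact (mul_eq_zero.mp h3).resolve_left h2
  have hz1 : M = Z1m F * M * Z1m F := by rw [← hZ1, Matrix.mul_assoc, Z1m_sq, Matrix.mul_one]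
  have hz2 : M = Z2m F * M * Z2m F := by rw [← hZ2, Matrix.mul_assoc, Z2m_sq, Matrix.mul_one]
  have z1 : ∀ r k : Fin 4, M r k = (Z1m F * M * Z1m F) r k := fun r k => by rw [← hz1]
  have z2 : ∀ r k : Fin 4, M r k = (Z2m F * M * Z2m F) r k := fun r k => by rw [← hz2]
  have x1 : ∀ r k : Fin 4, (M * X1m F) r k = (X1m F * M) r k := fun r k => by rw [hX1]
  have x2 : ∀ r k : Fin 4, (M * X2m F) r k = (X2m F * M) r k := fun r k => by rw [hX2]
  have m01 : M 0 1 = 0 := off _ (by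
    have h := z1 0 1; simpa [Z1m, Matrix.mul_apply, Matrix.vecMul, dotProduct, Fin.sum_univ_four] using h)
  have m10 : M 1 0 = 0 := off _ (by
    have h := z1 1 0; simpa [Z1m, Matrix.mul_apply, Matrix.vecMul, dotProduct, Fin.sum_univ_four] using h)
  have m03 : M 0 3 = 0 := off _ (by
    have h := z1 0 3; simpa [Z1m, Matrix.mul_apply, Matrix.vecMul, dotProduct, Fin.sum_univ_four] using h)
  have m30 : M 3 0 = 0 := off _ (by
    have h := z1 3 0; simpa [Z1m, Matrix.mul_apply, Matrix.vecMul, dotProduct, Fin.sum_univ_four] using h)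
  have m12 : M 1 2 = 0 := off _ (by
    have h := z1 1 2; simpa [Z1m, Matrix.mul_apply, Matrix.vecMul, dotProduct, Fin.sum_univ_four] using h)
  have m21 : M 2 1 = 0 := off _ (by
    have h := z1 2 1; simpa [Z1m, Matrix.mul_apply, Matrix.vecMul, dotProduct, Fin.sum_univ_four] using h)
  have m23 : M 2 3 = 0 := off _ (by
    have h := z1 2 3; simpa [Z1m, Matrix.mul_apply, Matrix.vecMul, dotProduct, Fin.sum_univ_four] using h)
  have m32 : M 3 2 = 0 := off _ (by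
    have h := z1 3 2; simpa [Z1m, Matrix.mul_apply, Matrix.vecMul, dotProduct, Fin.sum_univ_four] using h)
  have m02 : M 0 2 = 0 := off _ (by
    have h := z2 0 2; simpa [Z2m, Matrix.mul_apply, Matrix.vecMul, dotProduct, Fin.sum_univ_four] using h)
  have m20 : M 2 0 = 0 := off _ (by
    have h := z2 2 0; simpa [Z2m, Matrix.mul_apply, Matrix.vecMul, dotProduct, Fin.sum_univ_four] using h)
  have m13 : M 1 3 = 0 := off _ (by
    have h := z2 1 3; simpa [Z2m, Matrix.mul_apply, Matrix.vecMul, dotProduct, Fin.sum_univ_four] using h)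
  have m31 : M 3 1 = 0 := off _ (by
    have h := z2 3 1; simpa [Z2m, Matrix.mul_apply, Matrix.vecMul, dotProduct, Fin.sum_univ_four] using h)
  have d11 : M 1 1 = M 0 0 := by
    have h := x1 0 1; simp [X1m, Matrix.mul_apply, Fin.sum_univ_four] at h; exact h.symm
  have d33 : M 3 3 = M 2 2 := by
    have h := x1 2 3; simp [X1m, Matrix.mul_apply, Fin.sum_univ_four] at h; exact h.symm
  have d22 : M 2 2 = M 0 0 := by
    have h := x2 0 2; simp [X2m, Matrix.mul_apply, Fin.sum_univ_four] at h; exact h.symm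
  ext r k
  fin_cases r <;> fin_cases k <;>
    simp [Matrix.smul_apply, m01, m10, m03, m30, m12, m21, m23, m32, m02, m20, m13, m31, d11,
      d33, d22]

theorem conj_comm {Γ : Type*} [Group Γ] (Q g E r : Γ) (h : g * Q = Q * E)
    (hc : r * g = g * r) : (Q⁻¹ * r * Q) * E = E * (Q⁻¹ * r * Q) := by
  have e : E = Q⁻¹ * g * Q := by rw [mul_assoc, h, ← mul_assoc, inv_mul_cancel, one_mul]
  rw [e]
  calc Q⁻¹ * r * Q * (Q⁻¹ * g * Q) = Q⁻¹ * (r * g) * Q := by group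
    _ = Q⁻¹ * (g * r) * Q := by rw [hc]
    _ = Q⁻¹ * g * Q * (Q⁻¹ * r * Q) := by group

/-- The standard form. -/
theorem std_form (h2 : (2 : F) ≠ 0) (i : F) (hi : i ^ 2 = -1) (R : Subgroup (GL (Fin 4) F))
    (hsq : ∀ g ∈ R, g * g = 1 ∨ g * g = -1) (c : GL (Fin 4) F) (hcR : c ∈ R)
    (hc : (c : Matrix (Fin 4) (Fin 4) F) = i • (1 : Matrix (Fin 4) (Fin 4) F))
    (hcent : ∀ g ∈ R, (∀ h ∈ R, g * h = h * g) →
      ∃ l : F, (g : Matrix (Fin 4) (Fin 4) F) = l • (1 : Matrix (Fin 4) (Fin 4) F))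
    (hcard : Nat.card R = 64) :
    ∃ P : GL (Fin 4) F, ∀ g : GL (Fin 4) F, g ∈ R ↔ P⁻¹ * g * P ∈ stdR c := by
  obtain ⟨g₁, h₁, g₂, h₂, hg₁, hh₁, hg₂, hh₂, s1, s2, s3, s4, a1, a2, c1, c2, c3, c4⟩ :=
    exists_pauli_gens i hi R hsq c hcR hc hcent hcard
  have h4 : (4 : F) ≠ 0 := by
    have : (4 : F) = 2 * 2 := by norm_num
    rw [this]
    exact mul_ne_zero h2 h2
  have hcc : ∀ x : GL (Fin 4) F, c * x = x * c := by
    intro x
    apply Units.ext
    rw [Units.val_mul, Units.val_mul, hc, Matrix.smul_mul, Matrix.mul_smul, Matrix.one_mul,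
      Matrix.mul_one]
  have hc2 : c * c = -1 := by
    apply Units.ext
    rw [Units.val_mul, hc, Units.val_neg, Units.val_one, Matrix.smul_mul, Matrix.one_mul,
      smul_smul, ← pow_two, hi, neg_smul, one_smul]
  obtain ⟨G1, hG1⟩ : ∃ G1 : Matrix (Fin 4) (Fin 4) F, G1 = (g₁ : Matrix (Fin 4) (Fin 4) F) :=
    ⟨_, rfl⟩
  obtain ⟨H1, hH1⟩ : ∃ H1 : Matrix (Fin 4) (Fin 4) F, H1 = (h₁ : Matrix (Fin 4) (Fin 4) F) :=
    ⟨_, rfl⟩
  obtain ⟨G2, hG2⟩ : ∃ G2 : Matrix (Fin 4) (Fin 4) F, G2 = (g₂ : Matrix (Fin 4) (Fin 4) F) :=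
    ⟨_, rfl⟩
  obtain ⟨H2, hH2⟩ : ∃ H2 : Matrix (Fin 4) (Fin 4) F, H2 = (h₂ : Matrix (Fin 4) (Fin 4) F) :=
    ⟨_, rfl⟩
  have S1 : G1 * G1 = 1 := by rw [hG1, ← Units.val_mul, s1, Units.val_one]
  have S2 : H1 * H1 = 1 := by rw [hH1, ← Units.val_mul, s2, Units.val_one]
  have S3 : G2 * G2 = 1 := by rw [hG2, ← Units.val_mul, s3, Units.val_one]
  have S4 : H2 * H2 = 1 := by rw [hH2, ← Units.val_mul, s4, Units.val_one]
  have A1 : G1 * H1 = -(H1 * G1) := by
    rw [hG1, hH1, ← Units.val_mul, a1, Units.val_neg, Units.val_mul]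
  have A2 : G2 * H2 = -(H2 * G2) := by
    rw [hG2, hH2, ← Units.val_mul, a2, Units.val_neg, Units.val_mul]
  have C1 : G2 * G1 = G1 * G2 := by rw [hG1, hG2, ← Units.val_mul, c1, Units.val_mul]
  have C2 : G2 * H1 = H1 * G2 := by rw [hH1, hG2, ← Units.val_mul, c2, Units.val_mul]
  have C3 : H2 * G1 = G1 * H2 := by rw [hG1, hH2, ← Units.val_mul, c3, Units.val_mul]
  have C4 : H2 * H1 = H1 * H2 := by rw [hH1, hH2, ← Units.val_mul, c4, Units.val_mul]
  have A1' : H1 * G1 = -(G1 * H1) := by rw [A1, neg_neg]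
  have A2' : H2 * G2 = -(G2 * H2) := by rw [A2, neg_neg]
  -- a common eigenvector of G1 and G2
  have f1 : G1 * ((1 + G1) * (1 + G2)) = (1 + G1) * (1 + G2) := by
    have e0 : G1 * (1 + G1) = 1 + G1 := by rw [Matrix.mul_add, Matrix.mul_one, S1, add_comm]
    rw [← Matrix.mul_assoc, e0]
  have f2 : G2 * ((1 + G1) * (1 + G2)) = (1 + G1) * (1 + G2) := by
    have e : G2 * (1 + G1) = (1 + G1) * G2 := by
      rw [Matrix.mul_add, Matrix.mul_one, Matrix.add_mul, Matrix.one_mul, C1]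
    have e' : G2 * (1 + G2) = 1 + G2 := by rw [Matrix.mul_add, Matrix.mul_one, S3, add_comm]
    rw [← Matrix.mul_assoc, e, Matrix.mul_assoc, e']
  have hM0 : (1 + G1) * (1 + G2) ≠ 0 := by
    intro h0
    have t1 : G1.trace = 0 := trace_zero_of_anti h2 G1 H1 S2 A1
    have t2 : G2.trace = 0 := trace_zero_of_anti h2 G2 H2 S4 A2
    have t3 : (G1 * G2).trace = 0 := by
      apply trace_zero_of_anti h2 (G1 * G2) H1 S2
      rw [Matrix.mul_assoc, C2, ← Matrix.mul_assoc, A1, Matrix.neg_mul, Matrix.mul_assoc]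
    have e : (1 + G1) * (1 + G2) = 1 + G2 + G1 + G1 * G2 := by
      rw [Matrix.add_mul, Matrix.mul_add, Matrix.mul_add, Matrix.one_mul, Matrix.mul_one,
        Matrix.one_mul]
      abel
    have t : ((1 + G1) * (1 + G2)).trace = 4 := by
      rw [e, Matrix.trace_add, Matrix.trace_add, Matrix.trace_add, t1, t2, t3, Matrix.trace_one]
      simp
    rw [h0, Matrix.trace_zero] at t
    exact h4 t.symm
  obtain ⟨u, hu⟩ : ∃ u, ((1 + G1) * (1 + G2)) *ᵥ u ≠ 0 := by
    by_contra hall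
    push Not at hall
    apply hM0
    apply Matrix.toLin'.injective
    apply LinearMap.ext
    intro x
    rw [Matrix.toLin'_apply, hall x]
    simp
  obtain ⟨v, hv⟩ : ∃ v, v = ((1 + G1) * (1 + G2)) *ᵥ u := ⟨_, rfl⟩
  have hv0 : v ≠ 0 := by rw [hv]; exact hu
  have G1v : G1 *ᵥ v = v := by rw [hv, Matrix.mulVec_mulVec, f1]
  have G2v : G2 *ᵥ v = v := by rw [hv, Matrix.mulVec_mulVec, f2]
  obtain ⟨q1, hq1⟩ : ∃ q1, q1 = H1 *ᵥ v := ⟨_, rfl⟩
  obtain ⟨q2, hq2⟩ : ∃ q2, q2 = H2 *ᵥ v := ⟨_, rfl⟩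
  obtain ⟨q3, hq3⟩ : ∃ q3, q3 = H1 *ᵥ q2 := ⟨_, rfl⟩
  have H1v : H1 *ᵥ v = q1 := hq1.symm
  have H2v : H2 *ᵥ v = q2 := hq2.symm
  have H1q2 : H1 *ᵥ q2 = q3 := hq3.symm
  have H1q1 : H1 *ᵥ q1 = v := by rw [hq1, Matrix.mulVec_mulVec, S2, Matrix.one_mulVec]
  have H1q3 : H1 *ᵥ q3 = q2 := by rw [hq3, Matrix.mulVec_mulVec, S2, Matrix.one_mulVec]
  have H2q2 : H2 *ᵥ q2 = v := by rw [hq2, Matrix.mulVec_mulVec, S4, Matrix.one_mulVec]
  have H2q1 : H2 *ᵥ q1 = q3 := by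
    rw [hq1, Matrix.mulVec_mulVec, C4, ← Matrix.mulVec_mulVec, H2v, H1q2]
  have H2q3 : H2 *ᵥ q3 = q1 := by
    rw [hq3, Matrix.mulVec_mulVec, C4, ← Matrix.mulVec_mulVec, H2q2, H1v]
  have G1q1 : G1 *ᵥ q1 = -q1 := by
    rw [hq1, Matrix.mulVec_mulVec, A1, Matrix.neg_mulVec, ← Matrix.mulVec_mulVec, G1v]
  have G1q2 : G1 *ᵥ q2 = q2 := by
    rw [hq2, Matrix.mulVec_mulVec, ← C3, ← Matrix.mulVec_mulVec, G1v]
  have G1q3 : G1 *ᵥ q3 = -q3 := by
    rw [hq3, Matrix.mulVec_mulVec, A1, Matrix.neg_mulVec, ← Matrix.mulVec_mulVec, G1q2]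
  have G2q1 : G2 *ᵥ q1 = q1 := by
    rw [hq1, Matrix.mulVec_mulVec, C2, ← Matrix.mulVec_mulVec, G2v]
  have G2q2 : G2 *ᵥ q2 = -q2 := by
    rw [hq2, Matrix.mulVec_mulVec, A2, Matrix.neg_mulVec, ← Matrix.mulVec_mulVec, G2v]
  have G2q3 : G2 *ᵥ q3 = -q3 := by
    rw [hq3, Matrix.mulVec_mulVec, C2, ← Matrix.mulVec_mulVec, G2q2, Matrix.mulVec_neg]
  obtain ⟨Qm, hQ⟩ : ∃ Qm : Matrix (Fin 4) (Fin 4) F, Qm = colMat ![v, q1, q2, q3] := ⟨_, rfl⟩
  have hZ1 : G1 * Qm = Qm * Z1m F := by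
    rw [hQ, mul_colMat, colMat_mul_Z1]
    congr 1
    funext k
    fin_cases k <;> simp [G1v, G1q1, G1q2, G1q3]
  have hX1 : H1 * Qm = Qm * X1m F := by
    rw [hQ, mul_colMat, colMat_mul_X1]
    congr 1
    funext k
    fin_cases k <;> simp [H1v, H1q1, H1q2, H1q3]
  have hZ2 : G2 * Qm = Qm * Z2m F := by
    rw [hQ, mul_colMat, colMat_mul_Z2]
    congr 1
    funext k
    fin_cases k <;> simp [G2v, G2q1, G2q2, G2q3]
  have hX2 : H2 * Qm = Qm * X2m F := by
    rw [hQ, mul_colMat, colMat_mul_X2]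
    congr 1
    funext k
    fin_cases k <;> simp [H2v, H2q1, H2q2, H2q3]
  have hq1n : q1 ≠ 0 := by
    intro h
    rw [h, Matrix.mulVec_zero] at H1q1
    exact hv0 H1q1.symm
  have hq2n : q2 ≠ 0 := by
    intro h
    rw [h, Matrix.mulVec_zero] at H2q2
    exact hv0 H2q2.symm
  have hq3n : q3 ≠ 0 := by
    intro h
    rw [h, Matrix.mulVec_zero] at H1q3
    exact hq2n H1q3.symm
  have hker : ∀ a : Fin 4 → F, Qm *ᵥ a = 0 → a = 0 := by
    intro a ha
    have k1 : (Qm * Z1m F) *ᵥ a = 0 := by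
      rw [← hZ1, ← Matrix.mulVec_mulVec, ha, Matrix.mulVec_zero]
    have k2 : (Qm * Z2m F) *ᵥ a = 0 := by
      rw [← hZ2, ← Matrix.mulVec_mulVec, ha, Matrix.mulVec_zero]
    have k3 : (Qm * Z1m F * Z2m F) *ᵥ a = 0 := by
      rw [← hZ1, Matrix.mul_assoc, ← hZ2, ← Matrix.mulVec_mulVec, ← Matrix.mulVec_mulVec, ha,
        Matrix.mulVec_zero, Matrix.mulVec_zero]
    rw [hQ, colMat_mul_Z1] at k1
    rw [hQ, colMat_mul_Z2] at k2
    rw [hQ, colMat_mul_Z1, colMat_mul_Z2] at k3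
    rw [hQ] at ha
    have e0 : ∀ r, v r * a 0 + q1 r * a 1 + q2 r * a 2 + q3 r * a 3 = 0 := by
      intro r
      have h := congrFun ha r
      simpa [colMat, Matrix.mulVec, dotProduct, Fin.sum_univ_four] using h
    have e1 : ∀ r, v r * a 0 - q1 r * a 1 + q2 r * a 2 - q3 r * a 3 = 0 := by
      intro r
      have h := congrFun k1 r
      simp [colMat, Matrix.mulVec, dotProduct, Fin.sum_univ_four] at h
      linear_combination h
    have e2 : ∀ r, v r * a 0 + q1 r * a 1 - q2 r * a 2 - q3 r * a 3 = 0 := by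
      intro r
      have h := congrFun k2 r
      simp [colMat, Matrix.mulVec, dotProduct, Fin.sum_univ_four] at h
      linear_combination h
    have e3 : ∀ r, v r * a 0 - q1 r * a 1 - q2 r * a 2 + q3 r * a 3 = 0 := by
      intro r
      have h := congrFun k3 r
      simp [colMat, Matrix.mulVec, dotProduct, Fin.sum_univ_four] at h
      linear_combination h
    have z0 : a 0 = 0 := by
      obtain ⟨r, hr⟩ := Function.ne_iff.mp hv0
      have h : (4 : F) * (v r * a 0) = 0 := by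
        linear_combination e0 r + e1 r + e2 r + e3 r
      rcases mul_eq_zero.mp ((mul_eq_zero.mp h).resolve_left h4) with h' | h'
      · exact absurd h' hr
      · exact h'
    have z1 : a 1 = 0 := by
      obtain ⟨r, hr⟩ := Function.ne_iff.mp hq1n
      have h : (4 : F) * (q1 r * a 1) = 0 := by
        linear_combination e0 r - e1 r + e2 r - e3 r
      rcases mul_eq_zero.mp ((mul_eq_zero.mp h).resolve_left h4) with h' | h'
      · exact absurd h' hr
      · exact h'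
    have z2 : a 2 = 0 := by
      obtain ⟨r, hr⟩ := Function.ne_iff.mp hq2n
      have h : (4 : F) * (q2 r * a 2) = 0 := by
        linear_combination e0 r + e1 r - e2 r - e3 r
      rcases mul_eq_zero.mp ((mul_eq_zero.mp h).resolve_left h4) with h' | h'
      · exact absurd h' hr
      · exact h'
    have z3 : a 3 = 0 := by
      obtain ⟨r, hr⟩ := Function.ne_iff.mp hq3n
      have h : (4 : F) * (q3 r * a 3) = 0 := by
        linear_combination e0 r - e1 r - e2 r + e3 r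
      rcases mul_eq_zero.mp ((mul_eq_zero.mp h).resolve_left h4) with h' | h'
      · exact absurd h' hr
      · exact h'
    funext k
    fin_cases k
    · exact z0
    · exact z1
    · exact z2
    · exact z3
  have hQunit : IsUnit Qm := by
    rw [← Matrix.mulVec_injective_iff_isUnit]
    intro a b hab
    have h := hker (a - b) (by rw [Matrix.mulVec_sub, hab, sub_self])
    exact sub_eq_zero.mp h
  obtain ⟨Qu, hQu⟩ := hQunit
  have r1 : g₁ * Qu = Qu * Z1u F := by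
    apply Units.ext
    rw [Units.val_mul, Units.val_mul, hQu, ← hG1]
    exact hZ1
  have r2 : h₁ * Qu = Qu * X1u F := by
    apply Units.ext
    rw [Units.val_mul, Units.val_mul, hQu, ← hH1]
    exact hX1
  have r3 : g₂ * Qu = Qu * Z2u F := by
    apply Units.ext
    rw [Units.val_mul, Units.val_mul, hQu, ← hG2]
    exact hZ2
  have r4 : h₂ * Qu = Qu * X2u F := by
    apply Units.ext
    rw [Units.val_mul, Units.val_mul, hQu, ← hH2]
    exact hX2
  have n1 : (-1 : GL (Fin 4) F) ∈ stdR c := by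
    rw [← hc2]
    exact (stdR c).mul_mem (c_mem_stdR c) (c_mem_stdR c)
  have conjmem : ∀ (g E : GL (Fin 4) F), g * Qu = Qu * E → E ∈ stdR c →
      Qu⁻¹ * g * Qu ∈ stdR c := by
    intro g E h hE
    have e : Qu⁻¹ * g * Qu = E := by rw [mul_assoc, h, ← mul_assoc, inv_mul_cancel, one_mul]
    rw [e]
    exact hE
  have m1 := conjmem g₁ _ r1 (Z1u_mem_stdR c)
  have m2 := conjmem h₁ _ r2 (X1u_mem_stdR c)
  have m3 := conjmem g₂ _ r3 (Z2u_mem_stdR c)
  have m4 := conjmem h₂ _ r4 (X2u_mem_stdR c)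
  have conjmul : ∀ a b : GL (Fin 4) F, Qu⁻¹ * (a * b) * Qu = (Qu⁻¹ * a * Qu) * (Qu⁻¹ * b * Qu) := by
    intro a b
    group
  refine ⟨Qu, fun g => ⟨fun hg => ?_, fun hg => ?_⟩⟩
  · -- g ∈ R
    obtain ⟨w₁, hw₁, hw₁g, hw₁h⟩ := fixpair g₁ h₁ g s1 s2 a1
      (comm_or_anti R hsq g g₁ hg hg₁) (comm_or_anti R hsq g h₁ hg hh₁)
    have hw₁R : w₁ ∈ R := by
      rcases hw₁ with rfl | rfl | rfl | rfl
      · exact R.one_mem
      · exact hg₁
      · exact hh₁
      · exact R.mul_mem hh₁ hg₁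
    have hw₁K : Qu⁻¹ * w₁ * Qu ∈ stdR c := by
      rcases hw₁ with rfl | rfl | rfl | rfl
      · simp
      · exact m1
      · exact m2
      · rw [conjmul]; exact (stdR c).mul_mem m2 m1
    have hr₁R : w₁ * g ∈ R := R.mul_mem hw₁R hg
    obtain ⟨w₂, hw₂, hw₂g, hw₂h⟩ := fixpair g₂ h₂ (w₁ * g) s3 s4 a2
      (comm_or_anti R hsq _ g₂ hr₁R hg₂) (comm_or_anti R hsq _ h₂ hr₁R hh₂)
    have hw₂R : w₂ ∈ R := by
      rcases hw₂ with rfl | rfl | rfl | rfl
      · exact R.one_mem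
      · exact hg₂
      · exact hh₂
      · exact R.mul_mem hh₂ hg₂
    have hw₂K : Qu⁻¹ * w₂ * Qu ∈ stdR c := by
      rcases hw₂ with rfl | rfl | rfl | rfl
      · simp
      · exact m3
      · exact m4
      · rw [conjmul]; exact (stdR c).mul_mem m4 m3
    have hg₁w : g₁ * w₂ = w₂ * g₁ := w_comm g₂ h₂ w₂ g₁ hw₂ c1.symm c3.symm
    have hh₁w : h₁ * w₂ = w₂ * h₁ := w_comm g₂ h₂ w₂ h₁ hw₂ c2.symm c4.symm
    obtain ⟨r₂, hr₂⟩ : ∃ r₂, r₂ = w₂ * (w₁ * g) := ⟨_, rfl⟩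
    have hr₂R : r₂ ∈ R := by rw [hr₂]; exact R.mul_mem hw₂R hr₁R
    have k1 : r₂ * g₁ = g₁ * r₂ := by
      rw [hr₂, mul_assoc, hw₁g, ← mul_assoc, ← hg₁w, mul_assoc]
    have k2 : r₂ * h₁ = h₁ * r₂ := by
      rw [hr₂, mul_assoc, hw₁h, ← mul_assoc, ← hh₁w, mul_assoc]
    have k3 : r₂ * g₂ = g₂ * r₂ := by rw [hr₂]; exact hw₂g
    have k4 : r₂ * h₂ = h₂ * r₂ := by rw [hr₂]; exact hw₂h
    obtain ⟨t, ht⟩ : ∃ t, t = Qu⁻¹ * r₂ * Qu := ⟨_, rfl⟩
    have tc1 : t * Z1u F = Z1u F * t := by rw [ht]; exact conj_comm Qu g₁ _ r₂ r1 k1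
    have tc2 : t * X1u F = X1u F * t := by rw [ht]; exact conj_comm Qu h₁ _ r₂ r2 k2
    have tc3 : t * Z2u F = Z2u F * t := by rw [ht]; exact conj_comm Qu g₂ _ r₂ r3 k3
    have tc4 : t * X2u F = X2u F * t := by rw [ht]; exact conj_comm Qu h₂ _ r₂ r4 k4
    have hts := commutant_std h2 (t : Matrix (Fin 4) (Fin 4) F)
      (by have h' := congrArg Units.val tc1; rw [Units.val_mul, Units.val_mul] at h'; exact h')
      (by have h' := congrArg Units.val tc2; rw [Units.val_mul, Units.val_mul] at h'; exact h')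
      (by have h' := congrArg Units.val tc3; rw [Units.val_mul, Units.val_mul] at h'; exact h')
      (by have h' := congrArg Units.val tc4; rw [Units.val_mul, Units.val_mul] at h'; exact h')
    have htt : t * t = 1 ∨ t * t = -1 := by
      have e : t * t = Qu⁻¹ * (r₂ * r₂) * Qu := by rw [ht]; group
      rcases hsq r₂ hr₂R with h | h
      · left; rw [e, h]; group
      · right
        rw [e, h, mul_neg, mul_one, neg_mul, inv_mul_cancel]
    have htK : t ∈ stdR c := by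
      rcases scalar_cases i hi c hc t htt _ hts with h | h | h | h
      · rw [h]; exact (stdR c).one_mem
      · rw [h]; exact n1
      · rw [h]; exact c_mem_stdR c
      · rw [h]
        have e : -c = -1 * c := by rw [neg_mul, one_mul]
        rw [e]
        exact (stdR c).mul_mem n1 (c_mem_stdR c)
    have hgeq : g = w₁⁻¹ * (w₂⁻¹ * r₂) := by rw [hr₂]; group
    have hinvK : ∀ w : GL (Fin 4) F, Qu⁻¹ * w * Qu ∈ stdR c → Qu⁻¹ * w⁻¹ * Qu ∈ stdR c := by
      intro w hw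
      have e : Qu⁻¹ * w⁻¹ * Qu = (Qu⁻¹ * w * Qu)⁻¹ := by group
      rw [e]
      exact (stdR c).inv_mem hw
    rw [hgeq, conjmul, conjmul]
    exact (stdR c).mul_mem (hinvK _ hw₁K) ((stdR c).mul_mem (hinvK _ hw₂K) (ht ▸ htK))
  · -- Qu⁻¹ g Qu ∈ stdR c
    have hle : stdR c ≤ Subgroup.comap (MulAut.conj Qu).toMonoidHom R := by
      rw [stdR, Subgroup.closure_le]
      intro x hx
      simp only [SetLike.mem_coe, Subgroup.mem_comap, MulEquiv.coe_toMonoidHom,
        MulAut.conj_apply]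
      rcases hx with rfl | rfl | rfl | rfl | hx
      · rw [← hcc, mul_inv_cancel_right]; exact hcR
      · rw [← r1, mul_inv_cancel_right]; exact hg₁
      · rw [← r2, mul_inv_cancel_right]; exact hh₁
      · rw [← r3, mul_inv_cancel_right]; exact hg₂
      · rw [Set.mem_singleton_iff] at hx
        rw [hx, ← r4, mul_inv_cancel_right]; exact hh₂
    have h := hle hg
    simp only [Subgroup.mem_comap, MulEquiv.coe_toMonoidHom, MulAut.conj_apply] at h
    have e : Qu * (Qu⁻¹ * g * Qu) * Qu⁻¹ = g := by group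
    rw [e] at h
    exact h

/-- transfer of normaliser elements -/
theorem norm_transfer {Γ : Type*} [Group Γ] (R K : Subgroup Γ) (P : Γ)
    (hstd : ∀ g : Γ, g ∈ R ↔ P⁻¹ * g * P ∈ K) (y : Γ)
    (hy : y ∈ Subgroup.normalizer (K : Set Γ)) :
    P * y * P⁻¹ ∈ Subgroup.normalizer (R : Set Γ) := by
  rw [Subgroup.mem_set_normalizer_iff] at hy ⊢
  intro g
  have e : P⁻¹ * (P * y * P⁻¹ * g * (P * y * P⁻¹)⁻¹) * P = y * (P⁻¹ * g * P) * y⁻¹ := by group
  show g ∈ R ↔ P * y * P⁻¹ * g * (P * y * P⁻¹)⁻¹ ∈ R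
  rw [hstd g, hstd (P * y * P⁻¹ * g * (P * y * P⁻¹)⁻¹), e]
  exact hy (P⁻¹ * g * P)

/-- membership in the normaliser of the standard group from relations -/
theorem mem_norm_std [Finite F] (c y w1 w2 w3 w4 : GL (Fin 4) F)
    (hcc : y * c = c * y) (hw1 : w1 ∈ stdR c) (hw2 : w2 ∈ stdR c) (hw3 : w3 ∈ stdR c)
    (hw4 : w4 ∈ stdR c) (h1 : y * Z1u F = w1 * y) (h2 : y * X1u F = w2 * y)
    (h3 : y * Z2u F = w3 * y) (h4 : y * X2u F = w4 * y) :
    y ∈ Subgroup.normalizer (stdR c : Set (GL (Fin 4) F)) := by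
  apply Cfsg.Agent.Lib.Helper99.mem_normalizer_of_finite
  apply Cfsg.Agent.Lib.Helper99.conj_mem_of_closure (stdR c) _ rfl
  intro s hs
  rcases hs with rfl | rfl | rfl | rfl | hs
  · rw [hcc, mul_inv_cancel_right]; exact c_mem_stdR _
  · rw [h1, mul_inv_cancel_right]; exact hw1
  · rw [h2, mul_inv_cancel_right]; exact hw2
  · rw [h3, mul_inv_cancel_right]; exact hw3
  · rw [Set.mem_singleton_iff] at hs
    rw [hs, h4, mul_inv_cancel_right]; exact hw4

end C

end Cfsg.Agent.Lib.Helper98.Symp
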