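import Mathlib
import Cfsg.Agent.Lib.Helper98.SympC

/-!
The group `R = 4 ∘ 2^{1+4}` in `GL_4(F)`: trace formula for elements of the normaliser, sizes of
centralisers, and non-existence of certain elements in the normaliser.
-/

set_option autoImplicit false

namespace Cfsg.Agent.Lib.Helper98.Symp

open Matrix

section D

variable {F : Type*} [Field F]

/-- standing hypotheses on `R` -/
structure Good (i : F) (R : Subgroup (GL (Fin 4) F)) (c : GL (Fin 4) F) : Prop where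
  h2 : (2 : F) ≠ 0
  hi : i ^ 2 = -1
  hsq : ∀ g ∈ R, g * g = 1 ∨ g * g = -1
  hcR : c ∈ R
  hc : (c : Matrix (Fin 4) (Fin 4) F) = i • (1 : Matrix (Fin 4) (Fin 4) F)
  habs : ∀ M : Matrix (Fin 4) (Fin 4) F,
    (∀ g ∈ R, M * (g : Matrix (Fin 4) (Fin 4) F) = (g : Matrix (Fin 4) (Fin 4) F) * M) →
    ∃ l : F, M = l • (1 : Matrix (Fin 4) (Fin 4) F)
  hcard : Nat.card R = 64

theorem neg_ne_self' (h2 : (2 : F) ≠ 0) (x : GL (Fin 4) F) : -x ≠ x := by
  intro h
  have h1 := congrArg Units.val h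
  rw [Units.val_neg] at h1
  have h3 : (2 : F) • (x : Matrix (Fin 4) (Fin 4) F) = 0 := by
    rw [two_smul]
    nth_rewrite 1 [← h1]
    exact neg_add_cancel _
  have h4 : (x : Matrix (Fin 4) (Fin 4) F) = 0 := (smul_eq_zero.mp h3).resolve_left h2
  have h5 := x.mul_inv
  rw [h4, zero_mul] at h5
  exact zero_ne_one h5

namespace Good

variable {i : F} {R : Subgroup (GL (Fin 4) F)} {c : GL (Fin 4) F}

theorem h4 (hG : Good i R c) : (4 : F) ≠ 0 := by
  have h : (4 : F) = 2 * 2 := by norm_num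
  rw [h]
  exact mul_ne_zero hG.h2 hG.h2

theorem hcc (hG : Good i R c) (x : GL (Fin 4) F) : c * x = x * c := by
  apply Units.ext
  rw [Units.val_mul, Units.val_mul, hG.hc, Matrix.smul_mul, Matrix.mul_smul, Matrix.one_mul,
    Matrix.mul_one]

theorem hc2 (hG : Good i R c) : c * c = -1 := by
  apply Units.ext
  rw [Units.val_mul, hG.hc, Units.val_neg, Units.val_one, Matrix.smul_mul, Matrix.one_mul,
    smul_smul, ← pow_two, hG.hi, neg_smul, one_smul]

theorem cent (hG : Good i R c) (g : GL (Fin 4) F) (_hg : g ∈ R)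
    (h : ∀ s ∈ R, g * s = s * g) :
    ∃ l : F, (g : Matrix (Fin 4) (Fin 4) F) = l • (1 : Matrix (Fin 4) (Fin 4) F) := by
  apply hG.habs
  intro s hs
  rw [← Units.val_mul, ← Units.val_mul, h s hs]

theorem std (hG : Good i R c) : ∃ P : GL (Fin 4) F, ∀ g : GL (Fin 4) F,
    g ∈ R ↔ P⁻¹ * g * P ∈ stdR c :=
  std_form hG.h2 i hG.hi R hG.hsq c hG.hcR hG.hc hG.cent hG.hcard

theorem central_cases (hG : Good i R c) (g : GL (Fin 4) F) (hg : g ∈ R)
    (h : ∀ s ∈ R, g * s = s * g) : g = 1 ∨ g = -1 ∨ g = c ∨ g = -c := by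
  obtain ⟨l, hl⟩ := hG.cent g hg h
  exact scalar_cases i hG.hi c hG.hc g (hG.hsq g hg) l hl

theorem trace_zero (hG : Good i R c) (k : GL (Fin 4) F) (hk : k ∈ R) (s : GL (Fin 4) F)
    (hs : s ∈ R) (hne : k * s ≠ s * k) : (k : Matrix (Fin 4) (Fin 4) F).trace = 0 := by
  have ha : k * s = -(s * k) := (comm_or_anti R hG.hsq k s hk hs).resolve_left hne
  have h1 : s * k * s⁻¹ = -k := by
    rw [mul_inv_eq_iff_eq_mul, neg_mul, ha, neg_neg]
  have h3 := congrArg (fun u : GL (Fin 4) F => (u : Matrix (Fin 4) (Fin 4) F).trace) h1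
  simp only [Units.val_mul, Units.val_neg, Matrix.trace_neg] at h3
  rw [Matrix.trace_units_conj] at h3
  have h4 : (2 : F) * (k : Matrix (Fin 4) (Fin 4) F).trace = 0 := by linear_combination h3
  exact (mul_eq_zero.mp h4).resolve_left hG.h2

theorem twirl (hG : Good i R c) [Fintype R] (A : Matrix (Fin 4) (Fin 4) F) :
    ∑ ρ : R, ((ρ : GL (Fin 4) F) : Matrix (Fin 4) (Fin 4) F) * A *
        (((ρ : GL (Fin 4) F)⁻¹ : GL (Fin 4) F) : Matrix (Fin 4) (Fin 4) F)
      = (16 * A.trace) • (1 : Matrix (Fin 4) (Fin 4) F) := by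
  obtain ⟨T, hT⟩ : ∃ T : Matrix (Fin 4) (Fin 4) F,
      T = ∑ ρ : R, ((ρ : GL (Fin 4) F) : Matrix (Fin 4) (Fin 4) F) * A *
        (((ρ : GL (Fin 4) F)⁻¹ : GL (Fin 4) F) : Matrix (Fin 4) (Fin 4) F) := ⟨_, rfl⟩
  rw [← hT]
  have hcomm : ∀ g ∈ R, T * (g : Matrix (Fin 4) (Fin 4) F)
      = (g : Matrix (Fin 4) (Fin 4) F) * T := by
    intro g hg
    have h1 : (g : Matrix (Fin 4) (Fin 4) F) * T
        * ((g⁻¹ : GL (Fin 4) F) : Matrix (Fin 4) (Fin 4) F) = T := by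
      rw [hT, Finset.mul_sum, Finset.sum_mul]
      rw [← Equiv.sum_comp (Equiv.mulLeft (⟨g, hg⟩ : R))
        (fun ρ : R => ((ρ : GL (Fin 4) F) : Matrix (Fin 4) (Fin 4) F) * A *
          (((ρ : GL (Fin 4) F)⁻¹ : GL (Fin 4) F) : Matrix (Fin 4) (Fin 4) F))]
      apply Finset.sum_congr rfl
      intro ρ _
      simp only [Equiv.coe_mulLeft, Subgroup.coe_mul, Units.val_mul, _root_.mul_inv_rev,
        Matrix.mul_assoc]
    calc T * (g : Matrix (Fin 4) (Fin 4) F)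
        = ((g : Matrix (Fin 4) (Fin 4) F) * T
          * ((g⁻¹ : GL (Fin 4) F) : Matrix (Fin 4) (Fin 4) F))
            * (g : Matrix (Fin 4) (Fin 4) F) := by rw [h1]
      _ = (g : Matrix (Fin 4) (Fin 4) F) * T := by
        rw [Matrix.mul_assoc, Units.inv_mul, Matrix.mul_one]
  obtain ⟨l, hl⟩ := hG.habs T hcomm
  have htr : T.trace = 64 * A.trace := by
    rw [hT, Matrix.trace_sum]
    have h1 : ∀ ρ : R, (((ρ : GL (Fin 4) F) : Matrix (Fin 4) (Fin 4) F) * A *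
        (((ρ : GL (Fin 4) F)⁻¹ : GL (Fin 4) F) : Matrix (Fin 4) (Fin 4) F)).trace = A.trace :=
      fun ρ => Matrix.trace_units_conj (ρ : GL (Fin 4) F) A
    rw [Finset.sum_congr rfl (fun ρ _ => h1 ρ), Finset.sum_const, Finset.card_univ,
      ← Nat.card_eq_fintype_card, hG.hcard]
    simp
  rw [hl] at htr ⊢
  rw [Matrix.trace_smul, Matrix.trace_one] at htr
  simp only [Fintype.card_fin, Nat.cast_ofNat, smul_eq_mul] at htr
  congr 1
  apply mul_right_cancel₀ hG.h4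
  linear_combination htr

theorem count (hG : Good i R c) (y : GL (Fin 4) F)
    (hy : y ∈ Subgroup.normalizer (R : Set (GL (Fin 4) F)))
    (hH : ∀ ρ ∈ R, (∀ σ ∈ R, (ρ * y * ρ⁻¹ * y⁻¹) * σ = σ * (ρ * y * ρ⁻¹ * y⁻¹)) →
      ρ * y = y * ρ) :
    4 * (y : Matrix (Fin 4) (Fin 4) F).trace
        * ((y⁻¹ : GL (Fin 4) F) : Matrix (Fin 4) (Fin 4) F).trace
      = (Nat.card (R ⊓ Subgroup.centralizer {y} : Subgroup (GL (Fin 4) F)) : F) := by
  classical
  have : Finite R := Nat.finite_of_card_ne_zero (by rw [hG.hcard]; norm_num)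
  let _ : Fintype R := Fintype.ofFinite R
  have htw := hG.twirl (y : Matrix (Fin 4) (Fin 4) F)
  have h1 : ∑ ρ : R, (((ρ : GL (Fin 4) F) * y * (ρ : GL (Fin 4) F)⁻¹ * y⁻¹ : GL (Fin 4) F)
        : Matrix (Fin 4) (Fin 4) F).trace
      = 16 * (y : Matrix (Fin 4) (Fin 4) F).trace
        * ((y⁻¹ : GL (Fin 4) F) : Matrix (Fin 4) (Fin 4) F).trace := by
    have h0 := congrArg
      (fun M => (M * ((y⁻¹ : GL (Fin 4) F) : Matrix (Fin 4) (Fin 4) F)).trace) htw
    simp only [Finset.sum_mul, Matrix.trace_sum, Matrix.smul_mul, Matrix.one_mul,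
      Matrix.trace_smul, smul_eq_mul] at h0
    rw [← h0]
    apply Finset.sum_congr rfl
    intro ρ _
    simp only [Units.val_mul]
  have h2 : ∀ ρ : R, (((ρ : GL (Fin 4) F) * y * (ρ : GL (Fin 4) F)⁻¹ * y⁻¹ : GL (Fin 4) F)
        : Matrix (Fin 4) (Fin 4) F).trace
      = if (ρ : GL (Fin 4) F) * y = y * (ρ : GL (Fin 4) F) then (4 : F) else 0 := by
    intro ρ
    split_ifs with hc
    · have e : (ρ : GL (Fin 4) F) * y * (ρ : GL (Fin 4) F)⁻¹ * y⁻¹ = 1 := by rw [hc]; group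
      rw [e, Units.val_one, Matrix.trace_one]
      simp
    · have hκR : (ρ : GL (Fin 4) F) * y * (ρ : GL (Fin 4) F)⁻¹ * y⁻¹ ∈ R := by
        have e : (ρ : GL (Fin 4) F) * y * (ρ : GL (Fin 4) F)⁻¹ * y⁻¹
            = (ρ : GL (Fin 4) F) * (y * (ρ : GL (Fin 4) F)⁻¹ * y⁻¹) := by group
        rw [e]
        exact R.mul_mem ρ.2 ((Subgroup.mem_set_normalizer_iff.mp hy _).mp (R.inv_mem ρ.2))
      have hnc : ∃ σ ∈ R, ((ρ : GL (Fin 4) F) * y * (ρ : GL (Fin 4) F)⁻¹ * y⁻¹) * σ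
          ≠ σ * ((ρ : GL (Fin 4) F) * y * (ρ : GL (Fin 4) F)⁻¹ * y⁻¹) := by
        by_contra hcon
        push Not at hcon
        exact hc (hH ρ.1 ρ.2 hcon)
      obtain ⟨σ, hσ, hne⟩ := hnc
      exact hG.trace_zero _ hκR σ hσ hne
  rw [Finset.sum_congr rfl (fun ρ _ => h2 ρ), Finset.sum_ite, Finset.sum_const_zero, add_zero,
    Finset.sum_const, nsmul_eq_mul] at h1
  have h3 : (Finset.univ.filter (fun ρ : R => (ρ : GL (Fin 4) F) * y = y * (ρ : GL (Fin 4) F))).card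
      = Nat.card (R ⊓ Subgroup.centralizer {y} : Subgroup (GL (Fin 4) F)) := by
    rw [← Fintype.card_subtype, ← Nat.card_eq_fintype_card]
    apply Nat.card_congr
    exact
      { toFun := fun ρ => ⟨ρ.1.1, Subgroup.mem_inf.mpr ⟨ρ.1.2, by
          rw [Subgroup.mem_centralizer_iff]
          intro h hh
          rw [Set.mem_singleton_iff] at hh
          rw [hh]
          exact ρ.2.symm⟩⟩
        invFun := fun x => ⟨⟨x.1, (Subgroup.mem_inf.mp x.2).1⟩, by
          have h5 := Subgroup.mem_centralizer_iff.mp (Subgroup.mem_inf.mp x.2).2 y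
            (Set.mem_singleton y)
          exact h5.symm⟩
        left_inv := fun ρ => rfl
        right_inv := fun x => rfl }
  rw [h3] at h1
  apply mul_left_cancel₀ hG.h4
  linear_combination -h1

theorem ord_c (hG : Good i R c) : orderOf c = 4 := by
  haveI : Fact (Nat.Prime 2) := ⟨Nat.prime_two⟩
  have h1 : c ^ 2 = -1 := by rw [pow_two, hG.hc2]
  have h3 := orderOf_eq_prime_pow (p := 2) (n := 1) (x := c)
    (by rw [pow_one, h1]; exact neg_ne_self' hG.h2 1)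
    (by rw [show (2 : ℕ) ^ (1 + 1) = 2 * 2 by norm_num, pow_mul, h1]; simp)
  simpa using h3

theorem card_dvd (hG : Good i R c) (y : GL (Fin 4) F) :
    Nat.card (R ⊓ Subgroup.centralizer {y} : Subgroup (GL (Fin 4) F)) ∣ 64 ∧
      4 ∣ Nat.card (R ⊓ Subgroup.centralizer {y} : Subgroup (GL (Fin 4) F)) := by
  constructor
  · rw [← hG.hcard]
    exact Subgroup.card_dvd_of_le inf_le_left
  · have hle : Subgroup.zpowers c ≤ (R ⊓ Subgroup.centralizer {y} : Subgroup (GL (Fin 4) F)) := by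
      rw [Subgroup.zpowers_le]
      refine Subgroup.mem_inf.mpr ⟨hG.hcR, ?_⟩
      rw [Subgroup.mem_centralizer_iff]
      intro h hh
      rw [Set.mem_singleton_iff] at hh
      rw [hh]
      exact (hG.hcc y).symm
    have h4 := Subgroup.card_dvd_of_le hle
    rwa [Nat.card_zpowers, hG.ord_c] at h4

theorem card_cases (hG : Good i R c) (y : GL (Fin 4) F) :
    Nat.card (R ⊓ Subgroup.centralizer {y} : Subgroup (GL (Fin 4) F)) = 4 ∨
    Nat.card (R ⊓ Subgroup.centralizer {y} : Subgroup (GL (Fin 4) F)) = 8 ∨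
    Nat.card (R ⊓ Subgroup.centralizer {y} : Subgroup (GL (Fin 4) F)) = 16 ∨
    Nat.card (R ⊓ Subgroup.centralizer {y} : Subgroup (GL (Fin 4) F)) = 32 ∨
    Nat.card (R ⊓ Subgroup.centralizer {y} : Subgroup (GL (Fin 4) F)) = 64 := by
  obtain ⟨h64, h4⟩ := hG.card_dvd y
  have h64' : Nat.card (R ⊓ Subgroup.centralizer {y} : Subgroup (GL (Fin 4) F)) ∣ 2 ^ 6 := by
    norm_num
    exact h64
  obtain ⟨k, hk, hk'⟩ := (Nat.dvd_prime_pow Nat.prime_two).mp h64'
  rw [hk'] at h4 ⊢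
  interval_cases k <;> simp_all

theorem scalar_of_card (hG : Good i R c) (y : GL (Fin 4) F)
    (h : Nat.card (R ⊓ Subgroup.centralizer {y} : Subgroup (GL (Fin 4) F)) = 64) :
    ∃ l : F, (y : Matrix (Fin 4) (Fin 4) F) = l • (1 : Matrix (Fin 4) (Fin 4) F) := by
  have : Finite R := Nat.finite_of_card_ne_zero (by rw [hG.hcard]; norm_num)
  have heq : R ⊓ Subgroup.centralizer {y} = R :=
    Subgroup.eq_of_le_of_card_ge inf_le_left (by rw [h, hG.hcard])
  apply hG.habs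
  intro g hg
  have h0 : g ∈ R ⊓ Subgroup.centralizer {y} := by rw [heq]; exact hg
  have h1 := Subgroup.mem_centralizer_iff.mp (Subgroup.mem_inf.mp h0).2 y (Set.mem_singleton y)
  rw [← Units.val_mul, ← Units.val_mul, h1]

theorem H_of_pow (hG : Good i R c) (y : GL (Fin 4) F)
    (hy : y ∈ Subgroup.normalizer (R : Set (GL (Fin 4) F))) (r : ℕ) (hr : Odd r)
    (hyr : ∀ g : GL (Fin 4) F, g * y ^ r = y ^ r * g) :
    ∀ ρ ∈ R, (∀ σ ∈ R, (ρ * y * ρ⁻¹ * y⁻¹) * σ = σ * (ρ * y * ρ⁻¹ * y⁻¹)) → ρ * y = y * ρ := by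
  intro ρ hρ hcen
  obtain ⟨k, hk⟩ : ∃ k, k = ρ * y * ρ⁻¹ * y⁻¹ := ⟨_, rfl⟩
  rw [← hk] at hcen
  have hkR : k ∈ R := by
    have e : k = ρ * (y * ρ⁻¹ * y⁻¹) := by rw [hk]; group
    rw [e]
    exact R.mul_mem hρ ((Subgroup.mem_set_normalizer_iff.mp hy _).mp (R.inv_mem hρ))
  obtain ⟨l, hl⟩ := hG.cent k hkR hcen
  have hky : Commute k y := by
    show k * y = y * k
    apply Units.ext
    rw [Units.val_mul, Units.val_mul, hl, Matrix.smul_mul, Matrix.mul_smul, Matrix.one_mul,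
      Matrix.mul_one]
  have hk4 : k ^ 4 = 1 := by
    have e : k ^ 4 = (k * k) * (k * k) := by
      simp only [pow_succ, pow_zero, one_mul, mul_assoc]
    rw [e]
    rcases hG.hsq k hkR with h | h
    · rw [h, one_mul]
    · rw [h, neg_mul_neg, one_mul]
  have hkr : k ^ r = 1 := by
    have e1 : ρ * y * ρ⁻¹ = k * y := by rw [hk]; group
    have e2 : (ρ * y * ρ⁻¹) ^ r = y ^ r := by
      rw [conj_pow, hyr ρ, mul_inv_cancel_right]
    rw [e1, hky.mul_pow] at e2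
    have e3 : k ^ r * y ^ r = 1 * y ^ r := by rw [e2, one_mul]
    exact mul_right_cancel e3
  have hk1 : k = 1 := by
    have h1 : orderOf k ∣ r := orderOf_dvd_of_pow_eq_one hkr
    have h2 : orderOf k ∣ 4 := orderOf_dvd_of_pow_eq_one hk4
    have h3 : orderOf k ∣ Nat.gcd r 4 := Nat.dvd_gcd h1 h2
    have h4 : Nat.gcd r 4 = 1 := by
      have h5 : Nat.Coprime r (2 ^ 2) := Nat.Coprime.pow_right 2 (Nat.coprime_two_right.mpr hr)
      exact h5
    rw [h4, Nat.dvd_one] at h3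
    exact orderOf_eq_one_iff.mp h3
  rw [hk1] at hk
  have h1 : ρ * y * ρ⁻¹ = y := mul_inv_eq_one.mp hk.symm
  exact mul_inv_eq_iff_eq_mul.mp h1

/-- no element of order 7 with centraliser of order 8 -/
theorem no_seven (hG : Good i R c) (y : GL (Fin 4) F)
    (hy : y ∈ Subgroup.normalizer (R : Set (GL (Fin 4) F))) (hy7 : y ^ 7 = 1)
    (hd : Nat.card (R ⊓ Subgroup.centralizer {y} : Subgroup (GL (Fin 4) F)) = 8) : False := by
  classical
  haveI : Fact (Nat.Prime 7) := ⟨by norm_num⟩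
  have hRfin : Finite R := Nat.finite_of_card_ne_zero (by rw [hG.hcard]; norm_num)
  have hnc : ∃ ρ₀ ∈ (R ⊓ Subgroup.centralizer {y} : Subgroup (GL (Fin 4) F)),
      ∃ σ ∈ R, ρ₀ * σ ≠ σ * ρ₀ := by
    by_contra hcon
    push Not at hcon
    have hsub : ∀ r ∈ ((R ⊓ Subgroup.centralizer {y} : Subgroup (GL (Fin 4) F)) :
        Set (GL (Fin 4) F)), r ∈ ({1, -1, c, -c} : Finset (GL (Fin 4) F)) := by
      intro r hr
      have h1 := hG.central_cases r (Subgroup.mem_inf.mp hr).1 (hcon r hr)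
      simp only [Finset.mem_insert, Finset.mem_singleton]
      exact h1
    have h1 := card_le_of_subset_finset _ _ hsub
    have h2 : ({1, -1, c, -c} : Finset (GL (Fin 4) F)).card ≤ 4 := Finset.card_le_four
    have h3 : Nat.card ((R ⊓ Subgroup.centralizer {y} : Subgroup (GL (Fin 4) F)) :
        Set (GL (Fin 4) F)) = 8 := hd
    omega
  obtain ⟨ρ₀, hρ₀C, σ, hσ, hne⟩ := hnc
  have hρ₀R : ρ₀ ∈ R := (Subgroup.mem_inf.mp hρ₀C).1
  have hρ₀y : y * ρ₀ = ρ₀ * y :=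
    Subgroup.mem_centralizer_iff.mp (Subgroup.mem_inf.mp hρ₀C).2 y (Set.mem_singleton y)
  have hanti : ρ₀ * σ = -(σ * ρ₀) := (comm_or_anti R hG.hsq ρ₀ σ hρ₀R hσ).resolve_left hne
  have hanti' : σ * ρ₀ = -(ρ₀ * σ) := by rw [hanti, neg_neg]
  -- D = C_R(ρ₀) has order 32
  have hDmem : ∀ b : GL (Fin 4) F, b ∈ (R ⊓ Subgroup.centralizer {ρ₀} : Subgroup (GL (Fin 4) F))
      ↔ b ∈ R ∧ b * ρ₀ = ρ₀ * b := by
    intro b
    rw [Subgroup.mem_inf, Subgroup.mem_centralizer_iff]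
    constructor
    · rintro ⟨h1, h2⟩
      exact ⟨h1, (h2 ρ₀ (Set.mem_singleton ρ₀)).symm⟩
    · rintro ⟨h1, h2⟩
      refine ⟨h1, fun h hh => ?_⟩
      rw [Set.mem_singleton_iff] at hh
      rw [hh]
      exact h2.symm
  have hindex : ((R ⊓ Subgroup.centralizer {ρ₀} : Subgroup (GL (Fin 4) F)).subgroupOf R).index
      = 2 := by
    rw [Subgroup.index_eq_two_iff]
    refine ⟨⟨σ, hσ⟩, fun b => ?_⟩
    rw [Subgroup.mem_subgroupOf, Subgroup.mem_subgroupOf, hDmem, hDmem]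
    rcases comm_or_anti R hG.hsq b.1 ρ₀ b.2 hρ₀R with hb | hb
    · right
      refine ⟨⟨b.2, hb⟩, ?_⟩
      rintro ⟨-, h1⟩
      have h2 : (b.1 * σ) * ρ₀ = -(ρ₀ * (b.1 * σ)) := by
        rw [mul_assoc, hanti', mul_neg, ← mul_assoc, hb, mul_assoc]
      rw [Subgroup.coe_mul] at h1
      rw [h1] at h2
      exact neg_ne_self' hG.h2 _ h2.symm
    · left
      refine ⟨⟨R.mul_mem b.2 hσ, ?_⟩, ?_⟩
      · rw [Subgroup.coe_mul]
        show b.1 * σ * ρ₀ = ρ₀ * (b.1 * σ)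
        rw [mul_assoc, hanti', mul_neg, ← mul_assoc, hb, neg_mul, neg_neg, mul_assoc]
      · rintro ⟨-, h1⟩
        rw [h1] at hb
        exact neg_ne_self' hG.h2 _ hb.symm
  have hD32 : Nat.card (R ⊓ Subgroup.centralizer {ρ₀} : Subgroup (GL (Fin 4) F)) = 32 := by
    have h1 := Subgroup.card_mul_index
      ((R ⊓ Subgroup.centralizer {ρ₀} : Subgroup (GL (Fin 4) F)).subgroupOf R)
    rw [hindex, hG.hcard] at h1
    have h2 : Nat.card ((R ⊓ Subgroup.centralizer {ρ₀} : Subgroup (GL (Fin 4) F)).subgroupOf R)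
        = Nat.card (R ⊓ Subgroup.centralizer {ρ₀} : Subgroup (GL (Fin 4) F)) :=
      Nat.card_congr (Subgroup.subgroupOfEquivOfLe inf_le_left).toEquiv
    omega
  -- y normalises D
  have hDfin : Finite (R ⊓ Subgroup.centralizer {ρ₀} : Subgroup (GL (Fin 4) F)) :=
    Nat.finite_of_card_ne_zero (by rw [hD32]; norm_num)
  have hyD : y ∈ Subgroup.normalizer
      ((R ⊓ Subgroup.centralizer {ρ₀} : Subgroup (GL (Fin 4) F)) : Set (GL (Fin 4) F)) := by
    apply Cfsg.Agent.Lib.Helper99.mem_normalizer_of_finite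
    intro n hn
    rw [hDmem] at hn ⊢
    refine ⟨(Subgroup.mem_set_normalizer_iff.mp hy n).mp hn.1, ?_⟩
    have hyi : y⁻¹ * ρ₀ = ρ₀ * y⁻¹ := by
      rw [eq_mul_inv_iff_mul_eq, mul_assoc, ← hρ₀y, ← mul_assoc, inv_mul_cancel, one_mul]
    calc y * n * y⁻¹ * ρ₀ = y * n * (y⁻¹ * ρ₀) := by group
      _ = y * (n * ρ₀) * y⁻¹ := by rw [hyi]; group
      _ = (y * ρ₀) * n * y⁻¹ := by rw [hn.2]; group
      _ = ρ₀ * (y * n * y⁻¹) := by rw [hρ₀y]; group
  have hmod := Cfsg.Agent.Lib.Helper99.card_modEq_card_centralizer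
    (R ⊓ Subgroup.centralizer {ρ₀} : Subgroup (GL (Fin 4) F)) y hyD 7 hy7
  -- the fixed points
  have hE : (R ⊓ Subgroup.centralizer {ρ₀} ⊓ Subgroup.centralizer {y} : Subgroup (GL (Fin 4) F))
      = R ⊓ Subgroup.centralizer {y} ⊓ Subgroup.centralizer {ρ₀} := inf_right_comm _ _ _
  rw [hE, hD32] at hmod
  have hEle : (R ⊓ Subgroup.centralizer {y} ⊓ Subgroup.centralizer {ρ₀} :
      Subgroup (GL (Fin 4) F)) ≤ R ⊓ Subgroup.centralizer {y} := inf_le_left
  have hCfin : Finite (R ⊓ Subgroup.centralizer {y} : Subgroup (GL (Fin 4) F)) :=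
    Nat.finite_of_card_ne_zero (by rw [hd]; norm_num)
  have hEdvd : Nat.card (R ⊓ Subgroup.centralizer {y} ⊓ Subgroup.centralizer {ρ₀} :
      Subgroup (GL (Fin 4) F)) ∣ 8 := by
    rw [← hd]
    exact Subgroup.card_dvd_of_le hEle
  have hzle : Subgroup.zpowers c ≤ (R ⊓ Subgroup.centralizer {y} ⊓ Subgroup.centralizer {ρ₀} :
      Subgroup (GL (Fin 4) F)) := by
    rw [Subgroup.zpowers_le]
    refine Subgroup.mem_inf.mpr ⟨Subgroup.mem_inf.mpr ⟨hG.hcR, ?_⟩, ?_⟩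
    · rw [Subgroup.mem_centralizer_iff]
      intro h hh
      rw [Set.mem_singleton_iff] at hh
      rw [hh]
      exact (hG.hcc y).symm
    · rw [Subgroup.mem_centralizer_iff]
      intro h hh
      rw [Set.mem_singleton_iff] at hh
      rw [hh]
      exact (hG.hcc ρ₀).symm
  have hE4 : 4 ∣ Nat.card (R ⊓ Subgroup.centralizer {y} ⊓ Subgroup.centralizer {ρ₀} :
      Subgroup (GL (Fin 4) F)) := by
    have h4 := Subgroup.card_dvd_of_le hzle
    rwa [Nat.card_zpowers, hG.ord_c] at h4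
  have hEfin : Finite (R ⊓ Subgroup.centralizer {y} ⊓ Subgroup.centralizer {ρ₀} :
      Subgroup (GL (Fin 4) F)) := Finite.of_injective _ (Subgroup.inclusion_injective hEle)
  have hEne : Nat.card (R ⊓ Subgroup.centralizer {y} ⊓ Subgroup.centralizer {ρ₀} :
      Subgroup (GL (Fin 4) F)) ≠ 4 := by
    intro h4
    have heq : Subgroup.zpowers c = (R ⊓ Subgroup.centralizer {y} ⊓ Subgroup.centralizer {ρ₀} :
        Subgroup (GL (Fin 4) F)) :=
      Subgroup.eq_of_le_of_card_ge hzle (by rw [h4, Nat.card_zpowers, hG.ord_c])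
    have hρ₀E : ρ₀ ∈ (R ⊓ Subgroup.centralizer {y} ⊓ Subgroup.centralizer {ρ₀} :
        Subgroup (GL (Fin 4) F)) := by
      refine Subgroup.mem_inf.mpr ⟨hρ₀C, ?_⟩
      rw [Subgroup.mem_centralizer_iff]
      intro h hh
      rw [Set.mem_singleton_iff] at hh
      rw [hh]
    rw [← heq] at hρ₀E
    obtain ⟨k, hk⟩ := Subgroup.mem_zpowers_iff.mp hρ₀E
    apply hne
    rw [← hk]
    have hcσ : Commute c σ := hG.hcc σ
    exact (hcσ.zpow_left k).eq
  have hE8 : Nat.card (R ⊓ Subgroup.centralizer {y} ⊓ Subgroup.centralizer {ρ₀} :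
      Subgroup (GL (Fin 4) F)) = 8 := by
    obtain ⟨k, hk⟩ := hE4
    rw [hk] at hEdvd hEne
    rw [hk]
    have hk2 : k ∣ 2 :=
      (Nat.mul_dvd_mul_iff_left (by norm_num : 0 < 4)).mp (show 4 * k ∣ 4 * 2 from hEdvd)
    have hk_le : k ≤ 2 := Nat.le_of_dvd (by norm_num) hk2
    interval_cases k
    · simp at hk2
    · exact absurd rfl hEne
    · rfl
  rw [hE8] at hmod
  exact absurd hmod (by decide)

theorem comm_expand {F : Type*} [Field F] (A B N M : Matrix (Fin 4) (Fin 4) F) (hAB : A * B = 1) :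
    A * (1 + N) * B * (1 - M) = 1 - M + A * N * B - A * N * B * M := by
  have e1 : A * (1 + N) * B = A * B + A * N * B := by noncomm_ring
  rw [e1, hAB]
  noncomm_ring

theorem prime_le_of_dvd_two_pow_mul {r a m : ℕ} (hr : r.Prime) (h : r ∣ 2 ^ a * m)
    (hm : r ∣ m → r ≤ 5) (h7 : 7 ≤ r) : False := by
  rcases (Nat.Prime.dvd_mul hr).mp h with h1 | h1
  · have h2 := Nat.Prime.dvd_of_dvd_pow hr h1
    have h3 := Nat.le_of_dvd (by norm_num) h2
    omega
  · have := hm h1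
    omega

/-- an element of prime order at least 7 of the normaliser is a scalar -/
theorem no_large (hG : Good i R c) (y : GL (Fin 4) F)
    (hy : y ∈ Subgroup.normalizer (R : Set (GL (Fin 4) F))) (r : ℕ) [Fact r.Prime]
    (hr7 : 7 ≤ r) (hyr : y ^ r = 1) :
    ∃ l : F, (y : Matrix (Fin 4) (Fin 4) F) = l • (1 : Matrix (Fin 4) (Fin 4) F) := by
  have hrp : r.Prime := Fact.out
  have hRfin : Finite R := Nat.finite_of_card_ne_zero (by rw [hG.hcard]; norm_num)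
  have hmod := Cfsg.Agent.Lib.Helper99.card_modEq_card_centralizer R y hy r hyr
  rw [hG.hcard] at hmod
  rcases hG.card_cases y with h | h | h | h | h
  · exfalso
    rw [h] at hmod
    have h1 : r ∣ 64 - 4 := (Nat.modEq_iff_dvd' (by norm_num)).mp hmod.symm
    have h2 : r ∣ 2 ^ 2 * 15 := by norm_num at h1 ⊢; exact h1
    refine prime_le_of_dvd_two_pow_mul hrp h2 (fun h3 => ?_) hr7
    rcases (Nat.Prime.dvd_mul hrp).mp (show r ∣ 3 * 5 from h3) with h4 | h4
    · have := Nat.le_of_dvd (by norm_num) h4; omega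
    · exact Nat.le_of_dvd (by norm_num) h4
  · exfalso
    rw [h] at hmod
    have h1 : r ∣ 64 - 8 := (Nat.modEq_iff_dvd' (by norm_num)).mp hmod.symm
    have h2 : r ∣ 2 ^ 3 * 7 := by norm_num at h1 ⊢; exact h1
    have h7 : r = 7 := by
      rcases (Nat.Prime.dvd_mul hrp).mp h2 with h3 | h3
      · have h4 := Nat.Prime.dvd_of_dvd_pow hrp h3
        have h5 := Nat.le_of_dvd (by norm_num) h4
        omega
      · have h5 := Nat.le_of_dvd (by norm_num) h3
        omega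
    subst h7
    exact hG.no_seven y hy hyr h
  · exfalso
    rw [h] at hmod
    have h1 : r ∣ 64 - 16 := (Nat.modEq_iff_dvd' (by norm_num)).mp hmod.symm
    have h2 : r ∣ 2 ^ 4 * 3 := by norm_num at h1 ⊢; exact h1
    exact prime_le_of_dvd_two_pow_mul hrp h2
      (fun h3 => by have := Nat.le_of_dvd (by norm_num) h3; omega) hr7
  · exfalso
    rw [h] at hmod
    have h1 : r ∣ 64 - 32 := (Nat.modEq_iff_dvd' (by norm_num)).mp hmod.symm
    have h2 : r ∣ 2 ^ 5 * 1 := by norm_num at h1 ⊢; exact h1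
    exact prime_le_of_dvd_two_pow_mul hrp h2
      (fun h3 => by have := Nat.le_of_dvd (by norm_num) h3; omega) hr7
  · exact hG.scalar_of_card y h

/-- a unipotent element `y = 1 + N`, `N² = 0`, of odd prime order in the normaliser is trivial -/
theorem no_unip (hG : Good i R c) (h3 : (3 : F) ≠ 0) (y : GL (Fin 4) F)
    (hy : y ∈ Subgroup.normalizer (R : Set (GL (Fin 4) F)))
    (hN : ((y : Matrix (Fin 4) (Fin 4) F) - 1) * ((y : Matrix (Fin 4) (Fin 4) F) - 1) = 0)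
    (p : ℕ) (hp : Odd p) (hyp : y ^ p = 1) :
    ∃ l : F, (y : Matrix (Fin 4) (Fin 4) F) = l • (1 : Matrix (Fin 4) (Fin 4) F) := by
  obtain ⟨N, hNdef⟩ : ∃ N : Matrix (Fin 4) (Fin 4) F, N = (y : Matrix (Fin 4) (Fin 4) F) - 1 :=
    ⟨_, rfl⟩
  rw [← hNdef] at hN
  have hyN : (y : Matrix (Fin 4) (Fin 4) F) = 1 + N := by rw [hNdef]; abel
  have hyinv : ((y⁻¹ : GL (Fin 4) F) : Matrix (Fin 4) (Fin 4) F) = 1 - N := by
    have h1 : (y : Matrix (Fin 4) (Fin 4) F) * (1 - N) = 1 := by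
      rw [hyN]
      have e : (1 + N) * (1 - N) = 1 - N * N := by noncomm_ring
      rw [e, hN, sub_zero]
    calc ((y⁻¹ : GL (Fin 4) F) : Matrix (Fin 4) (Fin 4) F)
        = ((y⁻¹ : GL (Fin 4) F) : Matrix (Fin 4) (Fin 4) F)
          * ((y : Matrix (Fin 4) (Fin 4) F) * (1 - N)) := by rw [h1, Matrix.mul_one]
      _ = 1 - N := by rw [← Matrix.mul_assoc, Units.inv_mul, Matrix.one_mul]
  have hy2 : ((y * y : GL (Fin 4) F) : Matrix (Fin 4) (Fin 4) F) = 1 + (2 : F) • N := by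
    rw [Units.val_mul, hyN, Matrix.add_mul, Matrix.mul_add, Matrix.mul_add, Matrix.one_mul,
      Matrix.mul_one, Matrix.one_mul, hN, two_smul]
    abel
  have hy2inv : (((y * y)⁻¹ : GL (Fin 4) F) : Matrix (Fin 4) (Fin 4) F) = 1 - (2 : F) • N := by
    have h1 : ((y * y : GL (Fin 4) F) : Matrix (Fin 4) (Fin 4) F) * (1 - (2 : F) • N) = 1 := by
      rw [hy2]
      have hM : ((2 : F) • N) * ((2 : F) • N) = 0 := by
        rw [Matrix.smul_mul, Matrix.mul_smul, hN, smul_zero, smul_zero]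
      have e : ∀ M : Matrix (Fin 4) (Fin 4) F, (1 + M) * (1 - M) = 1 - M * M := by
        intro M
        noncomm_ring
      rw [e, hM, sub_zero]
    calc (((y * y)⁻¹ : GL (Fin 4) F) : Matrix (Fin 4) (Fin 4) F)
        = (((y * y)⁻¹ : GL (Fin 4) F) : Matrix (Fin 4) (Fin 4) F)
          * (((y * y : GL (Fin 4) F) : Matrix (Fin 4) (Fin 4) F) * (1 - (2 : F) • N)) := by
            rw [h1, Matrix.mul_one]
      _ = 1 - (2 : F) • N := by rw [← Matrix.mul_assoc, Units.inv_mul, Matrix.one_mul]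
  have hcen : ∀ g : GL (Fin 4) F, g * y ^ p = y ^ p * g := by
    intro g; rw [hyp, mul_one, one_mul]
  have hcen2 : ∀ g : GL (Fin 4) F, g * (y * y) ^ p = (y * y) ^ p * g := by
    intro g
    have e : (y * y) ^ p = 1 := by rw [← pow_two, ← pow_mul, mul_comm, pow_mul, hyp, one_pow]
    rw [e, mul_one, one_mul]
  have hy2N : y * y ∈ Subgroup.normalizer (R : Set (GL (Fin 4) F)) := Subgroup.mul_mem _ hy hy
  have hH1 := hG.H_of_pow y hy p hp hcen
  have hH2 := hG.H_of_pow (y * y) hy2N p hp hcen2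
  -- traces
  have key : ∀ ρ ∈ R, ρ * y = y * ρ := by
    intro ρ hρ
    by_contra hnc
    have hnc2 : ρ * (y * y) ≠ (y * y) * ρ := by
      intro h
      apply hnc
      obtain ⟨m, hm⟩ := hp
      have e : y = (y * y) ^ (m + 1) := by
        rw [← pow_two, ← pow_mul, show 2 * (m + 1) = p + 1 by omega, pow_succ, hyp, one_mul]
      have hc : Commute ρ (y * y) := h
      have h5 := (hc.pow_right (m + 1)).eq
      rw [← e] at h5
      exact h5
    obtain ⟨γ, hγ⟩ : ∃ γ : F, γ = ((ρ : Matrix (Fin 4) (Fin 4) F) * N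
        * ((ρ⁻¹ : GL (Fin 4) F) : Matrix (Fin 4) (Fin 4) F) * N).trace := ⟨_, rfl⟩
    have hconjN : ((ρ : Matrix (Fin 4) (Fin 4) F) * N
        * ((ρ⁻¹ : GL (Fin 4) F) : Matrix (Fin 4) (Fin 4) F)).trace = N.trace :=
      Matrix.trace_units_conj ρ N
    have t1 : ((ρ * y * ρ⁻¹ * y⁻¹ : GL (Fin 4) F) : Matrix (Fin 4) (Fin 4) F).trace = 4 - γ := by
      have e : ((ρ * y * ρ⁻¹ * y⁻¹ : GL (Fin 4) F) : Matrix (Fin 4) (Fin 4) F)
          = 1 - N + (ρ : Matrix (Fin 4) (Fin 4) F) * N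
              * ((ρ⁻¹ : GL (Fin 4) F) : Matrix (Fin 4) (Fin 4) F)
            - (ρ : Matrix (Fin 4) (Fin 4) F) * N
              * ((ρ⁻¹ : GL (Fin 4) F) : Matrix (Fin 4) (Fin 4) F) * N := by
        rw [Units.val_mul, Units.val_mul, Units.val_mul, hyN, hyinv]
        exact comm_expand _ _ N N (Units.mul_inv ρ)
      rw [e, Matrix.trace_sub, Matrix.trace_add, Matrix.trace_sub, hconjN, ← hγ,
        Matrix.trace_one]
      simp only [Fintype.card_fin, Nat.cast_ofNat]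
      ring
    have t2 : ((ρ * (y * y) * ρ⁻¹ * (y * y)⁻¹ : GL (Fin 4) F)
        : Matrix (Fin 4) (Fin 4) F).trace = 4 - 4 * γ := by
      have e : ((ρ * (y * y) * ρ⁻¹ * (y * y)⁻¹ : GL (Fin 4) F) : Matrix (Fin 4) (Fin 4) F)
          = 1 - (2 : F) • N + (ρ : Matrix (Fin 4) (Fin 4) F) * ((2 : F) • N)
              * ((ρ⁻¹ : GL (Fin 4) F) : Matrix (Fin 4) (Fin 4) F)
            - (ρ : Matrix (Fin 4) (Fin 4) F) * ((2 : F) • N)
              * ((ρ⁻¹ : GL (Fin 4) F) : Matrix (Fin 4) (Fin 4) F) * ((2 : F) • N) := by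
        rw [Units.val_mul, Units.val_mul, Units.val_mul, hy2, hy2inv]
        exact comm_expand _ _ _ _ (Units.mul_inv ρ)
      have e2 : (ρ : Matrix (Fin 4) (Fin 4) F) * ((2 : F) • N)
            * ((ρ⁻¹ : GL (Fin 4) F) : Matrix (Fin 4) (Fin 4) F)
          = (2 : F) • ((ρ : Matrix (Fin 4) (Fin 4) F) * N
            * ((ρ⁻¹ : GL (Fin 4) F) : Matrix (Fin 4) (Fin 4) F)) := by
        rw [Matrix.mul_smul, Matrix.smul_mul]
      rw [e, e2, Matrix.smul_mul, Matrix.mul_smul, smul_smul, Matrix.trace_sub, Matrix.trace_add,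
        Matrix.trace_sub, Matrix.trace_smul, Matrix.trace_smul, Matrix.trace_smul, hconjN, ← hγ,
        Matrix.trace_one]
      simp only [Fintype.card_fin, Nat.cast_ofNat, smul_eq_mul]
      ring
    -- both commutators are non-central, hence of trace zero
    have z1 : ((ρ * y * ρ⁻¹ * y⁻¹ : GL (Fin 4) F) : Matrix (Fin 4) (Fin 4) F).trace = 0 := by
      have hκR : ρ * y * ρ⁻¹ * y⁻¹ ∈ R := by
        have e : ρ * y * ρ⁻¹ * y⁻¹ = ρ * (y * ρ⁻¹ * y⁻¹) := by group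
        rw [e]
        exact R.mul_mem hρ ((Subgroup.mem_set_normalizer_iff.mp hy _).mp (R.inv_mem hρ))
      have hex : ∃ σ ∈ R, (ρ * y * ρ⁻¹ * y⁻¹) * σ ≠ σ * (ρ * y * ρ⁻¹ * y⁻¹) := by
        by_contra hcon
        push Not at hcon
        exact hnc (hH1 ρ hρ hcon)
      obtain ⟨σ, hσ, hne⟩ := hex
      exact hG.trace_zero _ hκR σ hσ hne
    have z2 : ((ρ * (y * y) * ρ⁻¹ * (y * y)⁻¹ : GL (Fin 4) F)
        : Matrix (Fin 4) (Fin 4) F).trace = 0 := by
      have hκR : ρ * (y * y) * ρ⁻¹ * (y * y)⁻¹ ∈ R := by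
        have e : ρ * (y * y) * ρ⁻¹ * (y * y)⁻¹ = ρ * ((y * y) * ρ⁻¹ * (y * y)⁻¹) := by group
        rw [e]
        exact R.mul_mem hρ ((Subgroup.mem_set_normalizer_iff.mp hy2N _).mp (R.inv_mem hρ))
      have hex : ∃ σ ∈ R, (ρ * (y * y) * ρ⁻¹ * (y * y)⁻¹) * σ
          ≠ σ * (ρ * (y * y) * ρ⁻¹ * (y * y)⁻¹) := by
        by_contra hcon
        push Not at hcon
        exact hnc2 (hH2 ρ hρ hcon)
      obtain ⟨σ, hσ, hne⟩ := hex
      exact hG.trace_zero _ hκR σ hσ hne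
    rw [t1] at z1
    rw [t2] at z2
    apply h3
    have h12 : (4 : F) * 3 = 0 := by linear_combination 4 * z1 - z2
    rcases mul_eq_zero.mp h12 with h | h
    · exact absurd h hG.h4
    · exact h
  apply hG.habs
  intro g hg
  rw [← Units.val_mul, ← Units.val_mul, key g hg]

end Good

end D

end Cfsg.Agent.Lib.Helper98.Symp
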