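import Mathlib
import Cfsg.Agent.Lib.Helper98.SympC

/-!
Explicit elements of the normaliser of the standard group `4 ∘ 2^{1+4}` in `GL_4(F)`.
-/

set_option autoImplicit false

namespace Cfsg.Agent.Lib.Helper98.Symp

open Matrix

section E

variable {F : Type*} [Field F]

theorem scalar_comm' (i : F) (c : GL (Fin 4) F)
    (hc : (c : Matrix (Fin 4) (Fin 4) F) = i • (1 : Matrix (Fin 4) (Fin 4) F)) (x : GL (Fin 4) F) :
    x * c = c * x := by
  apply Units.ext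
  rw [Units.val_mul, Units.val_mul, hc, Matrix.smul_mul, Matrix.mul_smul, Matrix.one_mul,
    Matrix.mul_one]

def CZm (F : Type*) [Field F] : Matrix (Fin 4) (Fin 4) F :=
  !![1, 0, 0, 0; 0, 1, 0, 0; 0, 0, 1, 0; 0, 0, 0, -1]

def CZim (F : Type*) [Field F] : Matrix (Fin 4) (Fin 4) F :=
  !![1, 0, 0, 0; 0, 1, 0, 0; 0, 0, 1, 0; 0, 0, 0, -1]

theorem CZm_mul_inv : CZm F * CZim F = 1 := by
  ext a b
  fin_cases a <;> fin_cases b <;> simp [CZm, CZim, Matrix.mul_apply, Fin.sum_univ_four] <;> grind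

noncomputable def CZu (F : Type*) [Field F] : GL (Fin 4) F :=
  ⟨CZm F, CZim F, CZm_mul_inv, mul_eq_one_comm.mp CZm_mul_inv⟩

theorem CZ_Z1 (i : F) (c : GL (Fin 4) F)
    (hc : (c : Matrix (Fin 4) (Fin 4) F) = i • (1 : Matrix (Fin 4) (Fin 4) F)) :
    CZu F * Z1u F = (Z1u F) * CZu F := by
  apply Units.ext
  simp only [Units.val_mul, hc, Units.val_one]
  show CZm F * Z1m F = (Z1m F) * CZm F
  ext a b
  fin_cases a <;> fin_cases b <;>
    simp [CZm, Z1m, X1m, Z2m, X2m, Matrix.mul_apply, Fin.sum_univ_four] <;> grind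

theorem CZ_X1 (i : F) (c : GL (Fin 4) F)
    (hc : (c : Matrix (Fin 4) (Fin 4) F) = i • (1 : Matrix (Fin 4) (Fin 4) F)) :
    CZu F * X1u F = (X1u F * Z2u F) * CZu F := by
  apply Units.ext
  simp only [Units.val_mul, hc, Units.val_one]
  show CZm F * X1m F = (X1m F * Z2m F) * CZm F
  ext a b
  fin_cases a <;> fin_cases b <;>
    simp [CZm, Z1m, X1m, Z2m, X2m, Matrix.mul_apply, Fin.sum_univ_four] <;> grind

theorem CZ_Z2 (i : F) (c : GL (Fin 4) F)
    (hc : (c : Matrix (Fin 4) (Fin 4) F) = i • (1 : Matrix (Fin 4) (Fin 4) F)) :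
    CZu F * Z2u F = (Z2u F) * CZu F := by
  apply Units.ext
  simp only [Units.val_mul, hc, Units.val_one]
  show CZm F * Z2m F = (Z2m F) * CZm F
  ext a b
  fin_cases a <;> fin_cases b <;>
    simp [CZm, Z1m, X1m, Z2m, X2m, Matrix.mul_apply, Fin.sum_univ_four] <;> grind

theorem CZ_X2 (i : F) (c : GL (Fin 4) F)
    (hc : (c : Matrix (Fin 4) (Fin 4) F) = i • (1 : Matrix (Fin 4) (Fin 4) F)) :
    CZu F * X2u F = (Z1u F * X2u F) * CZu F := by
  apply Units.ext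
  simp only [Units.val_mul, hc, Units.val_one]
  show CZm F * X2m F = (Z1m F * X2m F) * CZm F
  ext a b
  fin_cases a <;> fin_cases b <;>
    simp [CZm, Z1m, X1m, Z2m, X2m, Matrix.mul_apply, Fin.sum_univ_four] <;> grind

theorem CZ_mem_norm [Finite F] (i : F) (c : GL (Fin 4) F)
    (hc : (c : Matrix (Fin 4) (Fin 4) F) = i • (1 : Matrix (Fin 4) (Fin 4) F)) :
    CZu F ∈ Subgroup.normalizer (stdR c : Set (GL (Fin 4) F)) :=
  mem_norm_std c _ _ _ _ _ (scalar_comm' i c hc _)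
    (Z1u_mem_stdR c)
    ((stdR c).mul_mem (X1u_mem_stdR c) (Z2u_mem_stdR c))
    (Z2u_mem_stdR c)
    ((stdR c).mul_mem (Z1u_mem_stdR c) (X2u_mem_stdR c))
    (CZ_Z1 i c hc) (CZ_X1 i c hc) (CZ_Z2 i c hc) (CZ_X2 i c hc)

def T3m (F : Type*) [Field F] : Matrix (Fin 4) (Fin 4) F :=
  !![1, 0, 0, 0; 0, 0, 0, 1; 0, 1, 0, 0; 0, 0, 1, 0]

def T3im (F : Type*) [Field F] : Matrix (Fin 4) (Fin 4) F :=
  !![1, 0, 0, 0; 0, 0, 1, 0; 0, 0, 0, 1; 0, 1, 0, 0]

theorem T3m_mul_inv : T3m F * T3im F = 1 := by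
  ext a b
  fin_cases a <;> fin_cases b <;> simp [T3m, T3im, Matrix.mul_apply, Fin.sum_univ_four] <;> grind

noncomputable def T3u (F : Type*) [Field F] : GL (Fin 4) F :=
  ⟨T3m F, T3im F, T3m_mul_inv, mul_eq_one_comm.mp T3m_mul_inv⟩

theorem T3_Z1 (i : F) (c : GL (Fin 4) F)
    (hc : (c : Matrix (Fin 4) (Fin 4) F) = i • (1 : Matrix (Fin 4) (Fin 4) F)) :
    T3u F * Z1u F = (Z1u F * Z2u F) * T3u F := by
  apply Units.ext
  simp only [Units.val_mul, hc, Units.val_one]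
  show T3m F * Z1m F = (Z1m F * Z2m F) * T3m F
  ext a b
  fin_cases a <;> fin_cases b <;>
    simp [T3m, Z1m, X1m, Z2m, X2m, Matrix.mul_apply, Fin.sum_univ_four] <;> grind

theorem T3_X1 (i : F) (c : GL (Fin 4) F)
    (hc : (c : Matrix (Fin 4) (Fin 4) F) = i • (1 : Matrix (Fin 4) (Fin 4) F)) :
    T3u F * X1u F = (X2u F) * T3u F := by
  apply Units.ext
  simp only [Units.val_mul, hc, Units.val_one]
  show T3m F * X1m F = (X2m F) * T3m F
  ext a b
  fin_cases a <;> fin_cases b <;>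
    simp [T3m, Z1m, X1m, Z2m, X2m, Matrix.mul_apply, Fin.sum_univ_four] <;> grind

theorem T3_Z2 (i : F) (c : GL (Fin 4) F)
    (hc : (c : Matrix (Fin 4) (Fin 4) F) = i • (1 : Matrix (Fin 4) (Fin 4) F)) :
    T3u F * Z2u F = (Z1u F) * T3u F := by
  apply Units.ext
  simp only [Units.val_mul, hc, Units.val_one]
  show T3m F * Z2m F = (Z1m F) * T3m F
  ext a b
  fin_cases a <;> fin_cases b <;>
    simp [T3m, Z1m, X1m, Z2m, X2m, Matrix.mul_apply, Fin.sum_univ_four] <;> grind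

theorem T3_X2 (i : F) (c : GL (Fin 4) F)
    (hc : (c : Matrix (Fin 4) (Fin 4) F) = i • (1 : Matrix (Fin 4) (Fin 4) F)) :
    T3u F * X2u F = (X1u F * X2u F) * T3u F := by
  apply Units.ext
  simp only [Units.val_mul, hc, Units.val_one]
  show T3m F * X2m F = (X1m F * X2m F) * T3m F
  ext a b
  fin_cases a <;> fin_cases b <;>
    simp [T3m, Z1m, X1m, Z2m, X2m, Matrix.mul_apply, Fin.sum_univ_four] <;> grind

theorem T3_mem_norm [Finite F] (i : F) (c : GL (Fin 4) F)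
    (hc : (c : Matrix (Fin 4) (Fin 4) F) = i • (1 : Matrix (Fin 4) (Fin 4) F)) :
    T3u F ∈ Subgroup.normalizer (stdR c : Set (GL (Fin 4) F)) :=
  mem_norm_std c _ _ _ _ _ (scalar_comm' i c hc _)
    ((stdR c).mul_mem (Z1u_mem_stdR c) (Z2u_mem_stdR c))
    (X2u_mem_stdR c)
    (Z1u_mem_stdR c)
    ((stdR c).mul_mem (X1u_mem_stdR c) (X2u_mem_stdR c))
    (T3_Z1 i c hc) (T3_X1 i c hc) (T3_Z2 i c hc) (T3_X2 i c hc)

def A1am (i t : F) : Matrix (Fin 4) (Fin 4) F :=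
  !![t * (-1 - i), t * (-1 - i), 0, 0; t * (1 - i), t * (-1 + i), 0, 0; 0, 0, t * (-1 - i), t * (-1 - i); 0, 0, t * (1 - i), t * (-1 + i)]

def A1aim (i t : F) : Matrix (Fin 4) (Fin 4) F :=
  !![t * (-1 + i), t * (1 + i), 0, 0; t * (-1 + i), t * (-1 - i), 0, 0; 0, 0, t * (-1 + i), t * (1 + i); 0, 0, t * (-1 + i), t * (-1 - i)]

theorem A1am_mul_inv (i t : F) (hi : i * i = -1) (ht : 2 * t = 1) : A1am i t * A1aim i t = 1 := by
  ext a b
  fin_cases a <;> fin_cases b <;> simp [A1am, A1aim, Matrix.mul_apply, Fin.sum_univ_four] <;> grind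

noncomputable def A1au (i t : F) (hi : i * i = -1) (ht : 2 * t = 1) : GL (Fin 4) F :=
  ⟨A1am i t, A1aim i t, A1am_mul_inv i t hi ht, mul_eq_one_comm.mp (A1am_mul_inv i t hi ht)⟩

theorem A1a_Z1 (i t : F) (hi : i * i = -1) (ht : 2 * t = 1) (c : GL (Fin 4) F)
    (hc : (c : Matrix (Fin 4) (Fin 4) F) = i • (1 : Matrix (Fin 4) (Fin 4) F)) :
    A1au i t hi ht * Z1u F = (c * X1u F * Z1u F) * A1au i t hi ht := by
  apply Units.ext
  simp only [Units.val_mul, hc, Units.val_one]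
  show A1am i t * Z1m F = (i • (1 : Matrix (Fin 4) (Fin 4) F) * X1m F * Z1m F) * A1am i t
  ext a b
  fin_cases a <;> fin_cases b <;>
    simp [A1am, Z1m, X1m, Z2m, X2m, Matrix.mul_apply, Fin.sum_univ_four] <;> grind

theorem A1a_X1 (i t : F) (hi : i * i = -1) (ht : 2 * t = 1) (c : GL (Fin 4) F)
    (hc : (c : Matrix (Fin 4) (Fin 4) F) = i • (1 : Matrix (Fin 4) (Fin 4) F)) :
    A1au i t hi ht * X1u F = (Z1u F) * A1au i t hi ht := by
  apply Units.ext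
  simp only [Units.val_mul, hc, Units.val_one]
  show A1am i t * X1m F = (Z1m F) * A1am i t
  ext a b
  fin_cases a <;> fin_cases b <;>
    simp [A1am, Z1m, X1m, Z2m, X2m, Matrix.mul_apply, Fin.sum_univ_four] <;> grind

theorem A1a_Z2 (i t : F) (hi : i * i = -1) (ht : 2 * t = 1) (c : GL (Fin 4) F)
    (hc : (c : Matrix (Fin 4) (Fin 4) F) = i • (1 : Matrix (Fin 4) (Fin 4) F)) :
    A1au i t hi ht * Z2u F = (Z2u F) * A1au i t hi ht := by
  apply Units.ext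
  simp only [Units.val_mul, hc, Units.val_one]
  show A1am i t * Z2m F = (Z2m F) * A1am i t
  ext a b
  fin_cases a <;> fin_cases b <;>
    simp [A1am, Z1m, X1m, Z2m, X2m, Matrix.mul_apply, Fin.sum_univ_four] <;> grind

theorem A1a_X2 (i t : F) (hi : i * i = -1) (ht : 2 * t = 1) (c : GL (Fin 4) F)
    (hc : (c : Matrix (Fin 4) (Fin 4) F) = i • (1 : Matrix (Fin 4) (Fin 4) F)) :
    A1au i t hi ht * X2u F = (X2u F) * A1au i t hi ht := by
  apply Units.ext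
  simp only [Units.val_mul, hc, Units.val_one]
  show A1am i t * X2m F = (X2m F) * A1am i t
  ext a b
  fin_cases a <;> fin_cases b <;>
    simp [A1am, Z1m, X1m, Z2m, X2m, Matrix.mul_apply, Fin.sum_univ_four] <;> grind

theorem A1a_mem_norm [Finite F] (i t : F) (hi : i * i = -1) (ht : 2 * t = 1) (c : GL (Fin 4) F)
    (hc : (c : Matrix (Fin 4) (Fin 4) F) = i • (1 : Matrix (Fin 4) (Fin 4) F)) :
    A1au i t hi ht ∈ Subgroup.normalizer (stdR c : Set (GL (Fin 4) F)) :=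
  mem_norm_std c _ _ _ _ _ (scalar_comm' i c hc _)
    ((stdR c).mul_mem ((stdR c).mul_mem (c_mem_stdR c) (X1u_mem_stdR c)) (Z1u_mem_stdR c))
    (Z1u_mem_stdR c)
    (Z2u_mem_stdR c)
    (X2u_mem_stdR c)
    (A1a_Z1 i t hi ht c hc) (A1a_X1 i t hi ht c hc) (A1a_Z2 i t hi ht c hc) (A1a_X2 i t hi ht c hc)

def Y5m (i t : F) : Matrix (Fin 4) (Fin 4) F :=
  !![-(t * i), t, -(t * i), -t; -(t * i), -t, -(t * i), t; -(t * i), t, t * i, t; -(t * i), -t, t * i, -t]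

def Y5im (i t : F) : Matrix (Fin 4) (Fin 4) F :=
  !![t * i, t * i, t * i, t * i; t, -t, t, -t; t * i, t * i, -(t * i), -(t * i); -t, t, t, -t]

theorem Y5m_mul_inv (i t : F) (hi : i * i = -1) (ht : 2 * t = 1) : Y5m i t * Y5im i t = 1 := by
  ext a b
  fin_cases a <;> fin_cases b <;> simp [Y5m, Y5im, Matrix.mul_apply, Fin.sum_univ_four] <;> grind

noncomputable def Y5u (i t : F) (hi : i * i = -1) (ht : 2 * t = 1) : GL (Fin 4) F :=
  ⟨Y5m i t, Y5im i t, Y5m_mul_inv i t hi ht, mul_eq_one_comm.mp (Y5m_mul_inv i t hi ht)⟩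

theorem Y5_Z1 (i t : F) (hi : i * i = -1) (ht : 2 * t = 1) (c : GL (Fin 4) F)
    (hc : (c : Matrix (Fin 4) (Fin 4) F) = i • (1 : Matrix (Fin 4) (Fin 4) F)) :
    Y5u i t hi ht * Z1u F = (X1u F) * Y5u i t hi ht := by
  apply Units.ext
  simp only [Units.val_mul, hc, Units.val_one]
  show Y5m i t * Z1m F = (X1m F) * Y5m i t
  ext a b
  fin_cases a <;> fin_cases b <;>
    simp [Y5m, Z1m, X1m, Z2m, X2m, Matrix.mul_apply, Fin.sum_univ_four] <;> grind

theorem Y5_X1 (i t : F) (hi : i * i = -1) (ht : 2 * t = 1) (c : GL (Fin 4) F)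
    (hc : (c : Matrix (Fin 4) (Fin 4) F) = i • (1 : Matrix (Fin 4) (Fin 4) F)) :
    Y5u i t hi ht * X1u F = (c * c * c * X1u F * Z1u F * X2u F) * Y5u i t hi ht := by
  apply Units.ext
  simp only [Units.val_mul, hc, Units.val_one]
  show Y5m i t * X1m F = (i • (1 : Matrix (Fin 4) (Fin 4) F) * i • (1 : Matrix (Fin 4) (Fin 4) F) * i • (1 : Matrix (Fin 4) (Fin 4) F) * X1m F * Z1m F * X2m F) * Y5m i t
  ext a b
  fin_cases a <;> fin_cases b <;>
    simp [Y5m, Z1m, X1m, Z2m, X2m, Matrix.mul_apply, Fin.sum_univ_four] <;> grind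

theorem Y5_Z2 (i t : F) (hi : i * i = -1) (ht : 2 * t = 1) (c : GL (Fin 4) F)
    (hc : (c : Matrix (Fin 4) (Fin 4) F) = i • (1 : Matrix (Fin 4) (Fin 4) F)) :
    Y5u i t hi ht * Z2u F = (X2u F) * Y5u i t hi ht := by
  apply Units.ext
  simp only [Units.val_mul, hc, Units.val_one]
  show Y5m i t * Z2m F = (X2m F) * Y5m i t
  ext a b
  fin_cases a <;> fin_cases b <;>
    simp [Y5m, Z1m, X1m, Z2m, X2m, Matrix.mul_apply, Fin.sum_univ_four] <;> grind

theorem Y5_X2 (i t : F) (hi : i * i = -1) (ht : 2 * t = 1) (c : GL (Fin 4) F)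
    (hc : (c : Matrix (Fin 4) (Fin 4) F) = i • (1 : Matrix (Fin 4) (Fin 4) F)) :
    Y5u i t hi ht * X2u F = (X1u F * Z2u F) * Y5u i t hi ht := by
  apply Units.ext
  simp only [Units.val_mul, hc, Units.val_one]
  show Y5m i t * X2m F = (X1m F * Z2m F) * Y5m i t
  ext a b
  fin_cases a <;> fin_cases b <;>
    simp [Y5m, Z1m, X1m, Z2m, X2m, Matrix.mul_apply, Fin.sum_univ_four] <;> grind

theorem Y5_mem_norm [Finite F] (i t : F) (hi : i * i = -1) (ht : 2 * t = 1) (c : GL (Fin 4) F)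
    (hc : (c : Matrix (Fin 4) (Fin 4) F) = i • (1 : Matrix (Fin 4) (Fin 4) F)) :
    Y5u i t hi ht ∈ Subgroup.normalizer (stdR c : Set (GL (Fin 4) F)) :=
  mem_norm_std c _ _ _ _ _ (scalar_comm' i c hc _)
    (X1u_mem_stdR c)
    ((stdR c).mul_mem ((stdR c).mul_mem ((stdR c).mul_mem ((stdR c).mul_mem ((stdR c).mul_mem (c_mem_stdR c) (c_mem_stdR c)) (c_mem_stdR c)) (X1u_mem_stdR c)) (Z1u_mem_stdR c)) (X2u_mem_stdR c))
    (X2u_mem_stdR c)
    ((stdR c).mul_mem (X1u_mem_stdR c) (Z2u_mem_stdR c))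
    (Y5_Z1 i t hi ht c hc) (Y5_X1 i t hi ht c hc) (Y5_Z2 i t hi ht c hc) (Y5_X2 i t hi ht c hc)

theorem CZm_eq : CZm F = Matrix.diagonal ![1, 1, 1, -1] := by
  ext a b
  fin_cases a <;> fin_cases b <;> simp [CZm]

theorem Z1m_eq : Z1m F = Matrix.diagonal ![1, -1, 1, -1] := by
  ext a b
  fin_cases a <;> fin_cases b <;> simp [Z1m]

theorem CZim_eq : CZim F = CZm F := rfl

theorem T3m_sq : T3m F * T3m F = T3im F := by
  ext a b
  fin_cases a <;> fin_cases b <;> simp [T3m, T3im, Matrix.mul_apply, Fin.sum_univ_four]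

theorem T3m_cube : T3m F ^ 3 = 1 := by
  rw [pow_succ, pow_two, T3m_sq, mul_eq_one_comm.mp T3m_mul_inv]

theorem T3m_E00 : (T3m F * T3m F + T3m F + 1) 0 0 = 3 := by
  rw [T3m_sq]
  simp [T3m, T3im]
  norm_num

theorem T3m_01 : (T3m F) 1 1 = 0 := by
  simp [T3m]

theorem A1am_sq (i t : F) (hi : i * i = -1) (ht : 2 * t = 1) : A1am i t * A1am i t = A1aim i t := by
  ext a b
  fin_cases a <;> fin_cases b <;> simp [A1am, A1aim, Matrix.mul_apply, Fin.sum_univ_four] <;> grind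

theorem A1am_E (i t : F) (hi : i * i = -1) (ht : 2 * t = 1) :
    A1am i t * A1am i t + A1am i t + 1 = 0 := by
  rw [A1am_sq i t hi ht]
  ext a b
  fin_cases a <;> fin_cases b <;> simp [A1am, A1aim] <;> grind

theorem A1am_cube (i t : F) (hi : i * i = -1) (ht : 2 * t = 1) : A1am i t ^ 3 = 1 := by
  rw [pow_succ, pow_two, A1am_sq i t hi ht, mul_eq_one_comm.mp (A1am_mul_inv i t hi ht)]

def Y5sqm (i t : F) : Matrix (Fin 4) (Fin 4) F :=
  !![-t, -(t * i), -(t * i), t; -t, -(t * i), t * i, -t; -(t * i), -t, -t, t * i; t * i, t, -t, t * i]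

theorem Y5m_sq (i t : F) (hi : i * i = -1) (ht : 2 * t = 1) : Y5m i t * Y5m i t = Y5sqm i t := by
  ext a b
  fin_cases a <;> fin_cases b <;> simp [Y5m, Y5sqm, Matrix.mul_apply, Fin.sum_univ_four] <;> grind

theorem Y5sqm_sq (i t : F) (hi : i * i = -1) (ht : 2 * t = 1) :
    Y5sqm i t * Y5sqm i t = Y5im i t := by
  ext a b
  fin_cases a <;> fin_cases b <;> simp [Y5im, Y5sqm, Matrix.mul_apply, Fin.sum_univ_four] <;> grind

theorem Y5m_pow (i t : F) (hi : i * i = -1) (ht : 2 * t = 1) : Y5m i t ^ 5 = 1 := by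
  have e : Y5m i t ^ 5 = (Y5m i t * Y5m i t) * (Y5m i t * Y5m i t) * Y5m i t := by
    simp only [pow_succ, pow_zero, one_mul, mul_assoc]
  rw [e, Y5m_sq i t hi ht, Y5sqm_sq i t hi ht, mul_eq_one_comm.mp (Y5m_mul_inv i t hi ht)]

theorem Y5m_01 (i t : F) : (Y5m i t) 0 1 = t := by
  simp [Y5m]

end E

end Cfsg.Agent.Lib.Helper98.Symp
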