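import Mathlib
import Cfsg.Agent.Lib.Helper98.SympA
import Cfsg.Agent.Lib.Helper98.SympD
import Cfsg.Agent.Lib.Helper98.SympE
import Cfsg.Agent.Lib.Helper98.SympF

/-!
The normaliser of `4 ∘ 2^{1+4}` in `SL_4(p)`: which elements of prime order are conjugate into it.
-/

set_option autoImplicit false

namespace Cfsg.Agent.Lib.Helper98.Symp

open Matrix Polynomial

section G

variable {F : Type*} [Field F]

theorem prime_cast_ne_zero (p : ℕ) [CharP F p] (hp : p.Prime) (q : ℕ) (hq : q.Prime)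
    (hne : p ≠ q) : ((q : ℕ) : F) ≠ 0 := by
  rw [Ne, CharP.cast_eq_zero_iff F p q]
  intro h
  exact hne ((Nat.prime_dvd_prime_iff_eq hp hq).mp h)

/-! ### conjugation helpers -/

theorem conj_scalar (g x : GL (Fin 4) F) (l : F)
    (h : ((g⁻¹ * x * g : GL (Fin 4) F) : Matrix (Fin 4) (Fin 4) F)
      = l • (1 : Matrix (Fin 4) (Fin 4) F)) :
    (x : Matrix (Fin 4) (Fin 4) F) = l • (1 : Matrix (Fin 4) (Fin 4) F) := by
  have e : x = g * (g⁻¹ * x * g) * g⁻¹ := by group
  rw [e, Units.val_mul, Units.val_mul, h, Matrix.mul_smul, Matrix.mul_one, Matrix.smul_mul,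
    Units.mul_inv]

theorem conj_trace (g x : GL (Fin 4) F) :
    ((g⁻¹ * x * g : GL (Fin 4) F) : Matrix (Fin 4) (Fin 4) F).trace
      = (x : Matrix (Fin 4) (Fin 4) F).trace := by
  rw [Units.val_mul, Units.val_mul, Matrix.trace_mul_cycle, Units.mul_inv, Matrix.one_mul]

theorem conj_inv' (g x : GL (Fin 4) F) : (g⁻¹ * x * g)⁻¹ = g⁻¹ * x⁻¹ * g := by group

theorem conj_pow'' (g x : GL (Fin 4) F) (k : ℕ) : (g⁻¹ * x * g) ^ k = g⁻¹ * x ^ k * g := by
  have h := @conj_pow (GL (Fin 4) F) _ k g⁻¹ x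
  rw [inv_inv] at h
  exact h

theorem unit_smul_ne_zero (u : GL (Fin 4) F) (z : F)
    (h : (u : Matrix (Fin 4) (Fin 4) F) = z • (1 : Matrix (Fin 4) (Fin 4) F)) : z ≠ 0 := by
  intro hz
  have h1 := u.mul_inv
  rw [h, hz, zero_smul, Matrix.zero_mul] at h1
  exact zero_ne_one h1

/-- scalar units -/
def scalarU (l : F) (hl : l ≠ 0) : GL (Fin 4) F :=
  ⟨l • 1, l⁻¹ • 1,
    by rw [Matrix.smul_mul, Matrix.one_mul, smul_smul, mul_inv_cancel₀ hl, one_smul],
    by rw [Matrix.smul_mul, Matrix.one_mul, smul_smul, inv_mul_cancel₀ hl, one_smul]⟩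

/-! ### explicit elements of `SL_4` -/

def xtm (F : Type*) [Field F] : Matrix (Fin 4) (Fin 4) F :=
  !![1, 1, 0, 0; 0, 1, 0, 0; 0, 0, 1, 0; 0, 0, 0, 1]
def xtim (F : Type*) [Field F] : Matrix (Fin 4) (Fin 4) F :=
  !![1, -1, 0, 0; 0, 1, 0, 0; 0, 0, 1, 0; 0, 0, 0, 1]

theorem xtm_mul_inv : xtm F * xtim F = 1 := by
  ext a b
  fin_cases a <;> fin_cases b <;> simp [xtm, xtim, Matrix.mul_apply, Fin.sum_univ_four]

def xtu (F : Type*) [Field F] : GL (Fin 4) F :=
  ⟨xtm F, xtim F, xtm_mul_inv, mul_eq_one_comm.mp xtm_mul_inv⟩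

theorem xtm_det : (xtm F).det = 1 := by
  rw [Matrix.det_succ_row_zero]
  simp [Fin.sum_univ_succ, xtm, Matrix.det_fin_three, Fin.succAbove]

theorem xtm_nil : (xtm F - 1) * (xtm F - 1) = 0 := by
  ext a b
  fin_cases a <;> fin_cases b <;> simp [xtm, Matrix.mul_apply, Fin.sum_univ_four]

theorem xtm_pow (p : ℕ) [Fact p.Prime] [CharP F p] : xtm F ^ p = 1 := by
  have e : xtm F = 1 + (xtm F - 1) := by abel
  rw [e, add_pow_char_of_commute p (Commute.one_left _), one_pow]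
  have hp2 : 2 ≤ p := (Fact.out : p.Prime).two_le
  obtain ⟨k, hk⟩ := Nat.exists_eq_add_of_le hp2
  rw [hk, pow_add, pow_two, xtm_nil, zero_mul, add_zero]

def x3m (ω : F) : Matrix (Fin 4) (Fin 4) F :=
  !![ω, 0, 0, 0; 0, ω, 0, 0; 0, 0, ω, 0; 0, 0, 0, 1]
def x3im (ω : F) : Matrix (Fin 4) (Fin 4) F :=
  !![ω * ω, 0, 0, 0; 0, ω * ω, 0, 0; 0, 0, ω * ω, 0; 0, 0, 0, 1]

theorem x3m_mul_inv (ω : F) (hω : ω * ω + ω + 1 = 0) : x3m ω * x3im ω = 1 := by
  ext a b
  fin_cases a <;> fin_cases b <;> simp [x3m, x3im, Matrix.mul_apply, Fin.sum_univ_four] <;> grind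

def x3u (ω : F) (hω : ω * ω + ω + 1 = 0) : GL (Fin 4) F :=
  ⟨x3m ω, x3im ω, x3m_mul_inv ω hω, mul_eq_one_comm.mp (x3m_mul_inv ω hω)⟩

theorem x3m_sq (ω : F) : x3m ω * x3m ω = x3im ω := by
  ext a b
  fin_cases a <;> fin_cases b <;> simp [x3m, x3im, Matrix.mul_apply, Fin.sum_univ_four]

theorem x3m_pow (ω : F) (hω : ω * ω + ω + 1 = 0) : x3m ω ^ 3 = 1 := by
  rw [pow_succ, pow_two, x3m_sq, mul_eq_one_comm.mp (x3m_mul_inv ω hω)]

theorem x3m_det (ω : F) (hω : ω * ω + ω + 1 = 0) : (x3m ω).det = 1 := by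
  rw [Matrix.det_succ_row_zero]
  simp [Fin.sum_univ_succ, x3m, Matrix.det_fin_three, Fin.succAbove]
  linear_combination (ω - 1) * hω

theorem x3m_trace (ω : F) : (x3m ω).trace = ω + ω + ω + 1 := by
  simp [Matrix.trace, Fin.sum_univ_four, x3m]

theorem x3im_trace (ω : F) : (x3im ω).trace = ω * ω + ω * ω + ω * ω + 1 := by
  simp [Matrix.trace, Fin.sum_univ_four, x3im]

def x5m (τ : F) : Matrix (Fin 4) (Fin 4) F :=
  !![0, -1, 0, 0; 1, τ, 0, 0; 0, 0, 1, 0; 0, 0, 0, 1]
def x5im (τ : F) : Matrix (Fin 4) (Fin 4) F :=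
  !![τ, 1, 0, 0; -1, 0, 0, 0; 0, 0, 1, 0; 0, 0, 0, 1]
def x5sqm (τ : F) : Matrix (Fin 4) (Fin 4) F :=
  !![-1, -τ, 0, 0; τ, -τ, 0, 0; 0, 0, 1, 0; 0, 0, 0, 1]

theorem x5m_mul_inv (τ : F) : x5m τ * x5im τ = 1 := by
  ext a b
  fin_cases a <;> fin_cases b <;> simp [x5m, x5im, Matrix.mul_apply, Fin.sum_univ_four]

def x5u (τ : F) : GL (Fin 4) F :=
  ⟨x5m τ, x5im τ, x5m_mul_inv τ, mul_eq_one_comm.mp (x5m_mul_inv τ)⟩

theorem x5m_sq (τ : F) (hτ : τ * τ + τ - 1 = 0) : x5m τ * x5m τ = x5sqm τ := by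
  ext a b
  fin_cases a <;> fin_cases b <;> simp [x5m, x5sqm, Matrix.mul_apply, Fin.sum_univ_four] <;> grind

theorem x5sqm_sq (τ : F) (hτ : τ * τ + τ - 1 = 0) : x5sqm τ * x5sqm τ = x5im τ := by
  ext a b
  fin_cases a <;> fin_cases b <;> simp [x5im, x5sqm, Matrix.mul_apply, Fin.sum_univ_four] <;> grind

theorem x5m_pow (τ : F) (hτ : τ * τ + τ - 1 = 0) : x5m τ ^ 5 = 1 := by
  have e : x5m τ ^ 5 = (x5m τ * x5m τ) * (x5m τ * x5m τ) * x5m τ := by
    simp only [pow_succ, pow_zero, one_mul, mul_assoc]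
  rw [e, x5m_sq τ hτ, x5sqm_sq τ hτ, mul_eq_one_comm.mp (x5m_mul_inv τ)]

theorem x5m_det (τ : F) : (x5m τ).det = 1 := by
  rw [Matrix.det_succ_row_zero]
  simp [Fin.sum_univ_succ, x5m, Matrix.det_fin_three, Fin.succAbove]

theorem x5m_trace (τ : F) : (x5m τ).trace = τ + 1 + 1 := by
  simp [Matrix.trace, Fin.sum_univ_four, x5m]

theorem x5im_trace (τ : F) : (x5im τ).trace = τ + 1 + 1 := by
  simp [Matrix.trace, Fin.sum_univ_four, x5im]

/-! ### existence of roots -/

theorem exists_omega [Fintype F] (h : 3 ∣ Fintype.card F - 1) :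
    ∃ ω : F, ω * ω + ω + 1 = 0 := by
  have : Fact (Nat.Prime 3) := ⟨Nat.prime_three⟩
  have hcard : Nat.card Fˣ = Fintype.card F - 1 := by
    rw [Nat.card_units, Nat.card_eq_fintype_card]
  obtain ⟨u, hu⟩ := exists_prime_orderOf_dvd_card' (G := Fˣ) 3 (by rw [hcard]; exact h)
  have h3 : u ^ 3 = 1 := by rw [← hu]; exact pow_orderOf_eq_one u
  have h1 : u ≠ 1 := by
    intro h1
    rw [h1, orderOf_one] at hu
    norm_num at hu
  have h3' : (u : F) ^ 3 = 1 := by
    rw [← Units.val_pow_eq_pow_val, h3, Units.val_one]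
  have h1' : (u : F) - 1 ≠ 0 := by
    intro h
    apply h1
    apply Units.ext
    rw [Units.val_one]
    exact sub_eq_zero.mp h
  refine ⟨(u : F), ?_⟩
  have hfac : ((u : F) - 1) * ((u : F) * (u : F) + (u : F) + 1) = 0 := by
    linear_combination h3'
  exact (mul_eq_zero.mp hfac).resolve_left h1'

theorem zmod5_one : ((1 : ℕ) : ZMod 5) = 1 * 1 := by decide

theorem zmod5_four : ((4 : ℕ) : ZMod 5) = 2 * 2 := by decide

theorem exists_tau [Fintype F] (p : ℕ) [Fact p.Prime] [CharP F p] (hp4 : p % 4 = 1)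
    (hp5 : p % 5 = 1 ∨ p % 5 = 4) (t : F) (ht : 2 * t = 1) : ∃ τ : F, τ * τ + τ - 1 = 0 := by
  have : Fact (Nat.Prime 5) := ⟨by norm_num⟩
  have hsq5 : IsSquare ((p : ℕ) : ZMod 5) := by
    have e : ((p : ℕ) : ZMod 5) = ((p % 5 : ℕ) : ZMod 5) := (ZMod.natCast_mod p 5).symm
    rw [e]
    rcases hp5 with h | h
    · rw [h]
      exact ⟨1, zmod5_one⟩
    · rw [h]
      exact ⟨2, zmod5_four⟩
  have hsq := (ZMod.exists_sq_eq_prime_iff_of_mod_four_eq_one (p := p) (q := 5) hp4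
    (by norm_num)).mpr hsq5
  obtain ⟨s, hs⟩ := hsq
  obtain ⟨s', hs'⟩ : ∃ s' : F, s' * s' = 5 := by
    refine ⟨ZMod.castHom (dvd_refl p) F s, ?_⟩
    rw [← map_mul, ← hs, map_natCast]
    norm_num
  refine ⟨(s' - 1) * t, ?_⟩
  linear_combination t * t * hs' + (t * (3 - s') + 1) * ht

/-! ### the standing hypotheses -/

theorem exists_good [Fintype F] (p : ℕ) [Fact p.Prime] [CharP F p] (hF : Fintype.card F = p)
    (hp4 : p % 4 = 1) (R : Subgroup (GL (Fin 4) F))
    (hR : Cfsg.Geo.IsLinearSymplecticTypeData 2 R) (hR6 : Nat.card R = 2 ^ 6) :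
    ∃ (i : F) (c : GL (Fin 4) F), Good i R c := by
  classical
  have hp : p.Prime := Fact.out
  have h2 : (2 : F) ≠ 0 := by
    have := prime_cast_ne_zero (F := F) p hp 2 Nat.prime_two (by omega)
    exact_mod_cast this
  obtain ⟨i, hi⟩ : ∃ i : F, i ^ 2 = -1 := by
    have h := (FiniteField.isSquare_neg_one_iff (F := F)).mpr (by rw [hF]; omega)
    obtain ⟨i, hi⟩ := h
    exact ⟨i, by rw [pow_two]; exact hi.symm⟩
  have hRfin : Finite R := Nat.finite_of_card_ne_zero (by rw [hR6]; norm_num)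
  have habs : ∀ M : Matrix (Fin 4) (Fin 4) F,
      (∀ g ∈ R, M * (g : Matrix (Fin 4) (Fin 4) F) = (g : Matrix (Fin 4) (Fin 4) F) * M) →
      ∃ l : F, M = l • (1 : Matrix (Fin 4) (Fin 4) F) := by
    intro M hM
    apply hR.absIrred.2 M
    rintro s ⟨g, hg, rfl⟩
    exact hM g hg
  have hexp : ∀ g : R, g ^ 4 = 1 := by
    intro g
    have h4 : Monoid.exponent R = 4 := by
      rw [hR.symplecticType.exponent_eq]
      rfl
    have h5 := Monoid.pow_exponent_eq_one g
    rwa [h4] at h5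
  obtain ⟨z, hzc, hz2, hzsq⟩ :=
    sq_central_of_symplectic hexp hR.symplecticType.cyclic_of_characteristic
  -- `z` is `±1`
  obtain ⟨l, hl⟩ := habs (((z : R) : GL (Fin 4) F) : Matrix (Fin 4) (Fin 4) F) (by
    intro g hg
    have h1 := hzc ⟨g, hg⟩
    have h2 := congrArg (fun a : R => ((a : GL (Fin 4) F) : Matrix (Fin 4) (Fin 4) F)) h1
    simp only [Subgroup.coe_mul, Units.val_mul] at h2
    exact h2.symm)
  have hl2 : l * l = 1 := by
    have h3 := congrArg (fun a : R => ((a : GL (Fin 4) F) : Matrix (Fin 4) (Fin 4) F)) hz2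
    simp only [Subgroup.coe_pow, Units.val_pow_eq_pow_val, Subgroup.coe_one, Units.val_one] at h3
    rw [hl, pow_two, Matrix.smul_mul, Matrix.one_mul, smul_smul] at h3
    have h00 := congrFun (congrFun h3 0) 0
    simpa using h00
  have hlcases : l = 1 ∨ l = -1 := by
    have h' : (l - 1) * (l + 1) = 0 := by linear_combination hl2
    rcases mul_eq_zero.mp h' with h'' | h''
    · left; exact sub_eq_zero.mp h''
    · right; exact eq_neg_of_add_eq_zero_left h''
  have hsq : ∀ g ∈ R, g * g = 1 ∨ g * g = -1 := by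
    intro g hg
    rcases hzsq ⟨g, hg⟩ with h | h
    · left
      have h1 := congrArg (fun a : R => (a : GL (Fin 4) F)) h
      simpa [pow_two] using h1
    · have h1 : g * g = ((z : R) : GL (Fin 4) F) := by
        rw [← h]
        simp [pow_two]
      rcases hlcases with hl1 | hl1
      · left
        rw [h1]
        apply Units.ext
        rw [hl, hl1, one_smul, Units.val_one]
      · right
        rw [h1]
        apply Units.ext
        rw [hl, hl1, neg_smul, one_smul, Units.val_neg, Units.val_one]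
  -- the centre has order four
  obtain ⟨p', e, _, _, hcases⟩ := hR.field
  have hcen4 : Nat.card (Subgroup.center R) = 4 := by
    rcases hcases with ⟨hodd, _⟩ | ⟨_, _, h, _⟩ | ⟨_, _, h, _⟩
    · exact absurd hodd (by decide)
    · exact h
    · simp at h
  have hcen : ∃ c ∈ R, ∃ j : F, j ^ 2 = -1 ∧
      (c : Matrix (Fin 4) (Fin 4) F) = j • (1 : Matrix (Fin 4) (Fin 4) F) := by
    by_contra hcon
    push Not at hcon
    have hpm : ∀ g : Subgroup.center R,
        (((g : R) : GL (Fin 4) F) : Matrix (Fin 4) (Fin 4) F) = 1 ∨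
        (((g : R) : GL (Fin 4) F) : Matrix (Fin 4) (Fin 4) F) = -1 := by
      intro g
      have hgc := Subgroup.mem_center_iff.mp g.2
      obtain ⟨l, hl⟩ := habs (((g : R) : GL (Fin 4) F) : Matrix (Fin 4) (Fin 4) F) (by
        intro h hh
        have h1 := hgc ⟨h, hh⟩
        have h2 := congrArg (fun a : R => ((a : GL (Fin 4) F) : Matrix (Fin 4) (Fin 4) F)) h1
        simp only [Subgroup.coe_mul, Units.val_mul] at h2
        exact h2.symm)
      have hg4 := hexp (g : R)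
      have hl4 : l ^ 4 = 1 := by
        have h3 := congrArg (fun a : R => ((a : GL (Fin 4) F) : Matrix (Fin 4) (Fin 4) F)) hg4
        simp only [Subgroup.coe_pow, Units.val_pow_eq_pow_val, Subgroup.coe_one,
          Units.val_one] at h3
        rw [hl, _root_.smul_pow, one_pow] at h3
        have h00 := congrFun (congrFun h3 0) 0
        simpa using h00
      have hfac : (l ^ 2 - 1) * (l ^ 2 + 1) = 0 := by linear_combination hl4
      rcases mul_eq_zero.mp hfac with h | h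
      · have h' : (l - 1) * (l + 1) = 0 := by linear_combination h
        rcases mul_eq_zero.mp h' with h'' | h''
        · left
          rw [hl, sub_eq_zero.mp h'', one_smul]
        · right
          rw [hl, eq_neg_of_add_eq_zero_left h'', neg_smul, one_smul]
      · exfalso
        exact hcon (g : R) (g : R).2 l (by linear_combination h) hl
    have hinj : Function.Injective (fun g : Subgroup.center R =>
        decide ((((g : R) : GL (Fin 4) F) : Matrix (Fin 4) (Fin 4) F) = 1)) := by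
      intro a b hab
      simp only [decide_eq_decide] at hab
      apply Subtype.ext
      apply Subtype.ext
      apply Units.ext
      rcases hpm a with ha | ha
      · rw [ha, hab.mp ha]
      · rcases hpm b with hb | hb
        · rw [hb, hab.mpr hb]
        · rw [ha, hb]
    have hle := Nat.card_le_card_of_injective _ hinj
    rw [hcen4, Nat.card_eq_fintype_card, Fintype.card_bool] at hle
    omega
  obtain ⟨c, hcR, j, hj, hcj⟩ := hcen
  exact ⟨j, c, ⟨h2, hj, hsq, hcR, hcj, habs, by rw [hR6]; norm_num⟩⟩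

namespace Good

variable {i : F} {R : Subgroup (GL (Fin 4) F)} {c : GL (Fin 4) F}

/-- transporting an element of the normaliser of the standard group -/
theorem target (hG : Good i R c) (n : GL (Fin 4) F)
    (hn : n ∈ Subgroup.normalizer (stdR c : Set (GL (Fin 4) F))) :
    ∃ m : GL (Fin 4) F, m ∈ Cfsg.Geo.subgroupNormalizer R ∧
      (∀ l : F, (l • (m : Matrix (Fin 4) (Fin 4) F)).charpoly
        = (l • (n : Matrix (Fin 4) (Fin 4) F)).charpoly) ∧
      ∀ k : ℕ, n ^ k = 1 → m ^ k = 1 := by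
  obtain ⟨P, hP⟩ := hG.std
  refine ⟨P * n * P⁻¹, norm_transfer R (stdR c) P hP n hn, ?_, ?_⟩
  · intro l
    have e : l • ((P * n * P⁻¹ : GL (Fin 4) F) : Matrix (Fin 4) (Fin 4) F)
        = (P : Matrix (Fin 4) (Fin 4) F) * (l • (n : Matrix (Fin 4) (Fin 4) F))
          * ((P : Matrix (Fin 4) (Fin 4) F))⁻¹ := by
      rw [Units.val_mul, Units.val_mul, Matrix.coe_units_inv, Matrix.mul_smul, Matrix.smul_mul]
    rw [e, Matrix.charpoly_units_conj]
  · intro k hk
    rw [conj_pow, hk, mul_one, mul_inv_cancel]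

/-! ### the elements conjugate into the normaliser -/

theorem back_two_aux [Fintype F] (hG : Good i R c) (x : GL (Fin 4) F) (z : F) (hz : z ≠ 0)
    (hss : Module.End.IsSemisimple (toLin' (x : Matrix (Fin 4) (Fin 4) F))) (l : F)
    (hl : l ^ 2 = z) (n : GL (Fin 4) F)
    (hn : n ∈ Subgroup.normalizer (stdR c : Set (GL (Fin 4) F))) (hn2 : n ^ 2 = 1)
    (hcp : (x : Matrix (Fin 4) (Fin 4) F).charpoly
      = (l • (n : Matrix (Fin 4) (Fin 4) F)).charpoly) :
    ∃ g ∈ Cfsg.Geo.specialLinear (Fin 4) F, g⁻¹ * x * g ∈ Cfsg.Geo.subgroupNormalizer R := by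
  obtain ⟨m, hm, hmc, hmk⟩ := hG.target n hn
  have hl0 : l ≠ 0 := by
    intro h
    rw [h] at hl
    apply hz
    rw [← hl]
    norm_num
  obtain ⟨u, hu⟩ : ∃ u : GL (Fin 4) F,
      (u : Matrix (Fin 4) (Fin 4) F) = l • (m : Matrix (Fin 4) (Fin 4) F) := by
    refine ⟨scalarU l hl0 * m, ?_⟩
    rw [Units.val_mul]
    show (l • (1 : Matrix (Fin 4) (Fin 4) F)) * (m : Matrix (Fin 4) (Fin 4) F) = _
    rw [Matrix.smul_mul, Matrix.one_mul]
  have huN : u ∈ Cfsg.Geo.subgroupNormalizer R := smul_mem_norm R m u l hm hu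
  have hm2 : (m : Matrix (Fin 4) (Fin 4) F) * (m : Matrix (Fin 4) (Fin 4) F) = 1 := by
    have h := hmk 2 hn2
    rw [pow_two] at h
    rw [← Units.val_mul, h, Units.val_one]
  have huu : (u : Matrix (Fin 4) (Fin 4) F) * (u : Matrix (Fin 4) (Fin 4) F)
      = z • (1 : Matrix (Fin 4) (Fin 4) F) := by
    rw [hu, Matrix.smul_mul, Matrix.mul_smul, hm2, smul_smul, ← pow_two, hl]
  have huss : Module.End.IsSemisimple (toLin' (u : Matrix (Fin 4) (Fin 4) F)) := by
    rcases Cfsg.Agent.Lib.Helper47.inv_classes (u : Matrix (Fin 4) (Fin 4) F) z hz huu with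
      ⟨_, h, _⟩ | ⟨h, _⟩
    · exact h
    · exact absurd h hG.h2
  refine conj_into4 R x u 1 (x : Matrix (Fin 4) (Fin 4) F) (by rw [one_smul]) hss huN huss ?_
  rw [hcp, hu, hmc l]

theorem back_two [Fintype F] (hG : Good i R c) (x : GL (Fin 4) F)
    (hx1 : x ∈ Cfsg.Geo.specialLinear (Fin 4) F) (z : F)
    (hx : ((x ^ 2 : GL (Fin 4) F) : Matrix (Fin 4) (Fin 4) F)
      = z • (1 : Matrix (Fin 4) (Fin 4) F))
    (hns : ∀ z : F, (x : Matrix (Fin 4) (Fin 4) F) ≠ z • (1 : Matrix (Fin 4) (Fin 4) F)) :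
    ∃ g ∈ Cfsg.Geo.specialLinear (Fin 4) F, g⁻¹ * x * g ∈ Cfsg.Geo.subgroupNormalizer R := by
  have hz : z ≠ 0 := unit_smul_ne_zero (x ^ 2) z hx
  have hxx : (x : Matrix (Fin 4) (Fin 4) F) * (x : Matrix (Fin 4) (Fin 4) F)
      = z • (1 : Matrix (Fin 4) (Fin 4) F) := by
    rw [← Units.val_mul, ← pow_two, hx]
  have hdet : (x : Matrix (Fin 4) (Fin 4) F).det = 1 :=
    (Cfsg.Agent.Lib.Helper99.mem_specialLinear_iff x).mp hx1
  rcases Cfsg.Agent.Lib.Helper47.inv_classes (x : Matrix (Fin 4) (Fin 4) F) z hz hxx with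
    ⟨_, hss, hcl⟩ | ⟨h, _⟩
  swap
  · exact absurd h hG.h2
  rcases hcl with ⟨l, a, b, hzl, hab, hcp⟩ | ⟨hnsq, m, hm, hcp⟩
  · -- the split case
    have hZ1 : Z1u F ∈ Subgroup.normalizer (stdR c : Set (GL (Fin 4) F)) :=
      Subgroup.le_normalizer (Z1u_mem_stdR c)
    have hZ1sq : Z1u F ^ 2 = 1 := by
      apply Units.ext
      rw [pow_two, Units.val_mul]
      exact Z1m_sq
    have hCZ : CZu F ∈ Subgroup.normalizer (stdR c : Set (GL (Fin 4) F)) :=
      CZ_mem_norm i c hG.hc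
    have hCZsq : CZu F ^ 2 = 1 := by
      apply Units.ext
      rw [pow_two, Units.val_mul]
      exact CZm_mul_inv
    have hcases : a = 0 ∨ a = 1 ∨ a = 2 ∨ a = 3 ∨ a = 4 := by omega
    rcases hcases with ha | ha | ha | ha | ha
    · -- scalar
      exfalso
      have hb : b = 4 := by omega
      rw [ha, hb, pow_zero, one_mul] at hcp
      exact hns (-l) (eq_smul_of_charpoly _ hss (-l) hcp)
    · have hb : b = 3 := by omega
      refine hG.back_two_aux x z hz hss (-l) (by rw [neg_sq, hzl]) (CZu F) hCZ hCZsq ?_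
      rw [hcp, ha, hb]
      have e : (-l) • ((CZu F : GL (Fin 4) F) : Matrix (Fin 4) (Fin 4) F)
          = Matrix.diagonal ![-l, -l, -l, l] := by
        show (-l) • CZm F = _
        rw [CZm_eq]
        ext a b
        fin_cases a <;> fin_cases b <;> simp
      rw [e, Matrix.charpoly_diagonal, Fin.prod_univ_four]
      show (X - C l) ^ 1 * (X - C (-l)) ^ 3
        = (X - C (-l)) * (X - C (-l)) * (X - C (-l)) * (X - C l)
      ring
    · have hb : b = 2 := by omega
      refine hG.back_two_aux x z hz hss l hzl.symm (Z1u F) hZ1 hZ1sq ?_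
      rw [hcp, ha, hb]
      have e : l • ((Z1u F : GL (Fin 4) F) : Matrix (Fin 4) (Fin 4) F)
          = Matrix.diagonal ![l, -l, l, -l] := by
        show l • Z1m F = _
        rw [Z1m_eq]
        ext a b
        fin_cases a <;> fin_cases b <;> simp
      rw [e, Matrix.charpoly_diagonal, Fin.prod_univ_four]
      show (X - C l) ^ 2 * (X - C (-l)) ^ 2
        = (X - C l) * (X - C (-l)) * (X - C l) * (X - C (-l))
      ring
    · have hb : b = 1 := by omega
      refine hG.back_two_aux x z hz hss l hzl.symm (CZu F) hCZ hCZsq ?_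
      rw [hcp, ha, hb]
      have e : l • ((CZu F : GL (Fin 4) F) : Matrix (Fin 4) (Fin 4) F)
          = Matrix.diagonal ![l, l, l, -l] := by
        show l • CZm F = _
        rw [CZm_eq]
        ext a b
        fin_cases a <;> fin_cases b <;> simp
      rw [e, Matrix.charpoly_diagonal, Fin.prod_univ_four]
      show (X - C l) ^ 3 * (X - C (-l)) ^ 1
        = (X - C l) * (X - C l) * (X - C l) * (X - C (-l))
      ring
    · exfalso
      have hb : b = 0 := by omega
      rw [ha, hb, pow_zero, mul_one] at hcp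
      exact hns l (eq_smul_of_charpoly _ hss l hcp)
  · -- the non-split case cannot occur
    exfalso
    have hm2 : m = 2 := by omega
    rw [hm2] at hcp
    have h1 := Matrix.det_eq_sign_charpoly_coeff (x : Matrix (Fin 4) (Fin 4) F)
    rw [hdet, hcp, Fintype.card_fin, coeff_zero_eq_eval_zero] at h1
    simp at h1
    have h' : (z - 1) * (z + 1) = 0 := by linear_combination -h1
    rcases mul_eq_zero.mp h' with h'' | h''
    · exact hnsq 1 (by rw [one_pow]; exact (sub_eq_zero.mp h'').symm)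
    · exact hnsq i (by rw [hG.hi]; exact (eq_neg_of_add_eq_zero_left h'').symm)

theorem back_three [Fintype F] (hG : Good i R c) (h3 : (3 : F) ≠ 0)
    (hirr : Irreducible (cyclotomic 3 F)) (hcop : (Fintype.card F - 1).Coprime 3) (t : F)
    (ht : 2 * t = 1) (x : GL (Fin 4) F) (z : F)
    (hx : ((x ^ 3 : GL (Fin 4) F) : Matrix (Fin 4) (Fin 4) F)
      = z • (1 : Matrix (Fin 4) (Fin 4) F))
    (hns : ∀ z : F, (x : Matrix (Fin 4) (Fin 4) F) ≠ z • (1 : Matrix (Fin 4) (Fin 4) F)) :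
    ∃ g ∈ Cfsg.Geo.specialLinear (Fin 4) F, g⁻¹ * x * g ∈ Cfsg.Geo.subgroupNormalizer R := by
  have hi' : i * i = -1 := by rw [← pow_two]; exact hG.hi
  have hz : z ≠ 0 := unit_smul_ne_zero (x ^ 3) z hx
  obtain ⟨μ, hμ0, hμ⟩ := exists_root 3 hcop z hz
  obtain ⟨M, hxM, hM3, hM1⟩ := split_scalar x 3 z μ hμ0 hμ hx hns
  have h3' : ((3 : ℕ) : F) ≠ 0 := by exact_mod_cast h3
  have hss : Module.End.IsSemisimple (toLin' M) :=
    Cfsg.Agent.Lib.Helper47.isSemisimple_toLin'_of_pow_eq_one M 3 h3' hM3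
  by_cases hE : M * M + M + 1 = 0
  · have hcpM := (charpoly_three M h3 hirr hM3).1 hE
    obtain ⟨m, hm, hmc, hmk⟩ := hG.target (A1au i t hi' ht) (A1a_mem_norm i t hi' ht c hG.hc)
    have hn3 : A1au i t hi' ht ^ 3 = 1 := by
      apply Units.ext
      rw [Units.val_pow_eq_pow_val]
      exact A1am_cube i t hi' ht
    have hm3 : (m : Matrix (Fin 4) (Fin 4) F) ^ 3 = 1 := by
      rw [← Units.val_pow_eq_pow_val, hmk 3 hn3, Units.val_one]
    have hmss : Module.End.IsSemisimple (toLin' (m : Matrix (Fin 4) (Fin 4) F)) :=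
      Cfsg.Agent.Lib.Helper47.isSemisimple_toLin'_of_pow_eq_one _ 3 h3' hm3
    refine conj_into4 R x m μ M hxM hss hm hmss ?_
    have h1 := hmc 1
    rw [one_smul, one_smul] at h1
    rw [hcpM, h1]
    exact ((charpoly_three (A1am i t) h3 hirr (A1am_cube i t hi' ht)).1 (A1am_E i t hi' ht)).symm
  · have hcpM := (charpoly_three M h3 hirr hM3).2 hM1 hE
    obtain ⟨m, hm, hmc, hmk⟩ := hG.target (T3u F) (T3_mem_norm i c hG.hc)
    have hn3 : T3u F ^ 3 = 1 := by
      apply Units.ext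
      rw [Units.val_pow_eq_pow_val]
      exact T3m_cube
    have hm3 : (m : Matrix (Fin 4) (Fin 4) F) ^ 3 = 1 := by
      rw [← Units.val_pow_eq_pow_val, hmk 3 hn3, Units.val_one]
    have hmss : Module.End.IsSemisimple (toLin' (m : Matrix (Fin 4) (Fin 4) F)) :=
      Cfsg.Agent.Lib.Helper47.isSemisimple_toLin'_of_pow_eq_one _ 3 h3' hm3
    refine conj_into4 R x m μ M hxM hss hm hmss ?_
    have h1 := hmc 1
    rw [one_smul, one_smul] at h1
    rw [hcpM, h1]
    refine ((charpoly_three (T3m F) h3 hirr T3m_cube).2 ?_ ?_).symm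
    · intro h
      have h11 := congrFun (congrFun h 1) 1
      rw [T3m_01] at h11
      simp at h11
    · intro h
      have h00 := congrFun (congrFun h 0) 0
      rw [T3m_E00] at h00
      simp at h00
      exact h3 h00

theorem back_five [Fintype F] (hG : Good i R c) (h5 : (5 : F) ≠ 0)
    (hirr : Irreducible (cyclotomic 5 F)) (hcop : (Fintype.card F - 1).Coprime 5) (t : F)
    (ht : 2 * t = 1) (x : GL (Fin 4) F) (z : F)
    (hx : ((x ^ 5 : GL (Fin 4) F) : Matrix (Fin 4) (Fin 4) F)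
      = z • (1 : Matrix (Fin 4) (Fin 4) F))
    (hns : ∀ z : F, (x : Matrix (Fin 4) (Fin 4) F) ≠ z • (1 : Matrix (Fin 4) (Fin 4) F)) :
    ∃ g ∈ Cfsg.Geo.specialLinear (Fin 4) F, g⁻¹ * x * g ∈ Cfsg.Geo.subgroupNormalizer R := by
  have hi' : i * i = -1 := by rw [← pow_two]; exact hG.hi
  have hz : z ≠ 0 := unit_smul_ne_zero (x ^ 5) z hx
  obtain ⟨μ, hμ0, hμ⟩ := exists_root 5 hcop z hz
  obtain ⟨M, hxM, hM5, hM1⟩ := split_scalar x 5 z μ hμ0 hμ hx hns
  have h5' : ((5 : ℕ) : F) ≠ 0 := by exact_mod_cast h5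
  have hss : Module.End.IsSemisimple (toLin' M) :=
    Cfsg.Agent.Lib.Helper47.isSemisimple_toLin'_of_pow_eq_one M 5 h5' hM5
  have hcpM := charpoly_five M h5 hirr hM5 hM1
  obtain ⟨m, hm, hmc, hmk⟩ := hG.target (Y5u i t hi' ht) (Y5_mem_norm i t hi' ht c hG.hc)
  have hn5 : Y5u i t hi' ht ^ 5 = 1 := by
    apply Units.ext
    rw [Units.val_pow_eq_pow_val]
    exact Y5m_pow i t hi' ht
  have hm5 : (m : Matrix (Fin 4) (Fin 4) F) ^ 5 = 1 := by
    rw [← Units.val_pow_eq_pow_val, hmk 5 hn5, Units.val_one]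
  have hmss : Module.End.IsSemisimple (toLin' (m : Matrix (Fin 4) (Fin 4) F)) :=
    Cfsg.Agent.Lib.Helper47.isSemisimple_toLin'_of_pow_eq_one _ 5 h5' hm5
  refine conj_into4 R x m μ M hxM hss hm hmss ?_
  have h1 := hmc 1
  rw [one_smul, one_smul] at h1
  rw [hcpM, h1]
  refine (charpoly_five (Y5m i t) h5 hirr (Y5m_pow i t hi' ht) ?_).symm
  intro h
  have h01 := congrFun (congrFun h 0) 1
  rw [Y5m_01] at h01
  simp at h01
  rw [h01, mul_zero] at ht
  exact zero_ne_one ht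

end Good

end G

end Cfsg.Agent.Lib.Helper98.Symp
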