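import Mathlib
import Cfsg.Agent.Lib.Helper98.SympG

/-!
The normaliser of `4 ∘ 2^{1+4}` in `SL_4(p)`: elements of prime order not conjugate into it.
-/

set_option autoImplicit false

namespace Cfsg.Agent.Lib.Helper98.Symp

open Matrix

section H

variable {F : Type*} [Field F]

/-- every element of order `r` of `PSL_4` is conjugate into the normaliser of `R` -/
def AllFix (R : Subgroup (GL (Fin 4) F)) (r : ℕ) : Prop :=
  ∀ x ∈ Cfsg.Geo.specialLinear (Fin 4) F,
    (∃ z : F, ((x ^ r : GL (Fin 4) F) : Matrix (Fin 4) (Fin 4) F)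
      = z • (1 : Matrix (Fin 4) (Fin 4) F)) →
    (∀ z : F, (x : Matrix (Fin 4) (Fin 4) F) ≠ z • (1 : Matrix (Fin 4) (Fin 4) F)) →
    ∃ g ∈ Cfsg.Geo.specialLinear (Fin 4) F, g⁻¹ * x * g ∈ Cfsg.Geo.subgroupNormalizer R

theorem seven_le_of_prime (r : ℕ) (hr : r.Prime) (h2 : r ≠ 2) (h3 : r ≠ 3) (h5 : r ≠ 5) :
    7 ≤ r := by
  by_contra hlt
  push Not at hlt
  interval_cases r
  · exact Nat.not_prime_zero hr
  · exact Nat.not_prime_one hr
  · exact h2 rfl
  · exact h3 rfl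
  · exact absurd hr (by norm_num)
  · exact h5 rfl
  · exact absurd hr (by norm_num)

theorem orderOf_p_three (p : ℕ) (h : p % 3 = 2) : orderOf ((p : ℕ) : ZMod 3) = 3 - 1 := by
  have e : ((p : ℕ) : ZMod 3) = ((p % 3 : ℕ) : ZMod 3) := (ZMod.natCast_mod p 3).symm
  have : Fact (Nat.Prime 2) := ⟨Nat.prime_two⟩
  rw [e, h]
  have h1 : ((2 : ℕ) : ZMod 3) ^ 2 = 1 := by decide
  have h2 : ((2 : ℕ) : ZMod 3) ≠ 1 := by decide
  exact orderOf_eq_prime h1 h2

theorem orderOf_p_five (p : ℕ) (h : p % 5 = 2 ∨ p % 5 = 3) :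
    orderOf ((p : ℕ) : ZMod 5) = 4 := by
  have e : ((p : ℕ) : ZMod 5) = ((p % 5 : ℕ) : ZMod 5) := (ZMod.natCast_mod p 5).symm
  have : Fact (Nat.Prime 2) := ⟨Nat.prime_two⟩
  rw [e]
  rcases h with h | h
  · rw [h]
    have h1 : ¬ ((2 : ℕ) : ZMod 5) ^ 2 ^ 1 = 1 := by decide
    have h2 : ((2 : ℕ) : ZMod 5) ^ 2 ^ (1 + 1) = 1 := by decide
    exact orderOf_eq_prime_pow h1 h2
  · rw [h]
    have h1 : ¬ ((3 : ℕ) : ZMod 5) ^ 2 ^ 1 = 1 := by decide
    have h2 : ((3 : ℕ) : ZMod 5) ^ 2 ^ (1 + 1) = 1 := by decide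
    exact orderOf_eq_prime_pow h1 h2

theorem mod_five_of_order (p : ℕ) (h : orderOf ((p : ℕ) : ZMod 5) = 4) :
    p % 5 ≠ 0 ∧ p % 5 ≠ 1 := by
  have e : ((p : ℕ) : ZMod 5) = ((p % 5 : ℕ) : ZMod 5) := (ZMod.natCast_mod p 5).symm
  rw [e] at h
  constructor
  · intro h0
    rw [h0] at h
    have h1 := pow_orderOf_eq_one ((0 : ℕ) : ZMod 5)
    rw [h] at h1
    exact absurd h1 (by decide)
  · intro h1
    rw [h1] at h
    simp at h

namespace Good

variable {i : F} {R : Subgroup (GL (Fin 4) F)} {c : GL (Fin 4) F}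

/-- elements of order `p` -/
theorem fwd_unip (hG : Good i R c) (p : ℕ) [Fact p.Prime] [CharP F p] (h3 : (3 : F) ≠ 0)
    (hodd : Odd p) (hall : AllFix R p) : False := by
  have hx1 : xtu F ∈ Cfsg.Geo.specialLinear (Fin 4) F :=
    (Cfsg.Agent.Lib.Helper99.mem_specialLinear_iff _).mpr xtm_det
  have hxp : xtu F ^ p = 1 := by
    apply Units.ext
    rw [Units.val_pow_eq_pow_val]
    exact xtm_pow p
  have hns : ∀ z : F, ((xtu F : GL (Fin 4) F) : Matrix (Fin 4) (Fin 4) F)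
      ≠ z • (1 : Matrix (Fin 4) (Fin 4) F) := by
    intro z h
    have h01 := congrFun (congrFun h 0) 1
    have e : ((xtu F : GL (Fin 4) F) : Matrix (Fin 4) (Fin 4) F) 0 1 = 1 := by
      show xtm F 0 1 = 1
      simp [xtm]
    rw [e] at h01
    simp at h01
  obtain ⟨g, _, hg⟩ := hall (xtu F) hx1 ⟨1, by rw [hxp, Units.val_one, one_smul]⟩ hns
  have hyp : (g⁻¹ * xtu F * g) ^ p = 1 := by rw [conj_pow'', hxp, mul_one, inv_mul_cancel]
  have hN : (((g⁻¹ * xtu F * g : GL (Fin 4) F) : Matrix (Fin 4) (Fin 4) F) - 1)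
      * (((g⁻¹ * xtu F * g : GL (Fin 4) F) : Matrix (Fin 4) (Fin 4) F) - 1) = 0 := by
    have e : ((g⁻¹ * xtu F * g : GL (Fin 4) F) : Matrix (Fin 4) (Fin 4) F) - 1
        = ((g⁻¹ : GL (Fin 4) F) : Matrix (Fin 4) (Fin 4) F) * (xtm F - 1)
          * (g : Matrix (Fin 4) (Fin 4) F) := by
      rw [Units.val_mul, Units.val_mul, Matrix.mul_sub, Matrix.sub_mul, Matrix.mul_one,
        Units.inv_mul]
      rfl
    rw [e]
    calc ((g⁻¹ : GL (Fin 4) F) : Matrix (Fin 4) (Fin 4) F) * (xtm F - 1)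
          * (g : Matrix (Fin 4) (Fin 4) F)
          * (((g⁻¹ : GL (Fin 4) F) : Matrix (Fin 4) (Fin 4) F) * (xtm F - 1)
          * (g : Matrix (Fin 4) (Fin 4) F))
        = ((g⁻¹ : GL (Fin 4) F) : Matrix (Fin 4) (Fin 4) F) * ((xtm F - 1)
          * ((g : Matrix (Fin 4) (Fin 4) F) * ((g⁻¹ : GL (Fin 4) F) : Matrix (Fin 4) (Fin 4) F))
          * (xtm F - 1)) * (g : Matrix (Fin 4) (Fin 4) F) := by
          simp only [Matrix.mul_assoc]
      _ = 0 := by
          rw [Units.mul_inv, Matrix.mul_one, xtm_nil, Matrix.mul_zero, Matrix.zero_mul]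
  obtain ⟨l, hl⟩ := hG.no_unip h3 _ hg hN p hodd hyp
  exact hns l (conj_scalar g (xtu F) l hl)

/-- primes at least seven -/
theorem fwd_large [Fintype F] (hG : Good i R c) (r : ℕ) [Fact r.Prime] (hr7 : 7 ≤ r)
    (hdvd : r ∣ Nat.card (Cfsg.Geo.specialLinear (Fin 4) F)) (hall : AllFix R r) : False := by
  obtain ⟨x₀, hx₀⟩ :=
    exists_prime_orderOf_dvd_card' (G := Cfsg.Geo.specialLinear (Fin 4) F) r hdvd
  have hx1 : (x₀ : GL (Fin 4) F) ∈ Cfsg.Geo.specialLinear (Fin 4) F := x₀.2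
  have hxr : (x₀ : GL (Fin 4) F) ^ r = 1 := by
    rw [← Subgroup.coe_pow, ← hx₀, pow_orderOf_eq_one, Subgroup.coe_one]
  have hns : ∀ z : F, ((x₀ : GL (Fin 4) F) : Matrix (Fin 4) (Fin 4) F)
      ≠ z • (1 : Matrix (Fin 4) (Fin 4) F) := by
    intro z h
    have hdet := (Cfsg.Agent.Lib.Helper99.mem_specialLinear_iff _).mp hx1
    rw [h, Matrix.det_smul, Matrix.det_one, mul_one, Fintype.card_fin] at hdet
    have h4 : (x₀ : GL (Fin 4) F) ^ 4 = 1 := by
      apply Units.ext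
      rw [Units.val_pow_eq_pow_val, h, _root_.smul_pow, one_pow, hdet, one_smul, Units.val_one]
    have ho : orderOf (x₀ : GL (Fin 4) F) = r := by rw [Subgroup.orderOf_coe, hx₀]
    have hd : orderOf (x₀ : GL (Fin 4) F) ∣ 4 := orderOf_dvd_of_pow_eq_one h4
    rw [ho] at hd
    have hle : r ≤ 4 := Nat.le_of_dvd (by norm_num) hd
    omega
  obtain ⟨g, _, hg⟩ := hall _ hx1 ⟨1, by rw [hxr, Units.val_one, one_smul]⟩ hns
  have hyr : (g⁻¹ * (x₀ : GL (Fin 4) F) * g) ^ r = 1 := by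
    rw [conj_pow'', hxr, mul_one, inv_mul_cancel]
  obtain ⟨l, hl⟩ := hG.no_large _ hg r hr7 hyr
  exact hns l (conj_scalar g _ l hl)

/-- order three when the field contains the cube roots of unity -/
theorem fwd_three (hG : Good i R c) (h3 : (3 : F) ≠ 0) (h5 : (5 : F) ≠ 0) (ω : F)
    (hω : ω * ω + ω + 1 = 0) (hall : AllFix R 3) : False := by
  have h2 := hG.h2
  have hx1 : x3u ω hω ∈ Cfsg.Geo.specialLinear (Fin 4) F :=
    (Cfsg.Agent.Lib.Helper99.mem_specialLinear_iff _).mpr (x3m_det ω hω)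
  have hx3 : x3u ω hω ^ 3 = 1 := by
    apply Units.ext
    rw [Units.val_pow_eq_pow_val]
    exact x3m_pow ω hω
  have hns : ∀ z : F, ((x3u ω hω : GL (Fin 4) F) : Matrix (Fin 4) (Fin 4) F)
      ≠ z • (1 : Matrix (Fin 4) (Fin 4) F) := by
    intro z h
    have h00 := congrFun (congrFun h 0) 0
    have h33 := congrFun (congrFun h 3) 3
    have e0 : ((x3u ω hω : GL (Fin 4) F) : Matrix (Fin 4) (Fin 4) F) 0 0 = ω := by
      show x3m ω 0 0 = ω
      simp [x3m]
    have e3 : ((x3u ω hω : GL (Fin 4) F) : Matrix (Fin 4) (Fin 4) F) 3 3 = 1 := by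
      show x3m ω 3 3 = 1
      simp [x3m]
    rw [e0] at h00
    rw [e3] at h33
    simp at h00 h33
    apply h3
    rw [h00, ← h33] at hω
    linear_combination hω
  obtain ⟨g, _, hg⟩ := hall _ hx1 ⟨1, by rw [hx3, Units.val_one, one_smul]⟩ hns
  obtain ⟨y, hy⟩ : ∃ y, y = g⁻¹ * x3u ω hω * g := ⟨_, rfl⟩
  rw [← hy] at hg
  have hy3 : y ^ 3 = 1 := by rw [hy, conj_pow'', hx3, mul_one, inv_mul_cancel]
  have hH := hG.H_of_pow y hg 3 (by decide) (by intro g'; rw [hy3, mul_one, one_mul])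
  have hcount := hG.count y hg hH
  have ht1 : (y : Matrix (Fin 4) (Fin 4) F).trace = ω + ω + ω + 1 := by
    rw [hy, conj_trace]
    exact x3m_trace ω
  have ht2 : ((y⁻¹ : GL (Fin 4) F) : Matrix (Fin 4) (Fin 4) F).trace
      = ω * ω + ω * ω + ω * ω + 1 := by
    rw [hy, conj_inv', conj_trace]
    exact x3im_trace ω
  rw [ht1, ht2] at hcount
  rcases hG.card_cases y with h | h | h | h | h
  · rw [h] at hcount
    push_cast at hcount
    have e : (2 : F) * 2 * 2 * 3 = 0 := by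
      linear_combination hcount - (36 * (ω - 1) + 12) * hω
    exact absurd e (mul_ne_zero (mul_ne_zero (mul_ne_zero h2 h2) h2) h3)
  · rw [h] at hcount
    push_cast at hcount
    have e : (2 : F) * 2 * 5 = 0 := by
      linear_combination hcount - (36 * (ω - 1) + 12) * hω
    exact absurd e (mul_ne_zero (mul_ne_zero h2 h2) h5)
  · rw [h] at hcount
    push_cast at hcount
    have e : (2 : F) * 2 * 3 = 0 := by
      linear_combination hcount - (36 * (ω - 1) + 12) * hω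
    exact absurd e (mul_ne_zero (mul_ne_zero h2 h2) h3)
  · rw [h] at hcount
    push_cast at hcount
    have e : (2 : F) * 2 = 0 := by
      linear_combination (36 * (ω - 1) + 12) * hω - hcount
    exact absurd e (mul_ne_zero h2 h2)
  · rw [h] at hcount
    push_cast at hcount
    have e : (2 : F) * 2 * 3 * 3 = 0 := by
      linear_combination (36 * (ω - 1) + 12) * hω - hcount
    exact absurd e (mul_ne_zero (mul_ne_zero (mul_ne_zero h2 h2) h3) h3)

/-- order five when the field contains `√5` -/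
theorem fwd_five (hG : Good i R c) (h3 : (3 : F) ≠ 0) (h5 : (5 : F) ≠ 0) (h11 : (11 : F) ≠ 0)
    (τ : F) (hτ : τ * τ + τ - 1 = 0) (hall : AllFix R 5) : False := by
  have h2 := hG.h2
  have hx1 : x5u τ ∈ Cfsg.Geo.specialLinear (Fin 4) F :=
    (Cfsg.Agent.Lib.Helper99.mem_specialLinear_iff _).mpr (x5m_det τ)
  have hx5 : x5u τ ^ 5 = 1 := by
    apply Units.ext
    rw [Units.val_pow_eq_pow_val]
    exact x5m_pow τ hτ
  have hns : ∀ z : F, ((x5u τ : GL (Fin 4) F) : Matrix (Fin 4) (Fin 4) F)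
      ≠ z • (1 : Matrix (Fin 4) (Fin 4) F) := by
    intro z h
    have h01 := congrFun (congrFun h 0) 1
    have e : ((x5u τ : GL (Fin 4) F) : Matrix (Fin 4) (Fin 4) F) 0 1 = -1 := by
      show x5m τ 0 1 = -1
      simp [x5m]
    rw [e] at h01
    simp at h01
  obtain ⟨g, _, hg⟩ := hall _ hx1 ⟨1, by rw [hx5, Units.val_one, one_smul]⟩ hns
  obtain ⟨y, hy⟩ : ∃ y, y = g⁻¹ * x5u τ * g := ⟨_, rfl⟩
  rw [← hy] at hg
  have hy5 : y ^ 5 = 1 := by rw [hy, conj_pow'', hx5, mul_one, inv_mul_cancel]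
  have hH := hG.H_of_pow y hg 5 (by decide) (by intro g'; rw [hy5, mul_one, one_mul])
  have hcount := hG.count y hg hH
  have ht1 : (y : Matrix (Fin 4) (Fin 4) F).trace = τ + 1 + 1 := by
    rw [hy, conj_trace]
    exact x5m_trace τ
  have ht2 : ((y⁻¹ : GL (Fin 4) F) : Matrix (Fin 4) (Fin 4) F).trace = τ + 1 + 1 := by
    rw [hy, conj_inv', conj_trace]
    exact x5im_trace τ
  rw [ht1, ht2] at hcount
  have h16 : (2 : F) * 2 * 2 * 2 ≠ 0 := mul_ne_zero (mul_ne_zero (mul_ne_zero h2 h2) h2) h2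
  rcases hG.card_cases y with h | h | h | h | h
  · rw [h] at hcount
    push_cast at hcount
    have e : (2 : F) * 2 * 2 * 2 * 5 = 0 := by
      linear_combination (-(144 + 4 * (12 * τ - 4))) * hτ + (12 * τ - 4) * hcount
    exact absurd e (mul_ne_zero h16 h5)
  · rw [h] at hcount
    push_cast at hcount
    have e : (2 : F) * 2 * 2 * 2 * 3 * 3 = 0 := by
      linear_combination (-(144 + 4 * (12 * τ))) * hτ + (12 * τ) * hcount
    exact absurd e (mul_ne_zero (mul_ne_zero h16 h3) h3)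
  · rw [h] at hcount
    push_cast at hcount
    have e : (2 : F) * 2 * 2 * 2 * 11 = 0 := by
      linear_combination (-(144 + 4 * (12 * τ + 8))) * hτ + (12 * τ + 8) * hcount
    exact absurd e (mul_ne_zero h16 h11)
  · rw [h] at hcount
    push_cast at hcount
    have e : (2 : F) * 2 * 2 * 2 * 3 * 3 = 0 := by
      linear_combination (144 + 4 * (12 * τ + 24)) * hτ - (12 * τ + 24) * hcount
    exact absurd e (mul_ne_zero (mul_ne_zero h16 h3) h3)
  · obtain ⟨l, hl⟩ := hG.scalar_of_card y h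
    rw [hy] at hl
    exact hns l (conj_scalar g _ l hl)

end Good

end H

end Cfsg.Agent.Lib.Helper98.Symp
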