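import Mathlib
import Cfsg.Prelude.Def_GeometricClasses
import Cfsg.Agent.Lib.Helper98.SympM2
import Cfsg.Agent.Lib.Helper68.SMQD
import Cfsg.Agent.Lib.Helper57.SMDN
import Cfsg.Agent.Lib.Helper16.SMPAIRS

/-!
The group `R = 2^{1+4}_-`: four pairwise anticommuting involutions generating `R`.
-/

set_option autoImplicit false

namespace Cfsg.Agent.Lib.Helper98.SM

open Matrix

section M3

variable {F : Type*} [Field F] {R : Subgroup (GL (Fin 2 ⊕ Fin 2) F)}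

theorem gens_core (q₁ q₂ d₁ d₂ : GL (Fin 2 ⊕ Fin 2) F) (hq1 : q₁ ∈ R) (hq2 : q₂ ∈ R)
    (hd1 : d₁ ∈ R) (hd2 : d₂ ∈ R)
    (hq11 : q₁ * q₁ = -1) (hq22 : q₂ * q₂ = -1) (hq12 : q₁ * q₂ = -(q₂ * q₁))
    (hd11 : d₁ * d₁ = 1) (hd22 : d₂ * d₂ = 1) (hd12 : d₁ * d₂ = -(d₂ * d₁))
    (h11 : d₁ * q₁ = q₁ * d₁) (h12 : d₁ * q₂ = q₂ * d₁) (h21 : d₂ * q₁ = q₁ * d₂)
    (h22 : d₂ * q₂ = q₂ * d₂)
    (hgen : ∀ K : Subgroup (GL (Fin 2 ⊕ Fin 2) F), q₁ ∈ K → q₂ ∈ K → d₁ ∈ K → d₂ ∈ K →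
      (-1 : GL (Fin 2 ⊕ Fin 2) F) ∈ K → R ≤ K) :
    ∃ u₁ u₂ u₃ u₄ : GL (Fin 2 ⊕ Fin 2) F, u₁ ∈ R ∧ u₂ ∈ R ∧ u₃ ∈ R ∧ u₄ ∈ R ∧
      u₁ * u₁ = 1 ∧ u₂ * u₂ = 1 ∧ u₃ * u₃ = 1 ∧ u₄ * u₄ = 1 ∧
      u₁ * u₂ = -(u₂ * u₁) ∧ u₁ * u₃ = -(u₃ * u₁) ∧ u₁ * u₄ = -(u₄ * u₁) ∧
      u₂ * u₃ = -(u₃ * u₂) ∧ u₂ * u₄ = -(u₄ * u₂) ∧ u₃ * u₄ = -(u₄ * u₃) ∧
      ∀ K : Subgroup (GL (Fin 2 ⊕ Fin 2) F), u₁ ∈ K → u₂ ∈ K → u₃ ∈ K → u₄ ∈ K →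
        (-1 : GL (Fin 2 ⊕ Fin 2) F) ∈ K → R ≤ K := by
  obtain ⟨e1, e2, e3, e4, e5, e6, e7⟩ :=
    gens_of_QD q₁ q₂ d₁ d₂ hq11 hq22 hq12 hd11 hd22 hd12 h11 h12 h21 h22
  refine ⟨d₁, d₂, q₁ * (d₁ * d₂), q₂ * (d₁ * d₂), hd1, hd2, R.mul_mem hq1 (R.mul_mem hd1 hd2),
    R.mul_mem hq2 (R.mul_mem hd1 hd2), hd11, hd22, e1, e2, hd12, e3, e4, e5, e6, e7, ?_⟩
  intro K k1 k2 k3 k4 kn
  have hdd : d₁ * d₂ ∈ K := K.mul_mem k1 k2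
  have hq1K : q₁ ∈ K := by
    have e : q₁ = (q₁ * (d₁ * d₂)) * (d₁ * d₂)⁻¹ := by group
    rw [e]
    exact K.mul_mem k3 (K.inv_mem hdd)
  have hq2K : q₂ ∈ K := by
    have e : q₂ = (q₂ * (d₁ * d₂)) * (d₁ * d₂)⁻¹ := by group
    rw [e]
    exact K.mul_mem k4 (K.inv_mem hdd)
  exact hgen K hq1K hq2K k1 k2 kn

/-- four pairwise anticommuting involutions generating `R` -/
theorem exists_gens (hG : GoodM R) (hK : NoKlein R) :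
    ∃ u₁ u₂ u₃ u₄ : GL (Fin 2 ⊕ Fin 2) F, u₁ ∈ R ∧ u₂ ∈ R ∧ u₃ ∈ R ∧ u₄ ∈ R ∧
      u₁ * u₁ = 1 ∧ u₂ * u₂ = 1 ∧ u₃ * u₃ = 1 ∧ u₄ * u₄ = 1 ∧
      u₁ * u₂ = -(u₂ * u₁) ∧ u₁ * u₃ = -(u₃ * u₁) ∧ u₁ * u₄ = -(u₄ * u₁) ∧
      u₂ * u₃ = -(u₃ * u₂) ∧ u₂ * u₄ = -(u₄ * u₂) ∧ u₃ * u₄ = -(u₄ * u₃) ∧
      ∀ K : Subgroup (GL (Fin 2 ⊕ Fin 2) F), u₁ ∈ K → u₂ ∈ K → u₃ ∈ K → u₄ ∈ K →
        (-1 : GL (Fin 2 ⊕ Fin 2) F) ∈ K → R ≤ K := by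
  have h2 := hG.h2
  obtain ⟨g₁, h₁, g₂, h₂, hg₁, hh₁, hg₂, hh₂, a1, a2, c1, c2, c3, c4, hgen⟩ := exists_pairs hG
  by_cases hQ1 : g₁ * g₁ = -1 ∧ h₁ * h₁ = -1
  · by_cases hQ2 : g₂ * g₂ = -1 ∧ h₂ * h₂ = -1
    · -- two quaternion pairs: a Klein four-group
      exfalso
      obtain ⟨s1, s2⟩ := hQ1
      obtain ⟨s3, s4⟩ := hQ2
      have r1 := anti_symm a1
      have r6 := anti_symm a2
      have huu : (g₁ * g₂) * (g₁ * g₂) = 1 := by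
        simp only [mul_assoc, r1, assoc_anti r1, c1, assoc_comm c1, c2, assoc_comm c2, c3,
          assoc_comm c3, c4, assoc_comm c4, r6, assoc_anti r6, s1, assoc_sq_neg s1, s2,
          assoc_sq_neg s2, s3, assoc_sq_neg s3, s4, assoc_sq_neg s4, neg_mul, mul_neg, neg_neg,
          mul_one, one_mul]
      have hvv : (h₁ * h₂) * (h₁ * h₂) = 1 := by
        simp only [mul_assoc, r1, assoc_anti r1, c1, assoc_comm c1, c2, assoc_comm c2, c3,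
          assoc_comm c3, c4, assoc_comm c4, r6, assoc_anti r6, s1, assoc_sq_neg s1, s2,
          assoc_sq_neg s2, s3, assoc_sq_neg s3, s4, assoc_sq_neg s4, neg_mul, mul_neg, neg_neg,
          mul_one, one_mul]
      have huv : (g₁ * g₂) * (h₁ * h₂) = (h₁ * h₂) * (g₁ * g₂) := by
        simp only [mul_assoc, r1, assoc_anti r1, c1, assoc_comm c1, c2, assoc_comm c2, c3,
          assoc_comm c3, c4, assoc_comm c4, r6, assoc_anti r6, s1, assoc_sq_neg s1, s2,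
          assoc_sq_neg s2, s3, assoc_sq_neg s3, s4, assoc_sq_neg s4, neg_mul, mul_neg, neg_neg,
          mul_one, one_mul]
      have hua : (g₁ * g₂) * h₁ = -(h₁ * (g₁ * g₂)) := by
        simp only [mul_assoc, r1, assoc_anti r1, c1, assoc_comm c1, c2, assoc_comm c2, c3,
          assoc_comm c3, c4, assoc_comm c4, r6, assoc_anti r6, s1, assoc_sq_neg s1, s2,
          assoc_sq_neg s2, s3, assoc_sq_neg s3, s4, assoc_sq_neg s4, neg_mul, mul_neg, neg_neg,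
          mul_one, one_mul]
      have hva : (h₁ * h₂) * g₁ = -(g₁ * (h₁ * h₂)) := by
        simp only [mul_assoc, r1, assoc_anti r1, c1, assoc_comm c1, c2, assoc_comm c2, c3,
          assoc_comm c3, c4, assoc_comm c4, r6, assoc_anti r6, s1, assoc_sq_neg s1, s2,
          assoc_sq_neg s2, s3, assoc_sq_neg s3, s4, assoc_sq_neg s4, neg_mul, mul_neg, neg_neg,
          mul_one, one_mul]
      have huc : (g₁ * g₂) * g₁ = g₁ * (g₁ * g₂) := by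
        simp only [mul_assoc, r1, assoc_anti r1, c1, assoc_comm c1, c2, assoc_comm c2, c3,
          assoc_comm c3, c4, assoc_comm c4, r6, assoc_anti r6, s1, assoc_sq_neg s1, s2,
          assoc_sq_neg s2, s3, assoc_sq_neg s3, s4, assoc_sq_neg s4, neg_mul, mul_neg, neg_neg,
          mul_one, one_mul]
      obtain ⟨hu1, hu2⟩ := not_central_of_anti h2 _ _ hua
      obtain ⟨hv1, hv2⟩ := not_central_of_anti h2 _ _ hva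
      obtain ⟨hn1, hn2⟩ := ne_of_comm_anti h2 _ _ _ huc hva
      exact hK (g₁ * g₂) (h₁ * h₂) (R.mul_mem hg₁ hg₂) (R.mul_mem hh₁ hh₂) huu hvv huv hu1 hu2
        hv1 hv2 (fun h => hn1 h.symm) (fun h => hn2 (by rw [h, neg_neg]))
    · -- quaternion pair (g₁, h₁), dihedral pair (g₂, h₂)
      obtain ⟨g₂', h₂', hg₂', hh₂', s3, s4, a2', hcomm2, hK2⟩ :=
        dnorm R hG.hsq g₂ h₂ hg₂ hh₂ a2 hQ2
      obtain ⟨k1, k2⟩ := hcomm2 g₁ c1.symm c3.symm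
      obtain ⟨k3, k4⟩ := hcomm2 h₁ c2.symm c4.symm
      refine gens_core g₁ h₁ g₂' h₂' hg₁ hh₁ hg₂' hh₂' hQ1.1 hQ1.2 a1 s3 s4 a2' k1.symm k3.symm
        k2.symm k4.symm ?_
      intro K q1 q2 d1 d2 kn
      obtain ⟨m1, m2⟩ := hK2 K d1 d2
      exact hgen K q1 q2 m1 m2 kn
  · by_cases hQ2 : g₂ * g₂ = -1 ∧ h₂ * h₂ = -1
    · -- dihedral pair (g₁, h₁), quaternion pair (g₂, h₂)
      obtain ⟨g₁', h₁', hg₁', hh₁', s1, s2, a1', hcomm1, hK1⟩ :=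
        dnorm R hG.hsq g₁ h₁ hg₁ hh₁ a1 hQ1
      obtain ⟨k1, k2⟩ := hcomm1 g₂ c1 c2
      obtain ⟨k3, k4⟩ := hcomm1 h₂ c3 c4
      refine gens_core g₂ h₂ g₁' h₁' hg₂ hh₂ hg₁' hh₁' hQ2.1 hQ2.2 a2 s1 s2 a1' k1.symm k3.symm
        k2.symm k4.symm ?_
      intro K q1 q2 d1 d2 kn
      obtain ⟨m1, m2⟩ := hK1 K d1 d2
      exact hgen K m1 m2 q1 q2 kn
    · -- two dihedral pairs: a Klein four-group
      exfalso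
      obtain ⟨g₁', h₁', hg₁', hh₁', s1, s2, a1', hcomm1, hK1⟩ :=
        dnorm R hG.hsq g₁ h₁ hg₁ hh₁ a1 hQ1
      obtain ⟨g₂', h₂', hg₂', hh₂', s3, s4, a2', hcomm2, hK2⟩ :=
        dnorm R hG.hsq g₂ h₂ hg₂ hh₂ a2 hQ2
      obtain ⟨k1, k2⟩ := hcomm1 g₂ c1 c2
      obtain ⟨k3, k4⟩ := hcomm1 h₂ c3 c4
      -- g₁' and h₁' commute with g₂, h₂, hence with g₂', h₂'
      obtain ⟨j1, j2⟩ := hcomm2 g₁' k1.symm k3.symm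
      obtain ⟨j3, j4⟩ := hcomm2 h₁' k2.symm k4.symm
      obtain ⟨hu1, hu2⟩ := not_central_of_anti h2 _ _ a1'
      obtain ⟨hv1, hv2⟩ := not_central_of_anti h2 _ _ a2'
      obtain ⟨hn1, hn2⟩ := ne_of_comm_anti h2 g₂' g₁' h₁' j3.symm a1'
      exact hK g₁' g₂' hg₁' hg₂' s1 s3 j1 hu1 hu2 hv1 hv2 hn1 hn2

end M3

end Cfsg.Agent.Lib.Helper98.SM
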