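import Mathlib
import Cfsg.Agent.Lib.Helper98.SympH

/-!
Further general facts on the normaliser of `4 ∘ 2^{1+4}` in `GL_4(F)`: transvections, congruences
for the centraliser orders, and the construction of the standing hypotheses from their parts.
-/

set_option autoImplicit false

namespace Cfsg.Agent.Lib.Helper98.Symp

open Matrix Polynomial

section U1

variable {F : Type*} [Field F]

namespace Good

variable {i : F} {R : Subgroup (GL (Fin 4) F)} {c : GL (Fin 4) F}

theorem card_three (hG : Good i R c) (y : GL (Fin 4) F)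
    (hy : y ∈ Subgroup.normalizer (R : Set (GL (Fin 4) F))) (hy3 : y ^ 3 = 1) :
    Nat.card (R ⊓ Subgroup.centralizer {y} : Subgroup (GL (Fin 4) F)) = 4 ∨
    Nat.card (R ⊓ Subgroup.centralizer {y} : Subgroup (GL (Fin 4) F)) = 16 ∨
    Nat.card (R ⊓ Subgroup.centralizer {y} : Subgroup (GL (Fin 4) F)) = 64 := by
  have : Fact (Nat.Prime 3) := ⟨Nat.prime_three⟩
  have hRfin : Finite R := Nat.finite_of_card_ne_zero (by rw [hG.hcard]; norm_num)
  have hmod := Cfsg.Agent.Lib.Helper99.card_modEq_card_centralizer R y hy 3 hy3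
  rw [hG.hcard] at hmod
  rcases hG.card_cases y with h | h | h | h | h
  · exact Or.inl h
  · rw [h] at hmod
    exact absurd hmod (by decide)
  · exact Or.inr (Or.inl h)
  · rw [h] at hmod
    exact absurd hmod (by decide)
  · exact Or.inr (Or.inr h)

theorem card_five (hG : Good i R c) (y : GL (Fin 4) F)
    (hy : y ∈ Subgroup.normalizer (R : Set (GL (Fin 4) F))) (hy5 : y ^ 5 = 1) :
    Nat.card (R ⊓ Subgroup.centralizer {y} : Subgroup (GL (Fin 4) F)) = 4 ∨
    Nat.card (R ⊓ Subgroup.centralizer {y} : Subgroup (GL (Fin 4) F)) = 64 := by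
  have : Fact (Nat.Prime 5) := ⟨by norm_num⟩
  have hRfin : Finite R := Nat.finite_of_card_ne_zero (by rw [hG.hcard]; norm_num)
  have hmod := Cfsg.Agent.Lib.Helper99.card_modEq_card_centralizer R y hy 5 hy5
  rw [hG.hcard] at hmod
  rcases hG.card_cases y with h | h | h | h | h
  · exact Or.inl h
  · rw [h] at hmod
    exact absurd hmod (by decide)
  · rw [h] at hmod
    exact absurd hmod (by decide)
  · rw [h] at hmod
    exact absurd hmod (by decide)
  · exact Or.inr h

/-- a transvection of odd prime order in the normaliser is trivial -/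
theorem no_transv (hG : Good i R c) (y : GL (Fin 4) F)
    (hy : y ∈ Subgroup.normalizer (R : Set (GL (Fin 4) F)))
    (hN : ((y : Matrix (Fin 4) (Fin 4) F) - 1) * ((y : Matrix (Fin 4) (Fin 4) F) - 1) = 0)
    (hrk : ∀ M : Matrix (Fin 4) (Fin 4) F,
      ((y : Matrix (Fin 4) (Fin 4) F) - 1) * M * ((y : Matrix (Fin 4) (Fin 4) F) - 1)
        = (M * ((y : Matrix (Fin 4) (Fin 4) F) - 1)).trace • ((y : Matrix (Fin 4) (Fin 4) F) - 1))
    (p : ℕ) (hp : Odd p) (hyp : y ^ p = 1) :
    ∃ l : F, (y : Matrix (Fin 4) (Fin 4) F) = l • (1 : Matrix (Fin 4) (Fin 4) F) := by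
  have h2 := hG.h2
  obtain ⟨N, hNdef⟩ : ∃ N : Matrix (Fin 4) (Fin 4) F, N = (y : Matrix (Fin 4) (Fin 4) F) - 1 :=
    ⟨_, rfl⟩
  rw [← hNdef] at hN hrk
  have hyN : (y : Matrix (Fin 4) (Fin 4) F) = 1 + N := by rw [hNdef]; abel
  have hyinv : ((y⁻¹ : GL (Fin 4) F) : Matrix (Fin 4) (Fin 4) F) = 1 - N := by
    have h1 : (y : Matrix (Fin 4) (Fin 4) F) * (1 - N) = 1 := by
      rw [hyN]
      have e : (1 + N) * (1 - N) = 1 - N * N := by noncomm_ring
      rw [e, hN, sub_zero]
    calc ((y⁻¹ : GL (Fin 4) F) : Matrix (Fin 4) (Fin 4) F)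
        = ((y⁻¹ : GL (Fin 4) F) : Matrix (Fin 4) (Fin 4) F)
          * ((y : Matrix (Fin 4) (Fin 4) F) * (1 - N)) := by rw [h1, Matrix.mul_one]
      _ = 1 - N := by rw [← Matrix.mul_assoc, Units.inv_mul, Matrix.one_mul]
  have hcen : ∀ g : GL (Fin 4) F, g * y ^ p = y ^ p * g := by
    intro g; rw [hyp, mul_one, one_mul]
  have hH1 := hG.H_of_pow y hy p hp hcen
  have key : ∀ ρ ∈ R, ρ * y = y * ρ := by
    intro ρ hρ
    by_contra hnc
    obtain ⟨A, hA⟩ : ∃ A : Matrix (Fin 4) (Fin 4) F, A = (ρ : Matrix (Fin 4) (Fin 4) F) * N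
        * ((ρ⁻¹ : GL (Fin 4) F) : Matrix (Fin 4) (Fin 4) F) := ⟨_, rfl⟩
    obtain ⟨γ, hγ⟩ : ∃ γ : F, γ = (A * N).trace := ⟨_, rfl⟩
    have hAA : A * A = 0 := by
      rw [hA]
      calc (ρ : Matrix (Fin 4) (Fin 4) F) * N * ((ρ⁻¹ : GL (Fin 4) F) : Matrix (Fin 4) (Fin 4) F)
            * ((ρ : Matrix (Fin 4) (Fin 4) F) * N
              * ((ρ⁻¹ : GL (Fin 4) F) : Matrix (Fin 4) (Fin 4) F))
          = (ρ : Matrix (Fin 4) (Fin 4) F) * (N * (((ρ⁻¹ : GL (Fin 4) F) : Matrix (Fin 4) (Fin 4) F)
              * (ρ : Matrix (Fin 4) (Fin 4) F)) * N)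
              * ((ρ⁻¹ : GL (Fin 4) F) : Matrix (Fin 4) (Fin 4) F) := by
            simp only [Matrix.mul_assoc]
        _ = 0 := by rw [Units.inv_mul, Matrix.mul_one, hN, Matrix.mul_zero, Matrix.zero_mul]
    have htrA : A.trace = N.trace := by rw [hA]; exact Matrix.trace_units_conj ρ N
    have hNAN : N * A * N = γ • N := by rw [hrk A, hγ]
    have hANA : A * N * A = γ • A := by
      have e : A * N * A = (ρ : Matrix (Fin 4) (Fin 4) F)
          * (N * (((ρ⁻¹ : GL (Fin 4) F) : Matrix (Fin 4) (Fin 4) F) * N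
            * (ρ : Matrix (Fin 4) (Fin 4) F)) * N)
          * ((ρ⁻¹ : GL (Fin 4) F) : Matrix (Fin 4) (Fin 4) F) := by
        rw [hA]
        simp only [Matrix.mul_assoc]
      have htr : (((ρ⁻¹ : GL (Fin 4) F) : Matrix (Fin 4) (Fin 4) F) * N
          * (ρ : Matrix (Fin 4) (Fin 4) F) * N).trace = γ := by
        rw [hγ, hA]
        calc (((ρ⁻¹ : GL (Fin 4) F) : Matrix (Fin 4) (Fin 4) F) * N
              * (ρ : Matrix (Fin 4) (Fin 4) F) * N).trace
            = (((ρ⁻¹ : GL (Fin 4) F) : Matrix (Fin 4) (Fin 4) F)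
              * (N * (ρ : Matrix (Fin 4) (Fin 4) F) * N)).trace := by
              simp only [Matrix.mul_assoc]
          _ = (N * (ρ : Matrix (Fin 4) (Fin 4) F) * N
              * ((ρ⁻¹ : GL (Fin 4) F) : Matrix (Fin 4) (Fin 4) F)).trace :=
              Matrix.trace_mul_comm _ _
          _ = (N * ((ρ : Matrix (Fin 4) (Fin 4) F) * N
              * ((ρ⁻¹ : GL (Fin 4) F) : Matrix (Fin 4) (Fin 4) F))).trace := by
              simp only [Matrix.mul_assoc]
          _ = ((ρ : Matrix (Fin 4) (Fin 4) F) * N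
              * ((ρ⁻¹ : GL (Fin 4) F) : Matrix (Fin 4) (Fin 4) F) * N).trace :=
              Matrix.trace_mul_comm _ _
      rw [e, hrk, htr, Matrix.mul_smul, Matrix.smul_mul, ← hA]
    obtain ⟨κ, hκdef⟩ : ∃ κ : GL (Fin 4) F, κ = ρ * y * ρ⁻¹ * y⁻¹ := ⟨_, rfl⟩
    have hκ : (κ : Matrix (Fin 4) (Fin 4) F) = 1 + A - N - A * N := by
      rw [hκdef, Units.val_mul, Units.val_mul, Units.val_mul, hyN, hyinv,
        comm_expand _ _ N N (Units.mul_inv ρ), ← hA]
      abel
    have hκR : κ ∈ R := by
      have e : κ = ρ * (y * ρ⁻¹ * y⁻¹) := by rw [hκdef]; group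
      rw [e]
      exact R.mul_mem hρ ((Subgroup.mem_set_normalizer_iff.mp hy _).mp (R.inv_mem hρ))
    have hex : ∃ σ ∈ R, κ * σ ≠ σ * κ := by
      by_contra hcon
      push Not at hcon
      rw [hκdef] at hcon
      exact hnc (hH1 ρ hρ hcon)
    obtain ⟨σ, hσ, hne⟩ := hex
    have htr0 := hG.trace_zero κ hκR σ hσ hne
    have hγ4 : γ = 4 := by
      rw [hκ, Matrix.trace_sub, Matrix.trace_sub, Matrix.trace_add, htrA, ← hγ,
        Matrix.trace_one] at htr0
      simp only [Fintype.card_fin, Nat.cast_ofNat] at htr0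
      linear_combination -htr0
    have hκκ : (κ : Matrix (Fin 4) (Fin 4) F) * (κ : Matrix (Fin 4) (Fin 4) F)
        = 1 + (A + A) - (N + N) - (A * N + A * N)
          + (A * A - A * N - A * A * N - N * A + N * N + N * A * N - A * N * A + A * (N * N)
            + A * (N * A * N)) := by
      rw [hκ]
      noncomm_ring
    rw [hAA, hN, hNAN, hANA, Matrix.zero_mul, Matrix.mul_zero, Matrix.mul_smul, hγ4] at hκκ
    have hNN4 : ∀ B : Matrix (Fin 4) (Fin 4) F, (4 : F) • B = B + B + B + B := by
      intro B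
      rw [show (4 : F) = 1 + 1 + 1 + 1 by norm_num, add_smul, add_smul, add_smul, one_smul]
    rw [hNN4, hNN4, hNN4] at hκκ
    rcases hG.hsq κ hκR with hsq | hsq
    · have h1 := congrArg Units.val hsq
      rw [Units.val_mul, Units.val_one, hκκ] at h1
      -- A N - N A = 2 A - 2 N
      have hrel : A * N - N * A = (A + A) - (N + N) := by
        have h5 : (1 : Matrix (Fin 4) (Fin 4) F) + (A * N - N * A - ((A + A) - (N + N))) = 1 := by
          refine Eq.trans ?_ h1
          abel
        have h6 := add_eq_left.mp h5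
        exact sub_eq_zero.mp h6
      -- multiply by N on the left
      have hNA : N * A + N * A = N + N + N + N := by
        have h5 := congrArg (fun B => N * B) hrel
        simp only [Matrix.mul_sub, Matrix.mul_add] at h5
        rw [← Matrix.mul_assoc, ← Matrix.mul_assoc, hNAN, hN, Matrix.zero_mul, hγ4, hNN4] at h5
        simp only [sub_zero, add_zero] at h5
        exact h5.symm
      -- multiply by A on the right
      have h7 := congrArg (fun B => B * A) hNA
      simp only [Matrix.add_mul] at h7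
      rw [Matrix.mul_assoc, hAA, Matrix.mul_zero, add_zero] at h7
      -- 0 = 4 N A = 2 (N A + N A) = 2 * 4 N
      have h8 : (8 : F) • N = 0 := by
        have e8 : (8 : F) • N = (N + N + N + N) + (N + N + N + N) := by
          rw [show (8 : F) = 1 + 1 + 1 + 1 + 1 + 1 + 1 + 1 by norm_num]
          simp only [add_smul, one_smul]
          abel
        rw [e8, ← hNA]
        have e9 : N * A + N * A + (N * A + N * A) = (N * A + N * A + N * A + N * A) := by abel
        rw [e9, ← h7]
      have h8' : (8 : F) ≠ 0 := by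
        have e : (8 : F) = 2 * 2 * 2 := by norm_num
        rw [e]
        exact mul_ne_zero (mul_ne_zero h2 h2) h2
      have hN0 : N = 0 := (smul_eq_zero.mp h8).resolve_left h8'
      apply hnc
      apply Units.ext
      rw [Units.val_mul, Units.val_mul, hyN, hN0, add_zero, Matrix.mul_one, Matrix.one_mul]
    · have h1 := congrArg Units.val hsq
      rw [Units.val_mul, Units.val_neg, Units.val_one, hκκ] at h1
      have h3 := congrArg Matrix.trace h1
      simp only [Matrix.trace_add, Matrix.trace_sub, Matrix.trace_neg, Matrix.trace_one,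
        Matrix.trace_zero, htrA, Fintype.card_fin, Nat.cast_ofNat] at h3
      rw [Matrix.trace_mul_comm N A, ← hγ, hγ4] at h3
      have h8 : (2 : F) * 2 * 2 = 0 := by linear_combination h3
      exact absurd h8 (mul_ne_zero (mul_ne_zero h2 h2) h2)
  apply hG.habs
  intro g hg
  rw [← Units.val_mul, ← Units.val_mul, key g hg]

end Good

/-- The standing hypotheses from their parts. -/
theorem good_of_parts (h2 : (2 : F) ≠ 0) (i : F) (hi : i ^ 2 = -1)
    (R : Subgroup (GL (Fin 4) F)) (hRs : Cfsg.Geo.IsSymplecticTypeGroup 2 R)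
    (hRi : Cfsg.Geo.ActsAbsolutelyIrreducibly (Cfsg.Geo.matrixSet R))
    (hR6 : Nat.card R = 2 ^ 6) (hcen4 : Nat.card (Subgroup.center R) = 4) :
    ∃ (j : F) (c : GL (Fin 4) F), Good j R c := by
  classical
  have hRfin : Finite R := Nat.finite_of_card_ne_zero (by rw [hR6]; norm_num)
  have habs : ∀ M : Matrix (Fin 4) (Fin 4) F,
      (∀ g ∈ R, M * (g : Matrix (Fin 4) (Fin 4) F) = (g : Matrix (Fin 4) (Fin 4) F) * M) →
      ∃ l : F, M = l • (1 : Matrix (Fin 4) (Fin 4) F) := by
    intro M hM
    apply hRi.2 M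
    rintro s ⟨g, hg, rfl⟩
    exact hM g hg
  have hexp : ∀ g : R, g ^ 4 = 1 := by
    intro g
    have h4 : Monoid.exponent R = 4 := by
      rw [hRs.exponent_eq]
      rfl
    have h5 := Monoid.pow_exponent_eq_one g
    rwa [h4] at h5
  obtain ⟨z, hzc, hz2, hzsq⟩ :=
    sq_central_of_symplectic hexp hRs.cyclic_of_characteristic
  obtain ⟨l, hl⟩ := habs (((z : R) : GL (Fin 4) F) : Matrix (Fin 4) (Fin 4) F) (by
    intro g hg
    have h1 := hzc ⟨g, hg⟩
    have h2 := congrArg (fun a : R => ((a : GL (Fin 4) F) : Matrix (Fin 4) (Fin 4) F)) h1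
    simp only [Subgroup.coe_mul, Units.val_mul] at h2
    exact h2.symm)
  have hl2 : l * l = 1 := by
    have h3 := congrArg (fun a : R => ((a : GL (Fin 4) F) : Matrix (Fin 4) (Fin 4) F)) hz2
    simp only [Subgroup.coe_pow, Units.val_pow_eq_pow_val, Subgroup.coe_one, Units.val_one] at h3
    rw [hl, pow_two, Matrix.smul_mul, Matrix.one_mul, smul_smul] at h3
    have h00 := congrFun (congrFun h3 0) 0
    simpa using h00
  have hlcases : l = 1 ∨ l = -1 := by
    have h' : (l - 1) * (l + 1) = 0 := by linear_combination hl2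
    rcases mul_eq_zero.mp h' with h'' | h''
    · left; exact sub_eq_zero.mp h''
    · right; exact eq_neg_of_add_eq_zero_left h''
  have hsq : ∀ g ∈ R, g * g = 1 ∨ g * g = -1 := by
    intro g hg
    rcases hzsq ⟨g, hg⟩ with h | h
    · left
      have h1 := congrArg (fun a : R => (a : GL (Fin 4) F)) h
      simpa [pow_two] using h1
    · have h1 : g * g = ((z : R) : GL (Fin 4) F) := by
        rw [← h]
        simp [pow_two]
      rcases hlcases with hl1 | hl1
      · left
        rw [h1]
        apply Units.ext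
        rw [hl, hl1, one_smul, Units.val_one]
      · right
        rw [h1]
        apply Units.ext
        rw [hl, hl1, neg_smul, one_smul, Units.val_neg, Units.val_one]
  have hcen : ∃ c ∈ R, ∃ j : F, j ^ 2 = -1 ∧
      (c : Matrix (Fin 4) (Fin 4) F) = j • (1 : Matrix (Fin 4) (Fin 4) F) := by
    by_contra hcon
    push Not at hcon
    have hpm : ∀ g : Subgroup.center R,
        (((g : R) : GL (Fin 4) F) : Matrix (Fin 4) (Fin 4) F) = 1 ∨
        (((g : R) : GL (Fin 4) F) : Matrix (Fin 4) (Fin 4) F) = -1 := by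
      intro g
      have hgc := Subgroup.mem_center_iff.mp g.2
      obtain ⟨l, hl⟩ := habs (((g : R) : GL (Fin 4) F) : Matrix (Fin 4) (Fin 4) F) (by
        intro h hh
        have h1 := hgc ⟨h, hh⟩
        have h2 := congrArg (fun a : R => ((a : GL (Fin 4) F) : Matrix (Fin 4) (Fin 4) F)) h1
        simp only [Subgroup.coe_mul, Units.val_mul] at h2
        exact h2.symm)
      have hg4 := hexp (g : R)
      have hl4 : l ^ 4 = 1 := by
        have h3 := congrArg (fun a : R => ((a : GL (Fin 4) F) : Matrix (Fin 4) (Fin 4) F)) hg4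
        simp only [Subgroup.coe_pow, Units.val_pow_eq_pow_val, Subgroup.coe_one,
          Units.val_one] at h3
        rw [hl, _root_.smul_pow, one_pow] at h3
        have h00 := congrFun (congrFun h3 0) 0
        simpa using h00
      have hfac : (l ^ 2 - 1) * (l ^ 2 + 1) = 0 := by linear_combination hl4
      rcases mul_eq_zero.mp hfac with h | h
      · have h' : (l - 1) * (l + 1) = 0 := by linear_combination h
        rcases mul_eq_zero.mp h' with h'' | h''
        · left
          rw [hl, sub_eq_zero.mp h'', one_smul]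
        · right
          rw [hl, eq_neg_of_add_eq_zero_left h'', neg_smul, one_smul]
      · exfalso
        exact hcon (g : R) (g : R).2 l (by linear_combination h) hl
    have hinj : Function.Injective (fun g : Subgroup.center R =>
        decide ((((g : R) : GL (Fin 4) F) : Matrix (Fin 4) (Fin 4) F) = 1)) := by
      intro a b hab
      simp only [decide_eq_decide] at hab
      apply Subtype.ext
      apply Subtype.ext
      apply Units.ext
      rcases hpm a with ha | ha
      · rw [ha, hab.mp ha]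
      · rcases hpm b with hb | hb
        · rw [hb, hab.mpr hb]
        · rw [ha, hb]
    have hle := Nat.card_le_card_of_injective _ hinj
    rw [hcen4, Nat.card_eq_fintype_card, Fintype.card_bool] at hle
    omega
  obtain ⟨c, hcR, j, hj, hcj⟩ := hcen
  exact ⟨j, c, ⟨h2, hj, hsq, hcR, hcj, habs, by rw [hR6]; norm_num⟩⟩

/-- The characteristic polynomial of a matrix of order three from its shape. -/
theorem three_of_form (M : Matrix (Fin 4) (Fin 4) F) (h3 : (3 : F) ≠ 0) (hM : M ^ 3 = 1)
    (a b : ℕ) (hc : M.charpoly = (X - 1) ^ a * (cyclotomic 3 F) ^ b) (hab : a + 2 * b = 4) :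
    (M * M + M + 1 = 0 → M.charpoly = cyclotomic 3 F ^ 2) ∧
    (M ≠ 1 → M * M + M + 1 ≠ 0 → M.charpoly = (X - 1) ^ 2 * cyclotomic 3 F) := by
  have hss : Module.End.IsSemisimple (toLin' M) :=
    Cfsg.Agent.Lib.Helper47.isSemisimple_toLin'_of_pow_eq_one M 3 (by exact_mod_cast h3) hM
  have hcases : (a = 4 ∧ b = 0) ∨ (a = 2 ∧ b = 1) ∨ (a = 0 ∧ b = 2) := by omega
  have hM3 : M * M * M = 1 := by rw [← pow_two, ← pow_succ]; exact hM
  have hcase1 : a = 4 → b = 0 → M = 1 := by
    intro ha hb
    rw [ha, hb] at hc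
    have h1 := eq_smul_of_charpoly M hss 1 (by rw [hc, C_1, pow_zero, mul_one])
    rw [h1, one_smul]
  have hcase3 : a = 0 → b = 2 → M * M + M + 1 = 0 := by
    intro ha hb
    rw [ha, hb, pow_zero, one_mul] at hc
    have hCH := Matrix.aeval_self_charpoly M
    rw [hc, map_pow, cyclotomic_three] at hCH
    simp only [map_add, map_pow, aeval_X, map_one] at hCH
    obtain ⟨E, hE⟩ : ∃ E, E = M * M + M + 1 := ⟨_, rfl⟩
    rw [pow_two M, ← hE, pow_two] at hCH
    have hEM : E * M = E := by
      rw [hE, add_mul, add_mul, one_mul, hM3]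
      abel
    have hEE : E * E = E + E + E := by
      have e1 : E * E = E * M * M + E * M + E := by
        nth_rewrite 2 [hE]
        rw [mul_add, mul_add, mul_one, ← mul_assoc]
      rw [e1, hEM, hEM]
    rw [hCH] at hEE
    have h3E : (3 : F) • E = 0 := by
      rw [show (3 : F) = 1 + 1 + 1 by norm_num, add_smul, add_smul, one_smul]
      exact hEE.symm
    rw [← hE]
    exact (smul_eq_zero.mp h3E).resolve_left h3
  have hcase2 : a = 2 → b = 1 → M * M + M + 1 ≠ 0 := by
    intro ha hb hE
    rw [ha, hb, pow_one] at hc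
    have hroot : M.charpoly.eval 1 = 0 := by
      rw [hc]
      simp
    rw [Matrix.eval_charpoly] at hroot
    obtain ⟨v, hv, hMv⟩ := Matrix.exists_mulVec_eq_zero_iff.mpr hroot
    have hMv' : M *ᵥ v = v := by
      have e : (Matrix.scalar (Fin 4) (1 : F) - M) *ᵥ v = v - M *ᵥ v := by
        rw [Matrix.sub_mulVec, map_one, Matrix.one_mulVec]
      rw [e] at hMv
      exact (sub_eq_zero.mp hMv).symm
    have hEv : (M * M + M + 1) *ᵥ v = (3 : F) • v := by
      rw [Matrix.add_mulVec, Matrix.add_mulVec, Matrix.one_mulVec, ← Matrix.mulVec_mulVec, hMv',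
        hMv', show (3 : F) = 1 + 1 + 1 by norm_num, add_smul, add_smul, one_smul]
    rw [hE, Matrix.zero_mulVec] at hEv
    exact hv ((smul_eq_zero.mp hEv.symm).resolve_left h3)
  constructor
  · intro hE
    rcases hcases with ⟨ha, hb⟩ | ⟨ha, hb⟩ | ⟨ha, hb⟩
    · exfalso
      have h1 := hcase1 ha hb
      rw [h1] at hE
      have h00 := congrFun (congrFun hE 0) 0
      simp at h00
      apply h3
      linear_combination h00
    · exact absurd hE (hcase2 ha hb)
    · rw [hc, ha, hb, pow_zero, one_mul]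
  · intro hne hE
    rcases hcases with ⟨ha, hb⟩ | ⟨ha, hb⟩ | ⟨ha, hb⟩
    · exact absurd (hcase1 ha hb) hne
    · rw [hc, ha, hb, pow_one]
    · exact absurd (hcase3 ha hb) hE

end U1

end Cfsg.Agent.Lib.Helper98.Symp
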