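import Mathlib
import Cfsg.Prelude.Def_LieClassical
import Cfsg.Agent.Lib.Helper47.SU3Inv
import Cfsg.Agent.Lib.Helper47.SUConj
import Cfsg.Agent.Lib.Helper47.DualPoly
import Cfsg.Agent.Lib.Helper47.PGUClasses
import Cfsg.Agent.Lib.Helper98.SympU1

/-!
Unitary versions: the normaliser of `4 ∘ 2^{1+4}` in `SU_4(p)`.
-/

set_option autoImplicit false

namespace Cfsg.Agent.Lib.Helper98.Symp

open Matrix Polynomial Cfsg.Agent.Lib.Helper47

section U2

variable {F : Type*} [Field F]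

/-! ### unitarity of the standard elements -/

theorem sT_Z1m (σ : F →+* F) : sT σ (Z1m F) = Z1m F := by
  ext a b
  fin_cases a <;> fin_cases b <;> simp [sT, Z1m]

theorem sT_X1m (σ : F →+* F) : sT σ (X1m F) = X1m F := by
  ext a b
  fin_cases a <;> fin_cases b <;> simp [sT, X1m]

theorem sT_Z2m (σ : F →+* F) : sT σ (Z2m F) = Z2m F := by
  ext a b
  fin_cases a <;> fin_cases b <;> simp [sT, Z2m]

theorem sT_X2m (σ : F →+* F) : sT σ (X2m F) = X2m F := by
  ext a b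
  fin_cases a <;> fin_cases b <;> simp [sT, X2m]

theorem sT_CZm (σ : F →+* F) : sT σ (CZm F) = CZim F := by
  ext a b
  fin_cases a <;> fin_cases b <;> simp [sT, CZm, CZim]

theorem sT_T3m (σ : F →+* F) : sT σ (T3m F) = T3im F := by
  ext a b
  fin_cases a <;> fin_cases b <;> simp [sT, T3m, T3im]

theorem sT_A1am (σ : F →+* F) (i t : F) (hσi : σ i = -i) (hσt : σ t = t) :
    sT σ (A1am i t) = A1aim i t := by
  ext a b
  fin_cases a <;> fin_cases b <;> simp [sT, A1am, A1aim, hσi, hσt] <;>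
    first | ring1 | (left; ring1)

theorem sT_Y5m (σ : F →+* F) (i t : F) (hσi : σ i = -i) (hσt : σ t = t) :
    sT σ (Y5m i t) = Y5im i t := by
  ext a b
  fin_cases a <;> fin_cases b <;> simp [sT, Y5m, Y5im, hσi, hσt]

/-- `P* P` is a scalar when `P` conjugates the standard group to a unitary group. -/
theorem sTP_scalar (h2 : (2 : F) ≠ 0) (σ : F →+* F) (R : Subgroup (GL (Fin 4) F))
    (c P : GL (Fin 4) F) (hP : ∀ g : GL (Fin 4) F, g ∈ R ↔ P⁻¹ * g * P ∈ stdR c)
    (hRU : ∀ g ∈ R, sT σ (g : Matrix (Fin 4) (Fin 4) F) * (g : Matrix (Fin 4) (Fin 4) F) = 1) :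
    ∃ l : F, sT σ (P : Matrix (Fin 4) (Fin 4) F) * (P : Matrix (Fin 4) (Fin 4) F)
      = l • (1 : Matrix (Fin 4) (Fin 4) F) := by
  obtain ⟨S, hS⟩ : ∃ S : Matrix (Fin 4) (Fin 4) F,
      S = sT σ (P : Matrix (Fin 4) (Fin 4) F) * (P : Matrix (Fin 4) (Fin 4) F) := ⟨_, rfl⟩
  have hcomm : ∀ s : GL (Fin 4) F, s ∈ stdR c →
      sT σ (s : Matrix (Fin 4) (Fin 4) F) = (s : Matrix (Fin 4) (Fin 4) F) →
      (s : Matrix (Fin 4) (Fin 4) F) * (s : Matrix (Fin 4) (Fin 4) F) = 1 →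
      S * (s : Matrix (Fin 4) (Fin 4) F) = (s : Matrix (Fin 4) (Fin 4) F) * S := by
    intro s hs hsT hss
    have hg : P * s * P⁻¹ ∈ R := by
      rw [hP]
      have e : P⁻¹ * (P * s * P⁻¹) * P = s := by group
      rw [e]
      exact hs
    have hu := hRU _ hg
    rw [Units.val_mul, Units.val_mul, sT_mul, sT_mul, hsT] at hu
    have h1 : sT σ (P : Matrix (Fin 4) (Fin 4) F)
        * sT σ ((P⁻¹ : GL (Fin 4) F) : Matrix (Fin 4) (Fin 4) F) = 1 := by
      rw [← sT_mul, Units.inv_mul, sT_one]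
    have h3 : (s : Matrix (Fin 4) (Fin 4) F) * S * (s : Matrix (Fin 4) (Fin 4) F) = S := by
      calc (s : Matrix (Fin 4) (Fin 4) F) * S * (s : Matrix (Fin 4) (Fin 4) F)
          = (sT σ (P : Matrix (Fin 4) (Fin 4) F)
              * sT σ ((P⁻¹ : GL (Fin 4) F) : Matrix (Fin 4) (Fin 4) F))
            * ((s : Matrix (Fin 4) (Fin 4) F) * S * (s : Matrix (Fin 4) (Fin 4) F))
            * (((P⁻¹ : GL (Fin 4) F) : Matrix (Fin 4) (Fin 4) F)
              * (P : Matrix (Fin 4) (Fin 4) F)) := by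
            rw [h1, Units.inv_mul, Matrix.one_mul, Matrix.mul_one]
        _ = sT σ (P : Matrix (Fin 4) (Fin 4) F)
            * (sT σ ((P⁻¹ : GL (Fin 4) F) : Matrix (Fin 4) (Fin 4) F)
              * ((s : Matrix (Fin 4) (Fin 4) F) * sT σ (P : Matrix (Fin 4) (Fin 4) F))
              * ((P : Matrix (Fin 4) (Fin 4) F) * (s : Matrix (Fin 4) (Fin 4) F)
                * ((P⁻¹ : GL (Fin 4) F) : Matrix (Fin 4) (Fin 4) F)))
            * (P : Matrix (Fin 4) (Fin 4) F) := by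
            rw [hS]
            simp only [Matrix.mul_assoc]
        _ = S := by rw [hu, Matrix.mul_one, hS]
    calc S * (s : Matrix (Fin 4) (Fin 4) F)
        = ((s : Matrix (Fin 4) (Fin 4) F) * (s : Matrix (Fin 4) (Fin 4) F)) * S
          * (s : Matrix (Fin 4) (Fin 4) F) := by rw [hss, Matrix.one_mul]
      _ = (s : Matrix (Fin 4) (Fin 4) F)
          * ((s : Matrix (Fin 4) (Fin 4) F) * S * (s : Matrix (Fin 4) (Fin 4) F)) := by
          simp only [Matrix.mul_assoc]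
      _ = (s : Matrix (Fin 4) (Fin 4) F) * S := by rw [h3]
  have h := commutant_std h2 S (hcomm (Z1u F) (Z1u_mem_stdR c) (sT_Z1m σ) Z1m_sq)
    (hcomm (X1u F) (X1u_mem_stdR c) (sT_X1m σ) X1m_sq)
    (hcomm (Z2u F) (Z2u_mem_stdR c) (sT_Z2m σ) Z2m_sq)
    (hcomm (X2u F) (X2u_mem_stdR c) (sT_X2m σ) X2m_sq)
  exact ⟨S 0 0, by rw [← hS]; exact h⟩

namespace Good

variable {i : F} {R : Subgroup (GL (Fin 4) F)} {c : GL (Fin 4) F}

/-- transporting a unitary element of the normaliser of the standard group -/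
theorem targetU (hG : Good i R c) (σ : F →+* F)
    (hRU : ∀ g ∈ R, sT σ (g : Matrix (Fin 4) (Fin 4) F) * (g : Matrix (Fin 4) (Fin 4) F) = 1)
    (n : GL (Fin 4) F) (hn : n ∈ Subgroup.normalizer (stdR c : Set (GL (Fin 4) F)))
    (hnu : sT σ (n : Matrix (Fin 4) (Fin 4) F) * (n : Matrix (Fin 4) (Fin 4) F) = 1) :
    ∃ m : GL (Fin 4) F, m ∈ Cfsg.Geo.subgroupNormalizer R ∧
      sT σ (m : Matrix (Fin 4) (Fin 4) F) * (m : Matrix (Fin 4) (Fin 4) F) = 1 ∧
      (∀ l : F, (l • (m : Matrix (Fin 4) (Fin 4) F)).charpoly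
        = (l • (n : Matrix (Fin 4) (Fin 4) F)).charpoly) ∧
      ∀ k : ℕ, n ^ k = 1 → m ^ k = 1 := by
  obtain ⟨P, hP⟩ := hG.std
  obtain ⟨l, hl⟩ := sTP_scalar hG.h2 σ R c P hP hRU
  have hl0 : l ≠ 0 := by
    intro h0
    rw [h0, zero_smul] at hl
    have h1 : sT σ ((P⁻¹ : GL (Fin 4) F) : Matrix (Fin 4) (Fin 4) F)
        * (sT σ (P : Matrix (Fin 4) (Fin 4) F) * (P : Matrix (Fin 4) (Fin 4) F))
        * ((P⁻¹ : GL (Fin 4) F) : Matrix (Fin 4) (Fin 4) F) = 0 := by
      rw [hl, Matrix.mul_zero, Matrix.zero_mul]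
    rw [← Matrix.mul_assoc, ← sT_mul, Units.mul_inv, sT_one, Matrix.one_mul, Units.mul_inv] at h1
    exact one_ne_zero h1
  have hPinv : sT σ ((P⁻¹ : GL (Fin 4) F) : Matrix (Fin 4) (Fin 4) F)
      * ((P⁻¹ : GL (Fin 4) F) : Matrix (Fin 4) (Fin 4) F)
      = l⁻¹ • (1 : Matrix (Fin 4) (Fin 4) F) := by
    have h2 : ((P⁻¹ : GL (Fin 4) F) : Matrix (Fin 4) (Fin 4) F)
        * sT σ ((P⁻¹ : GL (Fin 4) F) : Matrix (Fin 4) (Fin 4) F)
        * (sT σ (P : Matrix (Fin 4) (Fin 4) F) * (P : Matrix (Fin 4) (Fin 4) F)) = 1 := by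
      calc ((P⁻¹ : GL (Fin 4) F) : Matrix (Fin 4) (Fin 4) F)
            * sT σ ((P⁻¹ : GL (Fin 4) F) : Matrix (Fin 4) (Fin 4) F)
            * (sT σ (P : Matrix (Fin 4) (Fin 4) F) * (P : Matrix (Fin 4) (Fin 4) F))
          = ((P⁻¹ : GL (Fin 4) F) : Matrix (Fin 4) (Fin 4) F)
            * (sT σ ((P⁻¹ : GL (Fin 4) F) : Matrix (Fin 4) (Fin 4) F)
              * sT σ (P : Matrix (Fin 4) (Fin 4) F)) * (P : Matrix (Fin 4) (Fin 4) F) := by
            simp only [Matrix.mul_assoc]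
        _ = 1 := by rw [← sT_mul, Units.mul_inv, sT_one, Matrix.mul_one, Units.inv_mul]
    rw [hl, Matrix.mul_smul, Matrix.mul_one, ← Matrix.mul_smul] at h2
    have h3 := mul_eq_one_comm.mp h2
    rw [Matrix.smul_mul] at h3
    calc sT σ ((P⁻¹ : GL (Fin 4) F) : Matrix (Fin 4) (Fin 4) F)
          * ((P⁻¹ : GL (Fin 4) F) : Matrix (Fin 4) (Fin 4) F)
        = l⁻¹ • (l • (sT σ ((P⁻¹ : GL (Fin 4) F) : Matrix (Fin 4) (Fin 4) F)
          * ((P⁻¹ : GL (Fin 4) F) : Matrix (Fin 4) (Fin 4) F))) := by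
          rw [smul_smul, inv_mul_cancel₀ hl0, one_smul]
      _ = l⁻¹ • (1 : Matrix (Fin 4) (Fin 4) F) := by rw [h3]
  refine ⟨P * n * P⁻¹, norm_transfer R (stdR c) P hP n hn, ?_, ?_, ?_⟩
  · rw [Units.val_mul, Units.val_mul, sT_mul, sT_mul]
    calc sT σ ((P⁻¹ : GL (Fin 4) F) : Matrix (Fin 4) (Fin 4) F)
          * (sT σ (n : Matrix (Fin 4) (Fin 4) F) * sT σ (P : Matrix (Fin 4) (Fin 4) F))
          * ((P : Matrix (Fin 4) (Fin 4) F) * (n : Matrix (Fin 4) (Fin 4) F)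
            * ((P⁻¹ : GL (Fin 4) F) : Matrix (Fin 4) (Fin 4) F))
        = sT σ ((P⁻¹ : GL (Fin 4) F) : Matrix (Fin 4) (Fin 4) F)
          * (sT σ (n : Matrix (Fin 4) (Fin 4) F)
            * (sT σ (P : Matrix (Fin 4) (Fin 4) F) * (P : Matrix (Fin 4) (Fin 4) F))
            * (n : Matrix (Fin 4) (Fin 4) F))
          * ((P⁻¹ : GL (Fin 4) F) : Matrix (Fin 4) (Fin 4) F) := by
          simp only [Matrix.mul_assoc]
      _ = l • (sT σ ((P⁻¹ : GL (Fin 4) F) : Matrix (Fin 4) (Fin 4) F)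
          * ((P⁻¹ : GL (Fin 4) F) : Matrix (Fin 4) (Fin 4) F)) := by
          rw [hl, Matrix.mul_smul, Matrix.mul_one, Matrix.smul_mul, hnu, Matrix.mul_smul,
            Matrix.mul_one, Matrix.smul_mul]
      _ = 1 := by rw [hPinv, smul_smul, mul_inv_cancel₀ hl0, one_smul]
  · intro l'
    have e : l' • ((P * n * P⁻¹ : GL (Fin 4) F) : Matrix (Fin 4) (Fin 4) F)
        = (P : Matrix (Fin 4) (Fin 4) F) * (l' • (n : Matrix (Fin 4) (Fin 4) F))
          * ((P : Matrix (Fin 4) (Fin 4) F))⁻¹ := by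
      rw [Units.val_mul, Units.val_mul, Matrix.coe_units_inv, Matrix.mul_smul, Matrix.smul_mul]
    rw [e, Matrix.charpoly_units_conj]
  · intro k hk
    rw [conj_pow, hk, mul_one, mul_inv_cancel]

end Good

/-- Unitary version of `conj_into4`. -/
theorem conj_into4U [Fintype F] {σ : F →+* F} (hσ : ∀ x, σ (σ x) = x) (hne : ∃ c, σ c ≠ c)
    (p : ℕ) (hσq : ∀ x, σ x = x ^ p) (R : Subgroup (GL (Fin 4) F)) (x n : GL (Fin 4) F) (t : F)
    (M : Matrix (Fin 4) (Fin 4) F) (hxM : (x : Matrix (Fin 4) (Fin 4) F) = t • M)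
    (hMu : sT σ M * M = 1) (hMs : Module.End.IsSemisimple (toLin' M))
    (hn : n ∈ Cfsg.Geo.subgroupNormalizer R)
    (hnu : sT σ (n : Matrix (Fin 4) (Fin 4) F) * (n : Matrix (Fin 4) (Fin 4) F) = 1)
    (hns : Module.End.IsSemisimple (toLin' (n : Matrix (Fin 4) (Fin 4) F)))
    (hc : M.charpoly = (n : Matrix (Fin 4) (Fin 4) F).charpoly) :
    ∃ g ∈ Cfsg.GU 4 F p ⊓ Cfsg.Geo.specialLinear (Fin 4) F,
      g⁻¹ * x * g ∈ Cfsg.Geo.subgroupNormalizer R := by
  obtain ⟨G, hGd, hGu, hGM⟩ := exists_unitary_conj_det_one σ hσ hne 4 M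
    (n : Matrix (Fin 4) (Fin 4) F) (fun u v => unitary_of_sT_mul_self hσ hMu u v)
    (fun u v => unitary_of_sT_mul_self hσ hnu u v) hMs hns hc
  obtain ⟨gU, hgU⟩ : ∃ gU : GL (Fin 4) F, (gU : Matrix (Fin 4) (Fin 4) F) = G :=
    ⟨Matrix.GeneralLinearGroup.mkOfDetNeZero G (by rw [hGd]; exact one_ne_zero), rfl⟩
  have hgSL : gU ∈ Cfsg.Geo.specialLinear (Fin 4) F :=
    (Cfsg.Agent.Lib.Helper99.mem_specialLinear_iff gU).mpr (by rw [hgU]; exact hGd)
  have hgGU : gU ∈ Cfsg.GU 4 F p :=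
    (mem_GU_iff_sT hσq hσ gU).mpr (by rw [hgU]; exact sT_mul_self_of_unitary hσ hGu)
  refine ⟨gU⁻¹, inv_mem (Subgroup.mem_inf.mpr ⟨hgGU, hgSL⟩), ?_⟩
  rw [inv_inv]
  apply smul_mem_norm R n _ t hn
  rw [Units.val_mul, Units.val_mul, hxM, Matrix.mul_smul, hgU, hGM, Matrix.smul_mul, ← hgU,
    Matrix.mul_assoc, Units.mul_inv, Matrix.mul_one]

/-- The characteristic polynomial of a unitary matrix of prime order `r` when the `r`-th
cyclotomic polynomial has exactly two irreducible factors, interchanged by duality. -/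
theorem charpoly_unitary [Fintype F] {p : ℕ} [Fact p.Prime] [CharP F p]
    (hF : Fintype.card F = p ^ 2) {σ : F →+* F} (hσq : ∀ x, σ x = x ^ p)
    (hσ : ∀ x, σ (σ x) = x) {r : ℕ} (hr : r.Prime) (hr2 : r ≠ 2) (hrp : r ≠ p)
    (hord : orderOf ((p : ℕ) : ZMod r) % 4 ≠ 2) (d : ℕ) (hd : r - 1 = 2 * d)
    (hdeg : orderOf ((p ^ 2 : ℕ) : ZMod r) = d)
    (M : Matrix (Fin 4) (Fin 4) F) (hMu : sT σ M * M = 1) (hM : M ^ r = 1) :
    ∃ a b : ℕ, M.charpoly = (X - 1) ^ a * (cyclotomic r F) ^ b ∧ a + (r - 1) * b = 4 := by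
  classical
  have hfact : Fact r.Prime := ⟨hr⟩
  obtain ⟨c, s, hs, hχ⟩ := charpoly_factors_of_pow_eq_one p hr hrp M hM
  -- the characteristic polynomial is self-dual
  have hdetu : IsUnit M.det := by
    have h1 := congrArg Matrix.det hMu
    rw [Matrix.det_mul, Matrix.det_one, mul_comm] at h1
    exact IsUnit.of_mul_eq_one _ h1
  have hinv : (sT σ M)⁻¹ = M := Matrix.inv_eq_left_inv (mul_eq_one_comm.mp hMu)
  have hdual : dualP σ M.charpoly = M.charpoly := by
    rw [← charpoly_sT_inv M hdetu, hinv]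
  have hs' : ∀ f ∈ s.map (dualP σ), IsCycFactor r f := by
    intro f hf
    obtain ⟨g, hg, rfl⟩ := Multiset.mem_map.mp hf
    exact dualP_isCycFactor p hσ hr hrp (hs g hg)
  have hmap : s.map (dualP σ) = s := by
    have h1 := normalizedFactors_cyc_prod p hr hrp c s hs
    have h2 := normalizedFactors_cyc_prod p hr hrp c (s.map (dualP σ)) hs'
    have h3 : (X - 1 : F[X]) ^ c * (s.map (dualP σ)).prod = (X - 1 : F[X]) ^ c * s.prod := by
      have h4 : dualP σ ((X - 1 : F[X]) ^ c * s.prod)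
          = (X - 1) ^ c * (s.map (dualP σ)).prod := by
        rw [dualP_mul, dualP_pow, dualP_X_sub_one, dualP_multiset_prod]
      rw [← h4, ← hχ, hdual]
    rw [h3, h1] at h2
    exact h2.symm
  have hdegf : ∀ f : F[X], IsCycFactor r f → f.natDegree = d := by
    intro f hf
    have h := IsCycFactor.natDegree_eq (p := p) (q := p ^ 2) hF hr hrp hf
    rw [h, hdeg]
  have hΦdeg : (cyclotomic r F).natDegree = 2 * d := by
    rw [natDegree_cyclotomic, Nat.totient_prime hr, hd]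
  have hχdeg : c + d * Multiset.card s = 4 := by
    have h1 := natDegree_cyc_prod c s (fun f hf => ⟨(hs f hf).1, hdegf f (hs f hf)⟩)
    rw [← hχ, Matrix.charpoly_natDegree_eq_dim, Fintype.card_fin] at h1
    exact h1.symm
  by_cases hs0 : s = 0
  · refine ⟨c, 0, ?_, ?_⟩
    · rw [hχ, hs0, Multiset.prod_zero, pow_zero]
    · rw [hs0, Multiset.card_zero] at hχdeg
      omega
  obtain ⟨f, hfs⟩ := Multiset.exists_mem_of_ne_zero hs0
  have hf := hs f hfs
  obtain ⟨g, hgdef⟩ : ∃ g, g = dualP σ f := ⟨_, rfl⟩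
  have hg : IsCycFactor r g := by rw [hgdef]; exact dualP_isCycFactor p hσ hr hrp hf
  have hfg : g ≠ f := by
    rw [hgdef]
    intro h
    exact hord ((dualP_eq_self_iff hF hσq hr hr2 hrp hf).mp h)
  have hgf : dualP σ g = f := by
    rw [hgdef]
    exact (dualP_props p hσ f hf.1 (hf.coeff_zero_ne hr.pos)).2.2.2
  -- `f * g` is the cyclotomic polynomial
  have hcop : IsCoprime f g := by
    apply (hf.2.1.coprime_iff_not_dvd).mpr
    intro hdvd
    exact hfg (eq_of_monic_of_associated hg.1 hf.1 (hf.2.1.associated_of_dvd hg.2.1 hdvd).symm)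
  have hfgΦ : cyclotomic r F = f * g := by
    apply eq_of_monic_of_dvd_of_natDegree_le (hf.1.mul hg.1) (cyclotomic.monic r F)
      (hcop.mul_dvd hf.2.2 hg.2.2)
    rw [hΦdeg, hf.1.natDegree_mul hg.1, hdegf f hf, hdegf g hg]
    omega
  have hall : ∀ h : F[X], IsCycFactor r h → h = f ∨ h = g := by
    intro h hh
    have h1 := hh.2.2
    rw [hfgΦ] at h1
    rcases hh.2.1.prime.dvd_or_dvd h1 with h2 | h2
    · left
      exact eq_of_monic_of_associated hh.1 hf.1 (hh.2.1.associated_of_dvd hf.2.1 h2)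
    · right
      exact eq_of_monic_of_associated hh.1 hg.1 (hh.2.1.associated_of_dvd hg.2.1 h2)
  -- decompose `s`
  have hsdec : s = Multiset.replicate (s.count f) f + Multiset.replicate (s.count g) g := by
    ext h
    rw [Multiset.count_add, Multiset.count_replicate, Multiset.count_replicate]
    by_cases h1 : h = f
    · subst h1
      rw [if_pos rfl, if_neg hfg, add_zero]
    · by_cases h2 : h = g
      · subst h2
        rw [if_neg (fun e => h1 e.symm), if_pos rfl, zero_add]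
      · rw [if_neg (fun e => h1 e.symm), if_neg (fun e => h2 e.symm), add_zero,
          Multiset.count_eq_zero]
        intro hmem
        rcases hall h (hs h hmem) with e | e
        · exact h1 e
        · exact h2 e
  have hcount : s.count f = s.count g := by
    have h1 : s.map (dualP σ)
        = Multiset.replicate (s.count f) g + Multiset.replicate (s.count g) f := by
      conv_lhs => rw [hsdec]
      rw [Multiset.map_add, Multiset.map_replicate, Multiset.map_replicate, ← hgdef, hgf]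
    rw [hmap] at h1
    have h2 := congrArg (Multiset.count f) h1
    rw [Multiset.count_add, Multiset.count_replicate, Multiset.count_replicate, if_neg hfg,
      if_pos rfl, zero_add] at h2
    exact h2
  have hsprod : s.prod = cyclotomic r F ^ (s.count f) := by
    conv_lhs => rw [hsdec]
    rw [Multiset.prod_add, Multiset.prod_replicate, Multiset.prod_replicate, ← hcount, ← mul_pow,
      ← hfgΦ]
  refine ⟨c, s.count f, ?_, ?_⟩
  · rw [hχ, hsprod]
  · have hcard : Multiset.card s = s.count f + s.count g := by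
      conv_lhs => rw [hsdec]
      rw [Multiset.card_add, Multiset.card_replicate, Multiset.card_replicate]
    rw [hcard, ← hcount] at hχdeg
    rw [hd]
    linarith [hχdeg, mul_comm d (s.count f + s.count f)]

end U2

end Cfsg.Agent.Lib.Helper98.Symp
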