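import Mathlib
import Cfsg.Agent.Lib.Helper7.HermCount
import Cfsg.Agent.Lib.Helper98.SympU2

/-!
The normaliser of `4 ∘ 2^{1+4}` in `SU_4(p)`: which elements of prime order are conjugate into it.
-/

set_option autoImplicit false

namespace Cfsg.Agent.Lib.Helper98.Symp

open Matrix Polynomial Cfsg.Agent.Lib.Helper47

section U3

variable {F : Type*} [Field F]

/-- unitary standing hypotheses -/
structure GoodU (σ : F →+* F) (p : ℕ) (i : F) (R : Subgroup (GL (Fin 4) F))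
    (c : GL (Fin 4) F) : Prop where
  good : Good i R c
  hσ : ∀ x, σ (σ x) = x
  hσq : ∀ x, σ x = x ^ p
  hne : ∃ c, σ c ≠ c
  hσi : σ i = -i
  hRU : ∀ g ∈ R, sT σ (g : Matrix (Fin 4) (Fin 4) F) * (g : Matrix (Fin 4) (Fin 4) F) = 1

/-- every element of order `r` of `PSU_4` is conjugate into the normaliser of `R` -/
def AllFixU (p : ℕ) (R : Subgroup (GL (Fin 4) F)) (r : ℕ) : Prop :=
  ∀ x ∈ Cfsg.GU 4 F p ⊓ Cfsg.Geo.specialLinear (Fin 4) F,
    (∃ z : F, ((x ^ r : GL (Fin 4) F) : Matrix (Fin 4) (Fin 4) F)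
      = z • (1 : Matrix (Fin 4) (Fin 4) F)) →
    (∀ z : F, (x : Matrix (Fin 4) (Fin 4) F) ≠ z • (1 : Matrix (Fin 4) (Fin 4) F)) →
    ∃ g ∈ Cfsg.GU 4 F p ⊓ Cfsg.Geo.specialLinear (Fin 4) F,
      g⁻¹ * x * g ∈ Cfsg.Geo.subgroupNormalizer R

theorem trace_sT (σ : F →+* F) (M : Matrix (Fin 4) (Fin 4) F) :
    (sT σ M).trace = σ M.trace := by
  simp [sT, Matrix.trace, map_sum]

theorem sigma_half (σ : F →+* F) (h2 : (2 : F) ≠ 0) (t : F) (ht : 2 * t = 1) : σ t = t := by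
  have h1 : σ (2 * t) = 1 := by rw [ht, map_one]
  rw [map_mul, map_ofNat] at h1
  have h3 : (2 : F) * (σ t - t) = 0 := by linear_combination h1 - ht
  exact sub_eq_zero.mp ((mul_eq_zero.mp h3).resolve_left h2)

theorem sigma_i (i : F) (hi : i ^ 2 = -1) (p : ℕ) (hp4 : p % 4 = 3) : i ^ p = -i := by
  obtain ⟨k, hk⟩ : ∃ k, p = 2 * (2 * k + 1) + 1 := ⟨p / 4, by omega⟩
  rw [hk, pow_succ, pow_mul, hi, Odd.neg_one_pow ⟨k, rfl⟩]
  ring

/-! ### explicit unitary elements -/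

/-- the nilpotent part of a unitary transvection -/
def Nm (a' a b : F) : Matrix (Fin 4) (Fin 4) F :=
  !![a', a' * a, a' * b, 0; a' * a, a' * (a * a), a' * (a * b), 0;
     a' * b, a' * (a * b), a' * (b * b), 0; 0, 0, 0, 0]

theorem Nm_sq (a' a b : F) (hab : a * a + b * b = -1) : Nm a' a b * Nm a' a b = 0 := by
  ext j k
  fin_cases j <;> fin_cases k <;> simp [Nm, Matrix.mul_apply, Fin.sum_univ_four] <;> grind

theorem Nm_rank (a' a b : F) (M : Matrix (Fin 4) (Fin 4) F) :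
    Nm a' a b * M * Nm a' a b = (M * Nm a' a b).trace • Nm a' a b := by
  ext j k
  fin_cases j <;> fin_cases k <;>
    simp [Nm, Matrix.mul_apply, Fin.sum_univ_four, Matrix.trace, Matrix.vecMul, dotProduct] <;> ring

theorem sT_Nm (σ : F →+* F) (a' a b : F) (ha' : σ a' = -a') (ha : σ a = a) (hb : σ b = b) :
    sT σ (Nm a' a b) = -Nm a' a b := by
  ext j k
  fin_cases j <;> fin_cases k <;> simp [sT, Nm, ha', ha, hb] <;> ring

theorem Nm_ne_zero (a' a b : F) (ha' : a' ≠ 0) : Nm a' a b ≠ 0 := by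
  intro h
  have h00 := congrFun (congrFun h 0) 0
  simp [Nm] at h00
  exact ha' h00

theorem one_add_Nm_inv (a' a b : F) (hab : a * a + b * b = -1) :
    (1 + Nm a' a b) * (1 - Nm a' a b) = 1 := by
  have e : (1 + Nm a' a b) * (1 - Nm a' a b) = 1 - Nm a' a b * Nm a' a b := by noncomm_ring
  rw [e, Nm_sq a' a b hab, sub_zero]

/-- a unitary transvection -/
def xUu (a' a b : F) (hab : a * a + b * b = -1) : GL (Fin 4) F :=
  ⟨1 + Nm a' a b, 1 - Nm a' a b, one_add_Nm_inv a' a b hab,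
    mul_eq_one_comm.mp (one_add_Nm_inv a' a b hab)⟩

theorem one_add_Nm_pow (a' a b : F) (hab : a * a + b * b = -1) (p : ℕ) [Fact p.Prime]
    [CharP F p] : (1 + Nm a' a b) ^ p = 1 := by
  rw [add_pow_char_of_commute p (Commute.one_left _), one_pow]
  have hp2 : 2 ≤ p := (Fact.out : p.Prime).two_le
  obtain ⟨k, hk⟩ := Nat.exists_eq_add_of_le hp2
  rw [hk, pow_add, pow_two, Nm_sq a' a b hab, zero_mul, add_zero]

theorem sT_x3m (σ : F →+* F) (ω : F) (hσω : σ ω = ω * ω) : sT σ (x3m ω) = x3im ω := by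
  ext j k
  fin_cases j <;> fin_cases k <;> simp [sT, x3m, x3im, hσω]

def x5Um (α β β' : F) : Matrix (Fin 4) (Fin 4) F :=
  !![α, β, 0, 0; -β', α, 0, 0; 0, 0, 1, 0; 0, 0, 0, 1]
def x5Uim (α β β' : F) : Matrix (Fin 4) (Fin 4) F :=
  !![α, -β, 0, 0; β', α, 0, 0; 0, 0, 1, 0; 0, 0, 0, 1]
def x5Usqm (α β β' : F) : Matrix (Fin 4) (Fin 4) F :=
  !![2 * (α * α) - 1, 2 * (α * β), 0, 0; -(2 * (α * β')), 2 * (α * α) - 1, 0, 0;
     0, 0, 1, 0; 0, 0, 0, 1]

theorem x5Um_mul_inv (α β β' : F) (hβ : β * β' = 1 - α * α) :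
    x5Um α β β' * x5Uim α β β' = 1 := by
  ext j k
  fin_cases j <;> fin_cases k <;>
    simp [x5Um, x5Uim, Matrix.mul_apply, Fin.sum_univ_four] <;> grind

def x5Uu (α β β' : F) (hβ : β * β' = 1 - α * α) : GL (Fin 4) F :=
  ⟨x5Um α β β', x5Uim α β β', x5Um_mul_inv α β β' hβ,
    mul_eq_one_comm.mp (x5Um_mul_inv α β β' hβ)⟩

theorem x5Um_sq (α β β' : F) (hβ : β * β' = 1 - α * α) :
    x5Um α β β' * x5Um α β β' = x5Usqm α β β' := by
  ext j k
  fin_cases j <;> fin_cases k <;>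
    simp [x5Um, x5Usqm, Matrix.mul_apply, Fin.sum_univ_four] <;> grind

theorem x5Usqm_sq (α β β' : F) (hβ : β * β' = 1 - α * α) (hα : 4 * (α * α) + 2 * α - 1 = 0) :
    x5Usqm α β β' * x5Usqm α β β' = x5Uim α β β' := by
  ext j k
  fin_cases j <;> fin_cases k <;>
    simp [x5Uim, x5Usqm, Matrix.mul_apply, Fin.sum_univ_four] <;> grind

theorem x5Um_pow (α β β' : F) (hβ : β * β' = 1 - α * α) (hα : 4 * (α * α) + 2 * α - 1 = 0) :
    x5Um α β β' ^ 5 = 1 := by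
  have e : x5Um α β β' ^ 5
      = (x5Um α β β' * x5Um α β β') * (x5Um α β β' * x5Um α β β') * x5Um α β β' := by
    simp only [pow_succ, pow_zero, one_mul, mul_assoc]
  rw [e, x5Um_sq α β β' hβ, x5Usqm_sq α β β' hβ hα, mul_eq_one_comm.mp (x5Um_mul_inv α β β' hβ)]

theorem x5Um_det (α β β' : F) (hβ : β * β' = 1 - α * α) : (x5Um α β β').det = 1 := by
  rw [Matrix.det_succ_row_zero]
  simp [Fin.sum_univ_succ, x5Um, Matrix.det_fin_three, Fin.succAbove]
  linear_combination hβ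

theorem x5Um_trace (α β β' : F) : (x5Um α β β').trace = α + α + 1 + 1 := by
  simp [Matrix.trace, Fin.sum_univ_four, x5Um]

theorem x5Uim_trace (α β β' : F) : (x5Uim α β β').trace = α + α + 1 + 1 := by
  simp [Matrix.trace, Fin.sum_univ_four, x5Uim]

theorem sT_x5Um (σ : F →+* F) (α β β' : F) (hσα : σ α = α) (hσβ : σ β = β')
    (hσβ' : σ β' = β) : sT σ (x5Um α β β') = x5Uim α β β' := by
  ext j k
  fin_cases j <;> fin_cases k <;> simp [sT, x5Um, x5Uim, hσα, hσβ, hσβ']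

/-! ### arithmetic helpers -/

theorem order_sq_five (p : ℕ) (h : orderOf ((p : ℕ) : ZMod 5) = 4) :
    orderOf ((p ^ 2 : ℕ) : ZMod 5) = 2 := by
  have : Fact (Nat.Prime 2) := ⟨Nat.prime_two⟩
  obtain ⟨h0, h1⟩ := mod_five_of_order p h
  have e : ((p : ℕ) : ZMod 5) = ((p % 5 : ℕ) : ZMod 5) := (ZMod.natCast_mod p 5).symm
  have h4 : p % 5 ≠ 4 := by
    intro h4
    rw [e, h4] at h
    have h5 : ((4 : ℕ) : ZMod 5) ^ 2 = 1 := by decide
    have h6 := orderOf_dvd_of_pow_eq_one h5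
    rw [h] at h6
    have := Nat.le_of_dvd (by norm_num) h6
    omega
  have hsq : p ^ 2 % 5 = 4 := by
    rw [Nat.pow_mod]
    have : p % 5 = 2 ∨ p % 5 = 3 := by omega
    rcases this with h' | h' <;> rw [h']
  have e2 : ((p ^ 2 : ℕ) : ZMod 5) = ((p ^ 2 % 5 : ℕ) : ZMod 5) :=
    (ZMod.natCast_mod (p ^ 2) 5).symm
  rw [e2, hsq]
  have h5 : ((4 : ℕ) : ZMod 5) ^ 2 = 1 := by decide
  have h6 : ((4 : ℕ) : ZMod 5) ≠ 1 := by decide
  exact orderOf_eq_prime h5 h6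

theorem exists_tauU [Fintype F] (p : ℕ) [Fact p.Prime] [CharP F p] (σ : F →+* F)
    (hσq : ∀ x, σ x = x ^ p) (hp4 : p % 4 = 3)
    (hp5 : p % 5 = 1 ∨ p % 5 = 4) (t : F) (ht : 2 * t = 1) (hσt : σ t = t) :
    ∃ τ : F, τ * τ + τ - 1 = 0 ∧ σ τ = τ := by
  have : Fact (Nat.Prime 5) := ⟨by norm_num⟩
  have hsq5 : IsSquare ((p : ℕ) : ZMod 5) := by
    have e : ((p : ℕ) : ZMod 5) = ((p % 5 : ℕ) : ZMod 5) := (ZMod.natCast_mod p 5).symm
    rw [e]
    rcases hp5 with h | h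
    · rw [h]
      exact ⟨1, zmod5_one⟩
    · rw [h]
      exact ⟨2, zmod5_four⟩
  -- quadratic reciprocity, with `5 ≡ 1 (mod 4)`
  have hsq : IsSquare (((5 : ℕ) : ZMod p)) :=
    (ZMod.exists_sq_eq_prime_iff_of_mod_four_eq_one (p := 5) (q := p) (by norm_num)
      (by intro h; omega)).mp hsq5
  obtain ⟨s, hs⟩ := hsq
  obtain ⟨s', hs', hσs⟩ : ∃ s' : F, s' * s' = 5 ∧ σ s' = s' := by
    refine ⟨ZMod.castHom (dvd_refl p) F s, ?_, ?_⟩
    · rw [← map_mul, ← hs, map_natCast]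
      norm_num
    · rw [hσq, ← map_pow, ZMod.pow_card]
  refine ⟨(s' - 1) * t, ?_, ?_⟩
  · linear_combination t * t * hs' + (t * (3 - s') + 1) * ht
  · rw [map_mul, map_sub, map_one, hσs, hσt]

theorem exists_beta [Fintype F] (p : ℕ) (hF : Fintype.card F = p ^ 2) (σ : F →+* F)
    (hσq : ∀ x, σ x = x ^ p) (hσ : ∀ x, σ (σ x) = x) (y : F) (hy : σ y = y) :
    ∃ β β' : F, β * β' = y ∧ σ β = β' ∧ σ β' = β := by
  by_cases hy0 : y = 0
  · exact ⟨0, 0, by rw [hy0, mul_zero], map_zero σ, map_zero σ⟩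
  · obtain ⟨t, -, ht⟩ := Cfsg.Agent.Lib.Helper7.herm_norm_surj hF y hy0 (by rw [← hσq, hy])
    refine ⟨t, σ t, ?_, rfl, hσ t⟩
    rw [hσq, ← pow_succ', ht]

/-! ### elements conjugate into the normaliser -/

namespace GoodU

variable {σ : F →+* F} {p : ℕ} {i : F} {R : Subgroup (GL (Fin 4) F)} {c : GL (Fin 4) F}

theorem back_two_aux [Fintype F] (hU : GoodU σ p i R c) (x : GL (Fin 4) F) (z : F) (hz : z ≠ 0)
    (hxu : sT σ (x : Matrix (Fin 4) (Fin 4) F) * (x : Matrix (Fin 4) (Fin 4) F) = 1)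
    (hss : Module.End.IsSemisimple (toLin' (x : Matrix (Fin 4) (Fin 4) F))) (l : F)
    (hl : l ^ 2 = z) (hlu : σ l * l = 1) (n : GL (Fin 4) F)
    (hn : n ∈ Subgroup.normalizer (stdR c : Set (GL (Fin 4) F)))
    (hnu : sT σ (n : Matrix (Fin 4) (Fin 4) F) * (n : Matrix (Fin 4) (Fin 4) F) = 1)
    (hn2 : n ^ 2 = 1)
    (hcp : (x : Matrix (Fin 4) (Fin 4) F).charpoly
      = (l • (n : Matrix (Fin 4) (Fin 4) F)).charpoly) :
    ∃ g ∈ Cfsg.GU 4 F p ⊓ Cfsg.Geo.specialLinear (Fin 4) F,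
      g⁻¹ * x * g ∈ Cfsg.Geo.subgroupNormalizer R := by
  have hG := hU.good
  obtain ⟨m, hm, hmu, hmc, hmk⟩ := hG.targetU σ hU.hRU n hn hnu
  have hl0 : l ≠ 0 := by
    intro h
    rw [h] at hl
    apply hz
    rw [← hl]
    norm_num
  obtain ⟨u, hu⟩ : ∃ u : GL (Fin 4) F,
      (u : Matrix (Fin 4) (Fin 4) F) = l • (m : Matrix (Fin 4) (Fin 4) F) := by
    refine ⟨scalarU l hl0 * m, ?_⟩
    rw [Units.val_mul]
    show (l • (1 : Matrix (Fin 4) (Fin 4) F)) * (m : Matrix (Fin 4) (Fin 4) F) = _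
    rw [Matrix.smul_mul, Matrix.one_mul]
  have huN : u ∈ Cfsg.Geo.subgroupNormalizer R := smul_mem_norm R m u l hm hu
  have hm2 : (m : Matrix (Fin 4) (Fin 4) F) * (m : Matrix (Fin 4) (Fin 4) F) = 1 := by
    have h := hmk 2 hn2
    rw [pow_two] at h
    rw [← Units.val_mul, h, Units.val_one]
  have huu : (u : Matrix (Fin 4) (Fin 4) F) * (u : Matrix (Fin 4) (Fin 4) F)
      = z • (1 : Matrix (Fin 4) (Fin 4) F) := by
    rw [hu, Matrix.smul_mul, Matrix.mul_smul, hm2, smul_smul, ← pow_two, hl]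
  have huss : Module.End.IsSemisimple (toLin' (u : Matrix (Fin 4) (Fin 4) F)) := by
    rcases Cfsg.Agent.Lib.Helper47.inv_classes (u : Matrix (Fin 4) (Fin 4) F) z hz huu with
      ⟨_, h, _⟩ | ⟨h, _⟩
    · exact h
    · exact absurd h hG.h2
  have huU : sT σ (u : Matrix (Fin 4) (Fin 4) F) * (u : Matrix (Fin 4) (Fin 4) F) = 1 := by
    rw [hu, sT_smul, Matrix.smul_mul, Matrix.mul_smul, smul_smul, hmu, hlu, one_smul]
  refine conj_into4U hU.hσ hU.hne p hU.hσq R x u 1 (x : Matrix (Fin 4) (Fin 4) F)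
    (by rw [one_smul]) hxu hss huN huU huss ?_
  rw [hcp, hu, hmc l]

theorem back_two [Fintype F] (hU : GoodU σ p i R c) (x : GL (Fin 4) F)
    (hx1 : x ∈ Cfsg.GU 4 F p ⊓ Cfsg.Geo.specialLinear (Fin 4) F) (z : F)
    (hx : ((x ^ 2 : GL (Fin 4) F) : Matrix (Fin 4) (Fin 4) F)
      = z • (1 : Matrix (Fin 4) (Fin 4) F))
    (hns : ∀ z : F, (x : Matrix (Fin 4) (Fin 4) F) ≠ z • (1 : Matrix (Fin 4) (Fin 4) F)) :
    ∃ g ∈ Cfsg.GU 4 F p ⊓ Cfsg.Geo.specialLinear (Fin 4) F,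
      g⁻¹ * x * g ∈ Cfsg.Geo.subgroupNormalizer R := by
  have hG := hU.good
  have h2 := hG.h2
  have hxu : sT σ (x : Matrix (Fin 4) (Fin 4) F) * (x : Matrix (Fin 4) (Fin 4) F) = 1 :=
    (mem_GU_iff_sT hU.hσq hU.hσ x).mp (Subgroup.mem_inf.mp hx1).1
  have hdet : (x : Matrix (Fin 4) (Fin 4) F).det = 1 :=
    (Cfsg.Agent.Lib.Helper99.mem_specialLinear_iff x).mp (Subgroup.mem_inf.mp hx1).2
  have hz : z ≠ 0 := unit_smul_ne_zero (x ^ 2) z hx
  have hxx : (x : Matrix (Fin 4) (Fin 4) F) * (x : Matrix (Fin 4) (Fin 4) F)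
      = z • (1 : Matrix (Fin 4) (Fin 4) F) := by
    rw [← Units.val_mul, ← pow_two, hx]
  have hZ1 : Z1u F ∈ Subgroup.normalizer (stdR c : Set (GL (Fin 4) F)) :=
    Subgroup.le_normalizer (Z1u_mem_stdR c)
  have hZ1sq : Z1u F ^ 2 = 1 := by
    apply Units.ext
    rw [pow_two, Units.val_mul]
    exact Z1m_sq
  have hZ1u : sT σ ((Z1u F : GL (Fin 4) F) : Matrix (Fin 4) (Fin 4) F)
      * ((Z1u F : GL (Fin 4) F) : Matrix (Fin 4) (Fin 4) F) = 1 := by
    show sT σ (Z1m F) * Z1m F = 1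
    rw [sT_Z1m, Z1m_sq]
  have hCZ : CZu F ∈ Subgroup.normalizer (stdR c : Set (GL (Fin 4) F)) :=
    CZ_mem_norm i c hG.hc
  have hCZsq : CZu F ^ 2 = 1 := by
    apply Units.ext
    rw [pow_two, Units.val_mul]
    exact CZm_mul_inv
  have hCZu : sT σ ((CZu F : GL (Fin 4) F) : Matrix (Fin 4) (Fin 4) F)
      * ((CZu F : GL (Fin 4) F) : Matrix (Fin 4) (Fin 4) F) = 1 := by
    show sT σ (CZm F) * CZm F = 1
    rw [sT_CZm]
    exact mul_eq_one_comm.mp CZm_mul_inv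
  rcases Cfsg.Agent.Lib.Helper47.inv_classes (x : Matrix (Fin 4) (Fin 4) F) z hz hxx with
    ⟨_, hss, hcl⟩ | ⟨h, _⟩
  swap
  · exact absurd h h2
  -- the balanced case
  have key22 : (x : Matrix (Fin 4) (Fin 4) F).charpoly = (X ^ 2 - C z) ^ 2 →
      ∃ g ∈ Cfsg.GU 4 F p ⊓ Cfsg.Geo.specialLinear (Fin 4) F,
        g⁻¹ * x * g ∈ Cfsg.Geo.subgroupNormalizer R := by
    intro hcp
    have h1 := Matrix.det_eq_sign_charpoly_coeff (x : Matrix (Fin 4) (Fin 4) F)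
    rw [hdet, hcp, Fintype.card_fin, coeff_zero_eq_eval_zero] at h1
    simp at h1
    have h' : (z - 1) * (z + 1) = 0 := by linear_combination -h1
    obtain ⟨l, hl, hlu⟩ : ∃ l : F, l ^ 2 = z ∧ σ l * l = 1 := by
      rcases mul_eq_zero.mp h' with h'' | h''
      · exact ⟨1, by rw [one_pow]; exact (sub_eq_zero.mp h'').symm, by rw [map_one, one_mul]⟩
      · refine ⟨i, by rw [hG.hi]; exact (eq_neg_of_add_eq_zero_left h'').symm, ?_⟩
        rw [hU.hσi, neg_mul, ← pow_two, hG.hi, neg_neg]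
    refine hU.back_two_aux x z hz hxu hss l hl hlu (Z1u F) hZ1 hZ1u hZ1sq ?_
    rw [hcp]
    have e : l • ((Z1u F : GL (Fin 4) F) : Matrix (Fin 4) (Fin 4) F)
        = Matrix.diagonal ![l, -l, l, -l] := by
      show l • Z1m F = _
      rw [Z1m_eq]
      ext a b
      fin_cases a <;> fin_cases b <;> simp
    rw [e, Matrix.charpoly_diagonal, Fin.prod_univ_four, ← hl]
    show (X ^ 2 - C (l ^ 2)) ^ 2 = (X - C l) * (X - C (-l)) * (X - C l) * (X - C (-l))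
    rw [map_pow, map_neg]
    ring
  -- the unbalanced case
  have key31 : ∀ l : F, l ^ 2 = z →
      (x : Matrix (Fin 4) (Fin 4) F).charpoly = (X - C l) ^ 3 * (X - C (-l)) →
      ∃ g ∈ Cfsg.GU 4 F p ⊓ Cfsg.Geo.specialLinear (Fin 4) F,
        g⁻¹ * x * g ∈ Cfsg.Geo.subgroupNormalizer R := by
    intro l hl hcp
    have hl0 : l ≠ 0 := by
      intro h
      rw [h] at hl
      apply hz
      rw [← hl]
      norm_num
    have hcpD : (x : Matrix (Fin 4) (Fin 4) F).charpoly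
        = (Matrix.diagonal ![l, l, l, -l]).charpoly := by
      rw [hcp, Matrix.charpoly_diagonal, Fin.prod_univ_four]
      show (X - C l) ^ 3 * (X - C (-l)) = (X - C l) * (X - C l) * (X - C l) * (X - C (-l))
      ring
    have htr : (x : Matrix (Fin 4) (Fin 4) F).trace = l + l + l + -l := by
      rw [Matrix.trace_eq_neg_charpoly_coeff, hcpD, ← Matrix.trace_eq_neg_charpoly_coeff,
        Matrix.trace_diagonal, Fin.sum_univ_four]
      rfl
    have hsTx : sT σ (x : Matrix (Fin 4) (Fin 4) F) = z⁻¹ • (x : Matrix (Fin 4) (Fin 4) F) := by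
      calc sT σ (x : Matrix (Fin 4) (Fin 4) F)
          = sT σ (x : Matrix (Fin 4) (Fin 4) F)
            * ((x : Matrix (Fin 4) (Fin 4) F) * (z⁻¹ • (x : Matrix (Fin 4) (Fin 4) F))) := by
            rw [Matrix.mul_smul, hxx, smul_smul, inv_mul_cancel₀ hz, one_smul, Matrix.mul_one]
        _ = z⁻¹ • (x : Matrix (Fin 4) (Fin 4) F) := by
            rw [← Matrix.mul_assoc, hxu, Matrix.one_mul]
    have htr2 := congrArg Matrix.trace hsTx
    rw [trace_sT, Matrix.trace_smul, htr, smul_eq_mul] at htr2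
    have hlu : σ l * l = 1 := by
      have e1 : σ (l + l + l + -l) = 2 * σ l := by
        rw [map_add, map_add, map_add, map_neg]
        ring
      rw [e1] at htr2
      have e2 : (2 : F) * (σ l * l - 1) = 0 := by
        have e3 : z⁻¹ * (l + l + l + -l) * l = 2 := by
          rw [← hl]
          field_simp
          ring
        linear_combination l * htr2 + e3
      exact sub_eq_zero.mp ((mul_eq_zero.mp e2).resolve_left h2)
    refine hU.back_two_aux x z hz hxu hss l hl hlu (CZu F) hCZ hCZu hCZsq ?_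
    rw [hcpD]
    have e : l • ((CZu F : GL (Fin 4) F) : Matrix (Fin 4) (Fin 4) F)
        = Matrix.diagonal ![l, l, l, -l] := by
      show l • CZm F = _
      rw [CZm_eq]
      ext a b
      fin_cases a <;> fin_cases b <;> simp
    rw [e]
  rcases hcl with ⟨l, a, b, hzl, hab, hcp⟩ | ⟨hnsq, m, hm, hcp⟩
  · have hcases : a = 0 ∨ a = 1 ∨ a = 2 ∨ a = 3 ∨ a = 4 := by omega
    rcases hcases with ha | ha | ha | ha | ha
    · exfalso
      have hb : b = 4 := by omega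
      rw [ha, hb, pow_zero, one_mul] at hcp
      exact hns (-l) (eq_smul_of_charpoly _ hss (-l) hcp)
    · have hb : b = 3 := by omega
      apply key31 (-l) (by rw [neg_sq, hzl])
      rw [hcp, ha, hb, neg_neg]
      ring
    · have hb : b = 2 := by omega
      apply key22
      rw [hcp, ha, hb, hzl, map_pow, map_neg]
      ring
    · have hb : b = 1 := by omega
      apply key31 l hzl.symm
      rw [hcp, ha, hb, pow_one]
    · exfalso
      have hb : b = 0 := by omega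
      rw [ha, hb, pow_zero, mul_one] at hcp
      exact hns l (eq_smul_of_charpoly _ hss l hcp)
  · apply key22
    have hm2 : m = 2 := by omega
    rw [hcp, hm2]

/-- common part of the odd cases: the unitary scalar `z` and `z ^ 4 = 1` -/
theorem scalar_facts [Fintype F] (hU : GoodU σ p i R c) (x : GL (Fin 4) F)
    (hx1 : x ∈ Cfsg.GU 4 F p ⊓ Cfsg.Geo.specialLinear (Fin 4) F) (k : ℕ) (z : F)
    (hx : ((x ^ k : GL (Fin 4) F) : Matrix (Fin 4) (Fin 4) F)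
      = z • (1 : Matrix (Fin 4) (Fin 4) F)) :
    z ^ 4 = 1 ∧ σ z * z = 1 ∧
      sT σ (x : Matrix (Fin 4) (Fin 4) F) * (x : Matrix (Fin 4) (Fin 4) F) = 1 := by
  have hxu : sT σ (x : Matrix (Fin 4) (Fin 4) F) * (x : Matrix (Fin 4) (Fin 4) F) = 1 :=
    (mem_GU_iff_sT hU.hσq hU.hσ x).mp (Subgroup.mem_inf.mp hx1).1
  have hdet : (x : Matrix (Fin 4) (Fin 4) F).det = 1 :=
    (Cfsg.Agent.Lib.Helper99.mem_specialLinear_iff x).mp (Subgroup.mem_inf.mp hx1).2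
  refine ⟨?_, ?_, hxu⟩
  · have h1 := congrArg Matrix.det hx
    rw [Units.val_pow_eq_pow_val, Matrix.det_pow, hdet, one_pow, Matrix.det_smul, Matrix.det_one,
      mul_one, Fintype.card_fin] at h1
    exact h1.symm
  · have hxk : x ^ k ∈ Cfsg.GU 4 F p := Subgroup.pow_mem _ (Subgroup.mem_inf.mp hx1).1 k
    have h1 := (mem_GU_iff_sT hU.hσq hU.hσ (x ^ k)).mp hxk
    rw [hx, sT_smul, sT_one, Matrix.smul_mul, Matrix.mul_smul, Matrix.one_mul, smul_smul] at h1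
    have h00 := congrFun (congrFun h1 0) 0
    simpa using h00

theorem back_three [Fintype F] [Fact p.Prime] [CharP F p] (hU : GoodU σ p i R c)
    (hF : Fintype.card F = p ^ 2) (h3 : (3 : F) ≠ 0) (h3p : 3 ≠ p)
    (hord : orderOf ((p : ℕ) : ZMod 3) % 4 ≠ 2) (hdeg : orderOf ((p ^ 2 : ℕ) : ZMod 3) = 1)
    (t : F) (ht : 2 * t = 1) (x : GL (Fin 4) F)
    (hx1 : x ∈ Cfsg.GU 4 F p ⊓ Cfsg.Geo.specialLinear (Fin 4) F) (z : F)
    (hx : ((x ^ 3 : GL (Fin 4) F) : Matrix (Fin 4) (Fin 4) F)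
      = z • (1 : Matrix (Fin 4) (Fin 4) F))
    (hns : ∀ z : F, (x : Matrix (Fin 4) (Fin 4) F) ≠ z • (1 : Matrix (Fin 4) (Fin 4) F)) :
    ∃ g ∈ Cfsg.GU 4 F p ⊓ Cfsg.Geo.specialLinear (Fin 4) F,
      g⁻¹ * x * g ∈ Cfsg.Geo.subgroupNormalizer R := by
  have hG := hU.good
  have hi' : i * i = -1 := by rw [← pow_two]; exact hG.hi
  have hσt : σ t = t := sigma_half σ hG.h2 t ht
  have hz : z ≠ 0 := unit_smul_ne_zero (x ^ 3) z hx
  obtain ⟨hz4, hzu, hxu⟩ := hU.scalar_facts x hx1 3 z hx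
  obtain ⟨M, hMdef⟩ : ∃ M : Matrix (Fin 4) (Fin 4) F,
      M = z • (x : Matrix (Fin 4) (Fin 4) F) := ⟨_, rfl⟩
  have hxM : (x : Matrix (Fin 4) (Fin 4) F) = z⁻¹ • M := by
    rw [hMdef, smul_smul, inv_mul_cancel₀ hz, one_smul]
  have hM3 : M ^ 3 = 1 := by
    rw [hMdef, _root_.smul_pow, ← Units.val_pow_eq_pow_val, hx, smul_smul, ← pow_succ, hz4,
      one_smul]
  have hMu : sT σ M * M = 1 := by
    rw [hMdef, sT_smul, Matrix.smul_mul, Matrix.mul_smul, smul_smul, hxu, hzu, one_smul]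
  have hM1 : M ≠ 1 := by
    intro h
    apply hns z⁻¹
    rw [hxM, h]
  have h3' : ((3 : ℕ) : F) ≠ 0 := by exact_mod_cast h3
  have hss : Module.End.IsSemisimple (toLin' M) :=
    Cfsg.Agent.Lib.Helper47.isSemisimple_toLin'_of_pow_eq_one M 3 h3' hM3
  have hform : ∀ N : Matrix (Fin 4) (Fin 4) F, sT σ N * N = 1 → N ^ 3 = 1 →
      (N * N + N + 1 = 0 → N.charpoly = cyclotomic 3 F ^ 2) ∧
      (N ≠ 1 → N * N + N + 1 ≠ 0 → N.charpoly = (X - 1) ^ 2 * cyclotomic 3 F) := by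
    intro N hNu hN3
    obtain ⟨a, b, hc, hab⟩ := charpoly_unitary hF hU.hσq hU.hσ Nat.prime_three (by norm_num)
      h3p hord 1 (by norm_num) hdeg N hNu hN3
    exact three_of_form N h3 hN3 a b hc (by omega)
  by_cases hE : M * M + M + 1 = 0
  · have hcpM := (hform M hMu hM3).1 hE
    have hnu : sT σ ((A1au i t hi' ht : GL (Fin 4) F) : Matrix (Fin 4) (Fin 4) F)
        * ((A1au i t hi' ht : GL (Fin 4) F) : Matrix (Fin 4) (Fin 4) F) = 1 := by
      show sT σ (A1am i t) * A1am i t = 1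
      rw [sT_A1am σ i t hU.hσi hσt]
      exact mul_eq_one_comm.mp (A1am_mul_inv i t hi' ht)
    obtain ⟨m, hm, hmu, hmc, hmk⟩ := hG.targetU σ hU.hRU (A1au i t hi' ht)
      (A1a_mem_norm i t hi' ht c hG.hc) hnu
    have hn3 : A1au i t hi' ht ^ 3 = 1 := by
      apply Units.ext
      rw [Units.val_pow_eq_pow_val]
      exact A1am_cube i t hi' ht
    have hm3 : (m : Matrix (Fin 4) (Fin 4) F) ^ 3 = 1 := by
      rw [← Units.val_pow_eq_pow_val, hmk 3 hn3, Units.val_one]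
    have hmss : Module.End.IsSemisimple (toLin' (m : Matrix (Fin 4) (Fin 4) F)) :=
      Cfsg.Agent.Lib.Helper47.isSemisimple_toLin'_of_pow_eq_one _ 3 h3' hm3
    refine conj_into4U hU.hσ hU.hne p hU.hσq R x m z⁻¹ M hxM hMu hss hm hmu hmss ?_
    have h1 := hmc 1
    rw [one_smul, one_smul] at h1
    rw [hcpM, h1]
    have hnu' : sT σ (A1am i t) * A1am i t = 1 := hnu
    exact ((hform (A1am i t) hnu' (A1am_cube i t hi' ht)).1 (A1am_E i t hi' ht)).symm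
  · have hcpM := (hform M hMu hM3).2 hM1 hE
    have hnu : sT σ ((T3u F : GL (Fin 4) F) : Matrix (Fin 4) (Fin 4) F)
        * ((T3u F : GL (Fin 4) F) : Matrix (Fin 4) (Fin 4) F) = 1 := by
      show sT σ (T3m F) * T3m F = 1
      rw [sT_T3m σ]
      exact mul_eq_one_comm.mp T3m_mul_inv
    obtain ⟨m, hm, hmu, hmc, hmk⟩ := hG.targetU σ hU.hRU (T3u F) (T3_mem_norm i c hG.hc) hnu
    have hn3 : T3u F ^ 3 = 1 := by
      apply Units.ext
      rw [Units.val_pow_eq_pow_val]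
      exact T3m_cube
    have hm3 : (m : Matrix (Fin 4) (Fin 4) F) ^ 3 = 1 := by
      rw [← Units.val_pow_eq_pow_val, hmk 3 hn3, Units.val_one]
    have hmss : Module.End.IsSemisimple (toLin' (m : Matrix (Fin 4) (Fin 4) F)) :=
      Cfsg.Agent.Lib.Helper47.isSemisimple_toLin'_of_pow_eq_one _ 3 h3' hm3
    refine conj_into4U hU.hσ hU.hne p hU.hσq R x m z⁻¹ M hxM hMu hss hm hmu hmss ?_
    have h1 := hmc 1
    rw [one_smul, one_smul] at h1
    rw [hcpM, h1]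
    have hnu' : sT σ (T3m F) * T3m F = 1 := hnu
    refine ((hform (T3m F) hnu' T3m_cube).2 ?_ ?_).symm
    · intro h
      have h11 := congrFun (congrFun h 1) 1
      rw [T3m_01] at h11
      simp at h11
    · intro h
      have h00 := congrFun (congrFun h 0) 0
      rw [T3m_E00] at h00
      simp at h00
      exact h3 h00

theorem back_five [Fintype F] [Fact p.Prime] [CharP F p] (hU : GoodU σ p i R c)
    (hF : Fintype.card F = p ^ 2) (h5 : (5 : F) ≠ 0) (h5p : 5 ≠ p)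
    (hord : orderOf ((p : ℕ) : ZMod 5) % 4 ≠ 2) (hdeg : orderOf ((p ^ 2 : ℕ) : ZMod 5) = 2)
    (t : F) (ht : 2 * t = 1) (x : GL (Fin 4) F)
    (hx1 : x ∈ Cfsg.GU 4 F p ⊓ Cfsg.Geo.specialLinear (Fin 4) F) (z : F)
    (hx : ((x ^ 5 : GL (Fin 4) F) : Matrix (Fin 4) (Fin 4) F)
      = z • (1 : Matrix (Fin 4) (Fin 4) F))
    (hns : ∀ z : F, (x : Matrix (Fin 4) (Fin 4) F) ≠ z • (1 : Matrix (Fin 4) (Fin 4) F)) :
    ∃ g ∈ Cfsg.GU 4 F p ⊓ Cfsg.Geo.specialLinear (Fin 4) F,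
      g⁻¹ * x * g ∈ Cfsg.Geo.subgroupNormalizer R := by
  have hG := hU.good
  have hi' : i * i = -1 := by rw [← pow_two]; exact hG.hi
  have hσt : σ t = t := sigma_half σ hG.h2 t ht
  have hz : z ≠ 0 := unit_smul_ne_zero (x ^ 5) z hx
  obtain ⟨hz4, hzu, hxu⟩ := hU.scalar_facts x hx1 5 z hx
  obtain ⟨M, hMdef⟩ : ∃ M : Matrix (Fin 4) (Fin 4) F,
      M = z⁻¹ • (x : Matrix (Fin 4) (Fin 4) F) := ⟨_, rfl⟩
  have hxM : (x : Matrix (Fin 4) (Fin 4) F) = z • M := by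
    rw [hMdef, smul_smul, mul_inv_cancel₀ hz, one_smul]
  have hM5 : M ^ 5 = 1 := by
    rw [hMdef, _root_.smul_pow, ← Units.val_pow_eq_pow_val, hx, smul_smul]
    have e : z⁻¹ ^ 5 * z = 1 := by
      have e1 : z⁻¹ ^ 5 * z = (z ^ 4)⁻¹ := by
        field_simp
      rw [e1, hz4, inv_one]
    rw [e, one_smul]
  have hMu : sT σ M * M = 1 := by
    rw [hMdef, sT_smul, Matrix.smul_mul, Matrix.mul_smul, smul_smul, hxu, map_inv₀, ← mul_inv,
      hzu, inv_one, one_smul]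
  have hM1 : M ≠ 1 := by
    intro h
    apply hns z
    rw [hxM, h]
  have h5' : ((5 : ℕ) : F) ≠ 0 := by exact_mod_cast h5
  have hss : Module.End.IsSemisimple (toLin' M) :=
    Cfsg.Agent.Lib.Helper47.isSemisimple_toLin'_of_pow_eq_one M 5 h5' hM5
  have hform : ∀ N : Matrix (Fin 4) (Fin 4) F, sT σ N * N = 1 → N ^ 5 = 1 → N ≠ 1 →
      N.charpoly = cyclotomic 5 F := by
    intro N hNu hN5 hN1
    have hNss : Module.End.IsSemisimple (toLin' N) :=
      Cfsg.Agent.Lib.Helper47.isSemisimple_toLin'_of_pow_eq_one N 5 h5' hN5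
    obtain ⟨a, b, hc, hab⟩ := charpoly_unitary hF hU.hσq hU.hσ (by norm_num : Nat.Prime 5)
      (by norm_num) h5p hord 2 (by norm_num) hdeg N hNu hN5
    have hcases : (a = 4 ∧ b = 0) ∨ (a = 0 ∧ b = 1) := by omega
    rcases hcases with ⟨rfl, rfl⟩ | ⟨rfl, rfl⟩
    · exfalso
      apply hN1
      have h1 := eq_smul_of_charpoly N hNss 1 (by rw [hc, C_1, pow_zero, mul_one])
      rw [h1, one_smul]
    · rw [hc, pow_zero, one_mul, pow_one]
  have hcpM := hform M hMu hM5 hM1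
  have hnu : sT σ ((Y5u i t hi' ht : GL (Fin 4) F) : Matrix (Fin 4) (Fin 4) F)
      * ((Y5u i t hi' ht : GL (Fin 4) F) : Matrix (Fin 4) (Fin 4) F) = 1 := by
    show sT σ (Y5m i t) * Y5m i t = 1
    rw [sT_Y5m σ i t hU.hσi hσt]
    exact mul_eq_one_comm.mp (Y5m_mul_inv i t hi' ht)
  obtain ⟨m, hm, hmu, hmc, hmk⟩ := hG.targetU σ hU.hRU (Y5u i t hi' ht)
    (Y5_mem_norm i t hi' ht c hG.hc) hnu
  have hn5 : Y5u i t hi' ht ^ 5 = 1 := by
    apply Units.ext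
    rw [Units.val_pow_eq_pow_val]
    exact Y5m_pow i t hi' ht
  have hm5 : (m : Matrix (Fin 4) (Fin 4) F) ^ 5 = 1 := by
    rw [← Units.val_pow_eq_pow_val, hmk 5 hn5, Units.val_one]
  have hmss : Module.End.IsSemisimple (toLin' (m : Matrix (Fin 4) (Fin 4) F)) :=
    Cfsg.Agent.Lib.Helper47.isSemisimple_toLin'_of_pow_eq_one _ 5 h5' hm5
  refine conj_into4U hU.hσ hU.hne p hU.hσq R x m z M hxM hMu hss hm hmu hmss ?_
  have h1 := hmc 1
  rw [one_smul, one_smul] at h1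
  rw [hcpM, h1]
  have hnu' : sT σ (Y5m i t) * Y5m i t = 1 := hnu
  refine (hform (Y5m i t) hnu' (Y5m_pow i t hi' ht) ?_).symm
  intro h
  have h01 := congrFun (congrFun h 0) 1
  rw [Y5m_01] at h01
  simp at h01
  rw [h01, mul_zero] at ht
  exact zero_ne_one ht

end GoodU

end U3

end Cfsg.Agent.Lib.Helper98.Symp
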