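import Mathlib
import Cfsg.Agent.Lib.Helper98.SympU3

/-!
The normaliser of `4 ∘ 2^{1+4}` in `SU_4(p)`: elements of prime order not conjugate into it.
-/

set_option autoImplicit false

namespace Cfsg.Agent.Lib.Helper98.Symp

open Matrix Polynomial Cfsg.Agent.Lib.Helper47

section U4

variable {F : Type*} [Field F]

theorem conj_rank_one (G Gi N : Matrix (Fin 4) (Fin 4) F)
    (hN : ∀ M : Matrix (Fin 4) (Fin 4) F, N * M * N = (M * N).trace • N)
    (M : Matrix (Fin 4) (Fin 4) F) :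
    (Gi * N * G) * M * (Gi * N * G) = (M * (Gi * N * G)).trace • (Gi * N * G) := by
  have e1 : (Gi * N * G) * M * (Gi * N * G) = Gi * (N * (G * M * Gi) * N) * G := by
    simp only [Matrix.mul_assoc]
  have e2 : (M * (Gi * N * G)).trace = ((G * M * Gi) * N).trace := by
    have e3 : M * (Gi * N * G) = (M * Gi * N) * G := by simp only [Matrix.mul_assoc]
    rw [e3, Matrix.trace_mul_comm]
    congr 1
    simp only [Matrix.mul_assoc]
  rw [e1, hN, e2, Matrix.mul_smul, Matrix.smul_mul]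

theorem conj_sq_zero (G Gi N : Matrix (Fin 4) (Fin 4) F) (h1 : G * Gi = 1) (hN : N * N = 0) :
    (Gi * N * G) * (Gi * N * G) = 0 := by
  have e1 : (Gi * N * G) * (Gi * N * G) = Gi * (N * (G * Gi) * N) * G := by
    simp only [Matrix.mul_assoc]
  rw [e1, h1, Matrix.mul_one, hN, Matrix.mul_zero, Matrix.zero_mul]

namespace GoodU

variable {σ : F →+* F} {p : ℕ} {i : F} {R : Subgroup (GL (Fin 4) F)} {c : GL (Fin 4) F}

/-- elements of order `p`: unitary transvections -/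
theorem fwd_unipU [Fintype F] [Fact p.Prime] [CharP F p] (hU : GoodU σ p i R c) (hodd : Odd p)
    (a b x₀ : F) (ha : σ a = a) (hb : σ b = b) (hab : a * a + b * b = -1) (hx₀ : σ x₀ ≠ x₀)
    (hall : AllFixU p R p) : False := by
  have hG := hU.good
  obtain ⟨a', ha'def⟩ : ∃ a' : F, a' = x₀ - σ x₀ := ⟨_, rfl⟩
  have ha'σ : σ a' = -a' := by
    rw [ha'def, map_sub, hU.hσ]
    ring
  have ha'0 : a' ≠ 0 := by
    intro h
    apply hx₀
    rw [ha'def] at h
    exact (sub_eq_zero.mp h).symm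
  have hxv : ((xUu a' a b hab : GL (Fin 4) F) : Matrix (Fin 4) (Fin 4) F) = 1 + Nm a' a b := rfl
  have hxp : xUu a' a b hab ^ p = 1 := by
    apply Units.ext
    rw [Units.val_pow_eq_pow_val, Units.val_one]
    exact one_add_Nm_pow a' a b hab p
  have hxU : sT σ (1 + Nm a' a b) * (1 + Nm a' a b) = 1 := by
    rw [sT_add, sT_one, sT_Nm σ a' a b ha'σ ha hb]
    have e : (1 + -Nm a' a b) * (1 + Nm a' a b) = 1 - Nm a' a b * Nm a' a b := by noncomm_ring
    rw [e, Nm_sq a' a b hab, sub_zero]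
  have hdet : (1 + Nm a' a b).det = 1 := by
    have h1 := congrArg Matrix.det (one_add_Nm_pow a' a b hab p)
    rw [Matrix.det_pow, Matrix.det_one] at h1
    have h2 : ((1 + Nm a' a b).det - 1) ^ p = 0 := by
      rw [sub_pow_char, h1, one_pow, sub_self]
    exact sub_eq_zero.mp (pow_eq_zero_iff (Fact.out : p.Prime).ne_zero |>.mp h2)
  have hx1 : xUu a' a b hab ∈ Cfsg.GU 4 F p ⊓ Cfsg.Geo.specialLinear (Fin 4) F :=
    Subgroup.mem_inf.mpr ⟨(mem_GU_iff_sT hU.hσq hU.hσ _).mpr hxU,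
      (Cfsg.Agent.Lib.Helper99.mem_specialLinear_iff _).mpr hdet⟩
  have hns : ∀ z : F, ((xUu a' a b hab : GL (Fin 4) F) : Matrix (Fin 4) (Fin 4) F)
      ≠ z • (1 : Matrix (Fin 4) (Fin 4) F) := by
    intro z h
    have h00 := congrFun (congrFun h 0) 0
    have h33 := congrFun (congrFun h 3) 3
    rw [hxv] at h00 h33
    simp [Nm] at h00 h33
    apply ha'0
    rw [← h33] at h00
    linear_combination h00
  obtain ⟨g, _, hg⟩ := hall _ hx1 ⟨1, by rw [hxp, Units.val_one, one_smul]⟩ hns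
  have hyp : (g⁻¹ * xUu a' a b hab * g) ^ p = 1 := by
    rw [conj_pow'', hxp, mul_one, inv_mul_cancel]
  have e : ((g⁻¹ * xUu a' a b hab * g : GL (Fin 4) F) : Matrix (Fin 4) (Fin 4) F) - 1
      = ((g⁻¹ : GL (Fin 4) F) : Matrix (Fin 4) (Fin 4) F) * Nm a' a b
        * (g : Matrix (Fin 4) (Fin 4) F) := by
    rw [Units.val_mul, Units.val_mul, hxv, Matrix.mul_add, Matrix.add_mul, Matrix.mul_one,
      Units.inv_mul]
    abel
  have hN : (((g⁻¹ * xUu a' a b hab * g : GL (Fin 4) F) : Matrix (Fin 4) (Fin 4) F) - 1)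
      * (((g⁻¹ * xUu a' a b hab * g : GL (Fin 4) F) : Matrix (Fin 4) (Fin 4) F) - 1) = 0 := by
    rw [e]
    exact conj_sq_zero _ _ _ (Units.mul_inv g) (Nm_sq a' a b hab)
  have hrk : ∀ M : Matrix (Fin 4) (Fin 4) F,
      (((g⁻¹ * xUu a' a b hab * g : GL (Fin 4) F) : Matrix (Fin 4) (Fin 4) F) - 1) * M
        * (((g⁻¹ * xUu a' a b hab * g : GL (Fin 4) F) : Matrix (Fin 4) (Fin 4) F) - 1)
      = (M * (((g⁻¹ * xUu a' a b hab * g : GL (Fin 4) F) : Matrix (Fin 4) (Fin 4) F) - 1)).trace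
        • (((g⁻¹ * xUu a' a b hab * g : GL (Fin 4) F) : Matrix (Fin 4) (Fin 4) F) - 1) := by
    intro M
    rw [e]
    exact conj_rank_one _ _ _ (Nm_rank a' a b) M
  obtain ⟨l, hl⟩ := hG.no_transv _ hg hN hrk p hodd hyp
  exact hns l (conj_scalar g _ l hl)

/-- primes at least seven -/
theorem fwd_largeU [Fintype F] (hU : GoodU σ p i R c) (r : ℕ) [Fact r.Prime] (hr7 : 7 ≤ r)
    (hdvd : r ∣ Nat.card
      (Cfsg.GU 4 F p ⊓ Cfsg.Geo.specialLinear (Fin 4) F : Subgroup (GL (Fin 4) F)))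
    (hall : AllFixU p R r) : False := by
  have hG := hU.good
  obtain ⟨x₀, hx₀⟩ :=
    exists_prime_orderOf_dvd_card'
      (G := (Cfsg.GU 4 F p ⊓ Cfsg.Geo.specialLinear (Fin 4) F : Subgroup (GL (Fin 4) F))) r hdvd
  have hx1 : (x₀ : GL (Fin 4) F) ∈ Cfsg.GU 4 F p ⊓ Cfsg.Geo.specialLinear (Fin 4) F := x₀.2
  have hxr : (x₀ : GL (Fin 4) F) ^ r = 1 := by
    rw [← Subgroup.coe_pow, ← hx₀, pow_orderOf_eq_one, Subgroup.coe_one]
  have hns : ∀ z : F, ((x₀ : GL (Fin 4) F) : Matrix (Fin 4) (Fin 4) F)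
      ≠ z • (1 : Matrix (Fin 4) (Fin 4) F) := by
    intro z h
    have hdet := (Cfsg.Agent.Lib.Helper99.mem_specialLinear_iff _).mp (Subgroup.mem_inf.mp hx1).2
    rw [h, Matrix.det_smul, Matrix.det_one, mul_one, Fintype.card_fin] at hdet
    have h4 : (x₀ : GL (Fin 4) F) ^ 4 = 1 := by
      apply Units.ext
      rw [Units.val_pow_eq_pow_val, h, _root_.smul_pow, one_pow, hdet, one_smul, Units.val_one]
    have ho : orderOf (x₀ : GL (Fin 4) F) = r := by rw [Subgroup.orderOf_coe, hx₀]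
    have hd : orderOf (x₀ : GL (Fin 4) F) ∣ 4 := orderOf_dvd_of_pow_eq_one h4
    rw [ho] at hd
    have hle : r ≤ 4 := Nat.le_of_dvd (by norm_num) hd
    omega
  obtain ⟨g, _, hg⟩ := hall _ hx1 ⟨1, by rw [hxr, Units.val_one, one_smul]⟩ hns
  have hyr : (g⁻¹ * (x₀ : GL (Fin 4) F) * g) ^ r = 1 := by
    rw [conj_pow'', hxr, mul_one, inv_mul_cancel]
  obtain ⟨l, hl⟩ := hG.no_large _ hg r hr7 hyr
  exact hns l (conj_scalar g _ l hl)

/-- order three when `p ≡ 2 (mod 3)` -/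
theorem fwd_threeU [Fintype F] [Fact p.Prime] [CharP F p] (hU : GoodU σ p i R c)
    (hF : Fintype.card F = p ^ 2) (h3 : (3 : F) ≠ 0) (hp3 : p % 3 = 2)
    (hall : AllFixU p R 3) : False := by
  have hG := hU.good
  have h2 := hG.h2
  have hdvd : 3 ∣ Fintype.card F - 1 := by
    rw [hF]
    have h1 : p ^ 2 % 3 = 1 := by rw [Nat.pow_mod, hp3]
    omega
  obtain ⟨ω, hω⟩ := exists_omega (F := F) hdvd
  have hω3 : ω ^ 3 = 1 := by linear_combination (ω - 1) * hω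
  have hσω : σ ω = ω * ω := by
    rw [hU.hσq]
    obtain ⟨k, hk⟩ : ∃ k, p = 3 * k + 2 := ⟨p / 3, by omega⟩
    rw [hk, pow_add, pow_mul, hω3, one_pow, one_mul, pow_two]
  have hxU : sT σ (x3m ω) * x3m ω = 1 := by
    rw [sT_x3m σ ω hσω]
    exact mul_eq_one_comm.mp (x3m_mul_inv ω hω)
  have hx1 : x3u ω hω ∈ Cfsg.GU 4 F p ⊓ Cfsg.Geo.specialLinear (Fin 4) F :=
    Subgroup.mem_inf.mpr ⟨(mem_GU_iff_sT hU.hσq hU.hσ _).mpr hxU,
      (Cfsg.Agent.Lib.Helper99.mem_specialLinear_iff _).mpr (x3m_det ω hω)⟩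
  have hx3 : x3u ω hω ^ 3 = 1 := by
    apply Units.ext
    rw [Units.val_pow_eq_pow_val]
    exact x3m_pow ω hω
  have hns : ∀ z : F, ((x3u ω hω : GL (Fin 4) F) : Matrix (Fin 4) (Fin 4) F)
      ≠ z • (1 : Matrix (Fin 4) (Fin 4) F) := by
    intro z h
    have h00 := congrFun (congrFun h 0) 0
    have h33 := congrFun (congrFun h 3) 3
    have e0 : ((x3u ω hω : GL (Fin 4) F) : Matrix (Fin 4) (Fin 4) F) 0 0 = ω := by
      show x3m ω 0 0 = ω
      simp [x3m]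
    have e3 : ((x3u ω hω : GL (Fin 4) F) : Matrix (Fin 4) (Fin 4) F) 3 3 = 1 := by
      show x3m ω 3 3 = 1
      simp [x3m]
    rw [e0] at h00
    rw [e3] at h33
    simp at h00 h33
    apply h3
    rw [h00, ← h33] at hω
    linear_combination hω
  obtain ⟨g, _, hg⟩ := hall _ hx1 ⟨1, by rw [hx3, Units.val_one, one_smul]⟩ hns
  obtain ⟨y, hy⟩ : ∃ y, y = g⁻¹ * x3u ω hω * g := ⟨_, rfl⟩
  rw [← hy] at hg
  have hy3 : y ^ 3 = 1 := by rw [hy, conj_pow'', hx3, mul_one, inv_mul_cancel]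
  have hH := hG.H_of_pow y hg 3 (by decide) (by intro g'; rw [hy3, mul_one, one_mul])
  have hcount := hG.count y hg hH
  have ht1 : (y : Matrix (Fin 4) (Fin 4) F).trace = ω + ω + ω + 1 := by
    rw [hy, conj_trace]
    exact x3m_trace ω
  have ht2 : ((y⁻¹ : GL (Fin 4) F) : Matrix (Fin 4) (Fin 4) F).trace
      = ω * ω + ω * ω + ω * ω + 1 := by
    rw [hy, conj_inv', conj_trace]
    exact x3im_trace ω
  rw [ht1, ht2] at hcount
  rcases hG.card_three y hg hy3 with h | h | h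
  · rw [h] at hcount
    push_cast at hcount
    have e : (2 : F) * 2 * 2 * 3 = 0 := by
      linear_combination hcount - (36 * (ω - 1) + 12) * hω
    exact absurd e (mul_ne_zero (mul_ne_zero (mul_ne_zero h2 h2) h2) h3)
  · rw [h] at hcount
    push_cast at hcount
    have e : (2 : F) * 2 * 3 = 0 := by
      linear_combination hcount - (36 * (ω - 1) + 12) * hω
    exact absurd e (mul_ne_zero (mul_ne_zero h2 h2) h3)
  · rw [h] at hcount
    push_cast at hcount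
    have e : (2 : F) * 2 * 3 * 3 = 0 := by
      linear_combination (36 * (ω - 1) + 12) * hω - hcount
    exact absurd e (mul_ne_zero (mul_ne_zero (mul_ne_zero h2 h2) h3) h3)

/-- order five when `p ≡ ±1 (mod 5)` -/
theorem fwd_fiveU [Fintype F] [Fact p.Prime] [CharP F p] (hU : GoodU σ p i R c)
    (hF : Fintype.card F = p ^ 2) (hp4 : p % 4 = 3) (h5 : (5 : F) ≠ 0)
    (hp5 : p % 5 = 1 ∨ p % 5 = 4) (t : F) (ht : 2 * t = 1)
    (hall : AllFixU p R 5) : False := by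
  have hG := hU.good
  have h2 := hG.h2
  have hσt : σ t = t := sigma_half σ h2 t ht
  obtain ⟨τ, hτ, hστ⟩ := exists_tauU p σ hU.hσq hp4 hp5 t ht hσt
  obtain ⟨α, hαdef⟩ : ∃ α : F, α = τ * t := ⟨_, rfl⟩
  have hα : 4 * (α * α) + 2 * α - 1 = 0 := by
    rw [hαdef]
    linear_combination hτ + (2 * t * τ * τ + τ * τ + τ) * ht
  have hσα : σ α = α := by rw [hαdef, map_mul, hστ, hσt]
  have hσy : σ (1 - α * α) = 1 - α * α := by rw [map_sub, map_one, map_mul, hσα]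
  obtain ⟨β, β', hβ, hσβ, hσβ'⟩ := exists_beta p hF σ hU.hσq hU.hσ (1 - α * α) hσy
  have hxU : sT σ (x5Um α β β') * x5Um α β β' = 1 := by
    rw [sT_x5Um σ α β β' hσα hσβ hσβ']
    exact mul_eq_one_comm.mp (x5Um_mul_inv α β β' hβ)
  have hx1 : x5Uu α β β' hβ ∈ Cfsg.GU 4 F p ⊓ Cfsg.Geo.specialLinear (Fin 4) F :=
    Subgroup.mem_inf.mpr ⟨(mem_GU_iff_sT hU.hσq hU.hσ _).mpr hxU,
      (Cfsg.Agent.Lib.Helper99.mem_specialLinear_iff _).mpr (x5Um_det α β β' hβ)⟩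
  have hx5 : x5Uu α β β' hβ ^ 5 = 1 := by
    apply Units.ext
    rw [Units.val_pow_eq_pow_val]
    exact x5Um_pow α β β' hβ hα
  have hns : ∀ z : F, ((x5Uu α β β' hβ : GL (Fin 4) F) : Matrix (Fin 4) (Fin 4) F)
      ≠ z • (1 : Matrix (Fin 4) (Fin 4) F) := by
    intro z h
    have h00 := congrFun (congrFun h 0) 0
    have h33 := congrFun (congrFun h 3) 3
    have e0 : ((x5Uu α β β' hβ : GL (Fin 4) F) : Matrix (Fin 4) (Fin 4) F) 0 0 = α := by
      show x5Um α β β' 0 0 = α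
      simp [x5Um]
    have e3 : ((x5Uu α β β' hβ : GL (Fin 4) F) : Matrix (Fin 4) (Fin 4) F) 3 3 = 1 := by
      show x5Um α β β' 3 3 = 1
      simp [x5Um]
    rw [e0] at h00
    rw [e3] at h33
    simp at h00 h33
    apply h5
    rw [h00, ← h33] at hα
    linear_combination hα
  obtain ⟨g, _, hg⟩ := hall _ hx1 ⟨1, by rw [hx5, Units.val_one, one_smul]⟩ hns
  obtain ⟨y, hy⟩ : ∃ y, y = g⁻¹ * x5Uu α β β' hβ * g := ⟨_, rfl⟩
  rw [← hy] at hg
  have hy5 : y ^ 5 = 1 := by rw [hy, conj_pow'', hx5, mul_one, inv_mul_cancel]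
  have hH := hG.H_of_pow y hg 5 (by decide) (by intro g'; rw [hy5, mul_one, one_mul])
  have hcount := hG.count y hg hH
  have ht1 : (y : Matrix (Fin 4) (Fin 4) F).trace = α + α + 1 + 1 := by
    rw [hy, conj_trace]
    exact x5Um_trace α β β'
  have ht2 : ((y⁻¹ : GL (Fin 4) F) : Matrix (Fin 4) (Fin 4) F).trace = α + α + 1 + 1 := by
    rw [hy, conj_inv', conj_trace]
    exact x5Uim_trace α β β'
  rw [ht1, ht2] at hcount
  rcases hG.card_five y hg hy5 with h | h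
  · rw [h] at hcount
    push_cast at hcount
    have e : (2 : F) * 2 * 5 = 0 := by
      linear_combination (6 * α - 1) * hcount - (4 * (6 * α - 1) + 36) * hα
    exact absurd e (mul_ne_zero (mul_ne_zero h2 h2) h5)
  · obtain ⟨l, hl⟩ := hG.scalar_of_card y h
    rw [hy] at hl
    exact hns l (conj_scalar g _ l hl)

end GoodU

end U4

end Cfsg.Agent.Lib.Helper98.Symp
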