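import Cfsg.Agent.Lib.Helper98.T73Defs
import Cfsg.Agent.Lib.Helper89.T73CHARP
import Cfsg.Agent.Lib.Helper41.T73CHARPU
import Cfsg.Agent.Lib.Helper32.T73TYPC
import Cfsg.Agent.Lib.Helper23.T73TAUSGN
import Cfsg.Agent.Lib.Helper11.T73CYC
import Cfsg.Agent.Lib.Helper60.T73WIEX
import Cfsg.Agent.Lib.Helper31.T73WIBD
import Cfsg.Agent.Lib.Helper39.T73SPLIT
import Cfsg.Agent.Lib.Helper75.T73RTIODD
import Cfsg.Agent.Lib.Helper51.T73RTIEVEN
import Cfsg.Agent.Lib.Helper28.T73TI2TS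
import Cfsg.Agent.Lib.Helper90.T73SUMTS
import Cfsg.Agent.Lib.Helper42.T73HALF
import Cfsg.Agent.Lib.Helper94.T73BOUND
import Cfsg.Agent.Lib.Helper61.T73COUNTQ
import Cfsg.Agent.Lib.Helper43.T73FIXCNT
import Cfsg.Agent.Lib.Helper79.T73NOISO
import Cfsg.Agent.Lib.Helper37.T73LFIX
import Cfsg.Agent.Lib.Helper17.T73LEX
import Cfsg.Agent.Lib.Helper76.T73LCNT
import Cfsg.Agent.Lib.Helper14.T73ARITHODD
import Cfsg.Agent.Lib.Helper66.T73ARITHFWD
import Cfsg.Agent.Lib.Helper12.T73ARITHBWD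

/-!
# Project T73: `lfix` and `lex` from the cores of helper37 / helper17 and the leaf pieces
-/

set_option autoImplicit false

namespace Cfsg.Agent.Lib.Helper98.T73

open Cfsg.Agent.Lib.Helper47 Module Polynomial

universe u

variable {F : Type u} [Field F] [Fintype F] {V : Type u} [AddCommGroup V] [Module F V]
  [FiniteDimensional F V] {Q : V → F} {B : V → V → F}

/-- LFIX -/
theorem lfix (hf : QFacts F) (hQ : IsQuad Q B) (hnd : Nondeg B) (d : ℕ) (hd : 1 ≤ d)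
    (hdim : finrank F V = 2 * d) (ε : ℤ) (hε : ε = 1 ∨ ε = -1) (htyp : IsTyp Q (d - 1) ε)
    (p : ℕ) [Fact p.Prime] [CharP F p] (r : ℕ) (hr : r.Prime) (hr2 : r ≠ 2) (hrp : r ≠ p)
    (g : Module.End F V) (hgQ : QI Q g) (hg : g ^ r = 1) (hg1 : g ≠ 1) :
    ∃ A : ℕ, Valid ε (orderOf ((Fintype.card F : ℕ) : ZMod r)) d A ∧
      ∀ j w : ℕ, JC (orderOf ((Fintype.card F : ℕ) : ZMod r))
          ((r - 1) / orderOf ((Fintype.card F : ℕ) : ZMod r)) A j →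
        w ≤ om ε (orderOf ((Fintype.card F : ℕ) : ZMod r)) d A →
        ∃ W : Submodule F V, finrank F W = orderOf ((Fintype.card F : ℕ) : ZMod r) * j + w ∧
          TS Q W ∧ W.map g ≤ W := by
  obtain ⟨u, hu, hdual, hu0, hch, hR⟩ := charp hQ hnd p r hr hr2 hrp g hgQ hg hg1
  have hdim' : finrank F V = 2 * (d - 1) + 2 := by omega
  obtain ⟨t1, -, t3, t4⟩ :=
    typc hf hQ hnd (d - 1) hdim' ε htyp p r hr hr2 hrp g hgQ hg u hu hdual hu0 hch
  have htau := tau_sgn p r hr hr2 hrp u hu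
  have hir : orderOf ((Fintype.card F : ℕ) : ZMod r) ∣ r - 1 := by
    haveI : Fact r.Prime := ⟨hr⟩
    apply ZMod.orderOf_dvd_card_sub_one
    intro h0
    rw [ZMod.natCast_eq_zero_iff] at h0
    obtain ⟨n, hp, hn⟩ := FiniteField.card F p
    rw [hn] at h0
    exact hrp ((Nat.prime_dvd_prime_iff_eq hr hp).mp (hr.dvd_of_dvd_pow h0))
  exact lfix_core hQ d hdim ε r _ hir g u hu0 hR t1 t3 t4 htau
    (fun ho b hb => rti_odd hQ hnd p r hr hr2 hrp g hgQ hg ho b hb)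
    (fun he b hb => rti_even hQ hnd p r hr hr2 hrp g hgQ hg he b hb)
    (fun U hUR hUg hti => ti_ts hQ p r hr hrp g hgQ hg U hUR hUg hti)
    (fun e η hK w hw => sub_wi_exists hf hQ p _ e η hK w hw)
    (fun U U' h1 h2 h3 h4 h5 => sum_ts hQ p r hr hrp g hgQ hg U U' h1 h2 h3 h4 h5)

/-- LEX -/
theorem lex (hf : QFacts F) (hQ : IsQuad Q B) (hnd : Nondeg B) (d : ℕ) (hd : 1 ≤ d)
    (hdim : finrank F V = 2 * d) (ε : ℤ) (hε : ε = 1 ∨ ε = -1) (htyp : IsTyp Q (d - 1) ε)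
    (p : ℕ) [Fact p.Prime] [CharP F p] (r : ℕ) (hr : r.Prime) (hr2 : r ≠ 2) (hrp : r ≠ p)
    (A : ℕ) (hA : Valid ε (orderOf ((Fintype.card F : ℕ) : ZMod r)) d A) :
    ∃ g : Module.End F V, QI Q g ∧ g ^ r = 1 ∧ g ≠ 1 ∧
      finrank F (LinearMap.ker (g - 1))
        = 2 * d - orderOf ((Fintype.card F : ℕ) : ZMod r) * A ∧
      (∀ e : ℕ, 2 * d - orderOf ((Fintype.card F : ℕ) : ZMod r) * A = 2 * e + 2 →
        SubTyp Q B (LinearMap.ker (g - 1)) e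
          (ε * sgn (orderOf ((Fintype.card F : ℕ) : ZMod r)) A)) ∧
      ∀ W : Submodule F V, TS Q W → W.map g ≤ W →
        ∃ j w : ℕ, JC (orderOf ((Fintype.card F : ℕ) : ZMod r))
            ((r - 1) / orderOf ((Fintype.card F : ℕ) : ZMod r)) A j ∧
          w ≤ om ε (orderOf ((Fintype.card F : ℕ) : ZMod r)) d A ∧
          finrank F W = orderOf ((Fintype.card F : ℕ) : ZMod r) * j + w :=
  lex_of p r hr hr2 hrp (cyc_supply p r hr hr2 hrp)
    (fun g hg u hu e hch => charp_unique p r hr hrp g hg u hu e hch)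
    (fun k hk ε' ht g hgQ hg u hu hdual hu0 hch =>
      typc hf hQ hnd k hk ε' ht p r hr hr2 hrp g hgQ hg u hu hdual hu0 hch)
    (fun u hu => tau_sgn p r hr hr2 hrp u hu)
    (fun g hg W hW => split_inv p r hr hrp g hg W hW)
    (fun K e η hK U hUK hU => sub_wi_bound hf hQ K e η hK U hUK hU)
    (fun K U hK hUK hU => half_bound hQ K U hK hUK hU)
    (fun g hgQ hg hev u hu e hch f₀ hone U hUR hUg hU =>
      typed_bound hQ hnd p r hr hr2 hrp g hgQ hg hev u hu e hch f₀ hone U hUR hUg hU)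
    hf hQ hnd d hd hdim ε hε htyp A hA

/-- LCNT -/
theorem lcnt (hf : QFacts F) (hQ : IsQuad Q B) (hnd : Nondeg B) (d : ℕ) (hd : 2 ≤ d)
    (hdim : finrank F V = 2 * d) (ε : ℤ) (hε : ε = 1 ∨ ε = -1) (htyp : IsTyp Q (d - 1) ε)
    (p : ℕ) [Fact p.Prime] [CharP F p] (r : ℕ) (hr : r.Prime) (hr2 : r ≠ 2) (hrp : r ≠ p)
    (m : ℕ) (hm : 1 ≤ m) (hmd : m + 1 ≤ d)
    (hmi : m < orderOf ((Fintype.card F : ℕ) : ZMod r))
    (hrΩ : r ∣ Nat.card {W : Submodule F V // finrank F W = m ∧ TS Q W})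
    (hall : ∀ g : Module.End F V, QI Q g → g ^ r = 1 → g ≠ 1 →
      ∃ W : Submodule F V, finrank F W = m ∧ TS Q W ∧ W.map g ≤ W) : False :=
  lcnt_of (@wi_exists F _ _) (@exists_qi_of_dvd_card F _ _) (@lfix F _ _) (@lex F _ _)
    (@card_ts_modEq_fixed F _ _) (@no_qi_small F _ _) hf hQ hnd d hd hdim ε hε htyp p r hr hr2
    hrp m hm hmd hmi hrΩ hall

end Cfsg.Agent.Lib.Helper98.T73
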