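import Cfsg.Agent.Lib.Helper98.T73Asm

/-!
# Project T73: the criterion for odd primes `r ≠ p` (assembly)
-/

set_option autoImplicit false

namespace Cfsg.Agent.Lib.Helper98.T73

open Cfsg.Agent.Lib.Helper47 Module Polynomial

universe u

variable {F : Type u} [Field F] [Fintype F] {V : Type u} [AddCommGroup V] [Module F V]
  [FiniteDimensional F V] {Q : V → F} {B : V → V → F}

/-- `ord_r(q) ≥ 1` and `(r - 1) / ord_r(q) ≥ 1` for a prime `r ≠ p`. -/
theorem ord_facts (p : ℕ) [Fact p.Prime] [CharP F p] (r : ℕ) (hr : r.Prime) (hrp : r ≠ p) :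
    1 ≤ orderOf ((Fintype.card F : ℕ) : ZMod r) ∧
      1 ≤ (r - 1) / orderOf ((Fintype.card F : ℕ) : ZMod r) := by
  haveI : Fact r.Prime := ⟨hr⟩
  have hp : p.Prime := Fact.out
  obtain ⟨n, -, hn⟩ := FiniteField.card F p
  have hne : ((Fintype.card F : ℕ) : ZMod r) ≠ 0 := by
    intro h0
    rw [ZMod.natCast_eq_zero_iff] at h0
    rw [hn] at h0
    have := (Nat.prime_dvd_prime_iff_eq hr hp).mp (hr.dvd_of_dvd_pow h0)
    exact hrp this
  have hdvd : orderOf ((Fintype.card F : ℕ) : ZMod r) ∣ r - 1 := ZMod.orderOf_dvd_card_sub_one hne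
  have hpos : 0 < orderOf ((Fintype.card F : ℕ) : ZMod r) := by
    apply Nat.pos_of_ne_zero
    intro h0
    rw [h0, zero_dvd_iff] at hdvd
    have := hr.two_le
    omega
  refine ⟨hpos, ?_⟩
  have h1 : 0 < r - 1 := by have := hr.two_le; omega
  exact (Nat.one_le_div_iff hpos).mpr (Nat.le_of_dvd h1 hdvd)

/-- The criterion for odd primes `r ≠ p`: every isometry of order `r` of a nondegenerate
quadratic space of dimension `2d` and type `ε` fixes a totally singular `m`-space iff `Cond`. -/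
theorem odd_iff (hf : QFacts F) (hQ : IsQuad Q B) (hnd : Nondeg B) (d : ℕ) (hd : 2 ≤ d)
    (hdim : finrank F V = 2 * d) (ε : ℤ) (hε : ε = 1 ∨ ε = -1) (htyp : IsTyp Q (d - 1) ε)
    (p : ℕ) [Fact p.Prime] [CharP F p] (r : ℕ) (hr : r.Prime) (hr2 : r ≠ 2) (hrp : r ≠ p)
    (m : ℕ) (hm : 1 ≤ m) (hmd : m + 1 ≤ d)
    (hrΩ : r ∣ Nat.card {W : Submodule F V // finrank F W = m ∧ TS Q W}) :
    (∀ g : Module.End F V, QI Q g → g ^ r = 1 → g ≠ 1 →
      ∃ W : Submodule F V, finrank F W = m ∧ TS Q W ∧ W.map g ≤ W) ↔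
    Cond ε (orderOf ((Fintype.card F : ℕ) : ZMod r))
      ((r - 1) / orderOf ((Fintype.card F : ℕ) : ZMod r)) d m := by
  obtain ⟨hi1, ht1⟩ := ord_facts (F := F) p r hr hrp
  have key : (∀ g : Module.End F V, QI Q g → g ^ r = 1 → g ≠ 1 →
      ∃ W : Submodule F V, finrank F W = m ∧ TS Q W ∧ W.map g ≤ W) ↔
      Model ε (orderOf ((Fintype.card F : ℕ) : ZMod r))
        ((r - 1) / orderOf ((Fintype.card F : ℕ) : ZMod r)) d m := by
    constructor
    · intro hall A hA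
      obtain ⟨g, hgQ, hg, hg1, -, -, hbd⟩ :=
        lex hf hQ hnd d (by omega) hdim ε hε htyp p r hr hr2 hrp A hA
      obtain ⟨W, hW, hts, hinv⟩ := hall g hgQ hg hg1
      obtain ⟨j, w, hj, hw, hfin⟩ := hbd W hts hinv
      exact ⟨j, w, hj, hw, by rw [← hW, hfin]⟩
    · intro hM g hgQ hg hg1
      obtain ⟨A, hA, hfix⟩ := lfix hf hQ hnd d (by omega) hdim ε hε htyp p r hr hr2 hrp g hgQ hg hg1
      obtain ⟨j, w, hj, hw, hm'⟩ := hM A hA
      obtain ⟨W, h1, h2, h3⟩ := hfix j w hj hw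
      exact ⟨W, by rw [h1, hm'], h2, h3⟩
  constructor
  · intro hall
    have hM := key.mp hall
    have him : orderOf ((Fintype.card F : ℕ) : ZMod r) ≤ m := by
      by_contra hlt
      exact lcnt hf hQ hnd d hd hdim ε hε htyp p r hr hr2 hrp m hm hmd (by omega) hrΩ hall
    by_cases hev : Even (orderOf ((Fintype.card F : ℕ) : ZMod r))
    · exact arith_even_fwd ε hε _ _ d m hi1 hev ht1 hd hm hmd him hM
    · exact (arith_odd ε hε _ _ d m hi1 hev hd hm hmd).mp ⟨him, hM⟩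
  · intro hC
    apply key.mpr
    by_cases hev : Even (orderOf ((Fintype.card F : ℕ) : ZMod r))
    · exact arith_even_bwd ε hε _ _ d m hi1 hev ht1 hd hm hmd hC
    · exact ((arith_odd ε hε _ _ d m hi1 hev hd hm hmd).mpr hC).2

end Cfsg.Agent.Lib.Helper98.T73
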