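import Mathlib

/-!
S5979 piece TD-COMB: a counting lemma on products `dA k * dB l`.
-/

set_option autoImplicit false

namespace Cfsg.Agent.Lib.Helper98.TD

theorem comb_simple {L : Type*} [Field L] {a b : ℕ} (ha : 2 ≤ a) (hab : a < b)
    (dA : Fin a → L) (dB : Fin b → L)
    (h1 : ∀ θ : L, θ ≠ 1 → a * b ≤ Nat.card {p : Fin a × Fin b // dA p.1 * dB p.2 ≠ θ} + 1)
    (h2 : Nat.card {p : Fin a × Fin b // dA p.1 * dB p.2 ≠ 1} ≤ b)
    (h3 : 0 < Nat.card {p : Fin a × Fin b // dA p.1 * dB p.2 ≠ 1}) : False := by
  classical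
  have hcard : ∀ θ : L, Nat.card {p : Fin a × Fin b // dA p.1 * dB p.2 ≠ θ} =
      (Finset.univ.filter (fun p : Fin a × Fin b => dA p.1 * dB p.2 ≠ θ)).card := by
    intro θ
    rw [Nat.card_eq_fintype_card, Fintype.card_subtype]
  have huniv : (Finset.univ : Finset (Fin a × Fin b)).card = a * b := by
    rw [Finset.card_univ, Fintype.card_prod, Fintype.card_fin, Fintype.card_fin]
  -- two different positions with the same product: the product is `1`
  have K1 : ∀ p p' : Fin a × Fin b, p ≠ p' → dA p.1 * dB p.2 = dA p'.1 * dB p'.2 →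
      dA p.1 * dB p.2 = 1 := by
    intro p p' hpp heq
    by_contra hθ
    have h := h1 _ hθ
    rw [hcard] at h
    have hsub : Finset.univ.filter (fun s : Fin a × Fin b => dA s.1 * dB s.2 ≠ dA p.1 * dB p.2) ⊆
        (Finset.univ.erase p).erase p' := by
      intro s hs
      rw [Finset.mem_filter] at hs
      rw [Finset.mem_erase, Finset.mem_erase]
      refine ⟨?_, ?_, Finset.mem_univ _⟩
      · rintro rfl
        exact hs.2 heq.symm
      · rintro rfl
        exact hs.2 rfl
    have hle := Finset.card_le_card hsub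
    rw [Finset.card_erase_of_mem (by
      rw [Finset.mem_erase]; exact ⟨hpp.symm, Finset.mem_univ _⟩),
      Finset.card_erase_of_mem (Finset.mem_univ _), huniv] at hle
    have : 2 ≤ a * b := by nlinarith
    omega
  -- some product is not `1`
  have K2 : ∃ p : Fin a × Fin b, dA p.1 * dB p.2 ≠ 1 := by
    have : Nonempty {p : Fin a × Fin b // dA p.1 * dB p.2 ≠ 1} := by
      by_contra hne
      rw [not_nonempty_iff] at hne
      rw [Nat.card_of_isEmpty] at h3
      exact lt_irrefl _ h3
    obtain ⟨p, hp⟩ := this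
    exact ⟨p, hp⟩
  have l0 : Fin b := ⟨0, by omega⟩
  have hl01 : (⟨0, by omega⟩ : Fin b) ≠ ⟨1, by omega⟩ := by
    intro h; exact absurd (Fin.mk.inj h) (by norm_num)
  have hk01 : (⟨0, by omega⟩ : Fin a) ≠ ⟨1, by omega⟩ := by
    intro h; exact absurd (Fin.mk.inj h) (by norm_num)
  -- `dA` is injective
  have hAinj : Function.Injective dA := by
    intro k k' hkk
    by_contra hne
    have hall : ∀ l : Fin b, dA k * dB l = 1 := by
      intro l
      exact K1 (k, l) (k', l) (fun h => hne (Prod.mk.inj h).1) (by simp [hkk])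
    have hA0 : dA k ≠ 0 := by
      intro h0
      have := hall l0
      rw [h0, zero_mul] at this
      exact zero_ne_one this
    have hBc : ∀ l l' : Fin b, dB l = dB l' := by
      intro l l'
      have e1 := hall l
      have e2 := hall l'
      exact mul_left_cancel₀ hA0 (e1.trans e2.symm)
    obtain ⟨p, hp⟩ := K2
    apply hp
    obtain ⟨l', hl'⟩ : ∃ l' : Fin b, l' ≠ p.2 := by
      by_cases h : p.2 = ⟨0, by omega⟩
      · exact ⟨⟨1, by omega⟩, by rw [h]; exact hl01.symm⟩
      · exact ⟨⟨0, by omega⟩, fun h' => h h'.symm⟩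
    exact K1 (p.1, p.2) (p.1, l') (fun h => hl' (Prod.mk.inj h).2.symm) (by
      show dA p.1 * dB p.2 = dA p.1 * dB l'
      rw [hBc p.2 l'])
  -- `dB` is injective
  have hBinj : Function.Injective dB := by
    intro l l' hll
    by_contra hne
    have hall : ∀ k : Fin a, dA k * dB l = 1 := by
      intro k
      exact K1 (k, l) (k, l') (fun h => hne (Prod.mk.inj h).2) (by simp [hll])
    have hB0 : dB l ≠ 0 := by
      intro h0
      have := hall ⟨0, by omega⟩
      rw [h0, mul_zero] at this
      exact zero_ne_one this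
    have : dA ⟨0, by omega⟩ = dA ⟨1, by omega⟩ :=
      mul_right_cancel₀ hB0 ((hall _).trans (hall _).symm)
    exact hk01 (hAinj this)
  -- count the positions with product `1`
  have hG : (Finset.univ.filter (fun p : Fin a × Fin b => dA p.1 * dB p.2 = 1)).card ≤ a := by
    have hinj : Set.InjOn (fun p : Fin a × Fin b => p.1)
        (Finset.univ.filter (fun p : Fin a × Fin b => dA p.1 * dB p.2 = 1) : Set (Fin a × Fin b)) := by
      intro p hp p' hp' h
      have hp1 : dA p.1 * dB p.2 = 1 := by simpa using hp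
      have hp1' : dA p'.1 * dB p'.2 = 1 := by simpa using hp'
      have h' : p.1 = p'.1 := h
      have hA0 : dA p.1 ≠ 0 := by
        intro h0
        rw [h0, zero_mul] at hp1
        exact zero_ne_one hp1
      rw [← h'] at hp1'
      have : dB p.2 = dB p'.2 := mul_left_cancel₀ hA0 (hp1.trans hp1'.symm)
      exact Prod.ext h' (hBinj this)
    have := Finset.card_le_card_of_injOn (fun p : Fin a × Fin b => p.1)
      (fun p _ => Finset.mem_univ p.1) hinj
    rwa [Finset.card_univ, Fintype.card_fin] at this
  have hsplit := Finset.card_filter_add_card_filter_not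
    (s := (Finset.univ : Finset (Fin a × Fin b))) (fun p : Fin a × Fin b => dA p.1 * dB p.2 = 1)
  rw [huniv] at hsplit
  rw [hcard] at h2
  have hfe : (Finset.univ.filter (fun p : Fin a × Fin b => dA p.1 * dB p.2 ≠ 1)) =
      (Finset.univ.filter (fun p : Fin a × Fin b => ¬ dA p.1 * dB p.2 = 1)) := rfl
  rw [hfe] at h2
  have hab' : a + b < a * b := by nlinarith
  omega

end Cfsg.Agent.Lib.Helper98.TD
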