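import Mathlib
import Cfsg.Prelude.Def_GeometricClasses

/-!
S5979 pieces TD-SPEC and TD-RK: ranks of Kronecker products of diagonalisable matrices, and
invariance of ranks under conjugation, reindexing and base change.
-/

set_option autoImplicit false

namespace Cfsg.Agent.Lib.Helper98.TD

open Matrix Polynomial
open scoped Kronecker

universe u

theorem rank_kron_diag {L : Type*} [Field L] {a b : ℕ}
    (A PA : Matrix (Fin a) (Fin a) L) (B PB : Matrix (Fin b) (Fin b) L) (dA : Fin a → L) (dB : Fin b → L)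
    (hPA : IsUnit PA.det) (hPB : IsUnit PB.det)
    (hA : A * PA = PA * Matrix.diagonal dA) (hB : B * PB = PB * Matrix.diagonal dB) (θ : L) :
    (A ⊗ₖ B - θ • (1 : Matrix (Fin a × Fin b) (Fin a × Fin b) L)).rank =
      Nat.card {p : Fin a × Fin b // dA p.1 * dB p.2 ≠ θ} := by
  classical
  have hP : IsUnit (PA ⊗ₖ PB).det := by
    rw [Matrix.det_kronecker]
    exact (hPA.pow _).mul (hPB.pow _)
  have hcomm : (A ⊗ₖ B - θ • (1 : Matrix (Fin a × Fin b) (Fin a × Fin b) L)) * (PA ⊗ₖ PB) =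
      (PA ⊗ₖ PB) * Matrix.diagonal (fun p : Fin a × Fin b => dA p.1 * dB p.2 - θ) := by
    have hd : Matrix.diagonal (fun p : Fin a × Fin b => dA p.1 * dB p.2 - θ) =
        Matrix.diagonal dA ⊗ₖ Matrix.diagonal dB -
          θ • (1 : Matrix (Fin a × Fin b) (Fin a × Fin b) L) := by
      rw [Matrix.diagonal_kronecker_diagonal]
      ext p p'
      by_cases h : p = p'
      · subst h; simp
      · simp [Matrix.diagonal_apply_ne _ h, Matrix.one_apply_ne h]
    rw [hd, sub_mul, mul_sub, ← Matrix.mul_kronecker_mul, ← Matrix.mul_kronecker_mul, hA, hB,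
      Matrix.smul_mul, Matrix.mul_smul, one_mul, mul_one]
  have h1 : (A ⊗ₖ B - θ • (1 : Matrix (Fin a × Fin b) (Fin a × Fin b) L)).rank =
      ((A ⊗ₖ B - θ • (1 : Matrix (Fin a × Fin b) (Fin a × Fin b) L)) * (PA ⊗ₖ PB)).rank :=
    (Matrix.rank_mul_eq_left_of_isUnit_det _ _ hP).symm
  rw [h1, hcomm, Matrix.rank_mul_eq_right_of_isUnit_det _ _ hP, Matrix.rank_diagonal,
    Nat.card_eq_fintype_card]
  apply Fintype.card_congr
  exact Equiv.subtypeEquivRight (fun p => by rw [Ne, Ne, sub_eq_zero])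

theorem rank_conj_reindex {F : Type u} [Field F] {n a b : ℕ} (e : Fin n ≃ Fin a × Fin b)
    (Q : GL (Fin n) F) (T : Matrix (Fin a × Fin b) (Fin a × Fin b) F)
    (L : Type u) [Field L] [Algebra F L] (θ : L) :
    ((((Q : Matrix (Fin n) (Fin n) F) * Matrix.reindex e.symm e.symm T *
        ((Q⁻¹ : GL (Fin n) F) : Matrix (Fin n) (Fin n) F)).map (algebraMap F L)) -
        θ • (1 : Matrix (Fin n) (Fin n) L)).rank =
      (T.map (algebraMap F L) - θ • (1 : Matrix (Fin a × Fin b) (Fin a × Fin b) L)).rank := by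
  set f : F →+* L := algebraMap F L with hf
  set Q1 : Matrix (Fin n) (Fin n) L := (Q : Matrix (Fin n) (Fin n) F).map f with hQ1
  set Q2 : Matrix (Fin n) (Fin n) L := ((Q⁻¹ : GL (Fin n) F) : Matrix (Fin n) (Fin n) F).map f
    with hQ2
  have h12 : Q1 * Q2 = 1 := by
    rw [hQ1, hQ2, ← Matrix.map_mul, ← Units.val_mul, mul_inv_cancel, Units.val_one]
    ext i j
    simp [Matrix.one_apply, apply_ite f]
  have h21 : Q2 * Q1 = 1 := by
    rw [hQ1, hQ2, ← Matrix.map_mul, ← Units.val_mul, inv_mul_cancel, Units.val_one]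
    ext i j
    simp [Matrix.one_apply, apply_ite f]
  have hu1 : IsUnit Q1.det := Matrix.isUnit_det_of_right_inverse h12
  have hu2 : IsUnit Q2.det := Matrix.isUnit_det_of_left_inverse h12
  have hre : (Matrix.reindex e.symm e.symm T).map f = Matrix.reindex e.symm e.symm (T.map f) := by
    ext i j
    simp [Matrix.reindex_apply]
  have hone : Matrix.reindex e.symm e.symm (T.map f -
        θ • (1 : Matrix (Fin a × Fin b) (Fin a × Fin b) L)) =
      Matrix.reindex e.symm e.symm (T.map f) - θ • (1 : Matrix (Fin n) (Fin n) L) := by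
    ext i j
    simp [Matrix.reindex_apply, Matrix.one_apply]
  have hmain : ((Q : Matrix (Fin n) (Fin n) F) * Matrix.reindex e.symm e.symm T *
        ((Q⁻¹ : GL (Fin n) F) : Matrix (Fin n) (Fin n) F)).map f -
        θ • (1 : Matrix (Fin n) (Fin n) L) =
      Q1 * Matrix.reindex e.symm e.symm (T.map f -
        θ • (1 : Matrix (Fin a × Fin b) (Fin a × Fin b) L)) * Q2 := by
    rw [Matrix.map_mul, Matrix.map_mul, hre, hone, mul_sub, sub_mul,
      Matrix.mul_smul, Matrix.smul_mul, mul_one, h12]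
  rw [hmain, Matrix.rank_mul_eq_left_of_isUnit_det _ _ hu2,
    Matrix.rank_mul_eq_right_of_isUnit_det _ _ hu1, Matrix.rank_reindex]

end Cfsg.Agent.Lib.Helper98.TD
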