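import Mathlib
import Cfsg.Prelude.Def_GeometricClasses
import Cfsg.Agent.Lib.Helper98.TDBase
import Cfsg.Agent.Lib.Helper98.TDSPEC
import Cfsg.Agent.Lib.Helper98.TDCOMB
import Cfsg.Agent.Lib.Helper12.TDR
import Cfsg.Agent.Lib.Helper2.TDDIAG
import Cfsg.Agent.Lib.Helper75.TDC2
import Cfsg.Agent.Lib.Helper58.TDCYC
import Cfsg.Agent.Lib.Helper58.TDBLK

/-!
S5979: elements of `SL_n` that are not conjugate into a tensor product subgroup.
-/

set_option autoImplicit false

namespace Cfsg.Agent.Lib.Helper98.TD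

open Matrix Polynomial
open scoped Kronecker

universe u

section Transfer

variable {F : Type*} [Field F] {n a b : ℕ}

theorem kron_pow (A : Matrix (Fin a) (Fin a) F) (B : Matrix (Fin b) (Fin b) F) (k : ℕ) :
    (A ⊗ₖ B) ^ k = (A ^ k) ⊗ₖ (B ^ k) := by
  induction k with
  | zero => simp
  | succ k ih => rw [pow_succ, pow_succ, pow_succ, ih, Matrix.mul_kronecker_mul]

theorem reindex_smul_one (e : Fin n ≃ Fin a × Fin b) (s : F) :
    Matrix.reindex e.symm e.symm (s • (1 : Matrix (Fin a × Fin b) (Fin a × Fin b) F)) =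
      s • (1 : Matrix (Fin n) (Fin n) F) := by
  ext i j
  simp [Matrix.reindex_apply, Matrix.one_apply]

/-- Transfer of `x ^ r = z` to the Kronecker factor. -/
theorem pow_transfer (e : Fin n ≃ Fin a × Fin b) (x Q : GL (Fin n) F)
    (T : Matrix (Fin a × Fin b) (Fin a × Fin b) F)
    (hx : (x : Matrix (Fin n) (Fin n) F) = (Q : Matrix (Fin n) (Fin n) F) *
        Matrix.reindex e.symm e.symm T * ((Q⁻¹ : GL (Fin n) F) : Matrix (Fin n) (Fin n) F))
    (r : ℕ) (z : F)
    (hxr : (x : Matrix (Fin n) (Fin n) F) ^ r = z • (1 : Matrix (Fin n) (Fin n) F)) :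
    T ^ r = z • (1 : Matrix (Fin a × Fin b) (Fin a × Fin b) F) := by
  have hR : Matrix.reindex e.symm e.symm T =
      (((Q⁻¹ * x * Q : GL (Fin n) F)) : Matrix (Fin n) (Fin n) F) := by
    rw [Units.val_mul, Units.val_mul, hx]
    simp only [mul_assoc]
    rw [← Units.val_mul, inv_mul_cancel, Units.val_one, mul_one, ← mul_assoc, ← Units.val_mul,
      inv_mul_cancel, Units.val_one, one_mul]
  have hRr : (Matrix.reindex e.symm e.symm T) ^ r = z • (1 : Matrix (Fin n) (Fin n) F) := by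
    rw [hR, ← Units.val_pow_eq_pow_val,
      show Q⁻¹ * x * Q = Q⁻¹ * x * (Q⁻¹)⁻¹ by rw [inv_inv], conj_pow, inv_inv, Units.val_mul,
      Units.val_mul, Units.val_pow_eq_pow_val, hxr, Matrix.mul_smul, Matrix.smul_mul, mul_one,
      ← Units.val_mul, inv_mul_cancel, Units.val_one]
  have h1 : Matrix.reindexAlgEquiv F F e.symm (T ^ r) =
      Matrix.reindexAlgEquiv F F e.symm (z • (1 : Matrix (Fin a × Fin b) (Fin a × Fin b) F)) := by
    rw [map_pow, Matrix.coe_reindexAlgEquiv, hRr, reindex_smul_one]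
  exact (Matrix.reindexAlgEquiv F F e.symm).injective h1

/-- If the Kronecker factor is scalar, so is `x`. -/
theorem scalar_transfer (e : Fin n ≃ Fin a × Fin b) (x Q : GL (Fin n) F)
    (T : Matrix (Fin a × Fin b) (Fin a × Fin b) F)
    (hx : (x : Matrix (Fin n) (Fin n) F) = (Q : Matrix (Fin n) (Fin n) F) *
        Matrix.reindex e.symm e.symm T * ((Q⁻¹ : GL (Fin n) F) : Matrix (Fin n) (Fin n) F))
    (s : F) (hT : T = s • (1 : Matrix (Fin a × Fin b) (Fin a × Fin b) F)) :
    (x : Matrix (Fin n) (Fin n) F) = s • (1 : Matrix (Fin n) (Fin n) F) := by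
  rw [hx, hT, reindex_smul_one, Matrix.mul_smul, Matrix.smul_mul, mul_one, ← Units.val_mul,
    mul_inv_cancel, Units.val_one]

theorem map_self (M : Matrix (Fin n) (Fin n) F) : M.map (algebraMap F F) = M := by
  ext i j
  simp

theorem map_self' (M : Matrix (Fin a × Fin b) (Fin a × Fin b) F) : M.map (algebraMap F F) = M := by
  ext i j
  simp

end Transfer

/-- Rank criterion: an element with `rank (x - c) < a` that is not scalar has no conjugate in the
tensor product subgroup. -/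
theorem not_conj_of_rank {F : Type u} [Field F] {n a b : ℕ} (hab : a ≤ b)
    (e : Fin n ≃ Fin a × Fin b) (P : GL (Fin n) F) (x : GL (Fin n) F) (c : F) (hc : c ≠ 0)
    (hr : ((x : Matrix (Fin n) (Fin n) F) - c • (1 : Matrix (Fin n) (Fin n) F)).rank < a)
    (hns : ∀ z : F, (x : Matrix (Fin n) (Fin n) F) ≠ z • (1 : Matrix (Fin n) (Fin n) F))
    (g : GL (Fin n) F) : g⁻¹ * x * g ∉ Cfsg.Geo.tensorProductSubgroup a b e P := by
  intro h
  obtain ⟨A, B, Q, hx⟩ := mem_tensor_nf e P x g h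
  have h1 := rank_conj_reindex e Q ((A : Matrix (Fin a) (Fin a) F) ⊗ₖ (B : Matrix (Fin b) (Fin b) F))
    F c
  rw [← hx, map_self, map_self'] at h1
  rw [h1] at hr
  obtain ⟨s, hs⟩ := kron_scalar_of_rank_lt hab _ _ c hc hr
  exact hns s (scalar_transfer e x Q _ hx s hs)

/-- The case where no small factor of `X ^ r - 1` exists. -/
theorem not_conj_of_c2 {F : Type u} [Field F] [Finite F] {n a b : ℕ} (ha : 1 ≤ a) (hab : a ≤ b)
    (e : Fin n ≃ Fin a × Fin b) (P : GL (Fin n) F) (r : ℕ) (hr : (r : F) ≠ 0)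
    (hC2 : ∀ g : F[X], g.Monic → g ∣ X ^ r - 1 → g.eval 1 ≠ 0 → g.natDegree ≤ b → g = 1)
    (x : GL (Fin n) F) (z : F) (hz : z ≠ 0)
    (hxr : (x : Matrix (Fin n) (Fin n) F) ^ r = z • (1 : Matrix (Fin n) (Fin n) F))
    (hns : ∀ z : F, (x : Matrix (Fin n) (Fin n) F) ≠ z • (1 : Matrix (Fin n) (Fin n) F))
    (g : GL (Fin n) F) : g⁻¹ * x * g ∉ Cfsg.Geo.tensorProductSubgroup a b e P := by
  intro h
  obtain ⟨A, B, Q, hx⟩ := mem_tensor_nf e P x g h
  have hT := pow_transfer e x Q _ hx r z hxr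
  rw [kron_pow] at hT
  obtain ⟨α, β, hα, hβ, hA, hB⟩ := scalar_of_kron_scalar _ _ z hz (by omega) (by omega) hT
  obtain ⟨c, hc⟩ := scalar_of_pow_scalar r b hr (by omega) hC2 hab
    (A : Matrix (Fin a) (Fin a) F) α hα hA
  obtain ⟨c', hc'⟩ := scalar_of_pow_scalar r b hr (by omega) hC2 le_rfl
    (B : Matrix (Fin b) (Fin b) F) β hβ hB
  refine hns (c * c') (scalar_transfer e x Q _ hx (c * c') ?_)
  rw [hc, hc']
  ext ⟨i, j⟩ ⟨i', j'⟩
  simp only [Matrix.kroneckerMap_apply, Matrix.smul_apply, Matrix.one_apply, smul_eq_mul,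
    Prod.mk.injEq]
  by_cases h1 : i = i' <;> by_cases h2 : j = j' <;> simp [h1, h2]

/-- The spectral criterion. -/
theorem not_conj_of_spec {F : Type u} [Field F] {n a b : ℕ} (ha : 2 ≤ a) (hab : a < b)
    (hn : n = a * b) (e : Fin n ≃ Fin a × Fin b) (P : GL (Fin n) F) (x : GL (Fin n) F)
    (r : ℕ) (hr : (r : F) ≠ 0)
    (hxr : (x : Matrix (Fin n) (Fin n) F) ^ r = 1)
    (hs : ∀ (L : Type u) [Field L] [Algebra F L],
      (∀ θ : L, θ ≠ 1 → n ≤ ((x : Matrix (Fin n) (Fin n) F).map (algebraMap F L) -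
          θ • (1 : Matrix (Fin n) (Fin n) L)).rank + 1) ∧
      ((x : Matrix (Fin n) (Fin n) F).map (algebraMap F L) - 1).rank ≤ b ∧
      0 < ((x : Matrix (Fin n) (Fin n) F).map (algebraMap F L) - 1).rank)
    (g : GL (Fin n) F) : g⁻¹ * x * g ∉ Cfsg.Geo.tensorProductSubgroup a b e P := by
  intro h
  obtain ⟨A, B, Q, hx⟩ := mem_tensor_nf e P x g h
  have hT := pow_transfer e x Q _ hx r 1 (by rw [hxr, one_smul])
  rw [kron_pow] at hT
  obtain ⟨α, β, hα, hβ, hA, hB⟩ := scalar_of_kron_scalar _ _ 1 one_ne_zero (by omega) (by omega) hT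
  let L := AlgebraicClosure F
  let f : F →+* L := algebraMap F L
  have hf : Function.Injective f := (algebraMap F L).injective
  have hrL : (r : L) ≠ 0 := by
    have : (r : L) = f (r : F) := (map_natCast f r).symm
    rw [this]
    exact fun h0 => hr (hf (by rw [h0, map_zero]))
  have hmapA : ((A : Matrix (Fin a) (Fin a) F).map f) ^ r =
      (f α) • (1 : Matrix (Fin a) (Fin a) L) := by
    have : ((A : Matrix (Fin a) (Fin a) F).map f) ^ r =
        ((A : Matrix (Fin a) (Fin a) F) ^ r).map f := by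
      rw [← RingHom.mapMatrix_apply, ← RingHom.mapMatrix_apply, map_pow]
    rw [this, hA]
    ext i j
    simp [Matrix.one_apply, apply_ite f]
  have hmapB : ((B : Matrix (Fin b) (Fin b) F).map f) ^ r =
      (f β) • (1 : Matrix (Fin b) (Fin b) L) := by
    have : ((B : Matrix (Fin b) (Fin b) F).map f) ^ r =
        ((B : Matrix (Fin b) (Fin b) F) ^ r).map f := by
      rw [← RingHom.mapMatrix_apply, ← RingHom.mapMatrix_apply, map_pow]
    rw [this, hB]
    ext i j
    simp [Matrix.one_apply, apply_ite f]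
  have hfα : f α ≠ 0 := fun h0 => hα (hf (by rw [h0, map_zero]))
  have hfβ : f β ≠ 0 := fun h0 => hβ (hf (by rw [h0, map_zero]))
  obtain ⟨PA, dA, hPA, hAd⟩ := exists_diag _ r hrL (f α) hfα hmapA
  obtain ⟨PB, dB, hPB, hBd⟩ := exists_diag _ r hrL (f β) hfβ hmapB
  have hkm : ((A : Matrix (Fin a) (Fin a) F) ⊗ₖ (B : Matrix (Fin b) (Fin b) F)).map f =
      ((A : Matrix (Fin a) (Fin a) F).map f) ⊗ₖ ((B : Matrix (Fin b) (Fin b) F).map f) := by
    ext ⟨i, j⟩ ⟨i', j'⟩
    simp [Matrix.kroneckerMap_apply]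
  have hrank : ∀ θ : L, ((x : Matrix (Fin n) (Fin n) F).map (algebraMap F L) -
      θ • (1 : Matrix (Fin n) (Fin n) L)).rank =
      Nat.card {p : Fin a × Fin b // dA p.1 * dB p.2 ≠ θ} := by
    intro θ
    have h1 := rank_conj_reindex e Q
      ((A : Matrix (Fin a) (Fin a) F) ⊗ₖ (B : Matrix (Fin b) (Fin b) F)) L θ
    rw [← hx] at h1
    rw [h1]
    have h2 := rank_kron_diag _ PA _ PB dA dB hPA hPB hAd hBd θ
    rw [← h2]
    congr 2
  obtain ⟨h1, h2, h3⟩ := hs L
  refine comb_simple ha hab dA dB ?_ ?_ ?_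
  · intro θ hθ
    rw [← hrank θ, ← hn]
    exact h1 θ hθ
  · have := hrank 1
    rw [one_smul] at this
    rw [← this]
    exact h2
  · have := hrank 1
    rw [one_smul] at this
    rw [← this]
    exact h3

/-- The block companion element. -/
theorem exists_comp_elt {F : Type u} [Field F] (n b r : ℕ) (g : F[X]) (hg : g.Monic)
    (hdvd : g ∣ X ^ r - 1) (h1 : g.eval 1 ≠ 0) (hdeg1 : 1 ≤ g.natDegree) (hdegb : g.natDegree ≤ b)
    (hbn : b ≤ n) :
    ∃ M : Matrix (Fin n) (Fin n) F, M ^ r = 1 ∧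
      ∀ (L : Type u) [Field L] [Algebra F L],
        (∀ θ : L, θ ≠ 1 → n ≤ (M.map (algebraMap F L) - θ • (1 : Matrix (Fin n) (Fin n) L)).rank + 1) ∧
        (M.map (algebraMap F L) - 1).rank ≤ b ∧ 0 < (M.map (algebraMap F L) - 1).rank := by
  obtain ⟨C, hC, hCr⟩ := exists_cyclic_mat g hg hdeg1
  have hCpow : C ^ r = 1 := by
    obtain ⟨k, hk⟩ := hdvd
    have : Polynomial.aeval C (X ^ r - 1 : F[X]) = 0 := by
      rw [hk, map_mul, hC, zero_mul]
    rw [map_sub, map_pow, Polynomial.aeval_X, map_one] at this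
    exact sub_eq_zero.mp this
  -- `C - 1` is invertible
  have hC1 : IsUnit (C - 1).det := by
    have hdiv := Polynomial.mul_divByMonic_eq_iff_isRoot (p := g - Polynomial.C (g.eval 1))
      (a := (1 : F))
    have hroot : (g - Polynomial.C (g.eval 1)).IsRoot 1 := by
      simp [Polynomial.IsRoot]
    have hfact := hdiv.mpr hroot
    set h := (g - Polynomial.C (g.eval 1)) /ₘ (X - Polynomial.C 1) with hh
    have hg' : g = (X - Polynomial.C 1) * h + Polynomial.C (g.eval 1) := by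
      rw [hfact]; ring
    have hev : (C - 1) * Polynomial.aeval C h + (g.eval 1) • (1 : Matrix _ _ F) = 0 := by
      have := congrArg (Polynomial.aeval C) hg'
      rw [hC, map_add, map_mul, map_sub, Polynomial.aeval_X, Polynomial.aeval_C, map_one,
        Polynomial.aeval_C, Algebra.algebraMap_eq_smul_one] at this
      exact this.symm
    have hinv : (C - 1) * ((-(g.eval 1)⁻¹) • Polynomial.aeval C h) = 1 := by
      rw [Matrix.mul_smul]
      have : (C - 1) * Polynomial.aeval C h = -((g.eval 1) • (1 : Matrix _ _ F)) :=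
        eq_neg_of_add_eq_zero_left hev
      rw [this, smul_neg, neg_smul, neg_neg, smul_smul, inv_mul_cancel₀ h1, one_smul]
    exact Matrix.isUnit_det_of_right_inverse hinv
  obtain ⟨M, hMdet, hMpow, hMr⟩ := exists_block_mat (le_trans hdegb hbn) C
  refine ⟨M, hMpow r hCpow, ?_⟩
  intro L _ _
  obtain ⟨hr1, hr2⟩ := hMr L
  have hCL : (C.map (algebraMap F L) - 1).rank = g.natDegree := by
    have hmap : C.map (algebraMap F L) - 1 = (C - 1).map (algebraMap F L) := by
      ext i j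
      simp [Matrix.one_apply, apply_ite (algebraMap F L)]
    have hu : IsUnit ((C - 1).map (algebraMap F L)).det := by
      have : ((C - 1).map (algebraMap F L)).det = algebraMap F L (C - 1).det := by
        rw [← RingHom.mapMatrix_apply, ← RingHom.map_det]
      rw [this]
      exact hC1.map _
    rw [hmap, Matrix.rank_of_isUnit _ ((Matrix.isUnit_iff_isUnit_det _).mpr hu), Fintype.card_fin]
  refine ⟨?_, ?_, ?_⟩
  · intro θ hθ
    rw [hr1 θ hθ]
    have := hCr L θ
    omega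
  · rw [hr2, hCL]; exact hdegb
  · rw [hr2, hCL]; omega

end Cfsg.Agent.Lib.Helper98.TD
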