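import Mathlib
import Cfsg.Prelude.Def_GeometricClasses
import Cfsg.Agent.Lib.Helper98.TDMain

/-!
S5980 (tensor decomposition stabilisers in `Sp_{2d}`): normal forms over a general index type.
-/

set_option autoImplicit false

namespace Cfsg.Agent.Lib.Helper98.TD2

open Matrix Polynomial
open scoped Kronecker

universe u

section Base

variable {F : Type*} [Field F] {ι : Type} [Fintype ι] [DecidableEq ι] {a b : ℕ}

/-- Normal form of an element conjugate into a tensor product subgroup. -/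
theorem mem_tensor_nf (e : ι ≃ Fin a × Fin b)
    (P : GL ι F) (x g : GL ι F)
    (h : g⁻¹ * x * g ∈ Cfsg.Geo.tensorProductSubgroup a b e P) :
    ∃ (A : GL (Fin a) F) (B : GL (Fin b) F) (Q : GL ι F),
      (x : Matrix ι ι F) = (Q : Matrix ι ι F) *
        Matrix.reindex e.symm e.symm
          ((A : Matrix (Fin a) (Fin a) F) ⊗ₖ (B : Matrix (Fin b) (Fin b) F)) *
        ((Q⁻¹ : GL ι F) : Matrix ι ι F) := by
  obtain ⟨g', ⟨k, ⟨A, B, hk⟩, rfl⟩, hg'⟩ := h
  refine ⟨A, B, g * P, ?_⟩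
  have hx : x = (g * P) * (Cfsg.Geo.glReindex e.symm).toMonoidHom k * (g * P)⁻¹ := by
    have h1 : P * (Cfsg.Geo.glReindex e.symm).toMonoidHom k * P⁻¹ = g⁻¹ * x * g := by
      simpa [MulAut.conj_apply] using hg'
    calc x = g * (g⁻¹ * x * g) * g⁻¹ := by group
      _ = g * (P * (Cfsg.Geo.glReindex e.symm).toMonoidHom k * P⁻¹) * g⁻¹ := by rw [h1]
      _ = _ := by group
  rw [← hk]
  conv_lhs => rw [hx]
  rw [Units.val_mul, Units.val_mul]
  rfl

/-- Elements of the tensor product subgroup from Kronecker products. -/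
theorem mem_tensor_of (e : ι ≃ Fin a × Fin b)
    (P : GL ι F) (A : GL (Fin a) F) (B : GL (Fin b) F) :
    ∃ y ∈ Cfsg.Geo.tensorProductSubgroup a b e P,
      (y : Matrix ι ι F) = (P : Matrix ι ι F) *
        Matrix.reindex e.symm e.symm
          ((A : Matrix (Fin a) (Fin a) F) ⊗ₖ (B : Matrix (Fin b) (Fin b) F)) *
        ((P⁻¹ : GL ι F) : Matrix ι ι F) := by
  have hAB : IsUnit ((A : Matrix (Fin a) (Fin a) F) ⊗ₖ (B : Matrix (Fin b) (Fin b) F)) := by
    rw [Matrix.isUnit_iff_isUnit_det, Matrix.det_kronecker]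
    exact ((Matrix.isUnit_iff_isUnit_det _).mp A.isUnit).pow _ |>.mul
      (((Matrix.isUnit_iff_isUnit_det _).mp B.isUnit).pow _)
  obtain ⟨k, hk⟩ := hAB
  refine ⟨P * (Cfsg.Geo.glReindex e.symm).toMonoidHom k * P⁻¹, ?_, ?_⟩
  · refine ⟨(Cfsg.Geo.glReindex e.symm).toMonoidHom k, ⟨k, ⟨A, B, hk⟩, rfl⟩, ?_⟩
    simp [MulAut.conj_apply]
  · rw [Units.val_mul, Units.val_mul, ← hk]
    rfl

theorem reindex_smul_one (e : ι ≃ Fin a × Fin b) (s : F) :
    Matrix.reindex e.symm e.symm (s • (1 : Matrix (Fin a × Fin b) (Fin a × Fin b) F)) =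
      s • (1 : Matrix ι ι F) := by
  ext i j
  simp [Matrix.reindex_apply, Matrix.one_apply]

/-- Transfer of `x ^ r = z` to the Kronecker factor. -/
theorem pow_transfer (e : ι ≃ Fin a × Fin b) (x Q : GL ι F)
    (T : Matrix (Fin a × Fin b) (Fin a × Fin b) F)
    (hx : (x : Matrix ι ι F) = (Q : Matrix ι ι F) *
        Matrix.reindex e.symm e.symm T * ((Q⁻¹ : GL ι F) : Matrix ι ι F))
    (r : ℕ) (z : F)
    (hxr : (x : Matrix ι ι F) ^ r = z • (1 : Matrix ι ι F)) :
    T ^ r = z • (1 : Matrix (Fin a × Fin b) (Fin a × Fin b) F) := by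
  have hR : Matrix.reindex e.symm e.symm T =
      (((Q⁻¹ * x * Q : GL ι F)) : Matrix ι ι F) := by
    rw [Units.val_mul, Units.val_mul, hx]
    simp only [mul_assoc]
    rw [← Units.val_mul, inv_mul_cancel, Units.val_one, mul_one, ← mul_assoc, ← Units.val_mul,
      inv_mul_cancel, Units.val_one, one_mul]
  have hRr : (Matrix.reindex e.symm e.symm T) ^ r = z • (1 : Matrix ι ι F) := by
    rw [hR, ← Units.val_pow_eq_pow_val,
      show Q⁻¹ * x * Q = Q⁻¹ * x * (Q⁻¹)⁻¹ by rw [inv_inv], conj_pow, inv_inv, Units.val_mul,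
      Units.val_mul, Units.val_pow_eq_pow_val, hxr, Matrix.mul_smul, Matrix.smul_mul, mul_one,
      ← Units.val_mul, inv_mul_cancel, Units.val_one]
  have h1 : Matrix.reindexAlgEquiv F F e.symm (T ^ r) =
      Matrix.reindexAlgEquiv F F e.symm (z • (1 : Matrix (Fin a × Fin b) (Fin a × Fin b) F)) := by
    rw [map_pow, Matrix.coe_reindexAlgEquiv, hRr, reindex_smul_one]
  exact (Matrix.reindexAlgEquiv F F e.symm).injective h1

/-- Transfer of a power of the Kronecker factor to `x`. -/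
theorem pow_transfer' (e : ι ≃ Fin a × Fin b) (x Q : GL ι F)
    (T : Matrix (Fin a × Fin b) (Fin a × Fin b) F)
    (hx : (x : Matrix ι ι F) = (Q : Matrix ι ι F) *
        Matrix.reindex e.symm e.symm T * ((Q⁻¹ : GL ι F) : Matrix ι ι F))
    (r : ℕ) (z : F)
    (hT : T ^ r = z • (1 : Matrix (Fin a × Fin b) (Fin a × Fin b) F)) :
    (x : Matrix ι ι F) ^ r = z • (1 : Matrix ι ι F) := by
  have h1 : (Matrix.reindex e.symm e.symm T) ^ r = z • (1 : Matrix ι ι F) := by
    have := congrArg (Matrix.reindexAlgEquiv F F e.symm) hT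
    rw [map_pow, Matrix.coe_reindexAlgEquiv, reindex_smul_one] at this
    exact this
  obtain ⟨R, hR⟩ : ∃ R : Matrix ι ι F, R = Matrix.reindex e.symm e.symm T := ⟨_, rfl⟩
  rw [← hR] at hx h1
  have h2 : ∀ k : ℕ, (x : Matrix ι ι F) ^ k = (Q : Matrix ι ι F) * R ^ k *
      ((Q⁻¹ : GL ι F) : Matrix ι ι F) := by
    intro k
    induction k with
    | zero => rw [pow_zero, pow_zero, mul_one, ← Units.val_mul, mul_inv_cancel, Units.val_one]
    | succ k ih =>
      rw [pow_succ, ih, hx, pow_succ]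
      simp only [mul_assoc]
      congr 2
      rw [← mul_assoc ((Q⁻¹ : GL ι F) : Matrix ι ι F), ← Units.val_mul, inv_mul_cancel,
        Units.val_one, one_mul]
  rw [h2, h1, Matrix.mul_smul, Matrix.smul_mul, mul_one, ← Units.val_mul, mul_inv_cancel,
    Units.val_one]

/-- If the Kronecker factor is scalar, so is `x`. -/
theorem scalar_transfer (e : ι ≃ Fin a × Fin b) (x Q : GL ι F)
    (T : Matrix (Fin a × Fin b) (Fin a × Fin b) F)
    (hx : (x : Matrix ι ι F) = (Q : Matrix ι ι F) *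
        Matrix.reindex e.symm e.symm T * ((Q⁻¹ : GL ι F) : Matrix ι ι F))
    (s : F) (hT : T = s • (1 : Matrix (Fin a × Fin b) (Fin a × Fin b) F)) :
    (x : Matrix ι ι F) = s • (1 : Matrix ι ι F) := by
  rw [hx, hT, reindex_smul_one, Matrix.mul_smul, Matrix.smul_mul, mul_one, ← Units.val_mul,
    mul_inv_cancel, Units.val_one]

/-- The characteristic polynomial of `x` is that of the Kronecker factor. -/
theorem charpoly_transfer (e : ι ≃ Fin a × Fin b) (x Q : GL ι F)
    (T : Matrix (Fin a × Fin b) (Fin a × Fin b) F)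
    (hx : (x : Matrix ι ι F) = (Q : Matrix ι ι F) *
        Matrix.reindex e.symm e.symm T * ((Q⁻¹ : GL ι F) : Matrix ι ι F)) :
    (x : Matrix ι ι F).charpoly = T.charpoly := by
  rw [hx]
  have := Matrix.charpoly_units_conj Q (Matrix.reindex e.symm e.symm T)
  rw [show ((Q : Matrix ι ι F))⁻¹ = ((Q⁻¹ : GL ι F) : Matrix ι ι F)
    from (Matrix.coe_units_inv Q).symm] at this
  rw [this, Matrix.charpoly_reindex]

/-- The rank of `x - c` is that of the Kronecker factor minus `c`. -/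
theorem rank_transfer (e : ι ≃ Fin a × Fin b) (x Q : GL ι F)
    (T : Matrix (Fin a × Fin b) (Fin a × Fin b) F)
    (hx : (x : Matrix ι ι F) = (Q : Matrix ι ι F) *
        Matrix.reindex e.symm e.symm T * ((Q⁻¹ : GL ι F) : Matrix ι ι F)) (c : F) :
    ((x : Matrix ι ι F) - c • (1 : Matrix ι ι F)).rank =
      (T - c • (1 : Matrix (Fin a × Fin b) (Fin a × Fin b) F)).rank := by
  have h1 : (x : Matrix ι ι F) - c • (1 : Matrix ι ι F) = (Q : Matrix ι ι F) *
      Matrix.reindex e.symm e.symm (T - c • (1 : Matrix (Fin a × Fin b) (Fin a × Fin b) F)) *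
      ((Q⁻¹ : GL ι F) : Matrix ι ι F) := by
    have h2 : Matrix.reindex e.symm e.symm
        (T - c • (1 : Matrix (Fin a × Fin b) (Fin a × Fin b) F)) =
        Matrix.reindex e.symm e.symm T - c • (1 : Matrix ι ι F) := by
      rw [← reindex_smul_one e c]
      rfl
    rw [h2, Matrix.mul_sub, Matrix.sub_mul, ← hx, Matrix.mul_smul, Matrix.smul_mul, mul_one,
      ← Units.val_mul, mul_inv_cancel, Units.val_one]
  have hQ : IsUnit (Q : Matrix ι ι F).det := (Matrix.isUnit_iff_isUnit_det _).mp Q.isUnit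
  have hQ' : IsUnit ((Q⁻¹ : GL ι F) : Matrix ι ι F).det :=
    (Matrix.isUnit_iff_isUnit_det _).mp (Q⁻¹).isUnit
  rw [h1, Matrix.rank_mul_eq_left_of_isUnit_det _ _ hQ', Matrix.rank_mul_eq_right_of_isUnit_det _ _ hQ,
    Matrix.rank_reindex]

/-- Non-zero scalars lie in the tensor product subgroup. -/
theorem scalar_mem_tensor (e : ι ≃ Fin a × Fin b) (P x : GL ι F) (z : F)
    (hz : z ≠ 0)
    (hx : (x : Matrix ι ι F) = z • (1 : Matrix ι ι F)) :
    x ∈ Cfsg.Geo.tensorProductSubgroup a b e P := by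
  have hdet : (z • (1 : Matrix (Fin a) (Fin a) F)).det ≠ 0 := by
    rw [Matrix.det_smul, Matrix.det_one, mul_one]
    exact pow_ne_zero _ hz
  obtain ⟨y, hyT, hy⟩ := mem_tensor_of e P (Matrix.GeneralLinearGroup.mkOfDetNeZero _ hdet)
    (1 : GL (Fin b) F)
  have hk : (z • (1 : Matrix (Fin a) (Fin a) F)) ⊗ₖ (1 : Matrix (Fin b) (Fin b) F) =
      z • (1 : Matrix (Fin a × Fin b) (Fin a × Fin b) F) := by
    rw [Matrix.smul_kronecker, Matrix.one_kronecker_one]
  have hyx : y = x := by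
    apply Units.ext
    rw [hy, hx]
    show (P : Matrix ι ι F) * Matrix.reindex e.symm e.symm
      ((z • (1 : Matrix (Fin a) (Fin a) F)) ⊗ₖ (1 : Matrix (Fin b) (Fin b) F)) * _ = _
    rw [hk, reindex_smul_one, Matrix.mul_smul, Matrix.smul_mul, mul_one, ← Units.val_mul,
      mul_inv_cancel, Units.val_one]
  rw [← hyx]
  exact hyT

end Base

end Cfsg.Agent.Lib.Helper98.TD2
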