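import Mathlib
import Cfsg.Prelude.Def_GeometricClasses
import Cfsg.Agent.Lib.Helper98.TDBase

/-!
S5979 piece TD-IFY: elements of the tensor product subgroup with prescribed characteristic
polynomial.
-/

set_option autoImplicit false

namespace Cfsg.Agent.Lib.Helper98.TD

open Matrix Polynomial
open scoped Kronecker

theorem tdify_charpoly_one_kron {F : Type*} [Field F] {b : ℕ} (B : Matrix (Fin b) (Fin b) F) :
    ((1 : Matrix (Fin 2) (Fin 2) F) ⊗ₖ B).charpoly = B.charpoly ^ 2 := by
  have h : ((1 : Matrix (Fin 2) (Fin 2) F) ⊗ₖ B).charmatrix =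
      (1 : Matrix (Fin 2) (Fin 2) F[X]) ⊗ₖ B.charmatrix := by
    ext ⟨i, j⟩ ⟨i', j'⟩
    rw [Matrix.charmatrix_apply, Matrix.kroneckerMap_apply, Matrix.kroneckerMap_apply,
      Matrix.charmatrix_apply]
    by_cases hi : i = i'
    · subst hi
      by_cases hj : j = j'
      · subst hj; simp
      · have : ((i, j) : Fin 2 × Fin b) ≠ (i, j') := fun h => hj (Prod.mk.inj h).2
        simp [Matrix.diagonal_apply_ne _ this, Matrix.diagonal_apply_ne _ hj]
    · have : ((i, j) : Fin 2 × Fin b) ≠ (i', j') := fun h => hi (Prod.mk.inj h).1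
      simp [Matrix.diagonal_apply_ne _ this, Matrix.one_apply_ne hi]
  unfold Matrix.charpoly
  rw [h, Matrix.det_kronecker, Matrix.det_one, one_pow, one_mul, Fintype.card_fin]

theorem tdify_charpoly_kron_one {F : Type*} [Field F] {b : ℕ} (A : Matrix (Fin 2) (Fin 2) F) :
    (A ⊗ₖ (1 : Matrix (Fin b) (Fin b) F)).charpoly = A.charpoly ^ b := by
  have h : (A ⊗ₖ (1 : Matrix (Fin b) (Fin b) F)).charmatrix =
      A.charmatrix ⊗ₖ (1 : Matrix (Fin b) (Fin b) F[X]) := by
    ext ⟨i, j⟩ ⟨i', j'⟩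
    rw [Matrix.charmatrix_apply, Matrix.kroneckerMap_apply, Matrix.kroneckerMap_apply,
      Matrix.charmatrix_apply]
    by_cases hj : j = j'
    · subst hj
      by_cases hi : i = i'
      · subst hi; simp
      · have : ((i, j) : Fin 2 × Fin b) ≠ (i', j) := fun h => hi (Prod.mk.inj h).1
        simp [Matrix.diagonal_apply_ne _ this, Matrix.diagonal_apply_ne _ hi]
    · have : ((i, j) : Fin 2 × Fin b) ≠ (i', j') := fun h => hj (Prod.mk.inj h).2
      simp [Matrix.diagonal_apply_ne _ this, Matrix.one_apply_ne hj]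
  unfold Matrix.charpoly
  rw [h, Matrix.det_kronecker, Matrix.det_one, one_pow, mul_one, Fintype.card_fin]

/-- Transport of the two properties along conjugation and reindexing. -/
theorem tdify_transport {F : Type*} [Field F] {n b : ℕ} (e : Fin n ≃ Fin 2 × Fin b)
    (P : GL (Fin n) F) (T : Matrix (Fin 2 × Fin b) (Fin 2 × Fin b) F) (z : F)
    (hT : T * T = z • (1 : Matrix (Fin 2 × Fin b) (Fin 2 × Fin b) F))
    (y : GL (Fin n) F)
    (hy : (y : Matrix (Fin n) (Fin n) F) = (P : Matrix (Fin n) (Fin n) F) *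
        Matrix.reindex e.symm e.symm T * ((P⁻¹ : GL (Fin n) F) : Matrix (Fin n) (Fin n) F)) :
    (y : Matrix (Fin n) (Fin n) F).charpoly = T.charpoly ∧
      (y : Matrix (Fin n) (Fin n) F) * (y : Matrix (Fin n) (Fin n) F) =
        z • (1 : Matrix (Fin n) (Fin n) F) := by
  constructor
  · rw [hy]
    have := Matrix.charpoly_units_conj P (Matrix.reindex e.symm e.symm T)
    rw [show ((P : Matrix (Fin n) (Fin n) F))⁻¹ = ((P⁻¹ : GL (Fin n) F) : Matrix (Fin n) (Fin n) F)
      from (Matrix.coe_units_inv P).symm] at this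
    rw [this, Matrix.charpoly_reindex]
  · have hR : Matrix.reindex e.symm e.symm T * Matrix.reindex e.symm e.symm T =
        z • (1 : Matrix (Fin n) (Fin n) F) := by
      have h1 : Matrix.reindexAlgEquiv F F e.symm (T * T) =
          Matrix.reindexAlgEquiv F F e.symm (z • (1 : Matrix (Fin 2 × Fin b) (Fin 2 × Fin b) F)) := by
        rw [hT]
      rw [map_mul, map_smul, map_one, Matrix.coe_reindexAlgEquiv] at h1
      exact h1
    rw [hy]
    calc (P : Matrix (Fin n) (Fin n) F) * Matrix.reindex e.symm e.symm T *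
          ((P⁻¹ : GL (Fin n) F) : Matrix (Fin n) (Fin n) F) *
          ((P : Matrix (Fin n) (Fin n) F) * Matrix.reindex e.symm e.symm T *
          ((P⁻¹ : GL (Fin n) F) : Matrix (Fin n) (Fin n) F))
        = (P : Matrix (Fin n) (Fin n) F) * (Matrix.reindex e.symm e.symm T *
          (((P⁻¹ : GL (Fin n) F) : Matrix (Fin n) (Fin n) F) * (P : Matrix (Fin n) (Fin n) F)) *
          Matrix.reindex e.symm e.symm T) *
          ((P⁻¹ : GL (Fin n) F) : Matrix (Fin n) (Fin n) F) := by
          simp only [mul_assoc]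
      _ = z • (1 : Matrix (Fin n) (Fin n) F) := by
          rw [← Units.val_mul, inv_mul_cancel, Units.val_one, mul_one, hR, Matrix.mul_smul,
            Matrix.smul_mul, mul_one, ← Units.val_mul, mul_inv_cancel, Units.val_one]

theorem exists_mem_charpoly_split {F : Type*} [Field F] {n b : ℕ} (e : Fin n ≃ Fin 2 × Fin b)
    (P : GL (Fin n) F) (c : F) (hc : c ≠ 0) (s t : ℕ) (hst : s + t = b) :
    ∃ y ∈ Cfsg.Geo.tensorProductSubgroup 2 b e P,
      (y : Matrix (Fin n) (Fin n) F).charpoly = (X - C c) ^ (2 * s) * (X - C (-c)) ^ (2 * t) ∧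
      (y : Matrix (Fin n) (Fin n) F) * (y : Matrix (Fin n) (Fin n) F) =
        (c ^ 2) • (1 : Matrix (Fin n) (Fin n) F) := by
  classical
  let dN : ℕ → F := fun j => if j < s then c else -c
  let d : Fin b → F := fun j => dN j
  have hd2 : ∀ j, d j * d j = c ^ 2 := by
    intro j
    by_cases h : (j : ℕ) < s
    · simp only [d, dN, if_pos h]; ring
    · simp only [d, dN, if_neg h]; ring
  have hdet : (Matrix.diagonal d).det ≠ 0 := by
    rw [Matrix.det_diagonal, Finset.prod_ne_zero_iff]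
    intro j _ h0
    have := hd2 j
    rw [h0, mul_zero] at this
    exact pow_ne_zero 2 hc this.symm
  let Bu : GL (Fin b) F := Matrix.GeneralLinearGroup.mkOfDetNeZero (Matrix.diagonal d) hdet
  obtain ⟨y, hyH, hy⟩ := mem_tensor_of e P (1 : GL (Fin 2) F) Bu
  have hBu : (Bu : Matrix (Fin b) (Fin b) F) = Matrix.diagonal d := rfl
  rw [Units.val_one, hBu] at hy
  have hT : ((1 : Matrix (Fin 2) (Fin 2) F) ⊗ₖ Matrix.diagonal d) *
      ((1 : Matrix (Fin 2) (Fin 2) F) ⊗ₖ Matrix.diagonal d) =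
      (c ^ 2) • (1 : Matrix (Fin 2 × Fin b) (Fin 2 × Fin b) F) := by
    rw [← Matrix.mul_kronecker_mul, one_mul, Matrix.diagonal_mul_diagonal]
    have : (Matrix.diagonal fun i => d i * d i) = (c ^ 2) • (1 : Matrix (Fin b) (Fin b) F) := by
      rw [← Matrix.diagonal_one, ← Matrix.diagonal_smul]
      congr 1
      funext j
      simp [hd2 j]
    rw [this, Matrix.kronecker_smul, Matrix.one_kronecker_one]
  obtain ⟨h1, h2⟩ := tdify_transport e P _ (c ^ 2) hT y hy
  refine ⟨y, hyH, ?_, h2⟩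
  rw [h1, tdify_charpoly_one_kron, Matrix.charpoly_diagonal]
  have hprod : ∏ i : Fin b, (X - C (d i)) = (X - C c) ^ s * (X - C (-c)) ^ t := by
    have := Fin.prod_univ_eq_prod_range (fun j : ℕ => (X - C (dN j) : F[X])) b
    rw [show (∏ i : Fin b, (X - C (d i))) = ∏ i : Fin b, (X - C (dN (i : ℕ))) from rfl, this,
      ← hst, Finset.prod_range_add]
    congr 1
    · have h1 : ∀ x ∈ Finset.range s, (X - C (dN x) : F[X]) = X - C c := by
        intro x hx
        simp only [dN, if_pos (Finset.mem_range.mp hx)]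
      rw [Finset.prod_congr rfl h1, Finset.prod_const, Finset.card_range]
    · have h1 : ∀ x ∈ Finset.range t, (X - C (dN (s + x)) : F[X]) = X - C (-c) := by
        intro x _
        simp only [dN, if_neg (by omega : ¬ s + x < s)]
      rw [Finset.prod_congr rfl h1, Finset.prod_const, Finset.card_range]
  rw [hprod, mul_pow, ← pow_mul, ← pow_mul, mul_comm s 2, mul_comm t 2]

theorem exists_mem_charpoly_nonsplit {F : Type*} [Field F] {n b : ℕ} (e : Fin n ≃ Fin 2 × Fin b)
    (P : GL (Fin n) F) (z : F) (hz : z ≠ 0) :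
    ∃ y ∈ Cfsg.Geo.tensorProductSubgroup 2 b e P,
      (y : Matrix (Fin n) (Fin n) F).charpoly = (X ^ 2 - C z) ^ b ∧
      (y : Matrix (Fin n) (Fin n) F) * (y : Matrix (Fin n) (Fin n) F) =
        z • (1 : Matrix (Fin n) (Fin n) F) := by
  classical
  let A : Matrix (Fin 2) (Fin 2) F := !![0, z; 1, 0]
  have hdet : A.det ≠ 0 := by
    rw [Matrix.det_fin_two_of]
    simpa using hz
  let Au : GL (Fin 2) F := Matrix.GeneralLinearGroup.mkOfDetNeZero A hdet
  obtain ⟨y, hyH, hy⟩ := mem_tensor_of e P Au (1 : GL (Fin b) F)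
  have hAu : (Au : Matrix (Fin 2) (Fin 2) F) = A := rfl
  rw [Units.val_one, hAu] at hy
  have hAA : A * A = z • (1 : Matrix (Fin 2) (Fin 2) F) := by
    ext i j
    fin_cases i <;> fin_cases j <;> simp [A, Matrix.mul_apply, Fin.sum_univ_two]
  have hT : (A ⊗ₖ (1 : Matrix (Fin b) (Fin b) F)) * (A ⊗ₖ (1 : Matrix (Fin b) (Fin b) F)) =
      z • (1 : Matrix (Fin 2 × Fin b) (Fin 2 × Fin b) F) := by
    rw [← Matrix.mul_kronecker_mul, one_mul, hAA, Matrix.smul_kronecker, Matrix.one_kronecker_one]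
  obtain ⟨h1, h2⟩ := tdify_transport e P _ z hT y hy
  refine ⟨y, hyH, ?_, h2⟩
  rw [h1, tdify_charpoly_kron_one, Matrix.charpoly_fin_two]
  congr 1
  have htr : A.trace = 0 := by
    rw [Matrix.trace_fin_two_of]; simp
  have hd : A.det = -z := by
    rw [Matrix.det_fin_two_of]; simp
  rw [htr, hd]
  simp [sub_eq_add_neg]

end Cfsg.Agent.Lib.Helper98.TD
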