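import Mathlib
import Cfsg.Prelude.Def_GeometricClasses
import Cfsg.Prelude.Def_ClassicalGeometry
import Cfsg.Agent.Lib.Helper98.TD2Base
import Cfsg.Agent.Lib.Helper98.TD2MemSp
import Cfsg.Agent.Lib.Helper98.TDIFY
import Cfsg.Agent.Lib.Helper1.TD2TV
import Cfsg.Agent.Lib.Helper19.TD2COMB
import Cfsg.Agent.Lib.Helper46.TD2TENSSP
import Cfsg.Agent.Lib.Helper57.TD2CYCDEG
import Cfsg.Agent.Lib.Helper58.TD2GDEF
import Cfsg.Agent.Lib.Helper58.TD2SPEX
import Cfsg.Agent.Lib.Helper63.TD2NEGCP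
import Cfsg.Agent.Lib.Helper77.TD2SWAP
import Cfsg.Agent.Lib.Helper79.TD2CHARPROD
import Cfsg.Agent.Lib.Helper79.TD2ROOTS
import Cfsg.Agent.Lib.Helper82.TD2CYCEX
import Cfsg.Agent.Lib.Helper85.TD2INVCP
import Cfsg.Agent.Lib.Helper88.TD2INV4
import Cfsg.Agent.Lib.Helper8.TD2ORTHINV

/-!
S5980: elements of `Sp_{2d}` and tensor product subgroups (assembly lemmas).
-/

set_option autoImplicit false

namespace Cfsg.Agent.Lib.Helper98.TD2

open Matrix Polynomial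
open scoped Kronecker

universe u

/-- Rank criterion, symmetric in the two factors. -/
theorem not_conj_of_rank_min {F : Type*} [Field F] {ι : Type} [Fintype ι] [DecidableEq ι]
    {a b : ℕ} (e : ι ≃ Fin a × Fin b) (P x : GL ι F) (c : F) (hc : c ≠ 0)
    (hr : ((x : Matrix ι ι F) - c • (1 : Matrix ι ι F)).rank < min a b)
    (hns : ∀ z : F, (x : Matrix ι ι F) ≠ z • (1 : Matrix ι ι F)) (g : GL ι F) :
    g⁻¹ * x * g ∉ Cfsg.Geo.tensorProductSubgroup a b e P := by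
  intro h
  obtain ⟨A, B, Q, hx⟩ := mem_tensor_nf e P x g h
  rw [rank_transfer e x Q _ hx c] at hr
  obtain ⟨s, hs⟩ := kron_scalar_of_rank_lt_min _ _ c hc hr
  exact hns s (scalar_transfer e x Q _ hx s hs)

/-- The case where no small factor of `X ^ r - 1` exists. -/
theorem not_conj_of_c2 {F : Type*} [Field F] [Finite F] {ι : Type} [Fintype ι] [DecidableEq ι]
    {a b β : ℕ} (ha : 1 ≤ a) (hb : 1 ≤ b) (haβ : a ≤ β) (hbβ : b ≤ β)
    (e : ι ≃ Fin a × Fin b) (P : GL ι F) (r : ℕ) (hr : (r : F) ≠ 0)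
    (hC2 : ∀ g : F[X], g.Monic → g ∣ X ^ r - 1 → g.eval 1 ≠ 0 → g.natDegree ≤ β → g = 1)
    (x : GL ι F) (z : F) (hz : z ≠ 0)
    (hxr : (x : Matrix ι ι F) ^ r = z • (1 : Matrix ι ι F))
    (hns : ∀ z : F, (x : Matrix ι ι F) ≠ z • (1 : Matrix ι ι F))
    (g : GL ι F) : g⁻¹ * x * g ∉ Cfsg.Geo.tensorProductSubgroup a b e P := by
  intro h
  obtain ⟨A, B, Q, hx⟩ := mem_tensor_nf e P x g h
  have hT := pow_transfer e x Q _ hx r z hxr
  rw [TD.kron_pow] at hT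
  obtain ⟨α, β', hα, hβ', hA, hB⟩ := TD.scalar_of_kron_scalar _ _ z hz (by omega) (by omega) hT
  obtain ⟨c, hc⟩ := TD.scalar_of_pow_scalar r β hr (by omega) hC2 haβ
    (A : Matrix (Fin a) (Fin a) F) α hα hA
  obtain ⟨c', hc'⟩ := TD.scalar_of_pow_scalar r β hr (by omega) hC2 hbβ
    (B : Matrix (Fin b) (Fin b) F) β' hβ' hB
  refine hns (c * c') (scalar_transfer e x Q _ hx (c * c') ?_)
  rw [hc, hc']
  ext ⟨i, j⟩ ⟨i', j'⟩
  simp only [Matrix.kroneckerMap_apply, Matrix.smul_apply, Matrix.one_apply, smul_eq_mul,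
    Prod.mk.injEq]
  by_cases h1 : i = i' <;> by_cases h2 : j = j' <;> simp [h1, h2]

/-- The characteristic polynomial criterion. -/
theorem not_conj_of_charpoly {F : Type u} [Field F] [Finite F] {ι : Type} [Fintype ι]
    [DecidableEq ι] {a b : ℕ} (ha : 2 ≤ a) (hb : 2 ≤ b) (e : ι ≃ Fin a × Fin b) (P x : GL ι F)
    (r : ℕ) (hr : (r : F) ≠ 0) (hxr : (x : Matrix ι ι F) ^ r = 1) (c : ℕ) (G : F[X])
    (hsep : G.Separable) (h1 : G.eval 1 ≠ 0) (hdeg : 1 ≤ G.natDegree)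
    (hchar : (x : Matrix ι ι F).charpoly = (X - 1) ^ c * G)
    (hcase : min a b < c ∨
      (∀ g : F[X], g.Monic → g ∣ X ^ r - 1 → g.eval 1 ≠ 0 → g.natDegree ≤ a → g = 1))
    (g : GL ι F) : g⁻¹ * x * g ∉ Cfsg.Geo.tensorProductSubgroup a b e P := by
  intro h
  obtain ⟨A, B, Q, hx⟩ := mem_tensor_nf e P x g h
  have hT := pow_transfer e x Q _ hx r 1 (by rw [hxr, one_smul])
  rw [TD.kron_pow] at hT
  obtain ⟨α, β, hα, hβ, hA, hB⟩ :=
    TD.scalar_of_kron_scalar _ _ 1 one_ne_zero (by omega) (by omega) hT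
  let L := AlgebraicClosure F
  let f : F →+* L := algebraMap F L
  have hf : Function.Injective f := (algebraMap F L).injective
  have hrL : (r : L) ≠ 0 := by
    have : (r : L) = f (r : F) := (map_natCast f r).symm
    rw [this]
    exact fun h0 => hr (hf (by rw [h0, map_zero]))
  have hmapA : ((A : Matrix (Fin a) (Fin a) F).map f) ^ r =
      (f α) • (1 : Matrix (Fin a) (Fin a) L) := by
    have : ((A : Matrix (Fin a) (Fin a) F).map f) ^ r =
        ((A : Matrix (Fin a) (Fin a) F) ^ r).map f := by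
      rw [← RingHom.mapMatrix_apply, ← RingHom.mapMatrix_apply, map_pow]
    rw [this, hA]
    ext i j
    simp [Matrix.one_apply, apply_ite f]
  have hmapB : ((B : Matrix (Fin b) (Fin b) F).map f) ^ r =
      (f β) • (1 : Matrix (Fin b) (Fin b) L) := by
    have : ((B : Matrix (Fin b) (Fin b) F).map f) ^ r =
        ((B : Matrix (Fin b) (Fin b) F) ^ r).map f := by
      rw [← RingHom.mapMatrix_apply, ← RingHom.mapMatrix_apply, map_pow]
    rw [this, hB]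
    ext i j
    simp [Matrix.one_apply, apply_ite f]
  have hfα : f α ≠ 0 := fun h0 => hα (hf (by rw [h0, map_zero]))
  have hfβ : f β ≠ 0 := fun h0 => hβ (hf (by rw [h0, map_zero]))
  obtain ⟨PA, dA, hPA, hAd⟩ := TD.exists_diag _ r hrL (f α) hfα hmapA
  obtain ⟨PB, dB, hPB, hBd⟩ := TD.exists_diag _ r hrL (f β) hfβ hmapB
  have hkm : ((A : Matrix (Fin a) (Fin a) F) ⊗ₖ (B : Matrix (Fin b) (Fin b) F)).map f =
      ((A : Matrix (Fin a) (Fin a) F).map f) ⊗ₖ ((B : Matrix (Fin b) (Fin b) F).map f) := by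
    ext ⟨i, j⟩ ⟨i', j'⟩
    simp [Matrix.kroneckerMap_apply]
  have hcp : ((X - 1) ^ c * G).map (algebraMap F L) =
      ∏ p : Fin a × Fin b, (X - C (dA p.1 * dB p.2)) := by
    rw [← hchar, charpoly_transfer e x Q _ hx, ← Matrix.charpoly_map]
    show (((A : Matrix (Fin a) (Fin a) F) ⊗ₖ (B : Matrix (Fin b) (Fin b) F)).map f).charpoly = _
    rw [hkm]
    exact charpoly_kron_diag _ PA _ PB dA dB hPA hPB hAd hBd
  obtain ⟨hc1, hc2, hc3⟩ := count_of_charpoly_eq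
    (fun p : Fin a × Fin b => dA p.1 * dB p.2) c G hsep h1 hdeg hcp
  obtain ⟨hinjA, hinjB, hle⟩ := comb_min ha hb dA dB hc1 hc2
  rcases hcase with hlt | hC2
  · rw [hc3] at hle
    omega
  · obtain ⟨cc, hcc⟩ := TD.scalar_of_pow_scalar r a hr (by omega) hC2 le_rfl
      (A : Matrix (Fin a) (Fin a) F) α hα hA
    have hAL : ((A : Matrix (Fin a) (Fin a) F).map f) = (f cc) • (1 : Matrix (Fin a) (Fin a) L) := by
      rw [hcc]
      ext i j
      simp [Matrix.one_apply, apply_ite f]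
    rw [hAL] at hAd
    have h3 : PA * (Matrix.diagonal dA - (f cc) • (1 : Matrix (Fin a) (Fin a) L)) = 0 := by
      rw [Matrix.mul_sub, ← hAd, Matrix.mul_smul, Matrix.smul_mul, one_mul, mul_one, sub_self]
    have h4 : Matrix.diagonal dA - (f cc) • (1 : Matrix (Fin a) (Fin a) L) = 0 := by
      have := congrArg (fun M => PA⁻¹ * M) h3
      simp only [mul_zero] at this
      rwa [← Matrix.mul_assoc, Matrix.nonsing_inv_mul _ hPA, one_mul] at this
    have hconst : ∀ k, dA k = f cc := by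
      intro k
      have h5 := congrFun (congrFun h4 k) k
      simpa [sub_eq_zero] using h5
    have h6 : (⟨0, by omega⟩ : Fin a) = ⟨1, by omega⟩ := hinjA (by rw [hconst, hconst])
    simp [Fin.ext_iff] at h6

/-- The Gram matrix of an alternating form in dimension two is preserved by a quarter turn. -/
theorem gram_alt_two {F : Type*} [Field F] (f₁ : (Fin 2 → F) → (Fin 2 → F) → F)
    (hf₁ : Cfsg.Geo.IsSymplecticForm f₁) :
    (!![0, 1; -1, 0] : Matrix (Fin 2) (Fin 2) F)ᵀ * Cfsg.Geo.gramMatrix f₁ * !![0, 1; -1, 0] =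
      Cfsg.Geo.gramMatrix f₁ := by
  have h00 : Cfsg.Geo.gramMatrix f₁ 0 0 = 0 := hf₁.alternating _
  have h11 : Cfsg.Geo.gramMatrix f₁ 1 1 = 0 := hf₁.alternating _
  have h10 : Cfsg.Geo.gramMatrix f₁ 1 0 = - Cfsg.Geo.gramMatrix f₁ 0 1 := hf₁.skew _ _
  ext i j
  fin_cases i <;> fin_cases j <;>
    simp [Matrix.mul_apply, Fin.sum_univ_two, h00, h11, h10]

/-- The `if` direction: elements with scalar square are conjugate into `Sp_2 ⊗ O_b`. -/
theorem conj_into_of_sq_sp {F : Type*} [Field F] [Fintype F] {p : ℕ} [Fact p.Prime] [CharP F p]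
    (h2 : (2 : F) ≠ 0) (hp2 : p ≠ 2) {b : ℕ} (hb : 1 ≤ b)
    (e : (Fin b ⊕ Fin b) ≃ Fin 2 × Fin b) (P : GL (Fin b ⊕ Fin b) F)
    (f₁ : (Fin 2 → F) → (Fin 2 → F) → F) (f₂ : (Fin b → F) → (Fin b → F) → F)
    (hf₁ : Cfsg.Geo.IsSymplecticForm f₁) (hf₂ : Cfsg.Geo.IsSymmetricForm f₂)
    (hS : Cfsg.Geo.IsTensorFormStructure id (Cfsg.sympForm b F) f₁ f₂ e P)
    (x : GL (Fin b ⊕ Fin b) F) (hx : x ∈ Cfsg.spGL b F) (z : F)
    (hz : ((x ^ 2 : GL (Fin b ⊕ Fin b) F) : Matrix (Fin b ⊕ Fin b) (Fin b ⊕ Fin b) F) =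
      z • (1 : Matrix (Fin b ⊕ Fin b) (Fin b ⊕ Fin b) F)) :
    ∃ g ∈ Cfsg.spGL b F, g⁻¹ * x * g ∈ Cfsg.Geo.tensorProductSubgroup 2 b e P := by
  have hp : p.Prime := Fact.out
  have hzz : z * z = 1 := sp_scalar_sq hb (x ^ 2) (pow_mem hx 2) z hz
  have hx' := (mem_spGL_iff_symplectic x).mp hx
  have hxsq : (x : Matrix (Fin b ⊕ Fin b) (Fin b ⊕ Fin b) F) *
      (x : Matrix (Fin b ⊕ Fin b) (Fin b ⊕ Fin b) F) = z • 1 := by
    rw [← hz, pow_two, Units.val_mul]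
  have hcop2 : (2 : ℕ).Coprime p := by
    rw [Nat.coprime_comm]
    exact (Nat.coprime_primes hp Nat.prime_two).mpr hp2
  have hcop4 : (4 : ℕ).Coprime p := by
    have : (4 : ℕ) = 2 ^ 2 := by norm_num
    rw [this]
    exact Nat.Coprime.pow_left 2 hcop2
  rcases mul_self_eq_one_iff.mp hzz with rfl | rfl
  · -- involutions
    rw [one_smul] at hxsq
    obtain ⟨t, ht, hcp⟩ := charpoly_of_sq_one h2 _ hx' hxsq
    obtain ⟨B, hBB, hBG, hBcp⟩ := exists_orth_invol h2 f₂ hf₂ t ht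
    have hBdet : B.det ≠ 0 := by
      intro h0
      have := congrArg Matrix.det hBB
      rw [Matrix.det_mul, h0, mul_zero, Matrix.det_one] at this
      exact zero_ne_one this
    obtain ⟨y, hyT, hy⟩ := mem_tensor_of e P (1 : GL (Fin 2) F)
      (Matrix.GeneralLinearGroup.mkOfDetNeZero B hBdet)
    have hy' : (y : Matrix (Fin b ⊕ Fin b) (Fin b ⊕ Fin b) F) =
        (P : Matrix (Fin b ⊕ Fin b) (Fin b ⊕ Fin b) F) *
        Matrix.reindex e.symm e.symm ((1 : Matrix (Fin 2) (Fin 2) F) ⊗ₖ B) *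
        ((P⁻¹ : GL (Fin b ⊕ Fin b) F) : Matrix (Fin b ⊕ Fin b) (Fin b ⊕ Fin b) F) := hy
    have hymem : y ∈ Cfsg.spGL b F :=
      mem_spGL_of_tensor e P f₁ f₂ hS 1 B (by simp) hBG y hy'
    have hycp : (y : Matrix (Fin b ⊕ Fin b) (Fin b ⊕ Fin b) F).charpoly =
        (x : Matrix (Fin b ⊕ Fin b) (Fin b ⊕ Fin b) F).charpoly := by
      rw [charpoly_transfer e y P _ hy', TD.tdify_charpoly_one_kron, hBcp, hcp, mul_pow,
        ← pow_mul, ← pow_mul, mul_comm (b - t) 2, mul_comm t 2]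
    have hy2 : y ^ 2 = 1 := by
      apply Units.ext
      rw [Units.val_pow_eq_pow_val, Units.val_one]
      have := pow_transfer' e y P _ hy' 2 1
        (by rw [TD.kron_pow, one_pow, pow_two, hBB, Matrix.one_kronecker_one, one_smul])
      rw [this, one_smul]
    have hx2 : x ^ 2 = 1 := by
      apply Units.ext
      rw [hz, one_smul, Units.val_one]
    obtain ⟨g, hg, hgx⟩ := sp_conj_of_charpoly p x y hx hymem 2 hcop2 hx2 hy2 hycp.symm
    exact ⟨g, hg, by rw [hgx]; exact hyT⟩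
  · -- square `-1`
    have hxsq' : (x : Matrix (Fin b ⊕ Fin b) (Fin b ⊕ Fin b) F) *
        (x : Matrix (Fin b ⊕ Fin b) (Fin b ⊕ Fin b) F) = -1 := by
      rw [hxsq, neg_smul, one_smul]
    have hA0det : (!![0, 1; -1, 0] : Matrix (Fin 2) (Fin 2) F).det ≠ 0 := by
      rw [Matrix.det_fin_two_of]
      simp
    obtain ⟨y, hyT, hy⟩ := mem_tensor_of e P
      (Matrix.GeneralLinearGroup.mkOfDetNeZero (!![0, 1; -1, 0] : Matrix (Fin 2) (Fin 2) F) hA0det)
      (1 : GL (Fin b) F)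
    have hy' : (y : Matrix (Fin b ⊕ Fin b) (Fin b ⊕ Fin b) F) =
        (P : Matrix (Fin b ⊕ Fin b) (Fin b ⊕ Fin b) F) *
        Matrix.reindex e.symm e.symm ((!![0, 1; -1, 0] : Matrix (Fin 2) (Fin 2) F) ⊗ₖ
          (1 : Matrix (Fin b) (Fin b) F)) *
        ((P⁻¹ : GL (Fin b ⊕ Fin b) F) : Matrix (Fin b ⊕ Fin b) (Fin b ⊕ Fin b) F) := hy
    have hymem : y ∈ Cfsg.spGL b F :=
      mem_spGL_of_tensor e P f₁ f₂ hS _ 1 (gram_alt_two f₁ hf₁) (by simp) y hy'
    have hA0sq : (!![0, 1; -1, 0] : Matrix (Fin 2) (Fin 2) F) ^ 2 = (-1 : F) • 1 := by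
      rw [pow_two]
      ext i j
      fin_cases i <;> fin_cases j <;> simp [Matrix.mul_apply, Fin.sum_univ_two, Matrix.one_apply]
    have hy2 : (y : Matrix (Fin b ⊕ Fin b) (Fin b ⊕ Fin b) F) ^ 2 =
        (-1 : F) • (1 : Matrix (Fin b ⊕ Fin b) (Fin b ⊕ Fin b) F) := by
      apply pow_transfer' e y P _ hy' 2 (-1)
      rw [TD.kron_pow, one_pow, hA0sq, Matrix.smul_kronecker, Matrix.one_kronecker_one]
    have hysq' : (y : Matrix (Fin b ⊕ Fin b) (Fin b ⊕ Fin b) F) *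
        (y : Matrix (Fin b ⊕ Fin b) (Fin b ⊕ Fin b) F) = -1 := by
      rw [← pow_two, hy2, neg_smul, one_smul]
    have hycp : (x : Matrix (Fin b ⊕ Fin b) (Fin b ⊕ Fin b) F).charpoly =
        (y : Matrix (Fin b ⊕ Fin b) (Fin b ⊕ Fin b) F).charpoly := by
      rw [charpoly_of_sq_neg_one h2 _ hx' hxsq',
        charpoly_of_sq_neg_one h2 _ ((mem_spGL_iff_symplectic y).mp hymem) hysq']
    have hx4 : x ^ 4 = 1 := by
      apply Units.ext
      rw [Units.val_pow_eq_pow_val, Units.val_one, show (4 : ℕ) = 2 * 2 by norm_num, pow_mul,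
        pow_two (x : Matrix (Fin b ⊕ Fin b) (Fin b ⊕ Fin b) F), hxsq', pow_two]
      simp
    have hy4 : y ^ 4 = 1 := by
      apply Units.ext
      rw [Units.val_pow_eq_pow_val, Units.val_one, show (4 : ℕ) = 2 * 2 by norm_num, pow_mul,
        pow_two (y : Matrix (Fin b ⊕ Fin b) (Fin b ⊕ Fin b) F), hysq', pow_two]
      simp
    obtain ⟨g, hg, hgx⟩ := sp_conj_of_charpoly p x y hx hymem 4 hcop4 hx4 hy4 hycp
    exact ⟨g, hg, by rw [hgx]; exact hyT⟩

end Cfsg.Agent.Lib.Helper98.TD2
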