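import Mathlib
import Cfsg.Prelude.Def_GeometricClasses
import Cfsg.Prelude.Def_ClassicalGeometry
import Cfsg.Prelude.Def_LieClassical
import Cfsg.Agent.Lib.Helper98.U84Defs
import Cfsg.Agent.Lib.Helper12.U84DIAGU
import Cfsg.Agent.Lib.Helper14.U84SDCONTRA
import Cfsg.Agent.Lib.Helper16.U84CYCB
import Cfsg.Agent.Lib.Helper2.U84EXMU
import Cfsg.Agent.Lib.Helper21.U84TDEF2
import Cfsg.Agent.Lib.Helper23.U84RK
import Cfsg.Agent.Lib.Helper34.U84TDEF1
import Cfsg.Agent.Lib.Helper43.U84ORDID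
import Cfsg.Agent.Lib.Helper52.U84EQMULT
import Cfsg.Agent.Lib.Helper52.U84RELIDX
import Cfsg.Agent.Lib.Helper58.U84BRIDGE
import Cfsg.Agent.Lib.Helper58.U84CP2
import Cfsg.Agent.Lib.Helper58.U84EMB
import Cfsg.Agent.Lib.Helper58.U84FIXBOTH
import Cfsg.Agent.Lib.Helper58.U84SCALH
import Cfsg.Agent.Lib.Helper58.U84YEX
import Cfsg.Agent.Lib.Helper63.U84TVU
import Cfsg.Agent.Lib.Helper77.U84HCP
import Cfsg.Agent.Lib.Helper8.U84ORDCOP
import Cfsg.Agent.Lib.Helper82.U84ADAPT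
import Cfsg.Agent.Lib.Helper88.U84GUEX
import Cfsg.Agent.Lib.Helper89.U84SQNORM
import Cfsg.Agent.Lib.Helper89.U84SQRT
import Cfsg.Agent.Lib.Helper90.U84NOMU
import Cfsg.Agent.Lib.Helper94.U84BLOCK
import Cfsg.Agent.Lib.Helper47.UnitaryEmb
import Cfsg.Agent.Lib.Helper47.DualPoly
import Cfsg.Agent.Lib.Helper47.PrimeOrd
import Cfsg.Agent.Lib.Helper93.SUPair

/-!
S5984: assembly of the pieces U84-*.
-/

set_option autoImplicit false

namespace Cfsg.Agent.Lib.Helper98.U84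

open Matrix Polynomial

/-- conjugation does not change the rank of `x - μ`. -/
theorem rank_conj {F : Type*} [Field F] {n : ℕ} (x g : GL (Fin n) F) (μ : F) :
    (((g⁻¹ * x * g : GL (Fin n) F) : Matrix (Fin n) (Fin n) F) -
      μ • (1 : Matrix (Fin n) (Fin n) F)).rank =
    ((x : Matrix (Fin n) (Fin n) F) - μ • (1 : Matrix (Fin n) (Fin n) F)).rank := by
  have h : ((g⁻¹ * x * g : GL (Fin n) F) : Matrix (Fin n) (Fin n) F) -
      μ • (1 : Matrix (Fin n) (Fin n) F) =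
      ((g⁻¹ : GL (Fin n) F) : Matrix (Fin n) (Fin n) F) *
        ((x : Matrix (Fin n) (Fin n) F) - μ • (1 : Matrix (Fin n) (Fin n) F)) *
        (g : Matrix (Fin n) (Fin n) F) := by
    have hgi : ((g⁻¹ : GL (Fin n) F) : Matrix (Fin n) (Fin n) F) *
        (g : Matrix (Fin n) (Fin n) F) = 1 := by
      rw [← Units.val_mul, inv_mul_cancel, Units.val_one]
    rw [Units.val_mul, Units.val_mul, Matrix.mul_sub, Matrix.sub_mul, Matrix.mul_smul,
      Matrix.smul_mul, Matrix.mul_one, hgi]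
  have hg : IsUnit (g : Matrix (Fin n) (Fin n) F).det :=
    (Matrix.isUnit_iff_isUnit_det _).mp g.isUnit
  have hg' : IsUnit ((g⁻¹ : GL (Fin n) F) : Matrix (Fin n) (Fin n) F).det :=
    (Matrix.isUnit_iff_isUnit_det _).mp (g⁻¹).isUnit
  rw [h, Matrix.rank_mul_eq_left_of_isUnit_det _ _ hg, Matrix.rank_mul_eq_right_of_isUnit_det _ _ hg']

/-- conjugation does not change the characteristic polynomial. -/
theorem charpoly_conj {F : Type*} [Field F] {n : ℕ} (x g : GL (Fin n) F) :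
    ((g⁻¹ * x * g : GL (Fin n) F) : Matrix (Fin n) (Fin n) F).charpoly =
      (x : Matrix (Fin n) (Fin n) F).charpoly := by
  rw [Units.val_mul, Units.val_mul, Matrix.coe_units_inv]
  exact Matrix.charpoly_units_conj' g (x : Matrix (Fin n) (Fin n) F)

/-- powers of conjugates. -/
theorem conj_pow_eq_one {G : Type*} [Group G] (x g : G) (k : ℕ) (h : x ^ k = 1) :
    (g⁻¹ * x * g) ^ k = 1 := by
  have h1 : g⁻¹ * x * g = MulAut.conj g⁻¹ x := by
    rw [MulAut.conj_apply, inv_inv]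
  rw [h1, ← map_pow, h, map_one]

/-- a scalar matrix minus a scalar matrix does not have rank one in dimension at least two. -/
theorem rank_scalar_ne_one {F : Type*} [Field F] {n : ℕ} (hn : 2 ≤ n) (z μ : F) :
    ((z • (1 : Matrix (Fin n) (Fin n) F)) - μ • (1 : Matrix (Fin n) (Fin n) F)).rank ≠ 1 := by
  rw [← sub_smul]
  rcases eq_or_ne (z - μ) 0 with h | h
  · rw [h, zero_smul, Matrix.rank_zero]
    exact zero_ne_one
  · have hu : IsUnit ((z - μ) • (1 : Matrix (Fin n) (Fin n) F)) := by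
      rw [Matrix.isUnit_iff_isUnit_det, Matrix.det_smul, Matrix.det_one, mul_one]
      exact (pow_ne_zero _ h).isUnit
    rw [Matrix.rank_of_isUnit _ hu, Fintype.card_fin]
    omega

/-- the key non-conjugacy statement for odd primes. -/
theorem not_conj_of_selfdual {F : Type*} [Field F] [Fintype F] {p q n m : ℕ} [Fact p.Prime]
    [CharP F p] (hF : Fintype.card F = q ^ 2) (D : Fin 2 → Submodule F (Fin n → F))
    (hD : Cfsg.Geo.IsMDecomposition m D)
    (hDs : ∀ i, Cfsg.Geo.IsTotallySingularFor (Cfsg.hermForm n F q) (D i))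
    (σ : F →+* F) (hσq : ∀ x, σ x = x ^ q) (hσ : ∀ x, σ (σ x) = x)
    (r : ℕ) (hr : Odd r) (x : GL (Fin n) F) (hxU : x ∈ Cfsg.GU n F q) (hxr : x ^ r = 1)
    (c : ℕ) (f R : F[X]) (hf : Irreducible f) (hfm : f.Monic) (hf0 : f.coeff 0 ≠ 0)
    (hfd : Cfsg.Agent.Lib.Helper47.dualP σ f = f) (hR : ¬ f ∣ (X - 1) ^ c * R)
    (hcp : (x : Matrix (Fin n) (Fin n) F).charpoly = (X - 1) ^ c * (f * R))
    (g : GL (Fin n) F) (hg : g ∈ Cfsg.GU n F q) :
    g⁻¹ * x * g ∉ Cfsg.Geo.decompositionStabilizer D := by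
  intro hy
  obtain ⟨Pm, Pi, hP⟩ := exists_adapted hF D hD hDs
  have hyr : (g⁻¹ * x * g) ^ r = 1 := conj_pow_eq_one x g r hxr
  obtain ⟨h0, h1⟩ := fix_both_of_odd D hD _ hy r hr hyr
  have hyU : g⁻¹ * x * g ∈ Cfsg.GU n F q := mul_mem (mul_mem (inv_mem hg) hxU) hg
  obtain ⟨P, hPm, hP0, hPc⟩ := charpoly_of_fix hF D Pm Pi hP σ hσq _ hyU h0 h1
  exact selfdual_mult_contra (p := p) σ hσ f P R hf hfm hf0 hfd hPm hP0 c hR
    (by rw [← hPc, charpoly_conj, hcp])

/-- `r = p`: a unitary transvection. -/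
theorem fwd_p {F : Type*} [Field F] [Fintype F] {p q n m : ℕ} [Fact p.Prime] [CharP F p]
    (hF : Fintype.card F = q ^ 2) (hm : 2 ≤ m) (D : Fin 2 → Submodule F (Fin n → F))
    (hD : Cfsg.Geo.IsMDecomposition m D)
    (hDs : ∀ i, Cfsg.Geo.IsTotallySingularFor (Cfsg.hermForm n F q) (D i))
    (hn : 2 ≤ n)
    (hall : ∀ x ∈ Cfsg.GU n F q ⊓ Cfsg.Geo.specialLinear (Fin n) F,
      (∃ z : F, ((x ^ p : GL (Fin n) F) : Matrix (Fin n) (Fin n) F) =
        z • (1 : Matrix (Fin n) (Fin n) F)) →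
      (∀ z : F, (x : Matrix (Fin n) (Fin n) F) ≠ z • (1 : Matrix (Fin n) (Fin n) F)) →
      ∃ g ∈ Cfsg.GU n F q ⊓ Cfsg.Geo.specialLinear (Fin n) F,
        g⁻¹ * x * g ∈ Cfsg.Geo.decompositionStabilizer D) : False := by
  have hne : D 0 ≠ ⊥ := by
    intro h
    have h1 := hD.finrank_eq 0
    rw [h, finrank_bot] at h1
    omega
  obtain ⟨v, hv, hv0⟩ := (Submodule.ne_bot_iff _).mp hne
  have hiso := hDs 0 v hv v hv
  obtain ⟨T, hpres, hdet, hpow, hrank⟩ := exists_unitary_transv (p := p) hF v hv0 hiso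
  obtain ⟨x, hxT, hxG⟩ := Cfsg.Agent.Lib.Helper93.exists_gl_of_pres (q := q) hpres hdet
  have hns : ∀ z : F, (x : Matrix (Fin n) (Fin n) F) ≠ z • (1 : Matrix (Fin n) (Fin n) F) := by
    intro z hz
    have h1 := rank_scalar_ne_one hn z (1 : F)
    rw [← hz, hxT, one_smul] at h1
    exact h1 hrank
  obtain ⟨g, hgG, hgH⟩ := hall x hxG
    ⟨1, by rw [Units.val_pow_eq_pow_val, hxT, hpow, one_smul]⟩ hns
  have hyU : g⁻¹ * x * g ∈ Cfsg.GU n F q :=
    mul_mem (mul_mem (inv_mem hgG.1) hxG.1) hgG.1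
  refine rank_ne_one hF hm D hD hDs _ hyU hgH 1 (one_pow _) ?_
  rw [rank_conj, hxT, one_smul]
  exact hrank

/-- `r = 2 ≠ p`, when the `2`-part condition fails. -/
theorem fwd_two {F : Type*} [Field F] [Fintype F] {p q n m : ℕ} [Fact p.Prime] [CharP F p]
    (hF : Fintype.card F = q ^ 2) (hm : 2 ≤ m) (D : Fin 2 → Submodule F (Fin n → F))
    (hD : Cfsg.Geo.IsMDecomposition m D)
    (hDs : ∀ i, Cfsg.Geo.IsTotallySingularFor (Cfsg.hermForm n F q) (D i))
    (hn : 2 ≤ n) (hp2 : p ≠ 2) (hq : Odd q)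
    (hv : ¬ padicValNat 2 (q + 1) ≤ padicValNat 2 n)
    (hall : ∀ x ∈ Cfsg.GU n F q ⊓ Cfsg.Geo.specialLinear (Fin n) F,
      (∃ z : F, ((x ^ 2 : GL (Fin n) F) : Matrix (Fin n) (Fin n) F) =
        z • (1 : Matrix (Fin n) (Fin n) F)) →
      (∀ z : F, (x : Matrix (Fin n) (Fin n) F) ≠ z • (1 : Matrix (Fin n) (Fin n) F)) →
      ∃ g ∈ Cfsg.GU n F q ⊓ Cfsg.Geo.specialLinear (Fin n) F,
        g⁻¹ * x * g ∈ Cfsg.Geo.decompositionStabilizer D) : False := by
  have hp : p.Prime := Fact.out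
  have h2 : (2 : F) ≠ 0 := by
    intro h
    have h' : ((2 : ℕ) : F) = 0 := by exact_mod_cast h
    rw [CharP.cast_eq_zero_iff F p 2] at h'
    exact hp2 ((Nat.prime_dvd_prime_iff_eq hp Nat.prime_two).mp h')
  rw [not_le] at hv
  obtain ⟨μ, hμ, hμn⟩ := exists_norm_one_pow_eq_neg_one hF hq (by omega : n ≠ 0) hv
  obtain ⟨M, hpres, hdet, hsq, hrank, hMns⟩ := exists_diag_neg_mu hF h2 hq hn μ hμ hμn
  obtain ⟨x, hxM, hxG⟩ := Cfsg.Agent.Lib.Helper93.exists_gl_of_pres (q := q) hpres hdet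
  have hns : ∀ z : F, (x : Matrix (Fin n) (Fin n) F) ≠ z • (1 : Matrix (Fin n) (Fin n) F) := by
    intro z hz
    exact hMns z (by rw [← hxM, hz])
  obtain ⟨g, hgG, hgH⟩ := hall x hxG
    ⟨μ ^ 2, by rw [Units.val_pow_eq_pow_val, hxM, hsq]⟩ hns
  have hyU : g⁻¹ * x * g ∈ Cfsg.GU n F q :=
    mul_mem (mul_mem (inv_mem hgG.1) hxG.1) hgG.1
  refine rank_ne_one hF hm D hD hDs _ hyU hgH μ hμ ?_
  rw [rank_conj, hxM]
  exact hrank

/-- odd `r ≠ p`. -/
theorem fwd_odd {F : Type*} [Field F] [Fintype F] {p q n m : ℕ} [Fact p.Prime] [CharP F p]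
    (hF : Fintype.card F = q ^ 2) (hnm : n = 2 * m) (hm : 2 ≤ m)
    (D : Fin 2 → Submodule F (Fin n → F)) (hD : Cfsg.Geo.IsMDecomposition m D)
    (hDs : ∀ i, Cfsg.Geo.IsTotallySingularFor (Cfsg.hermForm n F q) (D i))
    {r : ℕ} (hr : r.Prime) (hr2 : r ≠ 2) (hrp : r ≠ p)
    (hΩ : r ∣ (Cfsg.Geo.decompositionStabilizer D).relIndex
      (Cfsg.GU n F q ⊓ Cfsg.Geo.specialLinear (Fin n) F))
    (hall : ∀ x ∈ Cfsg.GU n F q ⊓ Cfsg.Geo.specialLinear (Fin n) F,
      (∃ z : F, ((x ^ r : GL (Fin n) F) : Matrix (Fin n) (Fin n) F) =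
        z • (1 : Matrix (Fin n) (Fin n) F)) →
      (∀ z : F, (x : Matrix (Fin n) (Fin n) F) ≠ z • (1 : Matrix (Fin n) (Fin n) F)) →
      ∃ g ∈ Cfsg.GU n F q ⊓ Cfsg.Geo.specialLinear (Fin n) F,
        g⁻¹ * x * g ∈ Cfsg.Geo.decompositionStabilizer D) : False := by
  classical
  have hp : p.Prime := Fact.out
  haveI : Fact r.Prime := ⟨hr⟩
  have hn : 4 ≤ n := by omega
  obtain ⟨σ, hσq, hσ, -⟩ := Cfsg.Agent.Lib.Helper47.exists_unitary_data F q hF
  have hrodd : Odd r := hr.odd_of_ne_two hr2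
  by_cases hi : orderOf (q : ZMod r) % 4 = 2
  · -- a Cauchy element gives a cyclotomic factor of degree at most `n`
    have hdvd : r ∣ Nat.card ↥(Cfsg.GU n F q ⊓ Cfsg.Geo.specialLinear (Fin n) F) :=
      hΩ.trans (Subgroup.relIndex_dvd_card _ _)
    obtain ⟨x0, hx0⟩ := exists_prime_orderOf_dvd_card' r hdvd
    have hx0r : x0 ^ r = 1 := by rw [← hx0]; exact pow_orderOf_eq_one x0
    have hx01 : x0 ≠ 1 := by
      rintro rfl
      rw [orderOf_one] at hx0
      exact hr.one_lt.ne hx0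
    have hM0r : ((x0 : GL (Fin n) F) : Matrix (Fin n) (Fin n) F) ^ r = 1 := by
      have := congrArg (fun y : ↥(Cfsg.GU n F q ⊓ Cfsg.Geo.specialLinear (Fin n) F) =>
        ((y : GL (Fin n) F) : Matrix (Fin n) (Fin n) F)) hx0r
      simpa using this
    have hM01 : ((x0 : GL (Fin n) F) : Matrix (Fin n) (Fin n) F) ≠ 1 := by
      intro h
      apply hx01
      apply Subtype.ext
      apply Units.ext
      rw [h]
      rfl
    obtain ⟨f, hf, hfdeg⟩ := exists_cyc_le (p := p) hr hrp _ hM0r hM01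
    -- the self-dual multiset
    have key : ∃ (t : Multiset F[X]) (R : F[X]),
        (∀ g ∈ t, Cfsg.Agent.Lib.Helper47.IsCycFactor r g) ∧
        t.map (Cfsg.Agent.Lib.Helper47.dualP σ) = t ∧ t.prod.natDegree ≤ n ∧ t.prod = f * R ∧
        Cfsg.Agent.Lib.Helper47.dualP σ f = f ∧ (∀ c : ℕ, ¬ f ∣ (X - 1) ^ c * R) ∧
        (∀ M : Matrix (Fin n) (Fin n) F, M ^ r = 1 →
          M.charpoly = (X - 1) ^ (n - t.prod.natDegree) * t.prod → M.det = 1) := by
      have hfpos : 0 < f.natDegree := hf.2.1.natDegree_pos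
      rcases Nat.lt_or_ge f.natDegree 2 with h1 | h2
      · have hb : f.natDegree = 1 := by omega
        obtain ⟨t, R, ht, hdual, htdeg, htprod, hfd, hR, hdet⟩ :=
          selfdual_pair_of_deg_one (p := p) hF hr hr2 hrp σ hσq hi f hf hb
        refine ⟨t, R, ht, hdual, by omega, htprod, hfd, hR, ?_⟩
        intro M _ hMc
        rw [htdeg] at hMc
        exact hdet n M (by omega) hMc
      · obtain ⟨hfd, hR, hroot⟩ :=
          selfdual_of_deg_ge_two (p := p) hF hr hr2 hrp σ hσq hi f hf h2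
        refine ⟨{f}, 1, ?_, ?_, ?_, ?_, hfd, hR, ?_⟩
        · intro g hg
          rw [Multiset.mem_singleton] at hg
          rw [hg]
          exact hf
        · rw [Multiset.map_singleton, hfd]
        · rw [Multiset.prod_singleton]
          exact hfdeg
        · rw [Multiset.prod_singleton, mul_one]
        · intro M hMr _
          apply hroot
          rw [← Matrix.det_pow, hMr, Matrix.det_one]
    obtain ⟨t, R, ht, hdual, htdeg, htprod, hfd, hR, hdet⟩ := key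
    obtain ⟨M, hpres, hMr, hMc⟩ :=
      exists_gu_cyc (p := p) hF hr hr2 hrp n σ hσq t ht hdual htdeg
    have hMdet := hdet M hMr hMc
    obtain ⟨x, hxM, hxG⟩ := Cfsg.Agent.Lib.Helper93.exists_gl_of_pres (q := q) hpres hMdet
    have hxr : x ^ r = 1 := by
      apply Units.ext
      rw [Units.val_pow_eq_pow_val, hxM, hMr, Units.val_one]
    have hnot := not_conj_of_selfdual (p := p) hF D hD hDs σ hσq hσ r hrodd x hxG.1 hxr
      (n - t.prod.natDegree) f R hf.2.1 hf.1 (hf.coeff_zero_ne hr.pos) hfd (hR _)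
      (by rw [hxM, hMc, htprod])
    have hns : ∀ z : F, (x : Matrix (Fin n) (Fin n) F) ≠ z • (1 : Matrix (Fin n) (Fin n) F) := by
      intro z hz
      apply hnot 1 (one_mem _)
      rw [inv_one, one_mul, mul_one]
      exact scalar_mem_stab (by omega) D x z hz
    obtain ⟨g, hgG, hgH⟩ := hall x hxG
      ⟨1, by rw [Units.val_pow_eq_pow_val, hxM, hMr, one_smul]⟩ hns
    exact hnot g hgG.1 hgH
  · -- the index is prime to `r`
    subst hnm
    obtain ⟨Pm, Pi, hP⟩ := exists_adapted hF D hD hDs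
    have hB := block_ok hF D Pm Pi hP
    have hemb := card_gl_dvd_stab hF D Pm Pi hP hB
    have hord := card_GU_eq_card_GL_mul hF m
    haveI : (Cfsg.Geo.specialLinear (Fin (2 * m)) F).Normal := by
      unfold Cfsg.Geo.specialLinear
      infer_instance
    have hdvd := relIndex_dvd_of_card (Cfsg.Geo.decompositionStabilizer D) (Cfsg.GU (2 * m) F q)
      (Cfsg.Geo.specialLinear (Fin (2 * m)) F) (Nat.card (GL (Fin m) F)) _ Nat.card_pos hemb hord
    have hrq : ¬ r ∣ q := by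
      intro h
      obtain ⟨k, -, hk⟩ := FiniteField.card F p
      have h1 : r ∣ p ^ (k : ℕ) := by
        rw [← hk, hF]
        exact dvd_pow h two_ne_zero
      exact hrp ((Nat.prime_dvd_prime_iff_eq hr hp).mp (hr.dvd_of_dvd_pow h1))
    exact not_dvd_odd_part hr hr2 hrq hi m (hΩ.trans hdvd)

/-- the converse direction. -/
theorem bwd {F : Type*} [Field F] [Fintype F] {p q n m : ℕ} [Fact p.Prime] [CharP F p]
    (hF : Fintype.card F = q ^ 2) (hnm : n = 2 * m) (hm : 2 ≤ m)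
    (D : Fin 2 → Submodule F (Fin n → F)) (hD : Cfsg.Geo.IsMDecomposition m D)
    (hDs : ∀ i, Cfsg.Geo.IsTotallySingularFor (Cfsg.hermForm n F q) (D i))
    (hq : Odd q) (hv : padicValNat 2 (q + 1) ≤ padicValNat 2 n)
    (x : GL (Fin n) F) (hx : x ∈ Cfsg.GU n F q ⊓ Cfsg.Geo.specialLinear (Fin n) F) (z : F)
    (hz : ((x ^ 2 : GL (Fin n) F) : Matrix (Fin n) (Fin n) F) =
      z • (1 : Matrix (Fin n) (Fin n) F)) :
    ∃ g ∈ Cfsg.GU n F q ⊓ Cfsg.Geo.specialLinear (Fin n) F,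
      g⁻¹ * x * g ∈ Cfsg.Geo.decompositionStabilizer D := by
  classical
  have hp : p.Prime := Fact.out
  have hqF : ((q : ℕ) : F) = 0 := by
    have h1 : ((q ^ 2 : ℕ) : F) = 0 := by
      rw [← hF]
      exact Nat.cast_card_eq_zero F
    rw [Nat.cast_pow] at h1
    exact (pow_eq_zero_iff two_ne_zero).mp h1
  have h2 : (2 : F) ≠ 0 := by
    intro h2
    obtain ⟨k, hk⟩ := hq
    rw [hk] at hqF
    push_cast at hqF
    rw [h2, zero_mul, zero_add] at hqF
    exact one_ne_zero hqF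
  have hp2 : p ≠ 2 := by
    rintro rfl
    apply h2
    have := CharP.cast_eq_zero F 2
    exact_mod_cast this
  have hpq : p ∣ q := (CharP.cast_eq_zero_iff F p q).mp hqF
  have hxU := hx.1
  have hxdet : (x : Matrix (Fin n) (Fin n) F).det = 1 :=
    (Cfsg.Agent.Lib.Helper93.mem_sl_iff x).mp hx.2
  have hM : (x : Matrix (Fin n) (Fin n) F) * (x : Matrix (Fin n) (Fin n) F) =
      z • (1 : Matrix (Fin n) (Fin n) F) := by
    rw [← hz, Units.val_pow_eq_pow_val, pow_two]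
  have hzn : z ^ (q + 1) = 1 :=
    norm_of_sq_scalar hF (by omega) _ (fun u w => hxU u w) z hM
  obtain ⟨lam, hlam⟩ := exists_sqrt_of_norm_one hF hq z hzn
  have hz0 : z ≠ 0 := by
    rintro rfl
    rw [zero_pow (by omega)] at hzn
    exact zero_ne_one hzn
  have hlam0 : lam ≠ 0 := by
    rintro rfl
    apply hz0
    rw [← hlam]
    simp
  rw [← hlam] at hM
  obtain ⟨a, b, hab, hcp, hdet⟩ := charpoly_of_sq h2 _ lam hlam0 hM
  have hsq : lam ^ (q + 1) * lam ^ (q + 1) = 1 := by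
    rw [← pow_add, ← two_mul, pow_mul, hlam, hzn]
  have hcase : (lam ^ (q + 1) = -1 ∧ a = b) ∨ (lam ^ (q + 1) = 1 ∧ Even b) := by
    rcases mul_self_eq_one_iff.mp hsq with h1 | h1
    · right
      refine ⟨h1, ?_⟩
      by_contra hb
      rw [Nat.not_even_iff_odd] at hb
      apply no_norm_one_pow_eq_neg_one hF h2 hv lam h1
      have h3 : lam ^ a * (-lam) ^ b = 1 := by
        rw [← hdet]
        exact hxdet
      rw [hb.neg_pow, mul_neg, ← pow_add, hab] at h3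
      rw [← h3, neg_neg]
    · left
      exact ⟨h1, eq_mult_of_norm_neg hF h2 _ (fun u w => hxU u w) lam h1 a b hcp⟩
  obtain ⟨Pm, Pi, hP⟩ := exists_adapted hF D hD hDs
  have hB := block_ok hF D Pm Pi hP
  obtain ⟨y, hyU, hyH, hysq, hycp, hydet⟩ :=
    exists_block_sq hF hq h2 D Pm Pi hP hB lam a b (by omega) hcase
  have hyG : y ∈ Cfsg.GU n F q ⊓ Cfsg.Geo.specialLinear (Fin n) F := by
    refine ⟨hyU, (Cfsg.Agent.Lib.Helper93.mem_sl_iff y).mpr ?_⟩
    rw [hydet, ← hdet]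
    exact hxdet
  have hpow : ∀ w : GL (Fin n) F,
      (w : Matrix (Fin n) (Fin n) F) * (w : Matrix (Fin n) (Fin n) F) =
        (lam ^ 2) • (1 : Matrix (Fin n) (Fin n) F) → w ^ (2 * (q + 1)) = 1 := by
    intro w hw
    apply Units.ext
    rw [Units.val_pow_eq_pow_val, pow_mul, pow_two, hw, _root_.smul_pow, one_pow, hlam, hzn, one_smul,
      Units.val_one]
  have hk : (2 * (q + 1)).Coprime p := by
    apply Nat.Coprime.symm
    rw [Nat.Prime.coprime_iff_not_dvd hp]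
    intro h
    rcases (Nat.Prime.dvd_mul hp).mp h with h | h
    · exact hp2 ((Nat.prime_dvd_prime_iff_eq hp Nat.prime_two).mp h)
    · have : p ∣ 1 := (Nat.dvd_add_right hpq).mp h
      exact hp.one_lt.ne' (Nat.dvd_one.mp this)
  obtain ⟨g, hgG, hg⟩ := su_conj_of_charpoly (p := p) hF x y hx hyG (2 * (q + 1)) hk
    (hpow x hM) (hpow y hysq) (by rw [hcp, hycp])
  exact ⟨g, hgG, by rw [hg]; exact hyH⟩

end Cfsg.Agent.Lib.Helper98.U84
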